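/-
Abstract root subgroups: structure of `A ⊔ ⁅A, B⁆` in the commutator case (S5029).
-/
import Mathlib
import Cfsg.Prelude.Def_RootSubgroups
import Cfsg.Agent.Lib.RootSubgroups.RankOne
import Cfsg.Agent.Lib.RootSubgroups.Abstract

set_option autoImplicit false

namespace Cfsg.Agent.Lib.RootSubgroups.Abstract2

open Cfsg Cfsg.Agent.Lib.RootSubgroups.RankOne Cfsg.Agent.Lib.RootSubgroups.Abstract
open scoped commutatorElement

variable {G : Type*} [Group G] {A B C D E : Subgroup G} {S : Set (Subgroup G)}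

lemma mem_sup_of_commute {A C : Subgroup G} (hcomm : ∀ a ∈ A, ∀ c ∈ C, a * c = c * a) {x : G}
    (hx : x ∈ A ⊔ C) : ∃ a ∈ A, ∃ c ∈ C, x = a * c := by
  let T : Subgroup G :=
    { carrier := {x | ∃ a ∈ A, ∃ c ∈ C, x = a * c}
      one_mem' := ⟨1, A.one_mem, 1, C.one_mem, by simp⟩
      mul_mem' := by
        rintro _ _ ⟨a, ha, c, hc, rfl⟩ ⟨a', ha', c', hc', rfl⟩
        refine ⟨a * a', A.mul_mem ha ha', c * c', C.mul_mem hc hc', ?_⟩
        calc a * c * (a' * c') = a * (c * a') * c' := by group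
          _ = a * (a' * c) * c' := by rw [hcomm a' ha' c hc]
          _ = a * a' * (c * c') := by group
      inv_mem' := by
        rintro _ ⟨a, ha, c, hc, rfl⟩
        refine ⟨a⁻¹, A.inv_mem ha, c⁻¹, C.inv_mem hc, ?_⟩
        rw [mul_inv_rev]
        have := hcomm a ha c hc
        calc c⁻¹ * a⁻¹ = (a * c)⁻¹ := by group
          _ = (c * a)⁻¹ := by rw [this]
          _ = a⁻¹ * c⁻¹ := by group }
  have hle : A ⊔ C ≤ T := by
    refine sup_le ?_ ?_
    · intro a ha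
      exact ⟨a, ha, 1, C.one_mem, by simp⟩
    · intro c hc
      exact ⟨1, A.one_mem, c, hc, by simp⟩
  exact hle hx

section Line

variable (hS : IsRootSubgroupSet S) (hAS : A ∈ S) (hBS : B ∈ S) (h : RootCommutatorCase S A B)
  (hDS : D ∈ S) (hAD : IsRankOnePair A D)

include hS hAS h hDS hAD

/-- In the commutator case with `A` non-isolated, `[a, b] ≠ 1` for `a, b ≠ 1`. -/
lemma comm_ne {a b : G} (ha : a ∈ A) (ha1 : a ≠ 1) (hb : b ∈ B) (hb1 : b ≠ 1) : a * b ≠ b * a := by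
  intro hab
  have hmem : a ∈ conjBy A b := by
    rw [mem_conjBy]
    have : b⁻¹ * a * b = a := by
      rw [mul_assoc, hab]; group
    rwa [this]
  rcases inf_eq_bot_or_eq hS (hS.conj_mem A hAS b) hDS hAD with h1 | h1
  · have : a ∈ A ⊓ conjBy A b := ⟨ha, hmem⟩
    rw [h1] at this
    exact ha1 this
  · exact conjBy_ne_self' h hS hb hb1 h1.symm

lemma ne_comm_sub : A ≠ ⁅A, B⁆ := by
  intro he
  obtain ⟨a, ha, ha1⟩ := exists_ne_one_left hAD
  have hBne : ∃ b ∈ B, b ≠ 1 := by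
    by_contra hcon
    push Not at hcon
    have hB : B = ⊥ := (Subgroup.eq_bot_iff_forall _).2 hcon
    rw [hB] at h
    exact ne_bot_of_case h hS (by simp)
  obtain ⟨b, hb, hb1⟩ := hBne
  have hc : a ∈ ⁅A, B⁆ := he ▸ ha
  exact comm_ne hS hAS h hDS hAD ha ha1 hb hb1 (central_right h hc hb)

lemma conj_inf_eq_bot {b b' : G} (hb : b ∈ B) (hb' : b' ∈ B) (hne : b ≠ b') :
    conjBy A b ⊓ conjBy A b' = ⊥ := by
  rcases inf_eq_bot_or_eq hS (hS.conj_mem A hAS b') (hS.conj_mem D hDS b) (isRankOnePair_conjBy hAD b)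
    with h1 | h1
  · exact h1
  · exfalso
    have h2 : conjBy A (b⁻¹ * b') = A := by
      rw [← conjBy_conjBy, ← h1, conjBy_conjBy]; simp
    have h3 : b⁻¹ * b' ≠ 1 := by
      intro h4
      apply hne
      have : b' = b * (b⁻¹ * b') := by group
      rw [this, h4, mul_one]
    exact conjBy_ne_self' h hS (B.mul_mem (B.inv_mem hb) hb') h3 h2

lemma conj_inf_comm_eq_bot {b : G} (hb : b ∈ B) : conjBy A b ⊓ ⁅A, B⁆ = ⊥ := by
  rcases inf_eq_bot_or_eq hS h.1 (hS.conj_mem D hDS b) (isRankOnePair_conjBy hAD b) with h1 | h1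
  · exact h1
  · exfalso
    apply ne_comm_sub hS hAS h hDS hAD
    have h2 := congrArg (fun X => conjBy X b⁻¹) h1
    simp only [conjBy_conjBy, inv_mul_cancel, conjBy_one] at h2
    exact h2.trans (conjBy_commutator_right (B.inv_mem hb))

omit hS hAS hDS hAD in
lemma comm_commute {a c : G} (ha : a ∈ A) (hc : c ∈ ⁅A, B⁆) : a * c = c * a :=
  (central_left h hc ha).symm

omit hS hAS hDS hAD in
lemma line_cover {x : G} (hx : x ∈ A ⊔ ⁅A, B⁆) : x ∈ ⁅A, B⁆ ∨ ∃ b ∈ B, x ∈ conjBy A b := by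
  obtain ⟨a, ha, c, hc, rfl⟩ := mem_sup_of_commute (fun a ha c hc => comm_commute h ha hc) hx
  by_cases ha1 : a = 1
  · left
    rw [ha1, one_mul]; exact hc
  · right
    obtain ⟨b, hb, hbc⟩ := exists_comm_eq h (A.inv_mem ha) (inv_ne_one.2 ha1) hc
    refine ⟨b, hb, ?_⟩
    have : a * c = b * a * b⁻¹ := by
      rw [← hbc]; group
    rw [this]
    exact conj_mem_conjBy ha b

omit hS hAS hDS hAD h in
lemma conj_le {b : G} (hb : b ∈ B) : conjBy A b ≤ A ⊔ ⁅A, B⁆ := by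
  rintro _ ⟨a, ha, rfl⟩
  have : (MulAut.conj b).toMonoidHom a = a * (a⁻¹ * b * a⁻¹⁻¹ * b⁻¹) := by
    simp only [MulEquiv.coe_toMonoidHom, MulAut.conj_apply]
    group
  rw [this]
  exact Subgroup.mul_mem _ (Subgroup.mem_sup_left ha) (Subgroup.mem_sup_right (comm_mem (A.inv_mem ha) hb))

/-- A member contained in `⁅A, B⁆` equals `⁅A, B⁆`. -/
lemma eq_comm_of_le (hE : E ∈ S) (hle : E ≤ ⁅A, B⁆) : E = ⁅A, B⁆ := by
  have hEne := hS.ne_bot E hE
  have hCS := h.1
  obtain ⟨e, he, he1⟩ : ∃ e ∈ E, e ≠ 1 := by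
    by_contra hcon
    push Not at hcon
    exact hEne ((Subgroup.eq_bot_iff_forall _).2 hcon)
  rcases hS.pair E hE D hDS with h1 | h1 | h1
  · exfalso
    obtain ⟨a, ha, ha1⟩ := exists_ne_one_left hAD
    obtain ⟨b, hb, hbc⟩ := exists_comm_eq h (A.inv_mem ha) (inv_ne_one.2 ha1) (hle he)
    have hcent : ∀ x ∈ A ⊔ D, e * x = x * e := by
      intro x hx
      have hsub : A ⊔ D ≤ Subgroup.centralizer ({e} : Set G) := by
        refine sup_le ?_ ?_
        · intro y hy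
          rw [Subgroup.mem_centralizer_singleton_iff]
          exact (central_left h (hle he) hy).symm
        · intro y hy
          rw [Subgroup.mem_centralizer_singleton_iff]
          exact (commute_of_bot h1 he hy).symm
      exact (Subgroup.mem_centralizer_singleton_iff.1 (hsub hx)).symm
    apply mul_not_mem_rootElements hS hAS hDS hAD hcent he1 ha ha1
    have e1 : e * a = b * a * b⁻¹ := by
      rw [← comm_commute h ha (hle he), ← hbc]; group
    rw [e1]
    exact rootElements_conj ⟨ha1, A, hAS, ha⟩ hS b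
  · rcases inf_eq_bot_or_eq hS hCS hDS h1 with h2 | h2
    · exfalso
      have : e ∈ E ⊓ ⁅A, B⁆ := ⟨he, hle he⟩
      rw [h2] at this
      exact he1 this
    · exact h2
  · rcases hS.pair _ hCS D hDS with h2 | h2 | h2
    · exfalso
      have : ⁅E, D⁆ ≤ ⁅⁅A, B⁆, D⁆ := Subgroup.commutator_mono hle le_rfl
      rw [h2, le_bot_iff] at this
      exact hS.ne_bot _ h1.1 this
    · rcases inf_eq_bot_or_eq hS hE hDS (RankOnePair_symm (RankOnePair_symm h2)) with h3 | h3
      · exfalso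
        have : e ∈ ⁅A, B⁆ ⊓ E := ⟨hle he, he⟩
        rw [h3] at this
        exact he1 this
      · exact h3.symm
    · -- both commutator cases
      obtain ⟨d, hd, hd1⟩ := exists_ne_one_right hAD
      have hF : ⁅E, D⁆ = ⁅⁅A, B⁆, D⁆ := by
        rw [← h1.2.2.1 e he he1, ← h2.2.2.1 e (hle he) he1]
      apply le_antisymm hle
      intro c hc
      -- injectivity of [·, d] on ⁅A, B⁆
      have hdne : ∀ c' ∈ ⁅A, B⁆, c' ≠ 1 → c' * d ≠ d * c' := by
        intro c' hc' hc'1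
        exact (comm_ne hS hDS (commutatorCase_symm h2) hAS (RankOnePair_symm hAD) hd hd1 hc' hc'1) ∘ Eq.symm
      have h1' := commutatorCase_symm h1
      have h2' := commutatorCase_symm h2
      have hx : d * c * d⁻¹ * c⁻¹ ∈ ⁅D, E⁆ := by
        rw [Subgroup.commutator_comm D E, hF, Subgroup.commutator_comm]
        exact comm_mem hd hc
      obtain ⟨e', he', hee⟩ := exists_comm_eq h1' hd hd1 hx
      have hm := comm_mul_right h2' hd (hle he') (Subgroup.inv_mem _ hc)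
      rw [comm_inv_right h2' hd hc, hee, mul_inv_cancel] at hm
      have hy : e' * c⁻¹ = 1 := by
        by_contra hy1
        apply hdne _ (Subgroup.mul_mem _ (hle he') (Subgroup.inv_mem _ hc)) hy1
        have h5 : d * (e' * c⁻¹) * d⁻¹ = e' * c⁻¹ := mul_inv_eq_one.1 hm
        have h6 : d * (e' * c⁻¹) = (e' * c⁻¹) * d := mul_inv_eq_iff_eq_mul.1 h5
        exact h6.symm
      have : c = e' := by
        have := mul_inv_eq_one.1 hy
        exact this.symm
      rw [this]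
      exact he'

/-- Members of `S` in `A ⊔ ⁅A, B⁆`. -/
theorem members_eq : membersIn S (A ⊔ ⁅A, B⁆) = (fun b : G => conjBy A b) '' (B : Set G) ∪ {⁅A, B⁆} := by
  ext E
  constructor
  · rintro ⟨hE, hle⟩
    by_cases hEC : E ≤ ⁅A, B⁆
    · right
      exact eq_comm_of_le hS hAS h hDS hAD hE hEC
    · left
      obtain ⟨e, he, heC⟩ := SetLike.not_le_iff_exists.1 hEC
      have he1 : e ≠ 1 := by
        rintro rfl
        exact heC (Subgroup.one_mem _)
      rcases line_cover h (hle he) with h1 | ⟨b, hb, h1⟩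
      · exact absurd h1 heC
      · refine ⟨b, hb, ?_⟩
        rcases inf_eq_bot_or_eq hS hE (hS.conj_mem D hDS b) (isRankOnePair_conjBy hAD b) with h2 | h2
        · exfalso
          have : e ∈ conjBy A b ⊓ E := ⟨h1, he⟩
          rw [h2] at this
          exact he1 this
        · exact h2
  · rintro (⟨b, hb, rfl⟩ | rfl)
    · exact ⟨hS.conj_mem A hAS b, conj_le hb⟩
    · exact ⟨h.1, le_sup_right⟩

theorem line_partition : IsSubgroupPartition (A ⊔ ⁅A, B⁆) (membersIn S (A ⊔ ⁅A, B⁆)) := by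
  refine ⟨fun C hC => hC.2, ?_, ?_⟩
  · intro x hx _
    rcases line_cover h hx with h1 | ⟨b, hb, h1⟩
    · exact ⟨_, ⟨h.1, le_sup_right⟩, h1⟩
    · exact ⟨_, ⟨hS.conj_mem A hAS b, conj_le hb⟩, h1⟩
  · intro C₁ hC₁ C₂ hC₂ hne
    rw [members_eq hS hAS h hDS hAD] at hC₁ hC₂
    rcases hC₁ with ⟨b, hb, rfl⟩ | rfl
    · rcases hC₂ with ⟨b', hb', rfl⟩ | rfl
      · refine conj_inf_eq_bot hS hAS h hDS hAD hb hb' ?_
        rintro rfl
        exact hne rfl
      · exact conj_inf_comm_eq_bot hS hAS h hDS hAD hb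
    · rcases hC₂ with ⟨b', hb', rfl⟩ | rfl
      · rw [inf_comm]
        exact conj_inf_comm_eq_bot hS hAS h hDS hAD hb'
      · exact absurd rfl hne

theorem line_partner : A ∈ linePartners S ⁅A, B⁆ := by
  refine ⟨⟨hAS, ne_comm_sub hS hAS h hDS hAD, ?_⟩, ?_⟩
  · exact bot_of_commute fun c hc a ha => central_left h hc ha
  · rw [sup_comm]
    exact line_partition hS hAS h hDS hAD

/-- The isomorphism `b ↦ a⁻¹ b⁻¹ a b`. -/
theorem exists_iso {a : G} (ha : a ∈ A) (ha1 : a ≠ 1) (hBS : B ∈ S) :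
    ∃ φ : ↥B ≃* ↥⁅A, B⁆, ∀ b : ↥B, (φ b : G) = a⁻¹ * (b : G)⁻¹ * a * b := by
  classical
  have hmem : ∀ b : ↥B, a⁻¹ * (b : G)⁻¹ * a * b ∈ ⁅A, B⁆ := by
    intro b
    have := comm_mem (A.inv_mem ha) (B.inv_mem b.2)
    simpa using this
  have hcommC := hS.commutative _ h.1
  let f : ↥B →* ↥⁅A, B⁆ := MonoidHom.mk' (fun b => ⟨a⁻¹ * (b : G)⁻¹ * a * b, hmem b⟩) (by
    intro x y
    apply Subtype.ext
    show a⁻¹ * ((x : G) * y)⁻¹ * a * ((x : G) * y) = (a⁻¹ * (x : G)⁻¹ * a * x) * (a⁻¹ * (y : G)⁻¹ * a * y)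
    have h1 := comm_mul_right h (A.inv_mem ha) (B.inv_mem y.2) (B.inv_mem x.2)
    simp only [inv_inv, mul_inv_rev] at h1
    have hxm := hmem x
    have hym := hmem y
    have h2 := comm_of_isMulCommutative hcommC hym hxm
    calc a⁻¹ * ((x : G) * y)⁻¹ * a * ((x : G) * y) = a⁻¹ * (↑y⁻¹ * ↑x⁻¹) * a * (↑x * ↑y) := by
          simp
      _ = a⁻¹ * ↑y⁻¹ * a * ↑y * (a⁻¹ * ↑x⁻¹ * a * ↑x) := h1
      _ = _ := by simpa using h2)
  have hinj : Function.Injective f := by
    rw [injective_iff_map_eq_one]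
    intro b hb
    by_contra hb1
    have hb1' : (b : G) ≠ 1 := fun h' => hb1 (Subtype.ext h')
    have h2 : a⁻¹ * (b : G)⁻¹ * a * b = 1 := congrArg Subtype.val hb
    apply comm_ne hS hAS h hDS hAD ha ha1 b.2 hb1'
    have h3 : (a⁻¹ * (b : G)⁻¹) * (a * b) = 1 := by rw [← mul_assoc]; exact h2
    have h4 := eq_inv_of_mul_eq_one_right h3
    rw [h4]
    group
  have hsurj : Function.Surjective f := by
    rintro ⟨c, hc⟩
    obtain ⟨b, hb, hbc⟩ := exists_comm_eq h (A.inv_mem ha) (inv_ne_one.2 ha1) hc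
    refine ⟨⟨b⁻¹, B.inv_mem hb⟩, Subtype.ext ?_⟩
    show a⁻¹ * (b⁻¹)⁻¹ * a * b⁻¹ = c
    rw [← hbc]
    group
  exact ⟨MulEquiv.ofBijective f ⟨hinj, hsurj⟩, fun b => rfl⟩

end Line

end Cfsg.Agent.Lib.RootSubgroups.Abstract2
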