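/-
Abstract root subgroups: line partners and the rank one graph (S5031, S5032).
-/
import Mathlib
import Cfsg.Prelude.Def_RootSubgroups
import Cfsg.Agent.Lib.RootSubgroups.RankOne
import Cfsg.Agent.Lib.RootSubgroups.Abstract
import Cfsg.Agent.Lib.RootSubgroups.Abstract2

set_option autoImplicit false

namespace Cfsg.Agent.Lib.RootSubgroups.LineConn

open Cfsg Cfsg.Agent.Lib.RootSubgroups.RankOne Cfsg.Agent.Lib.RootSubgroups.Abstract
  Cfsg.Agent.Lib.RootSubgroups.Abstract2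
open scoped commutatorElement

variable {G : Type*} [Group G] {A B C D E F K : Subgroup G} {S : Set (Subgroup G)}

/-- Line property: products of non-identity elements are root elements. -/
def LP (S : Set (Subgroup G)) (A B : Subgroup G) : Prop :=
  ∀ a ∈ A, a ≠ 1 → ∀ b ∈ B, b ≠ 1 → a * b ∈ rootElements S

lemma comm_sup {z : G} (h1 : ∀ x ∈ A, z * x = x * z) (h2 : ∀ x ∈ B, z * x = x * z) :
    ∀ x ∈ A ⊔ B, z * x = x * z := by
  intro x hx
  have hsub : A ⊔ B ≤ Subgroup.centralizer ({z} : Set G) :=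
    sup_le (fun y hy => Subgroup.mem_centralizer_singleton_iff.2 (h1 y hy).symm)
      (fun y hy => Subgroup.mem_centralizer_singleton_iff.2 (h2 y hy).symm)
  exact (Subgroup.mem_centralizer_singleton_iff.1 (hsub hx)).symm

lemma exists_ne_one_of_ne_bot {A : Subgroup G} (h : A ≠ ⊥) : ∃ a ∈ A, a ≠ 1 := by
  by_contra hcon
  push Not at hcon
  exact h ((Subgroup.eq_bot_iff_forall _).2 hcon)

/-- If `t` commutes with `a` and `f⁻¹ A f`, for matching `a`, `f`, then it commutes with `F`. -/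
lemma commute_of_match {a f t : G} (he : conjBy A f⁻¹ = conjBy F a⁻¹) (hta : t * a = a * t)
    (ht : ∀ a' ∈ A, t * (f⁻¹ * a' * f) = (f⁻¹ * a' * f) * t) : ∀ y ∈ F, t * y = y * t := by
  intro y hy
  have h1 : a⁻¹ * y * a⁻¹⁻¹ ∈ conjBy F a⁻¹ := conj_mem_conjBy hy a⁻¹
  rw [← he] at h1
  obtain ⟨a', ha', he'⟩ := h1
  simp only [MulEquiv.coe_toMonoidHom, MulAut.conj_apply, inv_inv] at he'
  have e : y = a * (f⁻¹ * a' * f) * a⁻¹ := by
    have : a⁻¹ * y * a = f⁻¹ * a' * f := he'.symm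
    rw [← this]; group
  have hta' : t * a⁻¹ = a⁻¹ * t := by
    calc t * a⁻¹ = a⁻¹ * (a * t) * a⁻¹ := by group
      _ = a⁻¹ * (t * a) * a⁻¹ := by rw [hta]
      _ = a⁻¹ * t := by group
  rw [e]
  calc t * (a * (f⁻¹ * a' * f) * a⁻¹) = (t * a) * (f⁻¹ * a' * f) * a⁻¹ := by group
    _ = a * (t * (f⁻¹ * a' * f)) * a⁻¹ := by rw [hta]; group
    _ = a * ((f⁻¹ * a' * f) * t) * a⁻¹ := by rw [ht a' ha']
    _ = a * (f⁻¹ * a' * f) * (t * a⁻¹) := by group
    _ = a * (f⁻¹ * a' * f) * (a⁻¹ * t) := by rw [hta']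
    _ = _ := by group

section

variable (hS : IsRootSubgroupSet S)
include hS

/-- If `B` is a line partner of `A` (only `LP` is used) then a rank one partner of `A` does not
commute with `B`. -/
lemma not_commute_of_lp (hA : A ∈ S) (hF : F ∈ S) (hAF : IsRankOnePair A F) (hAB : ⁅A, B⁆ = ⊥)
    (hL : LP S A B) (hBne : B ≠ ⊥) : ⁅F, B⁆ ≠ ⊥ := by
  intro hFB
  obtain ⟨a, ha, ha1⟩ := exists_ne_one_left hAF
  obtain ⟨b, hb, hb1⟩ := exists_ne_one_of_ne_bot hBne
  have hcent : ∀ x ∈ A ⊔ F, b * x = x * b :=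
    comm_sup (fun x hx => (commute_of_bot hAB hx hb).symm)
      (fun x hx => (commute_of_bot hFB hx hb).symm)
  apply mul_not_mem_rootElements hS hA hF hAF hcent hb1 ha ha1
  rw [(commute_of_bot hAB ha hb).symm]
  exact hL a ha ha1 b hb hb1

lemma lp_of_case (hB : B ∈ S) (h : RootCommutatorCase S F B) : LP S ⁅F, B⁆ B := by
  intro d hd hd1 b hb hb1
  have h' := commutatorCase_symm h
  have hd' : d ∈ ⁅B, F⁆ := by rw [Subgroup.commutator_comm]; exact hd
  obtain ⟨f, hf, hfd⟩ := exists_comm_eq h' (B.inv_mem hb) (inv_ne_one.2 hb1) hd'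
  have e1 : d * b = b * d := central_right h hd hb
  have e2 : b * d = f * b * f⁻¹ := by rw [← hfd]; group
  rw [e1, e2]
  exact rootElements_conj ⟨hb1, B, hB, hb⟩ hS f

section Q

variable (hA : A ∈ S) (hB : B ∈ S) (hF : F ∈ S) (hAF : IsRankOnePair A F) (hAB : ⁅A, B⁆ = ⊥)
  (hL : LP S A B) (hFB : ⁅F, B⁆ ∈ S)

include hA hB hF hAF hAB hL hFB

/-- `(A, ⁅F, B⁆)` is in the commutator case. -/
lemma case_A_D : RootCommutatorCase S A ⁅F, B⁆ := by
  have caseFB := commutatorCase_of_mem hS hF hB hFB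
  have hBne : B ≠ ⊥ := hS.ne_bot B hB
  rcases hS.pair A hA _ hFB with h | h | h
  · exfalso
    have h1 : ⁅⁅A, B⁆, F⁆ = ⊥ := by rw [hAB]; exact Subgroup.commutator_bot_left F
    have h2 : ⁅⁅B, F⁆, A⁆ = ⊥ := by
      rw [Subgroup.commutator_comm B F, Subgroup.commutator_comm]; exact h
    have h3 : ⁅⁅F, A⁆, B⁆ = ⊥ := Subgroup.commutator_commutator_eq_bot_of_rotate h1 h2
    apply hS.ne_bot _ hFB
    apply bot_of_commute
    intro y hy b hb
    obtain ⟨a, ha, ha1⟩ := exists_ne_one_left hAF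
    obtain ⟨f, hf, -, he⟩ := hAF.cond_left a ha ha1
    have : b * y = y * b := by
      apply commute_of_match he (commute_of_bot hAB ha hb).symm _ y hy
      intro a' ha'
      have hc : f⁻¹ * a' * f⁻¹⁻¹ * a'⁻¹ ∈ ⁅F, A⁆ := comm_mem (F.inv_mem hf) ha'
      have hc2 := commute_of_bot h3 hc hb
      have hab' := commute_of_bot hAB ha' hb
      rw [inv_inv] at hc2
      have e : f⁻¹ * a' * f = (f⁻¹ * a' * f * a'⁻¹) * a' := by group
      rw [e]
      calc b * ((f⁻¹ * a' * f * a'⁻¹) * a') = (b * (f⁻¹ * a' * f * a'⁻¹)) * a' := by group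
        _ = ((f⁻¹ * a' * f * a'⁻¹) * b) * a' := by rw [hc2]
        _ = (f⁻¹ * a' * f * a'⁻¹) * (b * a') := by group
        _ = (f⁻¹ * a' * f * a'⁻¹) * (a' * b) := by rw [hab']
        _ = _ := by group
    exact this.symm
  · exfalso
    exact not_commute_of_lp hS hFB hA (RankOnePair_symm h)
      (bot_of_commute fun d hd b hb => central_right caseFB hd hb)
      (lp_of_case hS hB caseFB) hBne hAB
  · exact h

/-- The basic computation of `⁅A, f B f⁻¹⁆` (for `a` commuting with `b`). -/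
lemma comm_conj_computation {a' f b : G} (ha' : a' ∈ A) (hb : b ∈ B) :
    a' * (f * b * f⁻¹) * a'⁻¹ * (f * b * f⁻¹)⁻¹ =
      a' * (f * b * f⁻¹ * b⁻¹) * a'⁻¹ * (f * b * f⁻¹ * b⁻¹)⁻¹ := by
  have h1 : a' * b = b * a' := commute_of_bot hAB ha' hb
  have h2 : f * b * f⁻¹ = (f * b * f⁻¹ * b⁻¹) * b := by group
  set d := f * b * f⁻¹ * b⁻¹ with hd
  rw [h2]
  have h3 : a' * (d * b) * a'⁻¹ * (d * b)⁻¹ = a' * d * (a' ⁻¹ * (a' * b) * a'⁻¹) * b⁻¹ * d⁻¹ := by
    group
  rw [h3, h1]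
  group

/-- `x⁻¹ D x = ⁅A, D⁆` for `x = a f⁻¹`. -/
lemma conj_D_eq {a f : G} (ha : a ∈ A) (hf : f ∈ F) (hf1 : f ≠ 1)
    (he : conjBy A f⁻¹ = conjBy F a⁻¹) : conjBy ⁅F, B⁆ (f * a⁻¹) = ⁅A, ⁅F, B⁆⁆ := by
  have caseFB := commutatorCase_of_mem hS hF hB hFB
  have h1 : conjBy F (f * a⁻¹) = A := by
    rw [← conjBy_conjBy, ← he, conjBy_conjBy]; simp
  have h2 : conjBy B (f * a⁻¹) = conjBy B f := by
    rw [← conjBy_conjBy, conjBy_of_bot hAB (A.inv_mem ha)]
  have h3 : conjBy ⁅F, B⁆ (f * a⁻¹) = ⁅A, conjBy B f⁆ := by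
    rw [conjBy, Subgroup.map_commutator]
    have := h1
    have h4 := h2
    rw [conjBy] at this h4
    rw [this, h4]
  rw [h3]
  apply le_antisymm
  · rw [Subgroup.commutator_le]
    rintro a' ha' _ ⟨b, hb, rfl⟩
    simp only [MulEquiv.coe_toMonoidHom, MulAut.conj_apply]
    rw [commutatorElement_def, comm_conj_computation hS hA hB hF hAF hAB hL hFB ha' hb]
    exact comm_mem ha' (comm_mem hf hb)
  · rw [Subgroup.commutator_le]
    intro a' ha' d hd
    obtain ⟨b, hb, rfl⟩ := exists_comm_eq caseFB hf hf1 hd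
    rw [commutatorElement_def, ← comm_conj_computation hS hA hB hF hAF hAB hL hFB ha' hb]
    exact comm_mem ha' (conj_mem_conjBy hb f)

omit hA hB hF hAF hAB hL hFB hS in
/-- Pure computation. -/
lemma F2_calc {a f d : G} (hfd : f * d = d * f) :
    f * (a⁻¹ * d * a⁻¹⁻¹ * d⁻¹) * f⁻¹ = (f * a⁻¹) * d * (f * a⁻¹)⁻¹ * d⁻¹ := by
  have h1 : f * d⁻¹ = d⁻¹ * f := by
    calc f * d⁻¹ = d⁻¹ * (d * f) * d⁻¹ := by group
      _ = d⁻¹ * (f * d) * d⁻¹ := by rw [hfd]
      _ = d⁻¹ * f := by group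
  calc f * (a⁻¹ * d * a⁻¹⁻¹ * d⁻¹) * f⁻¹ = f * a⁻¹ * d * a * (d⁻¹ * f⁻¹) := by group
    _ = f * a⁻¹ * d * a * (f⁻¹ * d⁻¹) := by
        have : d⁻¹ * f⁻¹ = f⁻¹ * d⁻¹ := by
          calc d⁻¹ * f⁻¹ = f⁻¹ * (f * d⁻¹) * f⁻¹ := by group
            _ = f⁻¹ * (d⁻¹ * f) * f⁻¹ := by rw [h1]
            _ = f⁻¹ * d⁻¹ := by group
        rw [this]
    _ = _ := by group

/-- F acts on `⁅A, D⁆ ⊔ D`. -/
lemma conj_E_mem {f e : G} (hf : f ∈ F) (he : e ∈ ⁅A, ⁅F, B⁆⁆) :
    f * e * f⁻¹ ∈ ⁅A, ⁅F, B⁆⁆ ⊔ ⁅F, B⁆ := by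
  have caseFB := commutatorCase_of_mem hS hF hB hFB
  have caseAD := case_A_D hS hA hB hF hAF hAB hL hFB
  by_cases hf1 : f = 1
  · rw [hf1]
    simpa using Subgroup.mem_sup_left he
  obtain ⟨a, ha, ha1, hm⟩ := hAF.cond_right f hf hf1
  obtain ⟨d, hd, hde⟩ := exists_comm_eq caseAD (A.inv_mem ha) (inv_ne_one.2 ha1) he
  have hfd : f * d = d * f := (central_left caseFB hd hf).symm
  rw [← hde, F2_calc hfd]
  refine Subgroup.mul_mem _ (Subgroup.mem_sup_left ?_) (Subgroup.mem_sup_right (Subgroup.inv_mem _ hd))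
  rw [← conj_D_eq hS hA hB hF hAF hAB hL hFB ha hf hf1 hm.symm]
  exact conj_mem_conjBy hd _

/-- `(⁅A, D⁆, F)` is in the commutator case. -/
lemma case_E_F : RootCommutatorCase S ⁅A, ⁅F, B⁆⁆ F := by
  have caseFB := commutatorCase_of_mem hS hF hB hFB
  have caseAD := case_A_D hS hA hB hF hAF hAB hL hFB
  have hES := caseAD.1
  have hcommE := hS.commutative _ hES
  have hcommD := hS.commutative _ hFB
  have hEne := hS.ne_bot _ hES
  rcases hS.pair _ hES F hF with h | h | h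
  · exfalso
    obtain ⟨e, he, he1⟩ := exists_ne_one_of_ne_bot hEne
    obtain ⟨f, hf, hf1⟩ := exists_ne_one_right hAF
    obtain ⟨a, ha, ha1, hm⟩ := hAF.cond_right f hf hf1
    obtain ⟨d, hd, hde⟩ := exists_comm_eq caseAD (A.inv_mem ha) (inv_ne_one.2 ha1) he
    have hfd : f * d = d * f := (central_left caseFB hd hf).symm
    have h1 := F2_calc (a := a) hfd
    rw [hde] at h1
    have h2 : f * e * f⁻¹ = e := by
      rw [commute_of_bot h he hf |>.symm]; group
    rw [h2] at h1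
    have h3 : (f * a⁻¹) * d * (f * a⁻¹)⁻¹ ∈ ⁅A, ⁅F, B⁆⁆ := by
      rw [← conj_D_eq hS hA hB hF hAF hAB hL hFB ha hf hf1 hm.symm]
      exact conj_mem_conjBy hd _
    have h4 : d ∈ ⁅A, ⁅F, B⁆⁆ := by
      have : d = e⁻¹ * ((f * a⁻¹) * d * (f * a⁻¹)⁻¹) := by
        rw [h1]; group
      rw [this]
      exact Subgroup.mul_mem _ (Subgroup.inv_mem _ he) h3
    have h5 : a⁻¹ * d = d * a⁻¹ := (central_left caseAD h4 (A.inv_mem ha)).symm
    apply he1
    rw [← hde, h5]; group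
  · exfalso
    obtain ⟨e, he, he1⟩ := exists_ne_one_of_ne_bot hEne
    obtain ⟨f, hf, hf1, hm⟩ := h.cond_left e he he1
    apply not_commute_matched h he he1 hf hm
    have h1 := conj_E_mem hS hA hB hF hAF hAB hL hFB (F.inv_mem hf) he
    rw [inv_inv] at h1
    have hDE : ∀ x ∈ ⁅A, ⁅F, B⁆⁆, ∀ y ∈ ⁅F, B⁆, x * y = y * x := fun x hx y hy =>
      central_right caseAD hx hy
    obtain ⟨e₂, he₂, d₂, hd₂, h2⟩ := mem_sup_of_commute hDE h1
    rw [h2]
    have h3 : e₂ * e = e * e₂ := comm_of_isMulCommutative hcommE he₂ he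
    have h4 : d₂ * e = e * d₂ := (hDE e he d₂ hd₂).symm
    calc e₂ * d₂ * e⁻¹ * e = e₂ * d₂ := by group
      _ = e * (e₂ * d₂) * e⁻¹ := by
        calc e₂ * d₂ = e₂ * (d₂ * e) * e⁻¹ := by group
          _ = e₂ * (e * d₂) * e⁻¹ := by rw [h4]
          _ = (e₂ * e) * d₂ * e⁻¹ := by group
          _ = (e * e₂) * d₂ * e⁻¹ := by rw [h3]
          _ = _ := by group
      _ = _ := by group
  · exact h

/-- `⁅⁅A, D⁆, F⁆ = D`. -/
lemma comm_E_F : ⁅⁅A, ⁅F, B⁆⁆, F⁆ = ⁅F, B⁆ := by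
  have caseFB := commutatorCase_of_mem hS hF hB hFB
  have caseAD := case_A_D hS hA hB hF hAF hAB hL hFB
  have caseEF := case_E_F hS hA hB hF hAF hAB hL hFB
  have hDE : ∀ x ∈ ⁅A, ⁅F, B⁆⁆, ∀ y ∈ ⁅F, B⁆, x * y = y * x := fun x hx y hy =>
    central_right caseAD hx hy
  apply eq_comm_of_le hS hF caseFB hA (RankOnePair_symm hAF) caseEF.1
  intro g hg
  have hle : ⁅⁅A, ⁅F, B⁆⁆, F⁆ ≤ ⁅A, ⁅F, B⁆⁆ ⊔ ⁅F, B⁆ := by
    rw [Subgroup.commutator_le]
    intro e he f hf
    rw [commutatorElement_def]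
    have e1 : e * f * e⁻¹ * f⁻¹ = e * (f * e⁻¹ * f⁻¹) := by group
    rw [e1]
    exact Subgroup.mul_mem _ (Subgroup.mem_sup_left he)
      (conj_E_mem hS hA hB hF hAF hAB hL hFB hf (Subgroup.inv_mem _ he))
  obtain ⟨e₁, he₁, d₁, hd₁, rfl⟩ := mem_sup_of_commute hDE (hle hg)
  by_cases he₁1 : e₁ = 1
  · rw [he₁1, one_mul]; exact hd₁
  exfalso
  obtain ⟨f, hf, hf1⟩ := exists_ne_one_right hAF
  apply comm_ne hS hF (commutatorCase_symm caseEF) hA (RankOnePair_symm hAF) hf hf1 he₁ he₁1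
  have h1 : (e₁ * d₁) * f = f * (e₁ * d₁) := central_right caseEF hg hf
  have h2 : d₁ * f = f * d₁ := central_left caseFB hd₁ hf
  have h3 : e₁ * (f * d₁) = (f * e₁) * d₁ := by
    calc e₁ * (f * d₁) = e₁ * (d₁ * f) := by rw [h2]
      _ = (e₁ * d₁) * f := by group
      _ = f * (e₁ * d₁) := h1
      _ = _ := by group
  have h4 : (e₁ * f) * d₁ = (f * e₁) * d₁ := by rw [← h3]; group
  exact (mul_right_cancel h4).symm

/-- Lemma Q: `⁅A, ⁅F, B⁆⁆ = B`. -/
theorem comm_comm_eq : ⁅A, ⁅F, B⁆⁆ = B := by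
  have caseFB := commutatorCase_of_mem hS hF hB hFB
  have caseAD := case_A_D hS hA hB hF hAF hAB hL hFB
  have caseEF := case_E_F hS hA hB hF hAF hAB hL hFB
  have hEF := comm_E_F hS hA hB hF hAF hAB hL hFB
  have caseFE := commutatorCase_symm caseEF
  symm
  apply eq_comm_of_le hS hA caseAD hF hAF hB
  intro b hb
  by_cases hb1 : b = 1
  · rw [hb1]; exact Subgroup.one_mem _
  by_contra hbE
  obtain ⟨a, ha, ha1⟩ := exists_ne_one_left hAF
  obtain ⟨f, hf, hf1, hm⟩ := hAF.cond_left a ha ha1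
  have hc : f * b * f⁻¹ * b⁻¹ ∈ ⁅F, ⁅A, ⁅F, B⁆⁆⁆ := by
    rw [Subgroup.commutator_comm, hEF]; exact comm_mem hf hb
  obtain ⟨z, hz, hzb⟩ := exists_comm_eq caseFE hf hf1 hc
  set d₀ := f * b * f⁻¹ * b⁻¹ with hd₀
  have hd₀m : d₀ ∈ ⁅F, B⁆ := comm_mem hf hb
  set t := b * z⁻¹ with ht
  have ht1 : t ≠ 1 := by
    intro h1
    apply hbE
    have : b = z := by
      rw [ht] at h1
      exact mul_inv_eq_one.1 h1
    rw [this]; exact hz
  -- commutation properties of t
  have hd₀b : d₀ * b = b * d₀ := central_right caseFB hd₀m hb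
  have hzd : ∀ d ∈ ⁅F, B⁆, z * d = d * z := fun d hd => central_right caseAD hz hd
  have hzd₀ : z * d₀ = d₀ * z := hzd _ hd₀m
  have htf : t * f = f * t := by
    have e1 : f * b * f⁻¹ = d₀ * b := by rw [hd₀]; group
    have e2 : f * z * f⁻¹ = d₀ * z := by
      rw [← hzb]; group
    have e3 : f * t * f⁻¹ = t := by
      calc f * t * f⁻¹ = (f * b * f⁻¹) * (f * z * f⁻¹)⁻¹ := by rw [ht]; group
        _ = (d₀ * b) * (d₀ * z)⁻¹ := by rw [e1, e2]
        _ = d₀ * (b * z⁻¹) * d₀⁻¹ := by group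
        _ = d₀ * b * (d₀ * z)⁻¹ := by group
        _ = d₀ * b * (z * d₀)⁻¹ := by rw [hzd₀]
        _ = (d₀ * b) * d₀⁻¹ * z⁻¹ := by group
        _ = (b * d₀) * d₀⁻¹ * z⁻¹ := by rw [hd₀b]
        _ = t := by rw [ht]; group
    have e4 : f * t = t * f := by
      calc f * t = (f * t * f⁻¹) * f := by group
        _ = t * f := by rw [e3]
    exact e4.symm
  have htA : ∀ x ∈ A, t * x = x * t := by
    intro x hx
    have h1 : b * x = x * b := (commute_of_bot hAB hx hb).symm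
    have h2 : z⁻¹ * x = x * z⁻¹ := central_left caseAD (Subgroup.inv_mem _ hz) hx
    rw [ht]
    calc b * z⁻¹ * x = b * (z⁻¹ * x) := by group
      _ = b * (x * z⁻¹) := by rw [h2]
      _ = (b * x) * z⁻¹ := by group
      _ = (x * b) * z⁻¹ := by rw [h1]
      _ = x * (b * z⁻¹) := by group
  have htF : ∀ x ∈ F, t * x = x * t := by
    apply commute_of_match hm (htA a ha)
    intro a' ha'
    have htfi : t * f⁻¹ = f⁻¹ * t := by
      calc t * f⁻¹ = f⁻¹ * (f * t) * f⁻¹ := by group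
        _ = f⁻¹ * (t * f) * f⁻¹ := by rw [htf]
        _ = f⁻¹ * t := by group
    calc t * (f⁻¹ * a' * f) = (t * f⁻¹) * a' * f := by group
      _ = f⁻¹ * (t * a') * f := by rw [htfi]; group
      _ = f⁻¹ * (a' * t) * f := by rw [htA a' ha']
      _ = f⁻¹ * a' * (t * f) := by group
      _ = f⁻¹ * a' * (f * t) := by rw [htf]
      _ = _ := by group
  have htD : ∀ x ∈ ⁅F, B⁆, t * x = x * t := by
    intro x hx
    have h1 : b * x = x * b := (central_right caseFB hx hb).symm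
    have h2 : z⁻¹ * x = x * z⁻¹ := central_right caseAD (Subgroup.inv_mem _ hz) hx
    rw [ht]
    calc b * z⁻¹ * x = b * (z⁻¹ * x) := by group
      _ = b * (x * z⁻¹) := by rw [h2]
      _ = (b * x) * z⁻¹ := by group
      _ = (x * b) * z⁻¹ := by rw [h1]
      _ = x * (b * z⁻¹) := by group
  -- the conjugate
  obtain ⟨y, hy, hyz⟩ := exists_comm_eq caseAD (A.inv_mem ha) (inv_ne_one.2 ha1) hz
  have hconj : a * b = t * (y * a * y⁻¹) := by
    have e1 : a * z = y * a * y⁻¹ := by rw [← hyz]; group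
    rw [← e1]
    have e2 : b = t * z := by rw [ht]; group
    calc a * b = a * (t * z) := by rw [← e2]
      _ = (a * t) * z := by group
      _ = (t * a) * z := by rw [htA a ha]
      _ = _ := by group
  have hty : t * y = y * t := htD y hy
  have htyi : t * y⁻¹ = y⁻¹ * t := by
    calc t * y⁻¹ = y⁻¹ * (y * t) * y⁻¹ := by group
      _ = y⁻¹ * (t * y) * y⁻¹ := by rw [hty]
      _ = y⁻¹ * t := by group
  have hconjcomm : ∀ {X : Subgroup G}, (∀ x ∈ X, t * x = x * t) →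
      ∀ x ∈ conjBy X y, t * x = x * t := by
    rintro X hX _ ⟨x, hx, rfl⟩
    simp only [MulEquiv.coe_toMonoidHom, MulAut.conj_apply]
    calc t * (y * x * y⁻¹) = (t * y) * x * y⁻¹ := by group
      _ = y * (t * x) * y⁻¹ := by rw [hty]; group
      _ = y * (x * t) * y⁻¹ := by rw [hX x hx]
      _ = y * x * (t * y⁻¹) := by group
      _ = y * x * (y⁻¹ * t) := by rw [htyi]
      _ = _ := by group
  have hcent := comm_sup (hconjcomm htA) (hconjcomm htF)
  apply mul_not_mem_rootElements hS (hS.conj_mem A hA y) (hS.conj_mem F hF y)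
    (isRankOnePair_conjBy hAF y) hcent ht1 (conj_mem_conjBy ha y) ?_
  · rw [← hconj]
    exact hL a ha ha1 b hb hb1
  · intro h1
    apply ha1
    have : a = y⁻¹ * (y * a * y⁻¹) * y := by group
    rw [this, h1]; simp

/-- Conjugation form of Lemma Q. -/
theorem conj_D_eq' {a f : G} (ha : a ∈ A) (hf : f ∈ F) (hf1 : f ≠ 1)
    (he : conjBy A f⁻¹ = conjBy F a⁻¹) : conjBy ⁅F, B⁆ (f * a⁻¹) = B := by
  rw [conj_D_eq hS hA hB hF hAF hAB hL hFB ha hf hf1 he, comm_comm_eq hS hA hB hF hAF hAB hL hFB]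

/-- A third member of the line is a rank one partner of `F`. -/
theorem rankOne_of_third (hC : C ∈ S) (hAC : ⁅A, C⁆ = ⊥) (hLC : LP S A C) {a b : G} (ha : a ∈ A)
    (ha1 : a ≠ 1) (hb : b ∈ B) (hab : a * b ∈ C) (hBC : ⁅B, C⁆ = ⊥) (hCB : C ⊓ B = ⊥)
    (hCle : C ≤ A ⊔ B) : IsRankOnePair C F := by
  have caseFB := commutatorCase_of_mem hS hF hB hFB
  have caseAD := case_A_D hS hA hB hF hAF hAB hL hFB
  have hQ := comm_comm_eq hS hA hB hF hAF hAB hL hFB
  obtain ⟨f, hf, hf1, hm⟩ := hAF.cond_left a ha ha1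
  rcases hS.pair C hC F hF with h | h | h
  · exfalso
    have h1 : (a * b) * f = f * (a * b) := commute_of_bot h hab hf
    set d₁ := f * b * f⁻¹ * b⁻¹ with hd₁
    have hd₁m : d₁ ∈ ⁅F, B⁆ := comm_mem hf hb
    have e1 : f * b * f⁻¹ = d₁ * b := by rw [hd₁]; group
    have e2 : (f * a * f⁻¹) * (d₁ * b) = a * b := by
      rw [← e1]
      calc f * a * f⁻¹ * (f * b * f⁻¹) = f * (a * b) * f⁻¹ := by group
        _ = (a * b) * f * f⁻¹ := by rw [h1]
        _ = a * b := by group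
    have e3 : (f * a * f⁻¹) * d₁ = a := by
      have : ((f * a * f⁻¹) * d₁) * b = a * b := by rw [← e2]; group
      exact mul_right_cancel this
    have e4 : a⁻¹ * f * a * f⁻¹ = d₁⁻¹ := by
      have : f * a * f⁻¹ = a * d₁⁻¹ := eq_mul_inv_of_mul_eq e3
      calc a⁻¹ * f * a * f⁻¹ = a⁻¹ * (f * a * f⁻¹) := by group
        _ = a⁻¹ * (a * d₁⁻¹) := by rw [this]
        _ = d₁⁻¹ := by group
    apply not_commute_matched (RankOnePair_symm hAF) hf hf1 ha hm.symm
    rw [e4]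
    exact central_left caseFB (Subgroup.inv_mem _ hd₁m) hf
  · exact h
  · exfalso
    have hFC : ⁅F, C⁆ ∈ S := by rw [Subgroup.commutator_comm]; exact h.1
    have caseAD' := case_A_D hS hA hC hF hAF hAC hLC hFC
    have hQ' := comm_comm_eq hS hA hC hF hAF hAC hLC hFC
    have hcj := conj_D_eq' hS hA hB hF hAF hAB hL hFB ha hf hf1 hm
    have hcj' := conj_D_eq' hS hA hC hF hAF hAC hLC hFC ha hf hf1 hm
    -- D and D' commute
    have hDD' : ∀ d ∈ ⁅F, B⁆, ∀ d' ∈ ⁅F, C⁆, d * d' = d' * d := by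
      intro d hd d' hd'
      have h1 : (f * a⁻¹) * d * (f * a⁻¹)⁻¹ ∈ B := by
        rw [← hcj]; exact conj_mem_conjBy hd _
      have h2 : (f * a⁻¹) * d' * (f * a⁻¹)⁻¹ ∈ C := by
        rw [← hcj']; exact conj_mem_conjBy hd' _
      have h3 := commute_of_bot hBC h1 h2
      have h4 : (f * a⁻¹) * (d * d') * (f * a⁻¹)⁻¹ = (f * a⁻¹) * (d' * d) * (f * a⁻¹)⁻¹ := by
        calc (f * a⁻¹) * (d * d') * (f * a⁻¹)⁻¹ = ((f * a⁻¹) * d * (f * a⁻¹)⁻¹) * ((f * a⁻¹) * d' * (f * a⁻¹)⁻¹) := by group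
          _ = ((f * a⁻¹) * d' * (f * a⁻¹)⁻¹) * ((f * a⁻¹) * d * (f * a⁻¹)⁻¹) := h3
          _ = _ := by group
      have h5 := mul_right_cancel h4
      exact mul_left_cancel h5
    obtain ⟨d', hd', hd'1⟩ := exists_ne_one_of_ne_bot (hS.ne_bot _ hFC)
    obtain ⟨d, hd, hd1⟩ := exists_ne_one_of_ne_bot (hS.ne_bot _ hFB)
    have habQ : a * b ∈ ⁅A, ⁅F, C⁆⁆ := by rw [hQ']; exact hab
    have hcd' : (a * b) * d' = d' * (a * b) := central_right caseAD' habQ hd'
    set c₁ := a⁻¹ * d' * a * d'⁻¹ with hc₁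
    have hc₁Q : c₁ ∈ ⁅A, ⁅F, C⁆⁆ := by
      have := comm_mem (A.inv_mem ha) hd'
      rwa [inv_inv] at this
    have hc₁C : c₁ ∈ C := by rw [hQ'] at hc₁Q; exact hc₁Q
    have hc₁1 : c₁ ≠ 1 := by
      intro h1
      apply comm_ne hS hA caseAD' hF hAF (A.inv_mem ha) (inv_ne_one.2 ha1) hd' hd'1
      rw [hc₁] at h1
      have h2 : a⁻¹ * d' * a = d' := mul_inv_eq_one.1 h1
      calc a⁻¹ * d' = (a⁻¹ * d' * a) * a⁻¹ := by group
        _ = d' * a⁻¹ := by rw [h2]
    set b₁ := d' * b * d'⁻¹ with hb₁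
    have e1 : d' * a * d'⁻¹ = a * c₁ := by rw [hc₁]; group
    have e2 : b = c₁ * b₁ := by
      have : a * b = a * (c₁ * b₁) := by
        calc a * b = d' * (a * b) * d'⁻¹ := by rw [← hcd']; group
          _ = (d' * a * d'⁻¹) * (d' * b * d'⁻¹) := by group
          _ = (a * c₁) * b₁ := by rw [e1]
          _ = _ := by group
      exact mul_left_cancel this
    have hdb : d * b = b * d := central_right caseFB hd hb
    have hdd' : d * d' = d' * d := hDD' d hd d' hd'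
    have hdd'i : d * d'⁻¹ = d'⁻¹ * d := by
      calc d * d'⁻¹ = d'⁻¹ * (d' * d) * d'⁻¹ := by group
        _ = d'⁻¹ * (d * d') * d'⁻¹ := by rw [hdd']
        _ = d'⁻¹ * d := by group
    have hdb₁ : d * b₁ = b₁ * d := by
      rw [hb₁]
      calc d * (d' * b * d'⁻¹) = (d * d') * b * d'⁻¹ := by group
        _ = d' * (d * b) * d'⁻¹ := by rw [hdd']; group
        _ = d' * (b * d) * d'⁻¹ := by rw [hdb]
        _ = d' * b * (d * d'⁻¹) := by group
        _ = d' * b * (d'⁻¹ * d) := by rw [hdd'i]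
        _ = _ := by group
    have hdc₁ : d * c₁ = c₁ * d := by
      have e3 : c₁ = b * b₁⁻¹ := by rw [e2]; group
      have hdb₁i : d * b₁⁻¹ = b₁⁻¹ * d := by
        calc d * b₁⁻¹ = b₁⁻¹ * (b₁ * d) * b₁⁻¹ := by group
          _ = b₁⁻¹ * (d * b₁) * b₁⁻¹ := by rw [hdb₁]
          _ = b₁⁻¹ * d := by group
      rw [e3]
      calc d * (b * b₁⁻¹) = (d * b) * b₁⁻¹ := by group
        _ = b * (d * b₁⁻¹) := by rw [hdb]; group
        _ = b * (b₁⁻¹ * d) := by rw [hdb₁i]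
        _ = _ := by group
    obtain ⟨a₁, ha₁, b₂, hb₂, hc₁e⟩ := mem_sup_of_commute
      (fun x hx y hy => commute_of_bot hAB hx hy) (hCle hc₁C)
    have ha₁1 : a₁ ≠ 1 := by
      intro h1
      rw [h1, one_mul] at hc₁e
      have : c₁ ∈ C ⊓ B := ⟨hc₁C, hc₁e ▸ hb₂⟩
      rw [hCB] at this
      exact hc₁1 this
    apply comm_ne hS hA caseAD hF hAF ha₁ ha₁1 hd hd1
    have hdb₂ : d * b₂ = b₂ * d := central_right caseFB hd hb₂
    rw [hc₁e] at hdc₁
    have h7 : (d * a₁) * b₂ = (a₁ * d) * b₂ := by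
      calc (d * a₁) * b₂ = d * (a₁ * b₂) := by group
        _ = (a₁ * b₂) * d := hdc₁
        _ = a₁ * (b₂ * d) := by group
        _ = a₁ * (d * b₂) := by rw [hdb₂]
        _ = _ := by group
    exact (mul_right_cancel h7).symm

end Q

/-- Line partners with rank one partners are connected in the rank one graph. -/
theorem connected_of_line (hA : A ∈ S) (hB : B ∈ linePartners S A) (hF : F ∈ S)
    (hAF : IsRankOnePair A F) (hK : K ∈ S) (hBK : IsRankOnePair B K) :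
    Relation.ReflTransGen (FAdj S) A B := by
  obtain ⟨⟨hBS, hne, hcomm⟩, hpart⟩ := hB
  have hcomm' : ⁅B, A⁆ = ⊥ := by rw [Subgroup.commutator_comm]; exact hcomm
  have hinf : A ⊓ B = ⊥ := by
    rcases inf_eq_bot_or_eq hS hBS hF hAF with h | h
    · exact h
    · exact absurd h.symm hne
  have hroot : ∀ x ∈ A ⊔ B, x ≠ 1 → x ∈ rootElements S := by
    intro x hx hx1
    obtain ⟨M, hM, hxM⟩ := hpart.2.1 x hx hx1
    exact ⟨hx1, M, hM.1, hxM⟩
  have hne1 : ∀ {a b : G}, a ∈ A → a ≠ 1 → b ∈ B → a * b ≠ 1 := by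
    intro a b ha ha1 hb h1
    apply ha1
    have : a = b⁻¹ := eq_inv_of_mul_eq_one_left h1
    have h2 : a ∈ A ⊓ B := ⟨ha, by rw [this]; exact B.inv_mem hb⟩
    rw [hinf] at h2
    exact h2
  have hL : LP S A B := fun a ha ha1 b hb _ =>
    hroot _ (Subgroup.mul_mem _ (Subgroup.mem_sup_left ha) (Subgroup.mem_sup_right hb)) (hne1 ha ha1 hb)
  have hL' : LP S B A := fun b hb hb1 a ha ha1 => by
    rw [commute_of_bot hcomm' hb ha]
    exact hL a ha ha1 b hb hb1
  have edge : ∀ {X Y : Subgroup G}, X ∈ S → Y ∈ S → IsRankOnePair X Y → Relation.ReflTransGen (FAdj S) X Y :=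
    fun hX hY h => Relation.ReflTransGen.single ⟨hX, hY, h⟩
  rcases hS.pair F hF B hBS with h | h | h
  · exact absurd h (not_commute_of_lp hS hA hF hAF hcomm hL (hS.ne_bot B hBS))
  · exact (edge hA hF hAF).trans (edge hF hBS h)
  rcases hS.pair K hK A hA with h' | h' | h'
  · exact absurd h' (not_commute_of_lp hS hBS hK hBK hcomm' hL' (hS.ne_bot A hA))
  · exact (edge hA hK (RankOnePair_symm h')).trans (edge hK hBS (RankOnePair_symm hBK))
  obtain ⟨a, ha, ha1⟩ := exists_ne_one_left hAF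
  obtain ⟨b, hb, hb1⟩ := exists_ne_one_left hBK
  have hab1 := hne1 ha ha1 hb
  have habm : a * b ∈ A ⊔ B := Subgroup.mul_mem _ (Subgroup.mem_sup_left ha) (Subgroup.mem_sup_right hb)
  obtain ⟨M, ⟨hM, hMle⟩, habM⟩ := hpart.2.1 _ habm hab1
  have hMB : M ⊓ B = ⊥ := by
    rcases inf_eq_bot_or_eq hS hM hK hBK with h1 | h1
    · rw [inf_comm]; exact h1
    · exfalso
      have : a ∈ B := by
        have e : a = (a * b) * b⁻¹ := by group
        rw [e]
        exact B.mul_mem (h1 ▸ habM) (B.inv_mem hb)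
      have h2 : a ∈ A ⊓ B := ⟨ha, this⟩
      rw [hinf] at h2
      exact ha1 h2
  have hMA : M ⊓ A = ⊥ := by
    rcases inf_eq_bot_or_eq hS hM hF hAF with h1 | h1
    · rw [inf_comm]; exact h1
    · exfalso
      have : b ∈ A := by
        have e : b = a⁻¹ * (a * b) := by group
        rw [e]
        exact A.mul_mem (A.inv_mem ha) (h1 ▸ habM)
      have h2 : b ∈ A ⊓ B := ⟨this, hb⟩
      rw [hinf] at h2
      exact hb1 h2
  have hAM : ⁅A, M⁆ = ⊥ := by
    apply bot_of_commute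
    intro x hx m hm
    exact comm_sup (fun y hy => comm_of_isMulCommutative (hS.commutative A hA) hx hy)
      (fun y hy => commute_of_bot hcomm hx hy) m (hMle hm)
  have hBM : ⁅B, M⁆ = ⊥ := by
    apply bot_of_commute
    intro x hx m hm
    exact comm_sup (fun y hy => commute_of_bot hcomm' hx hy)
      (fun y hy => comm_of_isMulCommutative (hS.commutative B hBS) hx hy) m (hMle hm)
  have hLAM : LP S A M := by
    intro x hx hx1 m hm hm1
    refine hroot _ (Subgroup.mul_mem _ (Subgroup.mem_sup_left hx) (hMle hm)) ?_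
    intro h1
    apply hm1
    have e : m = x⁻¹ := eq_inv_of_mul_eq_one_right h1
    have h2 : m ∈ M ⊓ A := ⟨hm, by rw [e]; exact A.inv_mem hx⟩
    rw [hMA] at h2
    exact h2
  have hLBM : LP S B M := by
    intro x hx hx1 m hm hm1
    refine hroot _ (Subgroup.mul_mem _ (Subgroup.mem_sup_right hx) (hMle hm)) ?_
    intro h1
    apply hm1
    have e : m = x⁻¹ := eq_inv_of_mul_eq_one_right h1
    have h2 : m ∈ M ⊓ B := ⟨hm, by rw [e]; exact B.inv_mem hx⟩
    rw [hMB] at h2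
    exact h2
  have hFM : IsRankOnePair M F :=
    rankOne_of_third hS hA hBS hF hAF hcomm hL h.1 hM hAM hLAM ha ha1 hb habM hBM hMB hMle
  have hKA : ⁅K, A⁆ ∈ S := h'.1
  have hKM : IsRankOnePair M K := by
    refine rankOne_of_third hS hBS hA hK hBK hcomm' hL' hKA hM hBM hLBM hb hb1 ha ?_ hAM hMA ?_
    · rw [commute_of_bot hcomm' hb ha]; exact habM
    · rw [sup_comm]; exact hMle
  exact ((edge hA hF hAF).trans (edge hF hM (RankOnePair_symm hFM))).trans
    ((edge hM hK hKM).trans (edge hK hBS (RankOnePair_symm hBK)))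

end

lemma fAdj_symm {X Y : Subgroup G} (h : FAdj S X Y) : FAdj S Y X :=
  ⟨h.2.1, h.1, RankOnePair_symm h.2.2⟩

lemma conn_symm {X Y : Subgroup G} (h : Relation.ReflTransGen (FAdj S) X Y) :
    Relation.ReflTransGen (FAdj S) Y X := by
  induction h with
  | refl => exact Relation.ReflTransGen.refl
  | tail _ h2 ih => exact Relation.ReflTransGen.head (fAdj_symm h2) ih

lemma exists_partner_of_conn {X Y : Subgroup G} (h : Relation.ReflTransGen (FAdj S) X Y) (hne : Y ≠ X) :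
    ∃ F ∈ S, IsRankOnePair X F := by
  rcases Relation.ReflTransGen.cases_head h with h1 | ⟨F, hF, -⟩
  · exact absurd h1.symm hne
  · exact ⟨F, hF.2.1, hF.2.2⟩

lemma not_isolated_of_partner {X F : Subgroup G} (hX : X ∈ S) (hF : F ∈ S) (h : IsRankOnePair X F) :
    ¬ IsIsolatedIn (FAdj S) S X := fun hi => (hi.2 F).1 ⟨hX, hF, h⟩

lemma fAdj_conj (hS : IsRootSubgroupSet S) (g : G) {X Y : Subgroup G} (h : FAdj S X Y) :
    FAdj S (conjBy X g) (conjBy Y g) :=
  ⟨hS.conj_mem _ h.1 g, hS.conj_mem _ h.2.1 g, isRankOnePair_conjBy h.2.2 g⟩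

lemma conn_conj (hS : IsRootSubgroupSet S) (g : G) {X Y : Subgroup G}
    (h : Relation.ReflTransGen (FAdj S) X Y) :
    Relation.ReflTransGen (FAdj S) (conjBy X g) (conjBy Y g) := by
  induction h with
  | refl => exact Relation.ReflTransGen.refl
  | tail _ h2 ih => exact ih.tail (fAdj_conj hS g h2)

lemma conn_mem {X' Y : Subgroup G} (hX : X' ∈ S) (h : Relation.ReflTransGen (FAdj S) X' Y) : Y ∈ S := by
  induction h with
  | refl => exact hX
  | tail _ h2 _ => exact h2.2.1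

/-- If all members have partners then non-connected members commute. -/
lemma comm_of_not_conn (hS : IsRootSubgroupSet S) (hF : ∀ X ∈ S, ∃ F ∈ S, IsRankOnePair X F)
    {X Y : Subgroup G} (hX : X ∈ S) (hY : Y ∈ S)
    (hn : ¬ Relation.ReflTransGen (FAdj S) X Y) : ⁅X, Y⁆ = ⊥ := by
  rcases hS.pair X hX Y hY with h | h | h
  · exact h
  · exact absurd (Relation.ReflTransGen.single ⟨hX, hY, h⟩) hn
  · exfalso
    apply hn
    obtain ⟨FX, hFX, hXFX⟩ := hF X hX
    obtain ⟨FY, hFY, hYFY⟩ := hF Y hY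
    obtain ⟨FC, hFC, hCFC⟩ := hF _ h.1
    have h1 : X ∈ linePartners S ⁅X, Y⁆ := line_partner hS hX h hFX hXFX
    have h2 : Y ∈ linePartners S ⁅X, Y⁆ := by
      have := line_partner hS hY (commutatorCase_symm h) hFY hYFY
      rwa [Subgroup.commutator_comm] at this
    have p1 := connected_of_line hS h.1 h1 hFC hCFC hFX hXFX
    have p2 := connected_of_line hS h.1 h2 hFC hCFC hFY hYFY
    exact (conn_symm p1).trans p2

/-- If all members have partners then each member is connected to its conjugates. -/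
lemma conn_conj_self (hS : IsRootSubgroupSet S) (hF : ∀ X ∈ S, ∃ F ∈ S, IsRankOnePair X F)
    {X : Subgroup G} (hX : X ∈ S) (g : G) : Relation.ReflTransGen (FAdj S) X (conjBy X g) := by
  have key : ∀ g : G, ∀ X ∈ S, Relation.ReflTransGen (FAdj S) X (conjBy X g) := by
    let T : Subgroup G :=
      { carrier := {g | ∀ X ∈ S, Relation.ReflTransGen (FAdj S) X (conjBy X g)}
        one_mem' := by
          intro X _
          simp only [conjBy_one]
          exact Relation.ReflTransGen.refl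
        mul_mem' := by
          intro a b ha hb X hX
          have h1 := hb X hX
          have h2 := ha _ (hS.conj_mem X hX b)
          rw [conjBy_conjBy] at h2
          exact h1.trans h2
        inv_mem' := by
          intro a ha X hX
          have h1 := ha _ (hS.conj_mem X hX a⁻¹)
          rw [conjBy_conjBy] at h1
          simp only [mul_inv_cancel, conjBy_one] at h1
          exact conn_symm h1 }
    have hT : T = ⊤ := by
      rw [eq_top_iff, ← hS.generates]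
      refine iSup₂_le ?_
      intro Y hY y hy X hX
      by_cases hc : Relation.ReflTransGen (FAdj S) X Y
      · have h1 := conn_conj hS y hc
        rw [conjBy_of_mem hy] at h1
        exact hc.trans (conn_symm h1)
      · have hb := comm_of_not_conn hS hF hX hY hc
        rw [conjBy_of_bot' hb hy]
    intro g
    have : g ∈ T := by rw [hT]; exact Subgroup.mem_top g
    exact this
  exact key g X hX

/-- Connectivity vs. conjugacy. -/
theorem connected_iff (hS : IsRootSubgroupSet S) (h2 : ∃ A ∈ S, ∃ B ∈ S, A ≠ B) :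
    IsConnectedFamily (FAdj S) S ↔ (IsConjClassOfSubgroups S ∧ ∃ A ∈ S, ¬ IsIsolatedIn (FAdj S) S A) := by
  constructor
  · intro hc
    obtain ⟨A, hA, B, hB, hne⟩ := h2
    refine ⟨⟨⟨A, hA⟩, ?_⟩, A, hA, ?_⟩
    · intro X hX Y hY
      have : ∀ {Z : Subgroup G}, Relation.ReflTransGen (FAdj S) X Z → ∃ g : G, Z = conjBy X g := by
        intro Z hZ
        induction hZ with
        | refl => exact ⟨1, by simp⟩
        | tail _ h3 ih =>
          rename_i U V
          obtain ⟨g, hg⟩ := ih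
          have hr := h3.2.2
          obtain ⟨u, hu, hu1⟩ := exists_ne_one_left hr
          obtain ⟨v, hv, -, he⟩ := exists_conjBy_right_eq hr hu hu1
          refine ⟨u⁻¹ * v * g, ?_⟩
          have e1 : conjBy X (u⁻¹ * v * g) = conjBy (conjBy (conjBy X g) v) u⁻¹ := by
            rw [conjBy_conjBy, conjBy_conjBy]
          rw [e1, ← hg, ← he, conjBy_conjBy]
          simp
      exact this (hc X hX Y hY)
    · obtain ⟨F, hF, hAF⟩ := exists_partner_of_conn (hc A hA B hB) hne.symm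
      exact not_isolated_of_partner hA hF hAF
  · rintro ⟨⟨-, hconj⟩, A₀, hA₀, hiso⟩ X hX Y hY
    have hF : ∀ X ∈ S, ∃ F ∈ S, IsRankOnePair X F := by
      intro X hX
      obtain ⟨F, hF, hAF⟩ := exists_rankOne_of_not_isolated hA₀ hiso
      obtain ⟨g, rfl⟩ := hconj A₀ hA₀ X hX
      exact ⟨conjBy F g, hS.conj_mem F hF g, isRankOnePair_conjBy hAF g⟩
    obtain ⟨g, rfl⟩ := hconj X hX Y hY
    exact conn_conj_self hS hF hX g

end Cfsg.Agent.Lib.RootSubgroups.LineConn
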