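/-
A rank one group acting on an abelian group with `A` quadratic but `X` not is special (S5019).
-/
import Mathlib
import Cfsg.Prelude.Def_RootSubgroups
import Cfsg.Agent.Lib.RootSubgroups.RankOne

set_option autoImplicit false

namespace Cfsg.Agent.Lib.RootSubgroups.ModuleSpecial

open Cfsg Cfsg.Agent.Lib.RootSubgroups.RankOne

variable {X : Type*} [Group X] {A B : Subgroup X} {N : Type*} [AddCommGroup N] [DistribMulAction X N]

/-- `[N, H]`. -/
def M (N : Type*) [AddCommGroup N] [DistribMulAction X N] (H : Subgroup X) : AddSubgroup N :=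
  AddSubgroup.closure {n | ∃ h ∈ H, ∃ x : N, n = h • x - x}

lemma sub_mem_M {H : Subgroup X} {h : X} (hh : h ∈ H) (x : N) : h • x - x ∈ M N H :=
  AddSubgroup.subset_closure ⟨h, hh, x, rfl⟩

lemma smul_mem_M (g : X) {H : Subgroup X} {m : N} (hm : m ∈ M N H) : g • m ∈ M N (conjBy H g) := by
  induction hm using AddSubgroup.closure_induction with
  | mem y hy =>
    obtain ⟨h, hh, x, rfl⟩ := hy
    have e : g • (h • x - x) = (g * h * g⁻¹) • (g • x) - g • x := by
      rw [smul_sub, smul_smul, smul_smul]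
      simp
    rw [e]
    exact sub_mem_M (conj_mem_conjBy hh g) _
  | zero => simp
  | add y z _ _ hy hz =>
    rw [smul_add]
    exact AddSubgroup.add_mem _ hy hz
  | neg y _ hy =>
    rw [smul_neg]
    exact AddSubgroup.neg_mem _ hy

lemma fix_of_quad {H : Subgroup X} (hq : ∀ h ∈ H, ∀ h' ∈ H, ∀ n : N, h' • (h • n - n) = h • n - n)
    {m : N} (hm : m ∈ M N H) {h' : X} (hh' : h' ∈ H) : h' • m = m := by
  induction hm using AddSubgroup.closure_induction with
  | mem y hy =>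
    obtain ⟨h, hh, x, rfl⟩ := hy
    exact hq h hh h' hh' x
  | zero => simp
  | add y z _ _ hy hz => rw [smul_add, hy, hz]
  | neg y _ hy => rw [smul_neg, hy]

lemma quad_conj {H : Subgroup X} (hq : ∀ h ∈ H, ∀ h' ∈ H, ∀ n : N, h' • (h • n - n) = h • n - n)
    (g : X) : ∀ h ∈ conjBy H g, ∀ h' ∈ conjBy H g, ∀ n : N, h' • (h • n - n) = h • n - n := by
  rintro _ ⟨h, hh, rfl⟩ _ ⟨h', hh', rfl⟩ n
  simp only [MulEquiv.coe_toMonoidHom, MulAut.conj_apply]
  have e1 : (g * h * g⁻¹) • n - n = g • (h • (g⁻¹ • n) - g⁻¹ • n) := by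
    rw [smul_sub, smul_smul, smul_smul, smul_smul]
    simp [mul_assoc]
  rw [e1]
  have e2 : ∀ x : N, (g * h' * g⁻¹) • g • x = g • (h' • x) := by
    intro x
    rw [smul_smul, smul_smul]
    simp
  rw [e2, hq h hh h' hh']

lemma inv_smul_eq {a : X} (h : ∀ n : N, a • (a • n - n) = a • n - n) (n : N) :
    a⁻¹ • n = n + n - a • n := by
  have h1 := h (a⁻¹ • n)
  rw [smul_inv_smul, smul_sub, smul_inv_smul] at h1
  have h2 : a⁻¹ • n = n - (a • n - n) := by
    rw [h1]; abel
  rw [h2]; abel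

/-- Agreement on `M_A`. -/
lemma agree_left {a b : X} (hb : ∀ n : N, b • n = n + n - b⁻¹ • n)
    (ha' : ∀ n : N, a⁻¹ • n = n + n - a • n) {m m' : N} (hm : a • m = m) (hm' : b • m' = m')
    (he : b⁻¹ • m = a⁻¹ • m') : (b⁻¹ * a * b) • m = (a⁻¹ * b⁻¹ * a) • m := by
  have hm'i : b⁻¹ • m' = m' := by
    conv_lhs => rw [← hm']
    simp
  have e1 : (b⁻¹ * a * b) • m = b⁻¹ • a • b • m := by simp [mul_smul]
  have e2 : (a⁻¹ * b⁻¹ * a) • m = a⁻¹ • b⁻¹ • a • m := by simp [mul_smul]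
  rw [e1, e2, hm, he, hb m, he, ha' (a⁻¹ • m')]
  simp only [smul_add, smul_sub, smul_inv_smul, hm, he, hm'i]

/-- Agreement on `M_B`. -/
lemma agree_right {a b : X} (ha : ∀ n : N, a • n = n + n - a⁻¹ • n)
    (ha' : ∀ n : N, a⁻¹ • n = n + n - a • n) (hb' : ∀ n : N, b⁻¹ • n = n + n - b • n)
    {m m' : N} (hm : a • m = m) (hm' : b • m' = m')
    (he : b⁻¹ • m = a⁻¹ • m') : (b⁻¹ * a * b) • m' = (a⁻¹ * b⁻¹ * a) • m' := by
  have hm'i : b⁻¹ • m' = m' := by
    conv_lhs => rw [← hm']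
    simp
  have hmi : a⁻¹ • m = m := by
    conv_lhs => rw [← hm]
    simp
  have e1 : (b⁻¹ * a * b) • m' = b⁻¹ • a • b • m' := by simp [mul_smul]
  have e2 : (a⁻¹ * b⁻¹ * a) • m' = a⁻¹ • b⁻¹ • a • m' := by simp [mul_smul]
  have e3 : b⁻¹ • a • m' = m' + m' - (a⁻¹ • m' + a⁻¹ • m' - m) := by
    rw [ha m', smul_sub, smul_add, hm'i, ← he, hb' (b⁻¹ • m), smul_inv_smul]
  rw [e1, e2, hm', e3]
  simp only [smul_add, smul_sub, hmi]
  rw [ha' (a⁻¹ • m'), smul_inv_smul]
  abel

/-- (S5019) -/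
theorem special_of_module (h : IsRankOneGroup X A B)
    (hq : ∀ a ∈ A, ∀ a' ∈ A, ∀ n : N, a' • (a • n - n) = a • n - n)
    (hX : ∃ x y : X, ∃ n : N, y • (x • n - n) ≠ x • n - n) : IsSpecialRankOnePair A B := by
  obtain ⟨htop, hr⟩ := h
  refine ⟨hr, ?_⟩
  intro a ha ha1 b hb hb1 hm
  by_contra hne
  obtain ⟨x₀, -, hx₀⟩ := right_mem_unipotent hr
  have hqB : ∀ h ∈ B, ∀ h' ∈ B, ∀ n : N, h' • (h • n - n) = h • n - n := by
    rw [hx₀]
    exact quad_conj hq x₀
  have ha2 : ∀ n : N, a • n = n + n - a⁻¹ • n := by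
    intro n
    have := inv_smul_eq (a := a⁻¹) (fun n => hq a⁻¹ (A.inv_mem ha) a⁻¹ (A.inv_mem ha) n) n
    rwa [inv_inv] at this
  have ha2' : ∀ n : N, a⁻¹ • n = n + n - a • n :=
    inv_smul_eq (fun n => hq a ha a ha n)
  have hb2 : ∀ n : N, b • n = n + n - b⁻¹ • n := by
    intro n
    have := inv_smul_eq (a := b⁻¹) (fun n => hqB b⁻¹ (B.inv_mem hb) b⁻¹ (B.inv_mem hb) n) n
    rwa [inv_inv] at this
  have hb2' : ∀ n : N, b⁻¹ • n = n + n - b • n :=
    inv_smul_eq (fun n => hqB b hb b hb n)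
  have h1 : ∀ m ∈ M N A, a • b⁻¹ • m ∈ M N B := by
    intro m hm'
    have h2 := smul_mem_M a (smul_mem_M b⁻¹ hm')
    rw [hm, conjBy_conjBy] at h2
    simpa using h2
  have h2 : ∀ m' ∈ M N B, b • a⁻¹ • m' ∈ M N A := by
    intro m hm'
    have h2 := smul_mem_M b (smul_mem_M a⁻¹ hm')
    rw [← hm, conjBy_conjBy] at h2
    simpa using h2
  set T := M N A ⊔ M N B with hT
  have hfixA : ∀ m ∈ M N A, ∀ a' ∈ A, a' • m = m := fun m hm a' ha' => fix_of_quad hq hm ha'
  have hfixB : ∀ m ∈ M N B, ∀ b' ∈ B, b' • m = m := fun m hm b' hb' => fix_of_quad hqB hm hb'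
  have agree : ∀ t ∈ T, (b⁻¹ * a * b) • t = (a⁻¹ * b⁻¹ * a) • t := by
    intro t ht
    obtain ⟨m, hm₁, m', hm₂, rfl⟩ := AddSubgroup.mem_sup.1 ht
    rw [smul_add, smul_add]
    congr 1
    · refine agree_left hb2 ha2' (hfixA m hm₁ a ha) (hfixB _ (h1 m hm₁) b hb) ?_
      simp
    · refine agree_right (m := b • a⁻¹ • m') ha2 ha2' hb2' (hfixA _ (h2 m' hm₂) a ha)
        (hfixB m' hm₂ b hb) ?_
      simp
  have hTA : ∀ a' ∈ A, ∀ t ∈ T, a' • t ∈ T := by
    intro a' ha' t ht
    obtain ⟨m, hm₁, m', hm₂, rfl⟩ := AddSubgroup.mem_sup.1 ht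
    rw [smul_add, hfixA m hm₁ a' ha']
    have e : m + a' • m' = m + (a' • m' - m') + m' := by abel
    rw [e]
    exact AddSubgroup.add_mem _ (AddSubgroup.add_mem _
      (AddSubgroup.mem_sup_left hm₁) (AddSubgroup.mem_sup_left (sub_mem_M ha' m')))
      (AddSubgroup.mem_sup_right hm₂)
  have hTB : ∀ b' ∈ B, ∀ t ∈ T, b' • t ∈ T := by
    intro b' hb' t ht
    obtain ⟨m, hm₁, m', hm₂, rfl⟩ := AddSubgroup.mem_sup.1 ht
    rw [smul_add, hfixB m' hm₂ b' hb']
    have e : b' • m + m' = (b' • m - m) + m + m' := by abel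
    rw [e]
    exact AddSubgroup.add_mem _ (AddSubgroup.add_mem _
      (AddSubgroup.mem_sup_right (sub_mem_M hb' m)) (AddSubgroup.mem_sup_left hm₁))
      (AddSubgroup.mem_sup_right hm₂)
  have hTinv : ∀ x : X, ∀ t ∈ T, x • t ∈ T := by
    intro x
    have hx : x ∈ A ⊔ B := by rw [htop]; trivial
    rw [Subgroup.sup_eq_closure] at hx
    have : (∀ t ∈ T, x • t ∈ T) ∧ (∀ t ∈ T, x⁻¹ • t ∈ T) := by
      induction hx using Subgroup.closure_induction with
      | mem y hy =>
        rcases hy with hy | hy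
        · exact ⟨hTA y hy, hTA _ (A.inv_mem hy)⟩
        · exact ⟨hTB y hy, hTB _ (B.inv_mem hy)⟩
      | one => simp
      | mul y z _ _ hy hz =>
        constructor
        · intro t ht
          rw [mul_smul]
          exact hy.1 _ (hz.1 t ht)
        · intro t ht
          rw [mul_inv_rev, mul_smul]
          exact hz.2 _ (hy.2 t ht)
      | inv y _ hy =>
        rw [inv_inv]
        exact ⟨hy.2, hy.1⟩
    exact this.1
  let C : Subgroup X :=
    { carrier := {x | ∀ t ∈ T, x • t = t}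
      one_mem' := fun t _ => one_smul _ t
      mul_mem' := by
        intro x y hx hy t ht
        rw [mul_smul, hy t ht, hx t ht]
      inv_mem' := by
        intro x hx t ht
        conv_lhs => rw [← hx t ht]
        simp }
  have hCn : C.Normal := by
    refine ⟨fun x hx y t ht => ?_⟩
    have h3 : x • (y⁻¹ • t) = y⁻¹ • t := hx _ (hTinv y⁻¹ t ht)
    show (y * x * y⁻¹) • t = t
    rw [mul_smul, mul_smul, h3, smul_inv_smul]
  set g := (b⁻¹ * a * b) * (a⁻¹ * b⁻¹ * a)⁻¹ with hg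
  have hgC : g ∈ C := by
    intro t ht
    have h3 := agree _ (hTinv (a⁻¹ * b⁻¹ * a)⁻¹ t ht)
    rw [smul_inv_smul] at h3
    show ((b⁻¹ * a * b) * (a⁻¹ * b⁻¹ * a)⁻¹) • t = t
    rw [mul_smul, h3]
  have hgU : g ∈ conjBy A b⁻¹ := by
    have h3 : b⁻¹ * a * b ∈ conjBy A b⁻¹ := by
      have := conj_mem_conjBy ha b⁻¹
      rwa [inv_inv] at this
    have h4 : a⁻¹ * b⁻¹ * a ∈ conjBy A b⁻¹ := by
      rw [hm]
      have := conj_mem_conjBy (B.inv_mem hb) a⁻¹
      rwa [inv_inv] at this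
    exact Subgroup.mul_mem _ h3 (Subgroup.inv_mem _ h4)
  have hg1 : g ≠ 1 := by
    intro h3
    apply hne
    exact mul_inv_eq_one.1 h3
  rcases normal_dichotomy htop hr hCn with hd | hd
  · -- `C ⊔ A = ⊤`
    have hBfix : ∀ b' ∈ B, ∀ m ∈ M N A, b' • m = m := by
      intro b' _ m hm₁
      have hx : b' ∈ C ⊔ A := by rw [hd]; trivial
      obtain ⟨c, hc, a', ha', rfl⟩ := Subgroup.mem_sup_of_normal_left.1 hx
      rw [mul_smul, hfixA m hm₁ a' ha']
      exact hc m (AddSubgroup.mem_sup_left hm₁)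
    have hBA : ∀ m' ∈ M N B, m' ∈ M N A := by
      intro m' hm₂
      have h3 := h2 m' hm₂
      have h4 := hBfix b⁻¹ (B.inv_mem hb) _ h3
      rw [inv_smul_smul] at h4
      have h5 : m' = b • a⁻¹ • m' := by
        have h6 := hfixA _ h3 a ha
        calc m' = a • (a⁻¹ • m') := (smul_inv_smul a m').symm
          _ = a • (b • a⁻¹ • m') := by rw [← h4]
          _ = b • a⁻¹ • m' := h6
      rw [h5]
      exact h3
    have hTfix : ∀ t ∈ T, ∀ x : X, x • t = t := by
      intro t ht x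
      have htA : t ∈ M N A := by
        obtain ⟨m, hm₁, m', hm₂, rfl⟩ := AddSubgroup.mem_sup.1 ht
        exact AddSubgroup.add_mem _ hm₁ (hBA m' hm₂)
      have hx : x ∈ A ⊔ B := by rw [htop]; trivial
      rw [Subgroup.sup_eq_closure] at hx
      induction hx using Subgroup.closure_induction with
      | mem y hy =>
        rcases hy with hy | hy
        · exact hfixA t htA y hy
        · exact hBfix y hy t htA
      | one => simp
      | mul y z _ _ hy hz => rw [mul_smul, hz, hy]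
      | inv y _ hy =>
        conv_lhs => rw [← hy]
        simp
    have hall : ∀ x : X, ∀ n : N, x • n - n ∈ T := by
      intro x
      have hx : x ∈ A ⊔ B := by rw [htop]; trivial
      rw [Subgroup.sup_eq_closure] at hx
      induction hx using Subgroup.closure_induction with
      | mem y hy =>
        intro n
        rcases hy with hy | hy
        · exact AddSubgroup.mem_sup_left (sub_mem_M hy n)
        · exact AddSubgroup.mem_sup_right (sub_mem_M hy n)
      | one => simp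
      | mul y z _ _ hy hz =>
        intro n
        have e : (y * z) • n - n = y • (z • n - n) + (y • n - n) := by
          rw [mul_smul, smul_sub]; abel
        rw [e]
        exact AddSubgroup.add_mem _ (hTinv y _ (hz n)) (hy n)
      | inv y _ hy =>
        intro n
        have e : y⁻¹ • n - n = -(y⁻¹ • (y • n - n)) := by
          rw [smul_sub, inv_smul_smul]; abel
        rw [e]
        exact AddSubgroup.neg_mem _ (hTinv y⁻¹ _ (hy n))
    obtain ⟨x, y, n, hne'⟩ := hX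
    exact hne' (hTfix _ (hall x n) y)
  · -- `C` central
    apply hg1
    have hgc := hd hgC
    have hgA : g ∈ A := by
      obtain ⟨a₂, ha₂, he⟩ := hgU
      have h3 := (Subgroup.mem_center_iff.1 hgc) b
      simp only [MulEquiv.coe_toMonoidHom, MulAut.conj_apply, inv_inv] at he
      have h4 : g = a₂ := by
        have h5 : b * g * b⁻¹ = g := by rw [h3]; group
        rw [← h5, ← he]; group
      rw [h4]; exact ha₂
    apply eq_one_of_conjBy_eq hr hgA
    ext y
    rw [mem_conjBy]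
    have h3 := (Subgroup.mem_center_iff.1 hgc) y
    have h4 : g⁻¹ * y * g = y := by rw [mul_assoc, h3]; group
    rw [h4]

end Cfsg.Agent.Lib.RootSubgroups.ModuleSpecial
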