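/-
Transfer of rank one pairs between a group and the subgroup generated by the pair.
-/
import Mathlib
import Cfsg.Prelude.Def_RootSubgroups
import Cfsg.Agent.Lib.RootSubgroups.RankOne
import Cfsg.Agent.Lib.RootSubgroups.ModuleSpecial

set_option autoImplicit false

namespace Cfsg.Agent.Lib.RootSubgroups.Transfer

open Cfsg Cfsg.Agent.Lib.RootSubgroups.RankOne Cfsg.Agent.Lib.RootSubgroups.ModuleSpecial

variable {G : Type*} [Group G]

lemma map_conjBy_subtype {H : Subgroup G} (K : Subgroup H) (x : H) :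
    (conjBy K x).map H.subtype = conjBy (K.map H.subtype) (x : G) := by
  ext y
  simp only [Subgroup.mem_map, MulEquiv.coe_toMonoidHom, MulAut.conj_apply]
  constructor
  · rintro ⟨_, ⟨k, hk, rfl⟩, rfl⟩
    exact ⟨(k : G), ⟨k, hk, rfl⟩, by simp⟩
  · rintro ⟨_, ⟨k, hk, rfl⟩, rfl⟩
    exact ⟨x * k * x⁻¹, ⟨k, hk, rfl⟩, by simp⟩

lemma map_subgroupOf {H K : Subgroup G} (h : K ≤ H) : (K.subgroupOf H).map H.subtype = K :=
  Subgroup.map_subgroupOf_eq_of_le h

lemma subgroupOf_conj_eq {H A B : Subgroup G} (hA : A ≤ H) (hB : B ≤ H) {x y : H}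
    (he : conjBy A (x : G) = conjBy B (y : G)) :
    conjBy (A.subgroupOf H) x = conjBy (B.subgroupOf H) y := by
  apply Subgroup.map_injective H.subtype_injective
  rw [map_conjBy_subtype, map_conjBy_subtype, map_subgroupOf hA, map_subgroupOf hB]
  exact he

lemma conj_eq_of_subgroupOf {H A B : Subgroup G} (hA : A ≤ H) (hB : B ≤ H) {x y : H}
    (he : conjBy (A.subgroupOf H) x = conjBy (B.subgroupOf H) y) :
    conjBy A (x : G) = conjBy B (y : G) := by
  have := congrArg (Subgroup.map H.subtype) he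
  rwa [map_conjBy_subtype, map_conjBy_subtype, map_subgroupOf hA, map_subgroupOf hB] at this

lemma nilpotent_subgroupOf {H K : Subgroup G} (h : K ≤ H) (hK : Group.IsNilpotent K) :
    Group.IsNilpotent (K.subgroupOf H) :=
  Group.nilpotent_of_surjective (Subgroup.subgroupOfEquivOfLe h).symm.toMonoidHom
    (Subgroup.subgroupOfEquivOfLe h).symm.surjective

lemma cond_subgroupOf {H A B : Subgroup G} (hA : A ≤ H) (hB : B ≤ H) (h : RankOneCondition A B) :
    RankOneCondition (A.subgroupOf H) (B.subgroupOf H) := by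
  intro a ha ha1
  have ha' : (a : G) ∈ A := ha
  have ha1' : (a : G) ≠ 1 := fun h1 => ha1 (Subtype.ext h1)
  obtain ⟨b, hb, hb1, he⟩ := h _ ha' ha1'
  refine ⟨⟨b, hB hb⟩, hb, fun h1 => hb1 (congrArg Subtype.val h1), ?_⟩
  exact subgroupOf_conj_eq hA hB (x := (⟨b, hB hb⟩ : H)⁻¹) (y := a⁻¹) he

lemma isRankOnePair_subgroupOf {H A B : Subgroup G} (hA : A ≤ H) (hB : B ≤ H)
    (h : IsRankOnePair A B) : IsRankOnePair (A.subgroupOf H) (B.subgroupOf H) where
  ne := fun he => h.ne (by
    have := congrArg (Subgroup.map H.subtype) he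
    rwa [map_subgroupOf hA, map_subgroupOf hB] at this)
  nilpotent_left := nilpotent_subgroupOf hA h.nilpotent_left
  nilpotent_right := nilpotent_subgroupOf hB h.nilpotent_right
  cond_left := cond_subgroupOf hA hB h.cond_left
  cond_right := cond_subgroupOf hB hA h.cond_right

lemma sup_subgroupOf {A B : Subgroup G} :
    A.subgroupOf (A ⊔ B) ⊔ B.subgroupOf (A ⊔ B) = ⊤ := by
  apply Subgroup.map_injective (A ⊔ B).subtype_injective
  rw [Subgroup.map_sup, map_subgroupOf le_sup_left, map_subgroupOf le_sup_right]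
  rw [← MonoidHom.range_eq_map, Subgroup.range_subtype]

lemma isRankOneGroup_sup {A B : Subgroup G} (h : IsRankOnePair A B) :
    IsRankOneGroup ↥(A ⊔ B) (A.subgroupOf (A ⊔ B)) (B.subgroupOf (A ⊔ B)) :=
  ⟨sup_subgroupOf, isRankOnePair_subgroupOf le_sup_left le_sup_right h⟩

/-- Specialness descends from the subgroup to the ambient group. -/
lemma special_of_subgroupOf {H A B : Subgroup G} (hA : A ≤ H) (hB : B ≤ H) (h : IsRankOnePair A B)
    (hs : IsSpecialRankOnePair (A.subgroupOf H) (B.subgroupOf H)) : IsSpecialRankOnePair A B := by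
  refine ⟨h, ?_⟩
  intro a ha ha1 b hb hb1 he
  have h1 := hs.2 ⟨a, hA ha⟩ ha (fun h1 => ha1 (congrArg Subtype.val h1)) ⟨b, hB hb⟩ hb
    (fun h1 => hb1 (congrArg Subtype.val h1))
    (subgroupOf_conj_eq hA hB (x := (⟨b, hB hb⟩ : H)⁻¹) (y := (⟨a, hA ha⟩ : H)⁻¹) he)
  exact congrArg Subtype.val h1

/-- The module criterion for an abelian subgroup normalized by the rank one group. -/
theorem special_of_conj {A B N : Subgroup G} (hr : IsRankOnePair A B) (hcomm : IsMulCommutative N)
    (hnorm : ∀ x ∈ A ⊔ B, ∀ n ∈ N, x * n * x⁻¹ ∈ N)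
    (hq : ∀ a ∈ A, ∀ a' ∈ A, ∀ n ∈ N, a' * (a * n * a⁻¹ * n⁻¹) * a'⁻¹ = a * n * a⁻¹ * n⁻¹)
    (hX : ∃ x ∈ A ⊔ B, ∃ y ∈ A ⊔ B, ∃ n ∈ N,
      y * (x * n * x⁻¹ * n⁻¹) * y⁻¹ ≠ x * n * x⁻¹ * n⁻¹) : IsSpecialRankOnePair A B := by
  letI : CommGroup N := { (inferInstance : Group N) with mul_comm := hcomm.is_comm.comm }
  letI : DistribMulAction ↥(A ⊔ B) (Additive N) :=
    { smul := fun x n => Additive.ofMul ⟨(x : G) * (n.toMul : G) * (x : G)⁻¹, hnorm _ x.2 _ n.toMul.2⟩
      one_smul := by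
        intro n
        apply Additive.toMul.injective
        apply Subtype.ext
        show ((1 : ↥(A ⊔ B)) : G) * (n.toMul : G) * ((1 : ↥(A ⊔ B)) : G)⁻¹ = n.toMul
        simp
      mul_smul := by
        intro x y n
        apply Additive.toMul.injective
        apply Subtype.ext
        show ((x * y : ↥(A ⊔ B)) : G) * (n.toMul : G) * ((x * y : ↥(A ⊔ B)) : G)⁻¹ =
          (x : G) * ((y : G) * (n.toMul : G) * (y : G)⁻¹) * (x : G)⁻¹
        simp only [Subgroup.coe_mul, mul_inv_rev]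
        group
      smul_zero := by
        intro x
        apply Additive.toMul.injective
        apply Subtype.ext
        show (x : G) * 1 * (x : G)⁻¹ = 1
        simp
      smul_add := by
        intro x m n
        apply Additive.toMul.injective
        apply Subtype.ext
        show (x : G) * ((m.toMul : G) * (n.toMul : G)) * (x : G)⁻¹ =
          ((x : G) * (m.toMul : G) * (x : G)⁻¹) * ((x : G) * (n.toMul : G) * (x : G)⁻¹)
        group }
  have hsm : ∀ (x : ↥(A ⊔ B)) (n : Additive N), (((x • n).toMul : N) : G) = (x : G) * (n.toMul : G) * (x : G)⁻¹ :=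
    fun _ _ => rfl
  have hsub : ∀ (m n : Additive N), (((m - n).toMul : N) : G) = (m.toMul : G) * (n.toMul : G)⁻¹ := by
    intro m n
    rw [sub_eq_add_neg]
    rfl
  have hmain := special_of_module (X := ↥(A ⊔ B)) (A := A.subgroupOf (A ⊔ B)) (B := B.subgroupOf (A ⊔ B))
    (N := Additive N) (isRankOneGroup_sup hr) ?_ ?_
  · exact special_of_subgroupOf le_sup_left le_sup_right hr hmain
  · intro a ha a' ha' n
    apply Additive.toMul.injective
    apply Subtype.ext
    rw [hsm, hsub, hsm]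
    exact hq _ ha _ ha' _ n.toMul.2
  · obtain ⟨x, hx, y, hy, n, hn, hne⟩ := hX
    refine ⟨⟨x, hx⟩, ⟨y, hy⟩, Additive.ofMul ⟨n, hn⟩, ?_⟩
    intro he
    apply hne
    have h1 := congrArg (fun z : Additive N => ((z.toMul : N) : G)) he
    rw [hsm, hsub, hsm] at h1
    exact h1

end Cfsg.Agent.Lib.RootSubgroups.Transfer
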