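/-
Non-degenerate classes of abstract root subgroups: line partners and specialness (S5034).
-/
import Mathlib
import Cfsg.Prelude.Def_RootSubgroups
import Cfsg.Agent.Lib.RootSubgroups.RankOne
import Cfsg.Agent.Lib.RootSubgroups.Abstract
import Cfsg.Agent.Lib.RootSubgroups.Abstract2
import Cfsg.Agent.Lib.RootSubgroups.LineConn
import Cfsg.Agent.Lib.RootSubgroups.Transfer

set_option autoImplicit false

namespace Cfsg.Agent.Lib.RootSubgroups.Nondeg

open Cfsg Cfsg.Agent.Lib.RootSubgroups.RankOne Cfsg.Agent.Lib.RootSubgroups.Abstract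
  Cfsg.Agent.Lib.RootSubgroups.Abstract2 Cfsg.Agent.Lib.RootSubgroups.LineConn
  Cfsg.Agent.Lib.RootSubgroups.Transfer
open scoped commutatorElement

variable {G : Type*} [Group G] {A B C D E F L M : Subgroup G} {S : Set (Subgroup G)}

lemma comm_sup_comm {A B : Subgroup G} (hA : IsMulCommutative A) (hB : IsMulCommutative B)
    (hAB : ∀ a ∈ A, ∀ b ∈ B, a * b = b * a) : IsMulCommutative ↥(A ⊔ B) := by
  refine ⟨⟨?_⟩⟩
  rintro ⟨x, hx⟩ ⟨y, hy⟩
  apply Subtype.ext
  show x * y = y * x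
  obtain ⟨a, ha, b, hb, rfl⟩ := mem_sup_of_commute hAB hx
  obtain ⟨a', ha', b', hb', rfl⟩ := mem_sup_of_commute hAB hy
  have h1 := comm_of_isMulCommutative hA ha ha'
  have h2 := comm_of_isMulCommutative hB hb hb'
  have h3 := hAB a ha b' hb'
  have h4 := hAB a' ha' b hb
  calc a * b * (a' * b') = a * (b * a') * b' := by group
    _ = a * (a' * b) * b' := by rw [h4]
    _ = (a * a') * (b * b') := by group
    _ = (a' * a) * (b' * b) := by rw [h1, h2]
    _ = a' * (a * b') * b := by group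
    _ = a' * (b' * a) * b := by rw [h3]
    _ = _ := by group

section

variable (hS : IsRootSubgroupSet S)
include hS

/-- A further member in a line. -/
lemma lp_of_le_line (hA : A ∈ S) (hF : F ∈ S) (hAF : IsRankOnePair A F) (hL : L ∈ linePartners S A)
    (hM : M ∈ S) (hMle : M ≤ A ⊔ L) (hne : M ≠ A) : ⁅A, M⁆ = ⊥ ∧ LP S A M := by
  obtain ⟨⟨hLS, hLne, hcomm⟩, hpart⟩ := hL
  have hinf : A ⊓ M = ⊥ := by
    rcases inf_eq_bot_or_eq hS hM hF hAF with h | h
    · exact h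
    · exact absurd h.symm hne
  refine ⟨?_, ?_⟩
  · apply bot_of_commute
    intro x hx m hm
    exact comm_sup (fun y hy => comm_of_isMulCommutative (hS.commutative A hA) hx hy)
      (fun y hy => commute_of_bot hcomm hx hy) m (hMle hm)
  · intro x hx hx1 m hm hm1
    have hne1 : x * m ≠ 1 := by
      intro h1
      apply hx1
      have e : x = m⁻¹ := eq_inv_of_mul_eq_one_left h1
      have h2 : x ∈ A ⊓ M := ⟨hx, by rw [e]; exact M.inv_mem hm⟩
      rw [hinf] at h2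
      exact h2
    obtain ⟨K, hK, hxK⟩ := hpart.2.1 _
      (Subgroup.mul_mem _ (Subgroup.mem_sup_left hx) (hMle hm)) hne1
    exact ⟨hne1, K, hK.1, hxK⟩

/-- Specialness from a line partner in the commutator case. -/
theorem special_of_line (hA : A ∈ S) (hF : F ∈ S) (hAF : IsRankOnePair A F)
    (hC : C ∈ S) (hAC : ⁅A, C⁆ = ⊥) (hLP : LP S A C) (hFC : ⁅F, C⁆ ∈ S) : IsSpecialRankOnePair A F := by
  have caseFC := commutatorCase_of_mem hS hF hC hFC
  have caseAD := case_A_D hS hA hC hF hAF hAC hLP hFC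
  have hQ := comm_comm_eq hS hA hC hF hAF hAC hLP hFC
  have hcomm : ∀ c ∈ C, ∀ d ∈ ⁅F, C⁆, c * d = d * c := fun c hc d hd =>
    (central_right caseFC hd hc).symm
  have hN := comm_sup_comm (hS.commutative C hC) (hS.commutative _ hFC) hcomm
  have hAd : ∀ a ∈ A, ∀ d ∈ ⁅F, C⁆, a * d * a⁻¹ * d⁻¹ ∈ C := by
    intro a ha d hd
    have := comm_mem ha hd
    rwa [hQ] at this
  have hAc : ∀ a ∈ A, ∀ c ∈ C, a * c * a⁻¹ = c := by
    intro a ha c hc
    rw [commute_of_bot hAC ha hc]; group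
  have hFd : ∀ f ∈ F, ∀ d ∈ ⁅F, C⁆, f * d * f⁻¹ = d := by
    intro f hf d hd
    rw [(central_left caseFC hd hf).symm]; group
  have hgenA : ∀ a ∈ A, ∀ n ∈ C ⊔ ⁅F, C⁆, a * n * a⁻¹ ∈ C ⊔ ⁅F, C⁆ := by
    intro a ha n hn
    obtain ⟨c, hc, d, hd, rfl⟩ := mem_sup_of_commute hcomm hn
    have e : a * (c * d) * a⁻¹ = (a * c * a⁻¹) * (a * d * a⁻¹ * d⁻¹) * d := by group
    rw [e, hAc a ha c hc]
    exact Subgroup.mul_mem _ (Subgroup.mul_mem _ (Subgroup.mem_sup_left hc)
      (Subgroup.mem_sup_left (hAd a ha d hd))) (Subgroup.mem_sup_right hd)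
  have hgenF : ∀ f ∈ F, ∀ n ∈ C ⊔ ⁅F, C⁆, f * n * f⁻¹ ∈ C ⊔ ⁅F, C⁆ := by
    intro f hf n hn
    obtain ⟨c, hc, d, hd, rfl⟩ := mem_sup_of_commute hcomm hn
    have e : f * (c * d) * f⁻¹ = (f * c * f⁻¹ * c⁻¹) * c * (f * d * f⁻¹) := by group
    rw [e, hFd f hf d hd]
    exact Subgroup.mul_mem _ (Subgroup.mul_mem _ (Subgroup.mem_sup_right (comm_mem hf hc))
      (Subgroup.mem_sup_left hc)) (Subgroup.mem_sup_right hd)
  refine special_of_conj hAF hN ?_ ?_ ?_
  · intro x hx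
    rw [Subgroup.sup_eq_closure] at hx
    have : (∀ n ∈ C ⊔ ⁅F, C⁆, x * n * x⁻¹ ∈ C ⊔ ⁅F, C⁆) ∧
        (∀ n ∈ C ⊔ ⁅F, C⁆, x⁻¹ * n * x⁻¹⁻¹ ∈ C ⊔ ⁅F, C⁆) := by
      induction hx using Subgroup.closure_induction with
      | mem y hy =>
        rcases hy with hy | hy
        · exact ⟨hgenA y hy, hgenA _ (A.inv_mem hy)⟩
        · exact ⟨hgenF y hy, hgenF _ (F.inv_mem hy)⟩
      | one => simp
      | mul y z _ _ hy hz =>
        constructor
        · intro n hn
          have e : y * z * n * (y * z)⁻¹ = y * (z * n * z⁻¹) * y⁻¹ := by group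
          rw [e]
          exact hy.1 _ (hz.1 n hn)
        · intro n hn
          have e : (y * z)⁻¹ * n * (y * z)⁻¹⁻¹ = z⁻¹ * (y⁻¹ * n * y⁻¹⁻¹) * z⁻¹⁻¹ := by group
          rw [e]
          exact hz.2 _ (hy.2 n hn)
      | inv y _ hy =>
        constructor
        · exact hy.2
        · intro n hn
          have := hy.1 n hn
          rwa [← inv_inv y] at this
    exact this.1
  · intro a ha a' ha' n hn
    obtain ⟨c, hc, d, hd, rfl⟩ := mem_sup_of_commute hcomm hn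
    have h1 : a * (c * d) * a⁻¹ * (c * d)⁻¹ ∈ C := by
      have e : a * (c * d) * a⁻¹ * (c * d)⁻¹ =
          (a * c * a⁻¹) * (a * d * a⁻¹ * d⁻¹) * c⁻¹ := by group
      rw [e, hAc a ha c hc]
      exact C.mul_mem (C.mul_mem hc (hAd a ha d hd)) (C.inv_mem hc)
    exact hAc a' ha' _ h1
  · obtain ⟨a, ha, ha1⟩ := exists_ne_one_left hAF
    obtain ⟨f, hf, hf1⟩ := exists_ne_one_right hAF
    obtain ⟨c, hc, hc1⟩ := exists_ne_one_of_ne_bot (hS.ne_bot C hC)
    refine ⟨f, Subgroup.mem_sup_right hf, a, Subgroup.mem_sup_left ha, c, Subgroup.mem_sup_left hc, ?_⟩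
    have hd₀ : f * c * f⁻¹ * c⁻¹ ∈ ⁅F, C⁆ := comm_mem hf hc
    intro he
    have hd₁ : f * c * f⁻¹ * c⁻¹ ≠ 1 := by
      intro h1
      apply comm_ne hS hF caseFC hA (RankOnePair_symm hAF) hf hf1 hc hc1
      have h2 : f * c * f⁻¹ = c := mul_inv_eq_one.1 h1
      exact mul_inv_eq_iff_eq_mul.1 h2
    apply comm_ne hS hA caseAD hF hAF ha ha1 hd₀ hd₁
    calc a * (f * c * f⁻¹ * c⁻¹) = (a * (f * c * f⁻¹ * c⁻¹) * a⁻¹) * a := by group
      _ = _ := by rw [he]

/-- In a line with a rank one partner `F`, either the line partner is in the commutator case with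
`F`, or a third member is. -/
theorem exists_comm_in_line (hA : A ∈ S) (hF : F ∈ S) (hAF : IsRankOnePair A F)
    (hL : L ∈ linePartners S A) : ∃ C ∈ S, C ≤ A ⊔ L ∧ C ≠ A ∧ ⁅F, C⁆ ∈ S := by
  have hL' := hL
  obtain ⟨⟨hLS, hLne, hcomm⟩, hpart⟩ := hL
  have hinf : A ⊓ L = ⊥ := by
    rcases inf_eq_bot_or_eq hS hLS hF hAF with h | h
    · exact h
    · exact absurd h.symm hLne
  have hLP : LP S A L := (lp_of_le_line hS hA hF hAF hL' hLS le_sup_right hLne).2
  rcases hS.pair F hF L hLS with h | h | h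
  · exact absurd h (not_commute_of_lp hS hA hF hAF hcomm hLP (hS.ne_bot L hLS))
  · -- rank one: third member
    obtain ⟨f, hf, hf1⟩ := exists_ne_one_left (RankOnePair_symm hAF)
    obtain ⟨a, ha, ha1, hma⟩ := hAF.cond_right f hf hf1
    obtain ⟨b', hb', hb'1, hmb⟩ := (RankOnePair_symm h).cond_right f hf hf1
    set b := b'⁻¹ with hb
    have hbL : b ∈ L := L.inv_mem hb'
    have hb1 : b ≠ 1 := inv_ne_one.2 hb'1
    have hab1 : a * b ≠ 1 := by
      intro h1
      apply ha1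
      have e : a = b⁻¹ := eq_inv_of_mul_eq_one_left h1
      have h2 : a ∈ A ⊓ L := ⟨ha, by rw [e]; exact L.inv_mem hbL⟩
      rw [hinf] at h2
      exact h2
    obtain ⟨M, ⟨hM, hMle⟩, habM⟩ := hpart.2.1 _
      (Subgroup.mul_mem _ (Subgroup.mem_sup_left ha) (Subgroup.mem_sup_right hbL)) hab1
    have hMA : M ≠ A := by
      rintro rfl
      apply hb1
      have e : b = a⁻¹ * (a * b) := by group
      have h2 : b ∈ M ⊓ L := ⟨by rw [e]; exact M.mul_mem (M.inv_mem ha) habM, hbL⟩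
      rw [hinf] at h2
      exact h2
    refine ⟨M, hM, hMle, hMA, ?_⟩
    -- the conjugate of `F` by `a * b`
    have hc1 : conjBy F (a * b)⁻¹ = conjBy A (b⁻¹ * f⁻¹) := by
      rw [mul_inv_rev, ← conjBy_conjBy, hma, conjBy_conjBy]
    have hbF : conjBy F b = conjBy L f⁻¹ := by
      rw [hb]; exact hmb
    have hcommF : ⁅F, conjBy F (a * b)⁻¹⁆ = ⊥ := by
      -- conjugate by b
      have h1 : conjBy ⁅F, conjBy F (a * b)⁻¹⁆ b = ⁅conjBy L f⁻¹, conjBy A f⁻¹⁆ := by
        rw [conjBy, Subgroup.map_commutator]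
        have h2 := hbF
        rw [conjBy] at h2
        rw [h2, hc1]
        congr 1
        rw [← conjBy, conjBy_conjBy]
        simp
      have h3 : ⁅conjBy L f⁻¹, conjBy A f⁻¹⁆ = ⊥ := by
        have h4 : ⁅L, A⁆ = ⊥ := by rw [Subgroup.commutator_comm]; exact hcomm
        have := congrArg (Subgroup.map (MulAut.conj f⁻¹).toMonoidHom) h4
        rw [Subgroup.map_commutator, Subgroup.map_bot] at this
        exact this
      rw [h3] at h1
      have h5 := congrArg (fun X => conjBy X b⁻¹) h1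
      simp only [conjBy_conjBy, inv_mul_cancel, conjBy_one] at h5
      rw [h5]
      simp
    rcases hS.pair M hM F hF with h1 | h1 | h1
    · exfalso
      -- `a * b` normalizes `F`
      have hn : conjBy F (a * b)⁻¹ = F := conjBy_of_bot h1 (M.inv_mem habM)
      apply hLne
      have e1 : conjBy F b = conjBy A f⁻¹ := by
        have h2 : conjBy (conjBy F (a * b)⁻¹) b = conjBy F b := by rw [hn]
        rw [hc1, conjBy_conjBy] at h2
        rw [← h2]
        simp
      rw [hbF] at e1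
      exact conjBy_inj.1 e1
    · exfalso
      have hn : conjBy F (a * b)⁻¹ ≠ F := by
        intro hn
        have := eq_one_of_conjBy_eq h1 (M.inv_mem habM) hn
        exact hab1 (inv_eq_one.1 this)
      have hmem₁ : F ∈ unipotentSubgroups M F := right_mem_unipotent h1
      have hmem₂ : conjBy F (a * b)⁻¹ ∈ unipotentSubgroups M F :=
        right_conjBy_mem_unipotent h1 (M.inv_mem habM)
      have hr := isRankOnePair_of_unipotent h1 hmem₁ hmem₂ hn.symm
      obtain ⟨x, hx, hx1⟩ := exists_ne_one_left hr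
      exact hx1 (eq_one_of_conjBy_eq hr hx (conjBy_of_bot hcommF hx))
    · rw [Subgroup.commutator_comm]; exact h1.1
  · exact ⟨L, hLS, le_sup_right, hLne, h.1⟩

end

/-- Non-degenerate class: existence of a good line partner. -/
theorem exists_line_comm (hS : IsRootSubgroupClass S) (hnd : IsNondegenerateRootSet S)
    (hA : A ∈ S) (hF : F ∈ S) (hAF : IsRankOnePair A F) :
    ∃ C ∈ linePartners S A, ⁅F, C⁆ ∈ S := by
  obtain ⟨hS₁, ⟨-, hconj⟩⟩ := hS
  obtain ⟨-, -, A₀, hA₀, B₀, hB₀, hcase⟩ := hnd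
  obtain ⟨g, hg⟩ := hconj _ hcase.1 A hA
  have hall : ∀ X ∈ S, ∃ K ∈ S, IsRankOnePair X K := by
    intro X hX
    obtain ⟨h, rfl⟩ := hconj A hA X hX
    exact ⟨conjBy F h, hS₁.conj_mem F hF h, isRankOnePair_conjBy hAF h⟩
  set A₁ := conjBy A₀ g with hA₁
  set B₁ := conjBy B₀ g with hB₁
  have hA₁S : A₁ ∈ S := hS₁.conj_mem _ hA₀ g
  have hB₁S : B₁ ∈ S := hS₁.conj_mem _ hB₀ g
  have hAeq : ⁅A₁, B₁⁆ = A := by
    rw [hg, conjBy, Subgroup.map_commutator]
  have hcaseA : RootCommutatorCase S A₁ B₁ := by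
    apply commutatorCase_of_mem hS₁ hA₁S hB₁S
    rw [hAeq]; exact hA
  obtain ⟨K, hK, hA₁K⟩ := hall A₁ hA₁S
  have hline : A₁ ∈ linePartners S ⁅A₁, B₁⁆ := line_partner hS₁ hA₁S hcaseA hK hA₁K
  rw [hAeq] at hline
  obtain ⟨C, hC, hCle, hCne, hFC⟩ := exists_comm_in_line hS₁ hA hF hAF hline
  obtain ⟨hcommC, hLP⟩ := lp_of_le_line hS₁ hA hF hAF hline hC hCle hCne
  have caseAD := case_A_D hS₁ hA hC hF hAF hcommC hLP hFC
  have hQ := comm_comm_eq hS₁ hA hC hF hAF hcommC hLP hFC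
  refine ⟨C, ⟨⟨hC, hCne, hcommC⟩, ?_⟩, hFC⟩
  have := line_partition hS₁ hA caseAD hF hAF
  rwa [hQ] at this

end Cfsg.Agent.Lib.RootSubgroups.Nondeg
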