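/-
The configuration `⁅A, B⁆ = C`, `⁅D, C⁆ = A` of abstract root subgroups (S5036).
-/
import Mathlib
import Cfsg.Prelude.Def_RootSubgroups
import Cfsg.Agent.Lib.RootSubgroups.RankOne
import Cfsg.Agent.Lib.RootSubgroups.Abstract
import Cfsg.Agent.Lib.RootSubgroups.Abstract2
import Cfsg.Agent.Lib.RootSubgroups.LineConn

set_option autoImplicit false

namespace Cfsg.Agent.Lib.RootSubgroups.SL2Module

open Cfsg Cfsg.Agent.Lib.RootSubgroups.RankOne Cfsg.Agent.Lib.RootSubgroups.Abstract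
  Cfsg.Agent.Lib.RootSubgroups.Abstract2 Cfsg.Agent.Lib.RootSubgroups.LineConn
open scoped commutatorElement

variable {G : Type*} [Group G] {A B C D E U V P Q : Subgroup G} {S : Set (Subgroup G)}

/-- The configuration. -/
structure Ctx (S : Set (Subgroup G)) (A B C D : Subgroup G) : Prop where
  hS : IsRootSubgroupSet S
  hA : A ∈ S
  hB : B ∈ S
  hC : C ∈ S
  hD : D ∈ S
  hAB : ⁅A, B⁆ = C
  hDC : ⁅D, C⁆ = A

namespace Ctx

variable (c : Ctx S A B C D)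
include c

lemma caseAB : RootCommutatorCase S A B :=
  commutatorCase_of_mem c.hS c.hA c.hB (c.hAB ▸ c.hC)

lemma caseDC : RootCommutatorCase S D C :=
  commutatorCase_of_mem c.hS c.hD c.hC (c.hDC ▸ c.hA)

lemma comm_BC {b y : G} (hb : b ∈ B) (hy : y ∈ C) : b * y = y * b :=
  (central_right c.caseAB (c.hAB ▸ hy) hb).symm

lemma comm_DA {d y : G} (hd : d ∈ D) (hy : y ∈ A) : d * y = y * d :=
  (central_left c.caseDC (c.hDC ▸ hy) hd).symm

lemma comm_AC {a y : G} (ha : a ∈ A) (hy : y ∈ C) : a * y = y * a :=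
  (central_left c.caseAB (c.hAB ▸ hy) ha).symm

lemma mem_C {b a : G} (hb : b ∈ B) (ha : a ∈ A) : b * a * b⁻¹ * a⁻¹ ∈ C := by
  rw [← c.hAB, Subgroup.commutator_comm]
  exact comm_mem hb ha

lemma mem_A {d y : G} (hd : d ∈ D) (hy : y ∈ C) : d * y * d⁻¹ * y⁻¹ ∈ A := by
  rw [← c.hDC]
  exact comm_mem hd hy

/-- `A ⊓ C = ⊥`. -/
lemma inf_AC : A ⊓ C = ⊥ := by
  rw [eq_bot_iff]
  rintro z ⟨hzA, hzC⟩
  by_contra hz
  have hz1 : z ≠ 1 := by simpa using hz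
  obtain ⟨a, ha, ha1⟩ := exists_ne_one_of_ne_bot (c.hS.ne_bot A c.hA)
  have hclos := c.caseDC.2.2.2 z hzC hz1
  have hA' : a ∈ ⁅D, C⁆ := by rw [c.hDC]; exact ha
  rw [← hclos] at hA'
  have hle : Subgroup.closure ((fun x => x * z * x⁻¹ * z⁻¹) '' (D : Set G)) ≤ ⊥ := by
    rw [Subgroup.closure_le]
    rintro _ ⟨x, hx, rfl⟩
    have := c.comm_DA hx hzA
    simp only [SetLike.mem_coe, Subgroup.mem_bot]
    rw [this]
    group
  exact ha1 (hle hA')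

/-- Exclusion of the commuting case. -/
lemma ne_bot_BD : ⁅B, D⁆ ≠ ⊥ := by
  intro h
  have h1 : ⁅⁅C, B⁆, D⁆ = ⊥ := by
    have : ⁅C, B⁆ = ⊥ := bot_of_commute fun y hy b hb => (c.comm_BC hb hy).symm
    rw [this]
    exact Subgroup.commutator_bot_left D
  have h2 : ⁅⁅B, D⁆, C⁆ = ⊥ := by
    rw [h]
    exact Subgroup.commutator_bot_left C
  have h3 : ⁅⁅D, C⁆, B⁆ = ⊥ := Subgroup.commutator_commutator_eq_bot_of_rotate h1 h2
  rw [c.hDC, c.hAB] at h3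
  exact c.hS.ne_bot C c.hC h3

/-- Exclusion of the commutator case. -/
lemma not_case_BD : ¬ RootCommutatorCase S B D := by
  intro h
  obtain ⟨b, hb, hb1⟩ := exists_ne_one_of_ne_bot (c.hS.ne_bot B c.hB)
  obtain ⟨d, hd, hd1⟩ := exists_ne_one_of_ne_bot (c.hS.ne_bot D c.hD)
  -- `b` commutes with `d b d⁻¹`
  have hbb' : b * (d * b * d⁻¹) = (d * b * d⁻¹) * b := by
    have h1 : d * b * d⁻¹ * b⁻¹ ∈ ⁅B, D⁆ := by
      rw [Subgroup.commutator_comm]; exact comm_mem hd hb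
    have h2 := central_left h h1 hb
    have e : d * b * d⁻¹ = (d * b * d⁻¹ * b⁻¹) * b := by group
    rw [e]
    calc b * ((d * b * d⁻¹ * b⁻¹) * b) = (b * (d * b * d⁻¹ * b⁻¹)) * b := by group
      _ = ((d * b * d⁻¹ * b⁻¹) * b) * b := by rw [h2]
  -- the key claim
  have key : ∀ y ∈ C, ∀ a ∈ A, d * y * d⁻¹ * y⁻¹ = a⁻¹ →
      ∀ w, b * a * b⁻¹ * a⁻¹ = w → b * (d * w * d⁻¹ * w⁻¹) * b⁻¹ * (d * w * d⁻¹ * w⁻¹)⁻¹ = 1 := by
    intro y hy a ha hya w hw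
    have hwC : w ∈ C := hw ▸ c.mem_C hb ha
    set a₂ := d * w * d⁻¹ * w⁻¹ with ha₂
    have ha₂A : a₂ ∈ A := c.mem_A hd hwC
    -- action of `d⁻¹`
    have e1 : d⁻¹ * y * d = a * y := by
      have h1 : d * y * d⁻¹ = a⁻¹ * y := eq_mul_of_mul_inv_eq hya
      have h2 : d * (a * y) * d⁻¹ = y := by
        have h3 : d * a = a * d := c.comm_DA hd ha
        calc d * (a * y) * d⁻¹ = (d * a) * y * d⁻¹ := by group
          _ = a * (d * y * d⁻¹) := by rw [h3]; group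
          _ = a * (a⁻¹ * y) := by rw [h1]
          _ = y := by group
      calc d⁻¹ * y * d = d⁻¹ * (d * (a * y) * d⁻¹) * d := by rw [h2]
        _ = a * y := by group
    have e2 : b * (a * y) * b⁻¹ = w * a * y := by
      have h3 : b * y * b⁻¹ = y := by rw [c.comm_BC hb hy]; group
      have h4 : b * a * b⁻¹ = w * a := eq_mul_of_mul_inv_eq hw
      calc b * (a * y) * b⁻¹ = (b * a * b⁻¹) * (b * y * b⁻¹) := by group
        _ = w * a * y := by rw [h4, h3]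
    have e3 : d * (w * a * y) * d⁻¹ = a₂ * w * y := by
      have h3 : d * w * d⁻¹ = a₂ * w := eq_mul_of_mul_inv_eq ha₂.symm
      have h4 : d * y * d⁻¹ = a⁻¹ * y := eq_mul_of_mul_inv_eq hya
      have h5 : d * a * d⁻¹ = a := by rw [c.comm_DA hd ha]; group
      have h6 : a * w = w * a := c.comm_AC ha hwC
      calc d * (w * a * y) * d⁻¹ = (d * w * d⁻¹) * (d * a * d⁻¹) * (d * y * d⁻¹) := by group
        _ = (a₂ * w) * a * (a⁻¹ * y) := by rw [h3, h5, h4]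
        _ = a₂ * w * y := by group
    have e4 : (d * b * d⁻¹) * y * (d * b * d⁻¹)⁻¹ = a₂ * w * y := by
      calc (d * b * d⁻¹) * y * (d * b * d⁻¹)⁻¹ = d * (b * (d⁻¹ * y * d) * b⁻¹) * d⁻¹ := by group
        _ = d * (b * (a * y) * b⁻¹) * d⁻¹ := by rw [e1]
        _ = d * (w * a * y) * d⁻¹ := by rw [e2]
        _ = _ := e3
    -- `b` fixes this element
    have hby : b * y * b⁻¹ = y := by rw [c.comm_BC hb hy]; group
    have hbw : b * w * b⁻¹ = w := by rw [c.comm_BC hb hwC]; group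
    have e5 : b * (a₂ * w * y) * b⁻¹ = a₂ * w * y := by
      rw [← e4]
      have hbi : b * (d * b * d⁻¹)⁻¹ = (d * b * d⁻¹)⁻¹ * b := by
        calc b * (d * b * d⁻¹)⁻¹ = (d * b * d⁻¹)⁻¹ * ((d * b * d⁻¹) * b) * (d * b * d⁻¹)⁻¹ := by group
          _ = (d * b * d⁻¹)⁻¹ * (b * (d * b * d⁻¹)) * (d * b * d⁻¹)⁻¹ := by rw [hbb']
          _ = (d * b * d⁻¹)⁻¹ * b := by group
      calc b * ((d * b * d⁻¹) * y * (d * b * d⁻¹)⁻¹) * b⁻¹
          = (b * (d * b * d⁻¹)) * y * (d * b * d⁻¹)⁻¹ * b⁻¹ := by group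
        _ = ((d * b * d⁻¹) * b) * y * (d * b * d⁻¹)⁻¹ * b⁻¹ := by rw [hbb']
        _ = (d * b * d⁻¹) * (b * y * b⁻¹) * (b * (d * b * d⁻¹)⁻¹) * b⁻¹ := by group
        _ = (d * b * d⁻¹) * y * ((d * b * d⁻¹)⁻¹ * b) * b⁻¹ := by rw [hby, hbi]
        _ = _ := by group
    have e6 : b * a₂ * b⁻¹ = a₂ := by
      have h1 : (b * a₂ * b⁻¹) * w * y = a₂ * w * y := by
        calc (b * a₂ * b⁻¹) * w * y = (b * a₂ * b⁻¹) * (b * w * b⁻¹) * (b * y * b⁻¹) := by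
              rw [hbw, hby]
          _ = b * (a₂ * w * y) * b⁻¹ := by group
          _ = _ := e5
      exact mul_right_cancel (mul_right_cancel h1)
    rw [e6]
    group
  -- surjectivity
  obtain ⟨y, hy, hy1⟩ := exists_ne_one_of_ne_bot (c.hS.ne_bot C c.hC)
  have caseBA := commutatorCase_symm c.caseAB
  have hsurjβ : ∀ y ∈ C, ∃ a ∈ A, b * a * b⁻¹ * a⁻¹ = y := by
    intro y hy
    apply exists_comm_eq caseBA hb hb1
    rw [Subgroup.commutator_comm, c.hAB]; exact hy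
  have hsurjδ : ∀ a ∈ A, ∃ y ∈ C, d * y * d⁻¹ * y⁻¹ = a := by
    intro a ha
    apply exists_comm_eq c.caseDC hd hd1
    rw [c.hDC]; exact ha
  obtain ⟨a₂, ha₂, h₂⟩ := hsurjβ y hy
  obtain ⟨c₃, hc₃, h₃⟩ := hsurjδ a₂ ha₂
  obtain ⟨a₄, ha₄, h₄⟩ := hsurjβ c₃ hc₃
  obtain ⟨c₅, hc₅, h₅⟩ := hsurjδ a₄⁻¹ (A.inv_mem ha₄)
  have := key c₅ hc₅ a₄ ha₄ h₅ c₃ h₄
  rw [h₃, h₂] at this
  exact hy1 this

/-- `(B, D)` is a rank one pair. -/
theorem rankOne_BD : IsRankOnePair B D := by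
  rcases c.hS.pair B c.hB D c.hD with h | h | h
  · exact absurd h c.ne_bot_BD
  · exact h
  · exact absurd h c.not_case_BD

omit c in
lemma comm_sup_le {U P Q : Subgroup G} (hPQ : ∀ q ∈ Q, ∀ p ∈ P, q * p = p * q)
    (hUQ : ∀ u ∈ U, ∀ q ∈ Q, u * q = q * u) (hcQ : ∀ x ∈ ⁅U, P⁆, ∀ q ∈ Q, q * x = x * q) :
    ⁅U, Q ⊔ P⁆ ≤ ⁅U, P⁆ := by
  rw [Subgroup.commutator_le]
  intro u hu n hn
  obtain ⟨q, hq, p, hp, rfl⟩ := mem_sup_of_commute hPQ hn
  rw [commutatorElement_def]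
  have h1 : u * p * u⁻¹ * p⁻¹ ∈ ⁅U, P⁆ := comm_mem hu hp
  have e : u * (q * p) * u⁻¹ * (q * p)⁻¹ = u * p * u⁻¹ * p⁻¹ := by
    have h2 := hUQ u hu q hq
    have h3 := hcQ _ h1 q hq
    calc u * (q * p) * u⁻¹ * (q * p)⁻¹ = (u * q) * p * u⁻¹ * p⁻¹ * q⁻¹ := by group
      _ = (q * u) * p * u⁻¹ * p⁻¹ * q⁻¹ := by rw [h2]
      _ = q * (u * p * u⁻¹ * p⁻¹) * q⁻¹ := by group
      _ = (u * p * u⁻¹ * p⁻¹) * q * q⁻¹ := by rw [h3]
      _ = _ := by group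
  rw [e]
  exact h1

lemma comm_D_N : ⁅D, A ⊔ C⁆ = A := by
  apply le_antisymm
  · have h := comm_sup_le (U := D) (P := C) (Q := A)
      (fun q hq p hp => c.comm_AC hq hp) (fun u hu q hq => c.comm_DA hu hq) (by
        intro x hx q hq
        rw [c.hDC] at hx
        exact comm_of_isMulCommutative (c.hS.commutative A c.hA) hq hx)
    rwa [c.hDC] at h
  · conv_lhs => rw [← c.hDC]
    exact Subgroup.commutator_mono le_rfl le_sup_right

lemma comm_B_N : ⁅B, A ⊔ C⁆ = C := by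
  have hBA : ⁅B, A⁆ = C := by rw [Subgroup.commutator_comm, c.hAB]
  apply le_antisymm
  · have h := comm_sup_le (U := B) (P := A) (Q := C)
      (fun q hq p hp => (c.comm_AC hp hq).symm) (fun u hu q hq => c.comm_BC hu hq) (by
        intro x hx q hq
        rw [hBA] at hx
        exact comm_of_isMulCommutative (c.hS.commutative C c.hC) hq hx)
    rw [hBA] at h
    rwa [sup_comm] at h
  · conv_lhs => rw [← hBA]
    exact Subgroup.commutator_mono le_rfl le_sup_left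

omit c in
lemma le_normalizer_of_comm_le {U N : Subgroup G} (h : ⁅U, N⁆ ≤ N) :
    U ≤ Subgroup.normalizer (N : Set G) := by
  intro u hu
  rw [Subgroup.mem_normalizer_iff]
  intro n
  have key : ∀ {u : G}, u ∈ U → ∀ {n : G}, n ∈ N → u * n * u⁻¹ ∈ N := by
    intro u hu n hn
    have h1 : u * n * u⁻¹ * n⁻¹ ∈ ⁅U, N⁆ := comm_mem hu hn
    have e : u * n * u⁻¹ = (u * n * u⁻¹ * n⁻¹) * n := by group
    rw [e]
    exact N.mul_mem (h h1) hn
  constructor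
  · exact fun hn => key hu hn
  · intro hn
    have := key (U.inv_mem hu) hn
    have e : u⁻¹ * (u * n * u⁻¹) * u⁻¹⁻¹ = n := by group
    rwa [e] at this

lemma le_normalizer_N : B ⊔ D ≤ Subgroup.normalizer ((A ⊔ C : Subgroup G) : Set G) := by
  refine sup_le (le_normalizer_of_comm_le ?_) (le_normalizer_of_comm_le ?_)
  · rw [c.comm_B_N]; exact le_sup_right
  · rw [c.comm_D_N]; exact le_sup_left

lemma conj_N {x : G} (hx : x ∈ B ⊔ D) : conjBy (A ⊔ C) x = A ⊔ C :=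
  mem_normalizer_iff_conjBy.1 (c.le_normalizer_N hx)

lemma phi_conj (U : Subgroup G) {x : G} (hx : x ∈ B ⊔ D) :
    ⁅conjBy U x, A ⊔ C⁆ = conjBy ⁅U, A ⊔ C⁆ x := by
  have h1 := c.conj_N hx
  have h2 : conjBy ⁅U, A ⊔ C⁆ x = ⁅conjBy U x, conjBy (A ⊔ C) x⁆ := Subgroup.map_commutator _ _ _
  rw [h2, h1]

lemma conj_A_eq {x : G} (hx : x ∈ B ⊔ D) : conjBy A x = ⁅conjBy D x, A ⊔ C⁆ := by
  rw [c.phi_conj D hx, c.comm_D_N]

lemma conj_C_eq {x : G} (hx : x ∈ B ⊔ D) : conjBy C x = ⁅conjBy B x, A ⊔ C⁆ := by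
  rw [c.phi_conj B hx, c.comm_B_N]

lemma phi₁ {U : Subgroup G} (hU : U ∈ unipotentSubgroups B D) :
    ⁅U, A ⊔ C⁆ ∈ (fun b : G => conjBy A b) '' (B : Set G) ∪ {C} := by
  rcases unipotent_eq_or c.rankOne_BD hU with rfl | ⟨b, hb, rfl⟩
  · right
    exact c.comm_B_N
  · left
    refine ⟨b, hb, ?_⟩
    exact (c.conj_A_eq (Subgroup.mem_sup_left hb)).symm ▸ rfl

lemma phi₂ {U : Subgroup G} (hU : U ∈ unipotentSubgroups D B) :
    ⁅U, A ⊔ C⁆ ∈ (fun d : G => conjBy C d) '' (D : Set G) ∪ {A} := by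
  rcases unipotent_eq_or (RankOnePair_symm c.rankOne_BD) hU with rfl | ⟨d, hd, rfl⟩
  · right
    exact c.comm_D_N
  · left
    refine ⟨d, hd, ?_⟩
    exact (c.conj_C_eq (Subgroup.mem_sup_right hd)).symm ▸ rfl

/-- `C` is a conjugate of `A` under `X`. -/
lemma exists_conj_A_eq_C : ∃ z ∈ B ⊔ D, conjBy A z = C ∧ conjBy D z = B := by
  obtain ⟨z, hz, he⟩ := right_mem_unipotent (RankOnePair_symm c.rankOne_BD)
  have hz' : z ∈ B ⊔ D := by rwa [sup_comm]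
  refine ⟨z, hz', ?_, he.symm⟩
  rw [c.conj_A_eq hz', ← he, c.comm_B_N]

lemma exists_conj_C_eq_A : ∃ z ∈ B ⊔ D, conjBy C z = A ∧ conjBy B z = D := by
  obtain ⟨z, hz, he⟩ := right_mem_unipotent c.rankOne_BD
  refine ⟨z, hz, ?_, he.symm⟩
  rw [c.conj_C_eq hz, ← he, c.comm_D_N]

lemma T1_sub_I1 {x : G} (hx : x ∈ B ⊔ D) :
    conjBy A x ∈ (fun b : G => conjBy A b) '' (B : Set G) ∪ {C} := by
  rw [c.conj_A_eq hx]
  exact c.phi₁ (conjBy_mem_unipotent (right_mem_unipotent c.rankOne_BD) hx)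

lemma T1_sub_I2 {x : G} (hx : x ∈ B ⊔ D) :
    conjBy A x ∈ (fun d : G => conjBy C d) '' (D : Set G) ∪ {A} := by
  rw [c.conj_A_eq hx]
  apply c.phi₂
  exact conjBy_mem_unipotent left_mem_unipotent (by rwa [sup_comm])

lemma T2_sub_I1 {x : G} (hx : x ∈ B ⊔ D) :
    conjBy C x ∈ (fun b : G => conjBy A b) '' (B : Set G) ∪ {C} := by
  rw [c.conj_C_eq hx]
  exact c.phi₁ (conjBy_mem_unipotent left_mem_unipotent hx)

lemma I1_sub_T1 {E : Subgroup G} (hE : E ∈ (fun b : G => conjBy A b) '' (B : Set G) ∪ {C}) :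
    ∃ x ∈ B ⊔ D, E = conjBy A x := by
  rcases hE with ⟨b, hb, rfl⟩ | hE
  · exact ⟨b, Subgroup.mem_sup_left hb, rfl⟩
  · obtain ⟨z, hz, h1, -⟩ := c.exists_conj_A_eq_C
    exact ⟨z, hz, by rw [h1]; exact hE⟩

lemma I1_sub_T2 {E : Subgroup G} (hE : E ∈ (fun b : G => conjBy A b) '' (B : Set G) ∪ {C}) :
    ∃ x ∈ B ⊔ D, E = conjBy C x := by
  rcases hE with ⟨b, hb, rfl⟩ | hE
  · obtain ⟨z, hz, h1, -⟩ := c.exists_conj_C_eq_A
    refine ⟨b * z, Subgroup.mul_mem _ (Subgroup.mem_sup_left hb) hz, ?_⟩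
    rw [← conjBy_conjBy, h1]
  · exact ⟨1, Subgroup.one_mem _, by simpa using hE⟩

lemma I2_sub_T1 {E : Subgroup G} (hE : E ∈ (fun d : G => conjBy C d) '' (D : Set G) ∪ {A}) :
    ∃ x ∈ B ⊔ D, E = conjBy A x := by
  rcases hE with ⟨d, hd, rfl⟩ | hE
  · obtain ⟨z, hz, h1, -⟩ := c.exists_conj_A_eq_C
    refine ⟨d * z, Subgroup.mul_mem _ (Subgroup.mem_sup_right hd) hz, ?_⟩
    rw [← conjBy_conjBy, h1]
  · exact ⟨1, Subgroup.one_mem _, by simpa using hE⟩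

lemma T_le_N {x : G} (hx : x ∈ B ⊔ D) : conjBy A x ≤ A ⊔ C := by
  rw [← c.conj_N hx]
  rintro _ ⟨y, hy, rfl⟩
  exact ⟨y, Subgroup.mem_sup_left hy, rfl⟩

lemma inf_phi {U₁ U₂ : Subgroup G} (hU₁ : U₁ ∈ unipotentSubgroups B D)
    (hU₂ : U₂ ∈ unipotentSubgroups B D) (hne : U₁ ≠ U₂) : ⁅U₁, A ⊔ C⁆ ⊓ ⁅U₂, A ⊔ C⁆ = ⊥ := by
  obtain ⟨x, hx, hx1, hx2⟩ := exists_carry c.rankOne_BD hU₁ hU₂ hne
  rw [eq_bot_iff]
  rintro z ⟨hz₁, hz₂⟩
  have h1 : x * z * x⁻¹ ∈ C := by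
    have := conj_mem_conjBy hz₁ x
    rwa [← c.phi_conj U₁ hx, hx1, c.comm_B_N] at this
  have h2 : x * z * x⁻¹ ∈ A := by
    have := conj_mem_conjBy hz₂ x
    rwa [← c.phi_conj U₂ hx, hx2, c.comm_D_N] at this
  have h3 : x * z * x⁻¹ ∈ A ⊓ C := ⟨h2, h1⟩
  rw [c.inf_AC] at h3
  have h4 : x * z * x⁻¹ = 1 := h3
  have h5 : z = x⁻¹ * (x * z * x⁻¹) * x := by group
  rw [h5, h4]
  simp

theorem partition : IsSubgroupPartition (A ⊔ C) {E | ∃ x ∈ B ⊔ D, E = conjBy A x} := by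
  refine ⟨?_, ?_, ?_⟩
  · rintro _ ⟨x, hx, rfl⟩
    exact c.T_le_N hx
  · intro x hx _
    have h := line_cover c.caseAB (x := x) (by rw [c.hAB]; exact hx)
    rw [c.hAB] at h
    rcases h with h | ⟨b, hb, h⟩
    · obtain ⟨z, hz, h1, -⟩ := c.exists_conj_A_eq_C
      exact ⟨C, ⟨z, hz, h1.symm⟩, h⟩
    · exact ⟨_, ⟨b, Subgroup.mem_sup_left hb, rfl⟩, h⟩
  · rintro _ ⟨x₁, hx₁, rfl⟩ _ ⟨x₂, hx₂, rfl⟩ hne
    rw [c.conj_A_eq hx₁, c.conj_A_eq hx₂]
    apply c.inf_phi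
    · exact conjBy_mem_unipotent (right_mem_unipotent c.rankOne_BD) hx₁
    · exact conjBy_mem_unipotent (right_mem_unipotent c.rankOne_BD) hx₂
    · intro h
      apply hne
      rw [c.conj_A_eq hx₁, c.conj_A_eq hx₂, h]

/-- Centralizer of `N` in `X` is central in `X`. -/
theorem centralizer_central {x y : G} (hx : x ∈ (B ⊔ D) ⊓ Subgroup.centralizer ((A ⊔ C : Subgroup G) : Set G))
    (hy : y ∈ B ⊔ D) : x * y = y * x := by
  have hr := c.rankOne_BD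
  -- elements of K fix all unipotent subgroups
  have hfix : ∀ k ∈ (B ⊔ D) ⊓ Subgroup.centralizer ((A ⊔ C : Subgroup G) : Set G),
      ∀ U ∈ unipotentSubgroups B D, conjBy U k = U := by
    intro k hk U hU
    have hk₁ : k ∈ B ⊔ D := hk.1
    have hk₂ : k ∈ Subgroup.centralizer ((A ⊔ C : Subgroup G) : Set G) := hk.2
    by_contra hne
    have hU' : conjBy U k ∈ unipotentSubgroups B D := conjBy_mem_unipotent hU hk₁
    have hinf := c.inf_phi hU hU' (Ne.symm hne)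
    have hle : ⁅U, A ⊔ C⁆ ≤ A ⊔ C := by
      have hn : U ≤ Subgroup.normalizer ((A ⊔ C : Subgroup G) : Set G) := by
        obtain ⟨z, hz, rfl⟩ := hU
        rintro _ ⟨u, hu, rfl⟩
        apply c.le_normalizer_N
        exact Subgroup.mul_mem _ (Subgroup.mul_mem _ hz (Subgroup.mem_sup_left hu)) (Subgroup.inv_mem _ hz)
      rw [Subgroup.commutator_le]
      intro u hu n hn'
      rw [commutatorElement_def]
      have h1 : u * n * u⁻¹ ∈ A ⊔ C := (Subgroup.mem_normalizer_iff.1 (hn hu) n).1 hn'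
      exact Subgroup.mul_mem _ h1 (Subgroup.inv_mem _ hn')
    have heq : ⁅conjBy U k, A ⊔ C⁆ = ⁅U, A ⊔ C⁆ := by
      rw [c.phi_conj U hk₁]
      ext z
      rw [mem_conjBy]
      have hzc : ∀ {w : G}, w ∈ ⁅U, A ⊔ C⁆ → k * w = w * k := fun hw =>
        (Subgroup.mem_centralizer_iff.1 hk₂ _ (hle hw)).symm
      constructor
      · intro hz
        have h1 := hzc hz
        have e : z = k * (k⁻¹ * z * k) * k⁻¹ := by group
        rw [e, h1]
        simpa using hz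
      · intro hz
        have h1 := hzc hz
        have e : k⁻¹ * z * k = z := by
          rw [mul_assoc, ← h1]; group
        rwa [e]
    rw [heq, _root_.inf_idem] at hinf
    -- `⁅U, N⁆` is a conjugate of `A` or equal to `C`
    obtain ⟨z, hz, rfl⟩ := hU
    rw [c.conj_C_eq hz |>.symm] at hinf
    have hCne := c.hS.ne_bot C c.hC
    apply hCne
    have h2 : conjBy (conjBy C z) z⁻¹ = C := by
      rw [conjBy_conjBy]; simp
    rw [← h2, hinf, eq_bot_iff]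
    rintro _ ⟨w, hw, rfl⟩
    have : w = 1 := hw
    simp [this]
  have hx' := hx
  have hx₁ : x ∈ B ⊔ D := hx.1
  have hx₂ : x ∈ Subgroup.centralizer ((A ⊔ C : Subgroup G) : Set G) := hx.2
  have hconjK : ∀ g ∈ B ⊔ D, g * x * g⁻¹ ∈ (B ⊔ D) ⊓ Subgroup.centralizer ((A ⊔ C : Subgroup G) : Set G) := by
    intro g hg
    refine ⟨Subgroup.mul_mem _ (Subgroup.mul_mem _ hg hx₁) (Subgroup.inv_mem _ hg), ?_⟩
    show g * x * g⁻¹ ∈ Subgroup.centralizer ((A ⊔ C : Subgroup G) : Set G)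
    rw [Subgroup.mem_centralizer_iff]
    intro n hn
    have hn' : g⁻¹ * n * g⁻¹⁻¹ ∈ A ⊔ C :=
      (Subgroup.mem_normalizer_iff.1 (c.le_normalizer_N (Subgroup.inv_mem _ hg)) n).1 hn
    have h1 := Subgroup.mem_centralizer_iff.1 hx₂ _ hn'
    rw [inv_inv] at h1
    calc n * (g * x * g⁻¹) = g * ((g⁻¹ * n * g) * x) * g⁻¹ := by group
      _ = g * (x * (g⁻¹ * n * g)) * g⁻¹ := by rw [h1]
      _ = _ := by group
  have hwmem : ∀ g ∈ B ⊔ D, x * g * x⁻¹ * g⁻¹ ∈ (B ⊔ D) ⊓ Subgroup.centralizer ((A ⊔ C : Subgroup G) : Set G) := by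
    intro g hg
    have h1 := hconjK g hg
    have e : x * g * x⁻¹ * g⁻¹ = x * (g * x * g⁻¹)⁻¹ := by group
    rw [e]
    exact Subgroup.mul_mem _ hx' (Subgroup.inv_mem _ h1)
  have hfixB := hfix x hx' B left_mem_unipotent
  have hfixD := hfix x hx' D (right_mem_unipotent hr)
  have hcB : ∀ b ∈ B, x * b = b * x := by
    intro b hb
    have h1 : x * b * x⁻¹ ∈ B := by
      rw [← hfixB]; exact conj_mem_conjBy hb x
    have h2 : x * b * x⁻¹ * b⁻¹ ∈ B := B.mul_mem h1 (B.inv_mem hb)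
    have h3 := hfix _ (hwmem b (Subgroup.mem_sup_left hb)) D (right_mem_unipotent hr)
    have h4 := eq_one_of_conjBy_eq hr h2 h3
    have h5 : x * b * x⁻¹ = b := mul_inv_eq_one.1 h4
    exact mul_inv_eq_iff_eq_mul.1 h5
  have hcD : ∀ d ∈ D, x * d = d * x := by
    intro d hd
    have h1 : x * d * x⁻¹ ∈ D := by
      rw [← hfixD]; exact conj_mem_conjBy hd x
    have h2 : x * d * x⁻¹ * d⁻¹ ∈ D := D.mul_mem h1 (D.inv_mem hd)
    have h3 := hfix _ (hwmem d (Subgroup.mem_sup_right hd)) B left_mem_unipotent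
    have h4 := eq_one_of_conjBy_eq (RankOnePair_symm hr) h2 h3
    have h5 : x * d * x⁻¹ = d := mul_inv_eq_one.1 h4
    exact mul_inv_eq_iff_eq_mul.1 h5
  exact comm_sup hcB hcD y hy

end Ctx

end Cfsg.Agent.Lib.RootSubgroups.SL2Module
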