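/-
Non-degenerate classes of abstract root subgroups: E-graph, generation, weak TI-subsets
(S5040, S5041, S5042).
-/
import Mathlib
import Cfsg.Prelude.Def_RootSubgroups
import Cfsg.Agent.Lib.RootSubgroups.RankOne
import Cfsg.Agent.Lib.RootSubgroups.Abstract
import Cfsg.Agent.Lib.RootSubgroups.Abstract2
import Cfsg.Agent.Lib.RootSubgroups.LineConn
import Cfsg.Agent.Lib.RootSubgroups.Nondeg
import Cfsg.Agent.Lib.RootSubgroups.SL2Module
import Cfsg.Agent.Lib.RootSubgroups.LineTrans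

set_option autoImplicit false

namespace Cfsg.Agent.Lib.RootSubgroups.Classes

open Cfsg Cfsg.Agent.Lib.RootSubgroups.RankOne Cfsg.Agent.Lib.RootSubgroups.Abstract
  Cfsg.Agent.Lib.RootSubgroups.Abstract2 Cfsg.Agent.Lib.RootSubgroups.LineConn
  Cfsg.Agent.Lib.RootSubgroups.Nondeg Cfsg.Agent.Lib.RootSubgroups.LineTrans
open scoped commutatorElement

variable {G : Type*} [Group G] {A B C D E F L M X Y Z : Subgroup G} {S : Set (Subgroup G)}

lemma conjBy_commutator (P Q : Subgroup G) (g : G) : conjBy ⁅P, Q⁆ g = ⁅conjBy P g, conjBy Q g⁆ :=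
  Subgroup.map_commutator _ _ _

lemma conjBy_le_conjBy' {P Q : Subgroup G} (h : P ≤ Q) (g : G) : conjBy P g ≤ conjBy Q g :=
  Subgroup.map_mono h

/-- Members in a conjugate line. -/
lemma members_conj (hS : IsRootSubgroupSet S) {U : Subgroup G} {M : Subgroup G}
    (hM : M ∈ membersIn S U) (g : G) : conjBy M g ∈ membersIn S (conjBy U g) :=
  ⟨hS.conj_mem M hM.1 g, conjBy_le_conjBy' hM.2 g⟩

/-- Conjugation preserves line partners. -/
lemma linePartner_conj (hS : IsRootSubgroupSet S) (hL : L ∈ linePartners S A) (g : G) :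
    conjBy L g ∈ linePartners S (conjBy A g) := by
  obtain ⟨⟨hLS, hne, hc⟩, hp⟩ := hL
  refine ⟨⟨hS.conj_mem L hLS g, fun h => hne (conjBy_inj.1 h), ?_⟩, ?_⟩
  · rw [← conjBy_commutator, hc]
    rw [eq_bot_iff]
    rintro _ ⟨y, hy, rfl⟩
    have : y = 1 := hy
    simp [this]
  · rw [← conjBy_sup]
    refine ⟨fun M hM => hM.2, ?_, ?_⟩
    · intro x hx hx1
      have hx' : g⁻¹ * x * g ∈ A ⊔ L := by
        rw [mem_conjBy] at hx
        exact hx
      have h1 : g⁻¹ * x * g ≠ 1 := by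
        intro h
        apply hx1
        have e : x = g * (g⁻¹ * x * g) * g⁻¹ := by group
        rw [e, h]; simp
      obtain ⟨M, hM, hxM⟩ := hp.2.1 _ hx' h1
      refine ⟨conjBy M g, members_conj hS hM g, ?_⟩
      rw [mem_conjBy]
      exact hxM
    · intro C₁ hC₁ C₂ hC₂ hne'
      have hmem : ∀ {K : Subgroup G}, K ∈ membersIn S (conjBy (A ⊔ L) g) →
          conjBy K g⁻¹ ∈ membersIn S (A ⊔ L) := by
        intro K hK
        have := members_conj hS hK g⁻¹
        rwa [conjBy_conjBy, inv_mul_cancel, conjBy_one] at this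
      have h1 := hp.2.2 _ (hmem hC₁) _ (hmem hC₂) (fun h => hne' (conjBy_inj.1 h))
      rw [eq_bot_iff]
      rintro z ⟨hz₁, hz₂⟩
      have h2 : g⁻¹ * z * g⁻¹⁻¹ ∈ conjBy C₁ g⁻¹ ⊓ conjBy C₂ g⁻¹ :=
        ⟨conj_mem_conjBy hz₁ _, conj_mem_conjBy hz₂ _⟩
      rw [h1] at h2
      have h3 : g⁻¹ * z * g⁻¹⁻¹ = 1 := h2
      have e : z = g * (g⁻¹ * z * g⁻¹⁻¹) * g⁻¹ := by group
      rw [e, h3]; simp

/-- Line partners are symmetric. -/
lemma linePartner_symm (hL : L ∈ linePartners S A) (hA : A ∈ S) : A ∈ linePartners S L := by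
  obtain ⟨⟨hLS, hne, hc⟩, hp⟩ := hL
  refine ⟨⟨hA, hne.symm, ?_⟩, ?_⟩
  · rw [Subgroup.commutator_comm]; exact hc
  · rw [sup_comm]; exact hp

/-- A rank one pair never has its commutator in the set. -/
lemma not_rankOne_of_mem (hS : IsRootSubgroupSet S) (hA : A ∈ S) (hC : ⁅A, B⁆ ∈ S)
    (h1 : IsRankOnePair A B) : False := by
  obtain ⟨a, ha, ha1⟩ := exists_ne_one_left h1
  have hcomm : ⁅A, ⁅A, B⁆⁆ = ⊥ := by
    rcases hS.pair A hA _ hC with h2 | h2 | h2
    · exact h2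
    · exact absurd (eq_one_of_conjBy_eq h2 ha (conjBy_commutator_left ha)) ha1
    · exact absurd (conjBy_commutator_left ha) (conjBy_ne_self h2 hS ha ha1)
  obtain ⟨d, hd, -, he⟩ := h1.cond_left a ha ha1
  have hw : d⁻¹ * a * d⁻¹⁻¹ * a⁻¹ ∈ ⁅A, B⁆ := by
    rw [Subgroup.commutator_comm]
    exact comm_mem (B.inv_mem hd) ha
  rw [inv_inv] at hw
  have := commute_of_bot hcomm ha hw
  exact not_commute_matched h1 ha ha1 hd he this.symm

section Class

variable (hS : IsRootSubgroupClass S) (hnd : IsNondegenerateRootSet S)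
include hS hnd

/-- Every member has a rank one partner. -/
lemma exists_partner (hA : A ∈ S) : ∃ F ∈ S, IsRankOnePair A F := by
  obtain ⟨-, ⟨A₀, hA₀, B₀, hB₀, hr⟩, -⟩ := hnd
  obtain ⟨g, rfl⟩ := hS.2.2 A₀ hA₀ A hA
  exact ⟨conjBy B₀ g, hS.1.conj_mem B₀ hB₀ g, isRankOnePair_conjBy hr g⟩

/-- A rank one pair is joined in the graph of line partners. -/
lemma eConn_of_rankOne (hA : A ∈ S) (hF : F ∈ S) (hAF : IsRankOnePair A F) :
    Relation.ReflTransGen (EAdj S S) A F := by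
  obtain ⟨C, hC, hFC⟩ := exists_line_comm hS hnd hA hF hAF
  have hCS := hC.1.1
  have caseFC := commutatorCase_of_mem hS.1 hF hCS hFC
  obtain ⟨KC, hKC, hCKC⟩ := exists_partner hS hnd hCS
  have h1 : F ∈ linePartners S ⁅F, C⁆ := line_partner hS.1 hF caseFC hA (RankOnePair_symm hAF)
  have h2 : C ∈ linePartners S ⁅F, C⁆ := by
    have := line_partner hS.1 hCS (commutatorCase_symm caseFC) hKC hCKC
    rwa [Subgroup.commutator_comm] at this
  have hD := caseFC.1
  refine Relation.ReflTransGen.trans (Relation.ReflTransGen.single ⟨hA, hCS, hC⟩) ?_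
  refine Relation.ReflTransGen.trans (Relation.ReflTransGen.single ⟨hCS, hD, linePartner_symm h2 hD⟩) ?_
  exact Relation.ReflTransGen.single ⟨hD, hF, h1⟩

/-- The graph of line partners is connected. -/
theorem eConnected : IsConnectedFamily (EAdj S S) S := by
  intro A hA B hB
  have hc : IsConnectedFamily (FAdj S) S := by
    rw [connected_iff hS.1]
    · obtain ⟨F, hF, hAF⟩ := exists_partner hS hnd hA
      exact ⟨hS.2, A, hA, not_isolated_of_partner hA hF hAF⟩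
    · obtain ⟨F, hF, hAF⟩ := exists_partner hS hnd hA
      exact ⟨A, hA, F, hF, hAF.ne⟩
  have hp := hc A hA B hB
  clear hB
  induction hp with
  | refl => exact Relation.ReflTransGen.refl
  | tail _ h2 ih =>
    exact ih.trans (eConn_of_rankOne hS hnd h2.1 h2.2.1 h2.2.2)

/-- The commuting graph is connected. -/
theorem dConnected : IsConnectedFamily (DAdj S) S := by
  intro A hA B hB
  have hp := eConnected hS hnd A hA B hB
  clear hB
  induction hp with
  | refl => exact Relation.ReflTransGen.refl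
  | tail _ h2 ih =>
    refine ih.tail ?_
    obtain ⟨h3, h4, ⟨-, h5, h6⟩, -⟩ := h2
    exact ⟨h3, h4, h5.symm, h6⟩

/-- Existence of `P` with `⁅P, Z⁆ = X` on a line. -/
lemma exists_P (hX : X ∈ S) (hZ : Z ∈ linePartners S X) {E₀ : Subgroup G} (hE₀ : E₀ ∈ S)
    (hQ : ⁅X, E₀⁆ = Z) : ∃ P ∈ S, ⁅P, Z⁆ = X := by
  have hZS := hZ.1.1
  obtain ⟨F₁, hF₁, hZF₁⟩ := exists_partner hS hnd hZS
  obtain ⟨KX, hKX, hXKX⟩ := exists_partner hS hnd hX
  have hXZ : X ∈ linePartners S Z := linePartner_symm hZ hX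
  obtain ⟨C₁, hC₁, hC₁le, hC₁ne, hF₁C₁⟩ := exists_comm_in_line hS.1 hZS hF₁ hZF₁ hXZ
  obtain ⟨hcomm, hLP⟩ := lp_of_le_line hS.1 hZS hF₁ hZF₁ hXZ hC₁ hC₁le hC₁ne
  have hQ₁ := comm_comm_eq hS.1 hZS hC₁ hF₁ hZF₁ hcomm hLP hF₁C₁
  have hQ₁' : ⁅⁅F₁, C₁⁆, Z⁆ = C₁ := by rw [Subgroup.commutator_comm]; exact hQ₁
  -- `C₁` lies on the line `X ⊔ Z`
  have hcase : RootCommutatorCase S X E₀ := commutatorCase_of_mem hS.1 hX hE₀ (hQ ▸ hZS)
  have hmem := members_eq hS.1 hX hcase hKX hXKX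
  have hC₁m : C₁ ∈ membersIn S (X ⊔ ⁅X, E₀⁆) := ⟨hC₁, by
    rw [hQ, sup_comm]; exact hC₁le⟩
  rw [hmem] at hC₁m
  rcases hC₁m with ⟨e, he, rfl⟩ | h
  · refine ⟨conjBy ⁅F₁, conjBy X e⁆ e⁻¹, hS.1.conj_mem _ hF₁C₁ _, ?_⟩
    have hZe : conjBy Z e⁻¹ = Z := by
      rw [← hQ]
      exact conjBy_commutator_right (E₀.inv_mem he)
    calc ⁅conjBy ⁅F₁, conjBy X e⁆ e⁻¹, Z⁆ = ⁅conjBy ⁅F₁, conjBy X e⁆ e⁻¹, conjBy Z e⁻¹⁆ := by rw [hZe]
      _ = conjBy ⁅⁅F₁, conjBy X e⁆, Z⁆ e⁻¹ := (conjBy_commutator _ _ _).symm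
      _ = conjBy (conjBy X e) e⁻¹ := by rw [hQ₁']
      _ = X := by rw [conjBy_conjBy]; simp
  · exfalso
    apply hC₁ne
    rw [Set.mem_singleton_iff, hQ] at h
    exact h

/-- Generation: `⟨Λ_A, B⟩ = G`. -/
theorem generation (hA : A ∈ S) (hB : B ∈ S) (hAB : IsRankOnePair A B) :
    (⨆ C ∈ linePartners S A, C) ⊔ B = ⊤ := by
  set H := (⨆ C ∈ linePartners S A, C) ⊔ B with hH
  have hΛ : ∀ C ∈ linePartners S A, C ≤ H := fun C hC =>
    (le_iSup₂ (f := fun (C : Subgroup G) (_ : C ∈ linePartners S A) => C) C hC).trans le_sup_left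
  have hBH : B ≤ H := le_sup_right
  -- the property
  let P : Subgroup G → Prop := fun X =>
    (∃ Y ∈ S, Y ≤ H ∧ IsRankOnePair X Y) ∧ ∀ L ∈ linePartners S X, L ≤ H
  have hstep : ∀ {X Z : Subgroup G}, X ∈ S → P X → Z ∈ linePartners S X → P Z := by
    rintro X Z hX ⟨⟨Y, hY, hYH, hXY⟩, hXΛ⟩ hZ
    have hZS := hZ.1.1
    have hz : ∃ z ∈ H, conjBy X z = Z := by
      obtain ⟨KZ, hKZ, hZKZ⟩ := exists_partner hS hnd hZS
      rcases hS.1.pair Y hY Z hZS with h | h | h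
      · exfalso
        exact not_commute_of_lp hS.1 hX hY hXY hZ.1.2.2
          (lp_of_le_line hS.1 hX hY hXY hZ hZS le_sup_right hZ.1.2.1).2 (hS.1.ne_bot Z hZS) h
      · -- rank one: a third point
        obtain ⟨C₀, hC₀, hC₀le, hC₀ne, hYC₀⟩ := exists_comm_in_line hS.1 hX hY hXY hZ
        obtain ⟨hcomm, hLP⟩ := lp_of_le_line hS.1 hX hY hXY hZ hC₀ hC₀le hC₀ne
        have hcase := case_A_D hS.1 hX hC₀ hY hXY hcomm hLP hYC₀
        have hQ := comm_comm_eq hS.1 hX hC₀ hY hXY hcomm hLP hYC₀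
        have hC₀Λ : ⁅Y, C₀⁆ ≤ H := by
          have : C₀ ≤ H := by
            apply hXΛ
            refine ⟨⟨hC₀, hC₀ne, hcomm⟩, ?_⟩
            have := line_partition hS.1 hX hcase hY hXY
            rwa [hQ] at this
          rw [Subgroup.commutator_le]
          intro y hy c hc
          rw [commutatorElement_def]
          exact H.mul_mem (H.mul_mem (H.mul_mem (hYH hy) (this hc)) (H.inv_mem (hYH hy)))
            (H.inv_mem (this hc))
        have hmem := members_eq hS.1 hX hcase hY hXY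
        rw [hQ] at hmem
        have hsup : X ⊔ C₀ = X ⊔ Z := by
          have hC₀m : C₀ ∈ membersIn S (X ⊔ Z) := ⟨hC₀, hC₀le⟩
          exact sup_eq_line hS.1 hX hY hXY hZ hKZ hZKZ hC₀m hC₀ne
        have hZm : Z ∈ membersIn S (X ⊔ C₀) := ⟨hZS, by rw [hsup]; exact le_sup_right⟩
        rw [hmem] at hZm
        rcases hZm with ⟨e, he, hez⟩ | h'
        · exact ⟨e, hC₀Λ he, hez⟩
        · exfalso
          rw [Set.mem_singleton_iff] at h'
          rw [h'] at h
          exact not_rankOne_of_mem hS.1 hY hYC₀ h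
      · -- commutator case
        have hcaseFB := h
        obtain ⟨hcomm, hLP⟩ := lp_of_le_line hS.1 hX hY hXY hZ hZS le_sup_right hZ.1.2.1
        have hYZ := h.1
        have hcase := case_A_D hS.1 hX hZS hY hXY hcomm hLP hYZ
        have hQ := comm_comm_eq hS.1 hX hZS hY hXY hcomm hLP hYZ
        obtain ⟨P', hP', hP'Q⟩ := exists_P hS hnd hX hZ hYZ hQ
        have c : Cfsg.Agent.Lib.RootSubgroups.SL2Module.Ctx S X ⁅Y, Z⁆ Z P' :=
          ⟨hS.1, hX, hYZ, hZS, hP', hQ, hP'Q⟩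
        obtain ⟨z, hz, hzX, -⟩ := c.exists_conj_A_eq_C
        have hP'Λ : P' ≤ H := by
          apply hXΛ
          have hcaseP := commutatorCase_of_mem hS.1 hP' hZS (hP'Q ▸ hX)
          obtain ⟨KP, hKP, hPKP⟩ := exists_partner hS hnd hP'
          have := line_partner hS.1 hP' hcaseP hKP hPKP
          rwa [hP'Q] at this
        have hDH : ⁅Y, Z⁆ ≤ H := by
          have hZH : Z ≤ H := hXΛ Z hZ
          rw [Subgroup.commutator_le]
          intro y hy c hc
          rw [commutatorElement_def]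
          exact H.mul_mem (H.mul_mem (H.mul_mem (hYH hy) (hZH hc)) (H.inv_mem (hYH hy)))
            (H.inv_mem (hZH hc))
        exact ⟨z, (sup_le hDH hP'Λ) hz, hzX⟩
    obtain ⟨z, hzH, rfl⟩ := hz
    refine ⟨⟨conjBy Y z, hS.1.conj_mem Y hY z, ?_, isRankOnePair_conjBy hXY z⟩, ?_⟩
    · rintro _ ⟨y, hy, rfl⟩
      exact H.mul_mem (H.mul_mem hzH (hYH hy)) (H.inv_mem hzH)
    · intro L hL
      have h1 := linePartner_conj hS.1 hL z⁻¹
      rw [conjBy_conjBy, inv_mul_cancel, conjBy_one] at h1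
      have h2 := hXΛ _ h1
      intro y hy
      have h3 : z⁻¹ * y * z⁻¹⁻¹ ∈ conjBy L z⁻¹ := conj_mem_conjBy hy _
      have h4 := h2 h3
      have e : y = z * (z⁻¹ * y * z⁻¹⁻¹) * z⁻¹ := by group
      rw [e]
      exact H.mul_mem (H.mul_mem hzH h4) (H.inv_mem hzH)
  have hPA : P A := ⟨⟨B, hB, hBH, hAB⟩, hΛ⟩
  -- `A ≤ H`
  have hAH : A ≤ H := by
    obtain ⟨C, hC, -⟩ := exists_line_comm hS hnd hA hB hAB
    have hCS := hC.1.1
    obtain ⟨KC, hKC, hCKC⟩ := exists_partner hS hnd hCS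
    have hCH := hΛ C hC
    obtain ⟨c, hc, hc1⟩ := exists_ne_one_left hCKC
    have hinf : A ⊓ C = ⊥ := by
      rcases inf_eq_bot_or_eq hS.1 hCS hB hAB with h | h
      · exact h
      · exact absurd h.symm hC.1.2.1
    intro a ha
    by_cases ha1 : a = 1
    · rw [ha1]; exact H.one_mem
    have hac1 : a * c ≠ 1 := by
      intro h
      apply ha1
      have e : a = c⁻¹ := eq_inv_of_mul_eq_one_left h
      have h2 : a ∈ A ⊓ C := ⟨ha, by rw [e]; exact C.inv_mem hc⟩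
      rw [hinf] at h2
      exact h2
    obtain ⟨M, hM, hacM⟩ := hC.2.2.1 _ (Subgroup.mul_mem _ (Subgroup.mem_sup_left ha)
      (Subgroup.mem_sup_right hc)) hac1
    have hMne : M ≠ A := by
      rintro rfl
      apply hc1
      have e : c = a⁻¹ * (a * c) := by group
      have h2 : c ∈ M ⊓ C := ⟨by rw [e]; exact M.mul_mem (M.inv_mem ha) hacM, hc⟩
      rw [hinf] at h2
      exact h2
    have hsup := sup_eq_line hS.1 hA hB hAB hC hKC hCKC hM hMne
    have hMΛ : M ∈ linePartners S A := by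
      obtain ⟨hcomm, -⟩ := lp_of_le_line hS.1 hA hB hAB hC hM.1 hM.2 hMne
      refine ⟨⟨hM.1, hMne, hcomm⟩, ?_⟩
      rw [hsup]
      exact hC.2
    have hMH := hΛ M hMΛ
    have e : a = (a * c) * c⁻¹ := by group
    rw [e]
    exact H.mul_mem (hMH hacM) (H.inv_mem (hCH hc))
  -- all members are in `H`
  have hall : ∀ R ∈ S, R ≤ H := by
    intro R hR
    have hp := eConnected hS hnd A hA R hR
    by_cases hRA : R = A
    · rw [hRA]; exact hAH
    have key : ∀ {R : Subgroup G}, Relation.ReflTransGen (EAdj S S) A R → R ∈ S ∧ P R := by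
      intro R hp
      induction hp with
      | refl => exact ⟨hA, hPA⟩
      | tail _ h2 ih => exact ⟨h2.2.1, hstep ih.1 ih.2 h2.2.2⟩
    -- `R` is a line partner of its predecessor
    rcases Relation.ReflTransGen.cases_tail hp with h | ⟨Q, hQ, hQR⟩
    · exact absurd h hRA
    · exact (key hQ).2.2 R hQR.2.2
  rw [eq_top_iff, ← hS.1.generates]
  exact iSup₂_le hall

end Class

end Cfsg.Agent.Lib.RootSubgroups.Classes
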