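/-
Comparing centralizers and rank one partners of members of a class (S5037).
-/
import Mathlib
import Cfsg.Prelude.Def_RootSubgroups
import Cfsg.Agent.Lib.RootSubgroups.Classes

set_option autoImplicit false

namespace Cfsg.Agent.Lib.RootSubgroups.Incomparable

open Cfsg Cfsg.Agent.Lib.RootSubgroups.RankOne Cfsg.Agent.Lib.RootSubgroups.Abstract
  Cfsg.Agent.Lib.RootSubgroups.Abstract2 Cfsg.Agent.Lib.RootSubgroups.LineConn
  Cfsg.Agent.Lib.RootSubgroups.Nondeg Cfsg.Agent.Lib.RootSubgroups.Classes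
open scoped commutatorElement

variable {G : Type*} [Group G] {A B C D E F L M T U W X Y Z : Subgroup G} {S : Set (Subgroup G)}

lemma comm_conj {P Q : Subgroup G} (h : ⁅P, Q⁆ = ⊥) (g : G) : ⁅conjBy P g, conjBy Q g⁆ = ⊥ := by
  rw [← conjBy_commutator, h]
  exact Subgroup.map_bot _

lemma comm_unconj {P Q : Subgroup G} (g : G) (h : ⁅conjBy P g, conjBy Q g⁆ = ⊥) : ⁅P, Q⁆ = ⊥ := by
  have := comm_conj h g⁻¹
  simpa [conjBy_conjBy] using this

lemma mem_cm {P Q : Subgroup G} : Q ∈ centralizingMembers S P ↔ Q ∈ S ∧ ⁅P, Q⁆ = ⊥ := by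
  constructor
  · rintro ⟨h1, h2⟩
    refine ⟨h1, bot_of_commute fun a ha b hb => ?_⟩
    exact ((Subgroup.mem_centralizer_iff.1 (h2 hb)) a ha)
  · rintro ⟨h1, h2⟩
    refine ⟨h1, fun b hb => ?_⟩
    exact Subgroup.mem_centralizer_iff.2 fun a ha => commute_of_bot h2 ha hb

/-- A rank one pair does not commute. -/
lemma rankOne_not_comm (h : IsRankOnePair A B) : ⁅A, B⁆ ≠ ⊥ := by
  intro hc
  obtain ⟨a, ha, ha1⟩ := exists_ne_one_left h
  exact ha1 (eq_one_of_conjBy_eq h ha (conjBy_eq_self_of_commute fun b hb => commute_of_bot hc ha hb))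

/-- The Hall-Witt argument: `A` commuting with `B` and `⁅F, B⁆`, with `(A, F)` rank one, forces
`F` and `B` to commute. -/
lemma comm_bot_of_comm (hAF : IsRankOnePair A F) (hAB : ⁅A, B⁆ = ⊥) (h : ⁅A, ⁅F, B⁆⁆ = ⊥) :
    ⁅F, B⁆ = ⊥ := by
  have h1 : ⁅⁅A, B⁆, F⁆ = ⊥ := by rw [hAB]; exact Subgroup.commutator_bot_left F
  have h2 : ⁅⁅B, F⁆, A⁆ = ⊥ := by
    rw [Subgroup.commutator_comm B F, Subgroup.commutator_comm]; exact h
  have h3 : ⁅⁅F, A⁆, B⁆ = ⊥ := Subgroup.commutator_commutator_eq_bot_of_rotate h1 h2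
  apply bot_of_commute
  intro y hy b hb
  obtain ⟨a, ha, ha1⟩ := exists_ne_one_left hAF
  obtain ⟨f, hf, -, he⟩ := hAF.cond_left a ha ha1
  have : b * y = y * b := by
    apply commute_of_match he (commute_of_bot hAB ha hb).symm _ y hy
    intro a' ha'
    have hc : f⁻¹ * a' * f⁻¹⁻¹ * a'⁻¹ ∈ ⁅F, A⁆ := comm_mem (F.inv_mem hf) ha'
    have hc2 := commute_of_bot h3 hc hb
    have hab' := commute_of_bot hAB ha' hb
    rw [inv_inv] at hc2
    have e : f⁻¹ * a' * f = (f⁻¹ * a' * f * a'⁻¹) * a' := by group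
    rw [e]
    calc b * ((f⁻¹ * a' * f * a'⁻¹) * a') = (b * (f⁻¹ * a' * f * a'⁻¹)) * a' := by group
      _ = ((f⁻¹ * a' * f * a'⁻¹) * b) * a' := by rw [hc2]
      _ = (f⁻¹ * a' * f * a'⁻¹) * (b * a') := by group
      _ = (f⁻¹ * a' * f * a'⁻¹) * (a' * b) := by rw [hab']
      _ = _ := by group
  exact this.symm

/-- Commuting members with a common rank one partner are swapped by some element. -/
theorem swap (hAC : ⁅A, C⁆ = ⊥) (hAT : IsRankOnePair A T) (hCT : IsRankOnePair C T) :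
    ∃ h : G, conjBy A h = C ∧ conjBy C h = A := by
  obtain ⟨a, ha, ha1⟩ := exists_ne_one_left hAT
  obtain ⟨t₁, ht₁, ht₁1, he1⟩ := hAT.cond_left a ha ha1
  obtain ⟨c, hc, hc1, he2⟩ := hCT.cond_right t₁ ht₁ ht₁1
  obtain ⟨t', ht', ht'1, he3⟩ := hAT.cond_left a⁻¹ (A.inv_mem ha) (inv_ne_one.2 ha1)
  obtain ⟨t'', ht'', ht''1, he4⟩ := hCT.cond_left c⁻¹ (C.inv_mem hc) (inv_ne_one.2 hc1)
  rw [inv_inv] at he3 he4
  have hac : a * c = c * a := commute_of_bot hAC ha hc
  have h1 : ⁅conjBy T a⁻¹, conjBy T c⁻¹⁆ = ⊥ := by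
    rw [← he1, he2]
    exact comm_conj hAC _
  have h2 : ⁅conjBy T c, conjBy T a⁆ = ⊥ := by
    have := comm_conj h1 (a * c)
    rw [conjBy_conjBy, conjBy_conjBy] at this
    have e1 : a * c * a⁻¹ = c := by rw [hac]; group
    have e2 : a * c * c⁻¹ = a := by group
    rwa [e1, e2] at this
  have h3 : ⁅conjBy C t''⁻¹, conjBy A t'⁻¹⁆ = ⊥ := by rw [he3, he4]; exact h2
  have h4 : ⁅C, conjBy A (t'' * t'⁻¹)⁆ = ⊥ := by
    have := comm_conj h3 t''
    rw [conjBy_conjBy, conjBy_conjBy] at this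
    simpa using this
  have hs : t'' * t'⁻¹ = 1 := by
    by_contra hs1
    have hsm : t'' * t'⁻¹ ∈ T := T.mul_mem ht'' (T.inv_mem ht')
    obtain ⟨a', ha', ha'1, he'⟩ := exists_conjBy_left_eq hAT hsm hs1
    rw [he'] at h4
    have h5 := comm_conj h4 a'⁻¹
    rw [conjBy_conjBy] at h5
    have hCa : conjBy C a'⁻¹ = C := conjBy_eq_self_of_commute fun y hy =>
      commute_of_bot hAC (A.inv_mem ha') hy
    rw [hCa] at h5
    simp only [inv_mul_cancel, conjBy_one] at h5
    exact rankOne_not_comm hCT h5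
  have ht : t'' = t' := by
    have := mul_inv_eq_one.1 hs
    exact this
  subst ht
  refine ⟨t'' * c * a * t₁⁻¹, ?_, ?_⟩
  · calc conjBy A (t'' * c * a * t₁⁻¹) = conjBy (conjBy A t₁⁻¹) (t'' * c * a) :=
          (conjBy_conjBy _ _ _).symm
      _ = conjBy (conjBy T a⁻¹) (t'' * c * a) := by rw [he1]
      _ = conjBy T (t'' * c * a * a⁻¹) := conjBy_conjBy _ _ _
      _ = conjBy T (t'' * c) := by congr 1; group
      _ = conjBy (conjBy T c) t'' := (conjBy_conjBy _ _ _).symm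
      _ = conjBy (conjBy C t''⁻¹) t'' := by rw [he4]
      _ = C := by rw [conjBy_conjBy]; simp
  · calc conjBy C (t'' * c * a * t₁⁻¹) = conjBy (conjBy C t₁⁻¹) (t'' * c * a) :=
          (conjBy_conjBy _ _ _).symm
      _ = conjBy (conjBy T c⁻¹) (t'' * c * a) := by rw [he2]
      _ = conjBy T (t'' * c * a * c⁻¹) := conjBy_conjBy _ _ _
      _ = conjBy T (t'' * a) := by
          congr 1
          have e : t'' * c * a * c⁻¹ = t'' * (c * a) * c⁻¹ := by group
          rw [e, ← hac]; group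
      _ = conjBy (conjBy T a) t'' := (conjBy_conjBy _ _ _).symm
      _ = conjBy (conjBy A t''⁻¹) t'' := by rw [he3]
      _ = A := by rw [conjBy_conjBy]; simp

section Part1

theorem part1 (hS : IsRootSubgroupClass S)
    (hdn : IsDegenerateRootSet S ∨ IsNondegenerateRootSet S) (hA : A ∈ S) (hC : C ∈ S)
    (hsub : centralizingMembers S A ⊆ centralizingMembers S C) :
    centralizingMembers S A = centralizingMembers S C := by
  have hAA : ⁅A, A⁆ = ⊥ := bot_of_commute fun x hx y hy =>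
    comm_of_isMulCommutative (hS.1.commutative A hA) hx hy
  have hCA : ⁅C, A⁆ = ⊥ := (mem_cm.1 (hsub (mem_cm.2 ⟨hA, hAA⟩))).2
  have hAC : ⁅A, C⁆ = ⊥ := by rw [Subgroup.commutator_comm]; exact hCA
  apply Set.Subset.antisymm hsub
  intro B hB
  obtain ⟨hBS, hCB⟩ := mem_cm.1 hB
  refine mem_cm.2 ⟨hBS, ?_⟩
  by_cases hΩ : ∃ T ∈ S, IsRankOnePair C T
  · obtain ⟨T, hT, hCT⟩ := hΩ
    rcases hS.1.pair T hT A hA with h | h | h
    · exfalso
      have h1 : ⁅A, T⁆ = ⊥ := by rw [Subgroup.commutator_comm]; exact h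
      have h2 := (mem_cm.1 (hsub (mem_cm.2 ⟨hT, h1⟩))).2
      exact rankOne_not_comm hCT h2
    · obtain ⟨g, hg1, hg2⟩ := swap hAC (RankOnePair_symm h) hCT
      have h1 : ⁅A, conjBy B g⁆ = ⊥ := by
        have := comm_conj hCB g
        rwa [hg2] at this
      have h2 := (mem_cm.1 (hsub (mem_cm.2 ⟨hS.1.conj_mem B hBS g, h1⟩))).2
      rw [← hg1] at h2
      exact comm_unconj g h2
    · exfalso
      have h1 : ⁅A, ⁅T, A⁆⁆ = ⊥ := bot_of_commute fun x hx y hy => (central_right h hy hx).symm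
      have h2 := (mem_cm.1 (hsub (mem_cm.2 ⟨h.1, h1⟩))).2
      exact hS.1.ne_bot _ h.1 (comm_bot_of_comm hCT hCA h2)
  · rcases hS.1.pair A hA B hBS with h | h | h
    · exact h
    · exfalso
      apply hΩ
      obtain ⟨g, rfl⟩ := hS.2.2 A hA C hC
      exact ⟨conjBy B g, hS.1.conj_mem B hBS g, isRankOnePair_conjBy h g⟩
    · exfalso
      rcases hdn with hd | hnd
      · exact hd A hA B hBS h
      · apply hΩ
        exact exists_partner hS hnd hC

end Part1

section Part2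

lemma rankOne_conj (h : U ∈ rankOnePartners S A) (hS : IsRootSubgroupSet S) (g : G) :
    conjBy U g ∈ rankOnePartners S (conjBy A g) :=
  ⟨hS.conj_mem U h.1 g, isRankOnePair_conjBy h.2 g⟩

/-- Conjugating the inclusion of sets of partners. -/
lemma subset_conj (hS : IsRootSubgroupSet S) {A C : Subgroup G}
    (hsub : rankOnePartners S A ⊆ rankOnePartners S C) (g : G) :
    rankOnePartners S (conjBy A g) ⊆ rankOnePartners S (conjBy C g) := by
  intro U hU
  have h1 := rankOne_conj hU hS g⁻¹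
  rw [conjBy_conjBy] at h1
  simp only [inv_mul_cancel, conjBy_one] at h1
  have h2 := rankOne_conj (hsub h1) hS g
  rwa [conjBy_conjBy, mul_inv_cancel, conjBy_one] at h2

variable (hS : IsRootSubgroupClass S) (hnd : IsNondegenerateRootSet S)
include hS hnd

lemma step1 {A' : Subgroup G} (hA' : A' ∈ S) (hC : C ∈ S) (hcase : RootCommutatorCase S C A')
    (hsub : rankOnePartners S A' ⊆ rankOnePartners S C) (hU : U ∈ rankOnePartners S A') :
    ⁅U, ⁅C, A'⁆⁆ ∈ S := by
  have hUC : IsRankOnePair C U := (hsub hU).2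
  have hL : ⁅C, A'⁆ ∈ linePartners S C :=
    linePartner_symm (line_partner hS.1 hC hcase hU.1 hUC) hcase.1
  obtain ⟨M, hM, hMle, hMne, hUM⟩ := exists_comm_in_line hS.1 hC hU.1 hUC hL
  have hmem := members_eq hS.1 hC hcase hU.1 hUC
  have hMm : M ∈ membersIn S (C ⊔ ⁅C, A'⁆) := ⟨hM, hMle⟩
  rw [hmem] at hMm
  rcases hMm with ⟨a, ha, rfl⟩ | h
  · exfalso
    have hA'a : conjBy A' a⁻¹ = A' := conjBy_of_mem (A'.inv_mem ha)
    have h1 := rankOne_conj hU hS.1 a⁻¹
    rw [hA'a] at h1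
    have h2 := rankOne_conj (hsub h1) hS.1 a
    rw [conjBy_conjBy, mul_inv_cancel, conjBy_one] at h2
    exact not_rankOne_of_mem hS.1 hU.1 hUM (RankOnePair_symm h2.2)
  · rw [Set.mem_singleton_iff] at h
    rwa [h] at hUM

lemma not_case (hA : A ∈ S) (hC : C ∈ S) (hcase : RootCommutatorCase S A C)
    (hsub : rankOnePartners S A ⊆ rankOnePartners S C) : False := by
  have hE := hcase.1
  have hcase' : RootCommutatorCase S C A := commutatorCase_symm hcase
  have hEe : ⁅C, A⁆ = ⁅A, C⁆ := Subgroup.commutator_comm _ _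
  obtain ⟨K, hK, hAK⟩ := exists_partner hS hnd hA
  obtain ⟨W, hW, hEW⟩ := exists_partner hS hnd hE
  have hLA : A ∈ linePartners S ⁅A, C⁆ := line_partner hS.1 hA hcase hK hAK
  have hLE : ⁅A, C⁆ ∈ linePartners S A := linePartner_symm hLA hE
  have hne1 : A ≠ ⁅A, C⁆ := hLA.1.2.1
  obtain ⟨hEA, hLPEA⟩ := lp_of_le_line hS.1 hE hW hEW hLA hA le_sup_right hne1
  -- the final contradiction from `step1`
  have hfin : ∀ {A' : Subgroup G}, A' ∈ S → ⁅C, A'⁆ = ⁅A, C⁆ → RootCommutatorCase S C A' →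
      rankOnePartners S A' ⊆ rankOnePartners S C → W ∈ rankOnePartners S A' → False := by
    intro A' hA' he hc hs hWA'
    have := step1 hS hnd hA' hC hc hs hWA'
    rw [he] at this
    exact not_rankOne_of_mem hS.1 hW this (RankOnePair_symm hEW)
  rcases hS.1.pair W hW A hA with h | h | h
  · exact not_commute_of_lp hS.1 hE hW hEW hEA hLPEA (hS.1.ne_bot A hA) h
  · exact hfin hA hEe hcase' hsub ⟨hW, RankOnePair_symm h⟩
  · -- a third point on the line
    obtain ⟨a, ha, ha1⟩ := exists_ne_one_left hAK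
    obtain ⟨c, hc, hc1⟩ : ∃ c ∈ C, c ≠ 1 := by
      by_contra hcon
      push Not at hcon
      exact hS.1.ne_bot C hC (eq_bot_iff.2 fun x hx => hcon x hx)
    set M := conjBy A c with hMdef
    have hMS : M ∈ S := hS.1.conj_mem A hA c
    have hMle : M ≤ A ⊔ ⁅A, C⁆ := conj_le hc
    have hMneA : M ≠ A := conjBy_ne_self' hcase hS.1 hc hc1
    have hMneE : M ≠ ⁅A, C⁆ := by
      intro he
      have h1 := conj_inf_comm_eq_bot hS.1 hA hcase hK hAK hc
      rw [← hMdef, he, inf_idem] at h1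
      exact hS.1.ne_bot _ hE h1
    have hMle' : M ≤ ⁅A, C⁆ ⊔ A := by rw [sup_comm]; exact hMle
    obtain ⟨hEM, hLPEM⟩ := lp_of_le_line hS.1 hE hW hEW hLA hMS hMle' hMneE
    obtain ⟨hAM, -⟩ := lp_of_le_line hS.1 hA hK hAK hLE hMS hMle hMneA
    have hMA : M ⊓ A = ⊥ := by
      have h1 := conj_inf_eq_bot hS.1 hA hcase hK hAK hc C.one_mem hc1
      rwa [conjBy_one] at h1
    have hcm : c * a * c⁻¹ * a⁻¹ ∈ ⁅A, C⁆ := by
      rw [← hEe]; exact comm_mem hc ha
    have hne : c * a * c⁻¹ * a⁻¹ ≠ 1 := by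
      intro he
      have h1 : c * a * c⁻¹ = a := mul_inv_eq_one.1 he
      have h2 : c * a = a * c := mul_inv_eq_iff_eq_mul.1 h1
      exact comm_ne hS.1 hA hcase hK hAK ha ha1 hc hc1 h2.symm
    have hmul : c * a * c⁻¹ * a⁻¹ * a ∈ M := by
      have : c * a * c⁻¹ * a⁻¹ * a = c * a * c⁻¹ := by group
      rw [this]
      exact conj_mem_conjBy ha c
    have hWM : IsRankOnePair M W :=
      rankOne_of_third hS.1 hE hA hW hEW hEA hLPEA h.1 hMS hEM hLPEM hcm hne ha hmul hAM hMA hMle'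
    have hCc : conjBy C c = C := conjBy_of_mem hc
    have he' : ⁅C, M⁆ = ⁅A, C⁆ := by
      have h1 : ⁅conjBy C c, conjBy A c⁆ = conjBy ⁅C, A⁆ c := (conjBy_commutator _ _ _).symm
      rw [hCc, conjBy_commutator_left hc] at h1
      rw [h1, hEe]
    have hc' : RootCommutatorCase S C M :=
      commutatorCase_of_mem hS.1 hC hMS (by rw [he']; exact hE)
    have hs' : rankOnePartners S M ⊆ rankOnePartners S C := by
      have := subset_conj hS.1 hsub c
      rwa [hCc] at this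
    exact hfin hMS he' hc' hs' ⟨hW, hWM⟩

end Part2

theorem part2 (hS : IsRootSubgroupClass S)
    (hdn : IsDegenerateRootSet S ∨ IsNondegenerateRootSet S) (hA : A ∈ S) (hC : C ∈ S)
    (hsub : rankOnePartners S A ⊆ rankOnePartners S C) :
    ⁅A, C⁆ = ⊥ ∧ rankOnePartners S A = rankOnePartners S C := by
  have hAC : ⁅A, C⁆ = ⊥ := by
    rcases hS.1.pair A hA C hC with h | h | h
    · exact h
    · exact absurd rfl (hsub ⟨hC, h⟩).2.ne
    · exfalso
      rcases hdn with hd | hnd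
      · exact hd A hA C hC h
      · exact not_case hS hnd hA hC h hsub
  refine ⟨hAC, Set.Subset.antisymm hsub ?_⟩
  intro U hU
  obtain ⟨g, hg⟩ := hS.2.2 C hC A hA
  have hT : conjBy U g ∈ rankOnePartners S A := by
    have := rankOne_conj hU hS.1 g
    rwa [← hg] at this
  obtain ⟨h, h1, h2⟩ := swap hAC hT.2 (hsub hT).2
  have h3 : conjBy U h ∈ rankOnePartners S A := by
    have := rankOne_conj hU hS.1 h
    rwa [h2] at this
  have h4 := rankOne_conj (hsub h3) hS.1 h⁻¹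
  rw [conjBy_conjBy, ← h1, conjBy_conjBy] at h4
  simpa using h4

end Cfsg.Agent.Lib.RootSubgroups.Incomparable
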