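/-
Commuting members with a common rank one partner force specialness (part of S5039).
-/
import Mathlib
import Cfsg.Prelude.Def_RootSubgroups
import Cfsg.Agent.Lib.RootSubgroups.Classes
import Cfsg.Agent.Lib.RootSubgroups.Incomparable

set_option autoImplicit false

namespace Cfsg.Agent.Lib.RootSubgroups.SpecialConfig

open Cfsg Cfsg.Agent.Lib.RootSubgroups.RankOne Cfsg.Agent.Lib.RootSubgroups.Abstract
  Cfsg.Agent.Lib.RootSubgroups.Abstract2 Cfsg.Agent.Lib.RootSubgroups.LineConn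
  Cfsg.Agent.Lib.RootSubgroups.Nondeg Cfsg.Agent.Lib.RootSubgroups.Classes
  Cfsg.Agent.Lib.RootSubgroups.Incomparable
open scoped commutatorElement

variable {G : Type*} [Group G] {A T C : Subgroup G} {S : Set (Subgroup G)} {s : G}

/-- `x · (s⁻¹ x s)⁻¹`. -/
def qq (s x : G) : G := x * (s⁻¹ * x⁻¹ * s)

lemma qq_def (s x : G) : qq s x = x * (s⁻¹ * x⁻¹ * s) := rfl

@[simp] lemma qq_one (s : G) : qq s 1 = 1 := by simp [qq]

/-- An element centralizing `A` and normalizing `T` centralizes `T`. -/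
lemma rigid (h : IsRankOnePair A T) {y : G} (hyA : ∀ a ∈ A, y * a = a * y) (hyT : conjBy T y = T) :
    ∀ t ∈ T, y * t = t * y := by
  intro t ht
  have ht₁ : y * t * y⁻¹ ∈ T := by
    have := conj_mem_conjBy ht y
    rwa [hyT] at this
  have hAy : conjBy A y⁻¹ = A := by
    have hAy' : conjBy A y = A := conjBy_eq_self_of_commute hyA
    conv_lhs => rw [← hAy']
    rw [conjBy_conjBy]; simp
  have key : conjBy A (y * t * y⁻¹) = conjBy A t := by
    by_cases ht1 : t = 1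
    · subst ht1; simp
    obtain ⟨a, ha, -, he⟩ := exists_conjBy_left_eq h ht ht1
    have hya : y * a = a * y := hyA a ha
    calc conjBy A (y * t * y⁻¹) = conjBy (conjBy A y⁻¹) (y * t) := (conjBy_conjBy _ _ _).symm
      _ = conjBy A (y * t) := by rw [hAy]
      _ = conjBy (conjBy A t) y := (conjBy_conjBy _ _ _).symm
      _ = conjBy (conjBy T a) y := by rw [he]
      _ = conjBy T (y * a) := conjBy_conjBy _ _ _
      _ = conjBy T (a * y) := by rw [hya]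
      _ = conjBy (conjBy T y) a := (conjBy_conjBy _ _ _).symm
      _ = conjBy T a := by rw [hyT]
      _ = conjBy A t := he.symm
  have := conjBy_left_inj h ht₁ ht key
  rw [mul_inv_eq_iff_eq_mul] at this
  exact this

/-- The swapping element. -/
lemma swap_conj {a b b' : G} (hb : b ∈ T) (hb' : b' ∈ T)
    (he : conjBy A b⁻¹ = conjBy T a⁻¹) (he' : conjBy A b'⁻¹ = conjBy T a) :
    conjBy T (b * a⁻¹ * b'⁻¹) = A ∧ conjBy T (b * a⁻¹ * b'⁻¹)⁻¹ = A := by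
  constructor
  · calc conjBy T (b * a⁻¹ * b'⁻¹) = conjBy (conjBy T b'⁻¹) (b * a⁻¹) :=
          (conjBy_conjBy _ _ _).symm
      _ = conjBy T (b * a⁻¹) := by rw [conjBy_of_mem (T.inv_mem hb')]
      _ = conjBy (conjBy T a⁻¹) b := (conjBy_conjBy _ _ _).symm
      _ = conjBy (conjBy A b⁻¹) b := by rw [he]
      _ = A := by rw [conjBy_conjBy]; simp
  · have e : (b * a⁻¹ * b'⁻¹)⁻¹ = b' * a * b⁻¹ := by group
    rw [e]
    calc conjBy T (b' * a * b⁻¹) = conjBy (conjBy T b⁻¹) (b' * a) :=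
          (conjBy_conjBy _ _ _).symm
      _ = conjBy T (b' * a) := by rw [conjBy_of_mem (T.inv_mem hb)]
      _ = conjBy (conjBy T a) b' := (conjBy_conjBy _ _ _).symm
      _ = conjBy (conjBy A b'⁻¹) b' := by rw [he']
      _ = A := by rw [conjBy_conjBy]; simp

/-- From "matched pairs invert": the braid relation. -/
theorem special_of_odd (h : IsRankOnePair A T)
    (hodd : ∀ a ∈ A, a ≠ 1 → ∀ b ∈ T, b ≠ 1 → conjBy A b⁻¹ = conjBy T a⁻¹ → conjBy A b = conjBy T a) :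
    IsSpecialRankOnePair A T := by
  refine ⟨h, ?_⟩
  intro a ha ha1 b hb hb1 he
  have he' := hodd a ha ha1 b hb hb1 he
  have he'' : conjBy A b⁻¹⁻¹ = conjBy T a := by rw [inv_inv]; exact he'
  obtain ⟨h1, h2⟩ := swap_conj hb (T.inv_mem hb) he he''
  rw [inv_inv] at h1 h2
  set n := b * a⁻¹ * b with hn
  have hni : n⁻¹ = b⁻¹ * a * b⁻¹ := by rw [hn]; group
  have hAn : conjBy A n = T := by
    rw [← h2, conjBy_conjBy]; simp
  have ht : n⁻¹ * a * n ∈ T := by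
    have h3 : a ∈ conjBy T n := by rw [h1]; exact ha
    rw [mem_conjBy] at h3
    exact h3
  have ht1 : n⁻¹ * a * n ≠ 1 := by
    intro h3
    apply ha1
    have e : a = n * (n⁻¹ * a * n) * n⁻¹ := by group
    rw [e, h3]; simp
  set t := n⁻¹ * a * n with ht_def
  obtain ⟨x, hx, hx1, hm⟩ := h.cond_right t ht ht1
  have hm' := hodd x hx hx1 t ht ht1 hm.symm
  have hAt : conjBy A t = conjBy T a⁻¹ := by
    calc conjBy A t = conjBy A (n⁻¹ * a * n) := rfl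
      _ = conjBy (conjBy A n) (n⁻¹ * a) := (conjBy_conjBy _ _ _).symm
      _ = conjBy T (n⁻¹ * a) := by rw [hAn]
      _ = conjBy (conjBy T a) n⁻¹ := (conjBy_conjBy _ _ _).symm
      _ = conjBy (conjBy A b) n⁻¹ := by rw [he']
      _ = conjBy A (n⁻¹ * b) := conjBy_conjBy _ _ _
      _ = conjBy A (b⁻¹ * a) := by
          congr 1
          rw [hni]; group
      _ = conjBy (conjBy A a) b⁻¹ := (conjBy_conjBy _ _ _).symm
      _ = conjBy A b⁻¹ := by rw [conjBy_of_mem ha]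
      _ = conjBy T a⁻¹ := he
  have hxe : x = a⁻¹ := by
    have h3 : conjBy T x = conjBy T a⁻¹ := by rw [← hm', hAt]
    exact conjBy_right_inj h hx (A.inv_mem ha) h3
  have hte : t = b⁻¹ := by
    have h3 : conjBy A t⁻¹ = conjBy A b := by
      rw [← hm, hxe, inv_inv, he']
    have := conjBy_left_inj h (T.inv_mem ht) hb h3
    rw [← this, inv_inv]
  have h4 : n⁻¹ * a * n = b⁻¹ := hte
  rw [hni, hn] at h4
  have h5 : a * b⁻¹ * a * b * a⁻¹ * b = 1 := by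
    have e : a * b⁻¹ * a * b * a⁻¹ * b = b * ((b⁻¹ * a * b⁻¹) * a * (b * a⁻¹ * b)) := by group
    rw [e, h4]; simp
  calc b⁻¹ * a * b = a⁻¹ * (a * b⁻¹ * a * b * a⁻¹ * b) * b⁻¹ * a := by group
    _ = a⁻¹ * b⁻¹ * a := by rw [h5]; group

/-- Specialness is symmetric. -/
lemma special_symm (h : IsSpecialRankOnePair T A) : IsSpecialRankOnePair A T := by
  refine ⟨RankOnePair_symm h.1, ?_⟩
  intro a ha ha1 b hb hb1 he
  have h1 := h.2 b hb hb1 a ha ha1 he.symm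
  calc b⁻¹ * a * b = (b⁻¹ * a⁻¹ * b)⁻¹ := by group
    _ = (a⁻¹ * b * a)⁻¹ := by rw [h1]
    _ = a⁻¹ * b⁻¹ * a := by group

structure Setting (S : Set (Subgroup G)) (A T : Subgroup G) (s : G) : Prop where
  hS : IsRootSubgroupSet S
  hA : A ∈ S
  hT : T ∈ S
  hAT : IsRankOnePair A T
  hsT : ∀ t ∈ T, s * t = t * s
  hcomm : ⁅A, conjBy A s⁻¹⁆ = ⊥

namespace Setting

variable (c : Setting S A T s)
include c

lemma comm_A {x y : G} (hx : x ∈ A) (hy : y ∈ A) : x * y = y * x :=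
  comm_of_isMulCommutative (c.hS.commutative A c.hA) hx hy

lemma comm_T {x y : G} (hx : x ∈ T) (hy : y ∈ T) : x * y = y * x :=
  comm_of_isMulCommutative (c.hS.commutative T c.hT) hx hy

lemma mem_conj {x : G} (hx : x ∈ A) : s⁻¹ * x * s ∈ conjBy A s⁻¹ := by
  have := conj_mem_conjBy hx s⁻¹
  rwa [inv_inv] at this

lemma comm_cj {x y : G} (hx : x ∈ A) (hy : y ∈ A) : x * (s⁻¹ * y * s) = (s⁻¹ * y * s) * x :=
  commute_of_bot c.hcomm hx (c.mem_conj hy)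

lemma conjBy_T : conjBy T s = T := conjBy_eq_self_of_commute c.hsT

lemma conjBy_T_inv : conjBy T s⁻¹ = T := by
  conv_lhs => rw [← c.conjBy_T]
  rw [conjBy_conjBy]; simp

lemma qq_comm {x y : G} (hx : x ∈ A) (hy : y ∈ A) : qq s x * y = y * qq s x := by
  have h1 : x * y = y * x := c.comm_A hx hy
  have h2 := c.comm_cj hy (A.inv_mem hx)
  rw [qq_def]
  calc x * (s⁻¹ * x⁻¹ * s) * y = x * ((s⁻¹ * x⁻¹ * s) * y) := by group
    _ = x * (y * (s⁻¹ * x⁻¹ * s)) := by rw [h2]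
    _ = (x * y) * (s⁻¹ * x⁻¹ * s) := by group
    _ = (y * x) * (s⁻¹ * x⁻¹ * s) := by rw [h1]
    _ = y * (x * (s⁻¹ * x⁻¹ * s)) := by group

lemma qq_inv {x : G} (hx : x ∈ A) : qq s x⁻¹ = (qq s x)⁻¹ := by
  have h2 := c.comm_cj (A.inv_mem hx) hx
  rw [qq_def, qq_def, mul_inv_rev]
  have e : s⁻¹ * x⁻¹⁻¹ * s = s⁻¹ * x * s := by simp
  rw [e, h2]
  group

lemma qq_mul {x y : G} (hx : x ∈ A) (hy : y ∈ A) : qq s (x * y) = qq s x * qq s y := by
  have h1 : x * y = y * x := c.comm_A hx hy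
  have h2 := c.comm_cj hy (A.inv_mem hx)
  rw [qq_def, qq_def, qq_def]
  calc x * y * (s⁻¹ * (x * y)⁻¹ * s) = x * y * ((s⁻¹ * x⁻¹ * s) * (s⁻¹ * y⁻¹ * s)) := by
        rw [h1]; group
    _ = x * (y * (s⁻¹ * x⁻¹ * s)) * (s⁻¹ * y⁻¹ * s) := by group
    _ = x * ((s⁻¹ * x⁻¹ * s) * y) * (s⁻¹ * y⁻¹ * s) := by rw [h2]
    _ = _ := by group

/-- `T` and `T^q` commute. -/
lemma comm_q {x : G} (hx : x ∈ A) : ⁅T, conjBy T (qq s x)⁻¹⁆ = ⊥ := by
  by_cases hx1 : x = 1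
  · subst hx1
    simp only [qq_one, inv_one, conjBy_one]
    exact bot_of_commute fun a ha b hb => c.comm_T ha hb
  obtain ⟨b, hb, -, he⟩ := c.hAT.cond_left x hx hx1
  have hsb : s⁻¹ * b⁻¹ = b⁻¹ * s⁻¹ := by
    have h1 := c.hsT b hb
    have : s⁻¹ * b⁻¹ = (b * s)⁻¹ := by group
    rw [this, ← h1]; group
  have h1 : conjBy (conjBy A s⁻¹) b⁻¹ = conjBy T (s⁻¹ * x⁻¹ * s) := by
    calc conjBy (conjBy A s⁻¹) b⁻¹ = conjBy A (b⁻¹ * s⁻¹) := conjBy_conjBy _ _ _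
      _ = conjBy A (s⁻¹ * b⁻¹) := by rw [hsb]
      _ = conjBy (conjBy A b⁻¹) s⁻¹ := (conjBy_conjBy _ _ _).symm
      _ = conjBy (conjBy T x⁻¹) s⁻¹ := by rw [he]
      _ = conjBy T (s⁻¹ * x⁻¹) := conjBy_conjBy _ _ _
      _ = conjBy (conjBy T s) (s⁻¹ * x⁻¹) := by rw [c.conjBy_T]
      _ = conjBy T (s⁻¹ * x⁻¹ * s) := conjBy_conjBy _ _ _
  have h2 : ⁅conjBy A b⁻¹, conjBy (conjBy A s⁻¹) b⁻¹⁆ = ⊥ := comm_conj c.hcomm b⁻¹
  rw [he, h1] at h2
  have h3 := comm_conj h2 (s⁻¹ * x * s)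
  rw [conjBy_conjBy, conjBy_conjBy] at h3
  have e1 : s⁻¹ * x * s * (s⁻¹ * x⁻¹ * s) = 1 := by group
  rw [e1, conjBy_one] at h3
  have e2 : (qq s x)⁻¹ = s⁻¹ * x * s * x⁻¹ := by
    rw [qq_def]; group
  rw [e2, Subgroup.commutator_comm]
  exact h3

lemma comm_q' {x : G} (hx : x ∈ A) : ⁅T, conjBy T (qq s x)⁆ = ⊥ := by
  have := c.comm_q (A.inv_mem hx)
  rwa [c.qq_inv hx, inv_inv] at this

/-- The mirrored setting. -/
lemma mirror {x : G} (hx : x ∈ A) : Setting S T A (qq s x) where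
  hS := c.hS
  hA := c.hT
  hT := c.hA
  hAT := RankOnePair_symm c.hAT
  hsT := fun _ ha => c.qq_comm hx ha
  hcomm := c.comm_q hx

/-- Members of the family `g T g⁻¹`, `g = qq s x`, commute. -/
lemma comm_fam {x y t t' : G} (hx : x ∈ A) (hy : y ∈ A) (ht : t ∈ T) (ht' : t' ∈ T) :
    (qq s x * t * (qq s x)⁻¹) * (qq s y * t' * (qq s y)⁻¹) =
      (qq s y * t' * (qq s y)⁻¹) * (qq s x * t * (qq s x)⁻¹) := by
  have h1 := c.comm_q' (Subgroup.mul_mem _ (A.inv_mem hx) hy)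
  rw [c.qq_mul (A.inv_mem hx) hy, c.qq_inv hx] at h1
  set g := qq s x
  set g' := qq s y
  have h2 := commute_of_bot h1 ht (conj_mem_conjBy ht' (g⁻¹ * g'))
  have e : ∀ u : G, g * (g⁻¹ * u * g) * g⁻¹ = u := fun u => by group
  have h3 : g * (t * (g⁻¹ * g' * t' * (g⁻¹ * g')⁻¹)) * g⁻¹ =
      g * ((g⁻¹ * g' * t' * (g⁻¹ * g')⁻¹) * t) * g⁻¹ := by rw [h2]
  have e1 : g * (t * (g⁻¹ * g' * t' * (g⁻¹ * g')⁻¹)) * g⁻¹ =
      (g * t * g⁻¹) * (g' * t' * g'⁻¹) := by group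
  have e2 : g * ((g⁻¹ * g' * t' * (g⁻¹ * g')⁻¹) * t) * g⁻¹ =
      (g' * t' * g'⁻¹) * (g * t * g⁻¹) := by group
  rw [e1, e2] at h3
  exact h3

/-- `(★)`. -/
lemma star {a b b' : G} (ha : a ∈ A) (hb : b ∈ T) (hb' : b' ∈ T)
    (he : conjBy A b⁻¹ = conjBy T a⁻¹) (he' : conjBy A b'⁻¹ = conjBy T a) :
    ∃ y : G, (∀ x ∈ A, y * x = x * y) ∧ (∀ t ∈ T, y * t = t * y) ∧
      (b * a⁻¹ * b'⁻¹) * s * (b * a⁻¹ * b'⁻¹)⁻¹ = y * qq s a ∧
      s = y * (qq s a * b * (qq s a)⁻¹ * b⁻¹) := by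
  obtain ⟨hn1, hn2⟩ := swap_conj hb hb' he he'
  set n := b * a⁻¹ * b'⁻¹ with hn
  set q := qq s a with hq
  have hqA : ∀ x ∈ A, q * x = x * q := fun x hx => c.qq_comm ha hx
  have hqiA : ∀ x ∈ A, q⁻¹ * x = x * q⁻¹ := fun x hx => by
    have := hqA x hx
    calc q⁻¹ * x = q⁻¹ * (x * q) * q⁻¹ := by group
      _ = q⁻¹ * (q * x) * q⁻¹ := by rw [this]
      _ = x * q⁻¹ := by group
  have hqb : ⁅T, conjBy T q⁻¹⁆ = ⊥ := c.comm_q ha
  have hqi_def : q⁻¹ = s⁻¹ * a * s * a⁻¹ := by rw [hq, qq_def]; group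
  have haa' : a⁻¹ * (s⁻¹ * a * s) = (s⁻¹ * a * s) * a⁻¹ := c.comm_cj (A.inv_mem ha) ha
  have hq' : q = s⁻¹ * a⁻¹ * s * a := by
    have h1 := c.comm_cj ha (A.inv_mem ha)
    rw [hq, qq_def, h1]
  refine ⟨n * s * n⁻¹ * q⁻¹, ?_, ?_, by group, ?_⟩
  · intro x hx
    have hx' : x ∈ conjBy T n := by rw [hn1]; exact hx
    obtain ⟨t, ht, rfl⟩ := hx'
    simp only [MulEquiv.coe_toMonoidHom, MulAut.conj_apply]
    have hts := c.hsT t ht
    have h2 := hqiA (n * t * n⁻¹) (by rw [← hn1]; exact ⟨t, ht, rfl⟩)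
    calc n * s * n⁻¹ * q⁻¹ * (n * t * n⁻¹) = n * s * n⁻¹ * (q⁻¹ * (n * t * n⁻¹)) := by group
      _ = n * s * n⁻¹ * ((n * t * n⁻¹) * q⁻¹) := by rw [h2]
      _ = n * (s * t) * n⁻¹ * q⁻¹ := by group
      _ = n * (t * s) * n⁻¹ * q⁻¹ := by rw [hts]
      _ = _ := by group
  · refine rigid c.hAT ?_ ?_
    · intro x hx
      have hx' : x ∈ conjBy T n := by rw [hn1]; exact hx
      obtain ⟨t, ht, rfl⟩ := hx'
      simp only [MulEquiv.coe_toMonoidHom, MulAut.conj_apply]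
      have hts := c.hsT t ht
      have h2 := hqiA (n * t * n⁻¹) (by rw [← hn1]; exact ⟨t, ht, rfl⟩)
      calc n * s * n⁻¹ * q⁻¹ * (n * t * n⁻¹) = n * s * n⁻¹ * (q⁻¹ * (n * t * n⁻¹)) := by group
        _ = n * s * n⁻¹ * ((n * t * n⁻¹) * q⁻¹) := by rw [h2]
        _ = n * (s * t) * n⁻¹ * q⁻¹ := by group
        _ = n * (t * s) * n⁻¹ * q⁻¹ := by rw [hts]
        _ = _ := by group
    · -- `y⁻¹ T y = T`
      have hAn : conjBy A n = T := by
        rw [← hn2, conjBy_conjBy]; simp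
      have key : conjBy (conjBy A s⁻¹) n = conjBy T q⁻¹ := by
        have hsb' : b'⁻¹ * s⁻¹ = s⁻¹ * b'⁻¹ := by
          have h1 := c.hsT b' hb'
          have : b'⁻¹ * s⁻¹ = (s * b')⁻¹ := by group
          rw [this, h1]; group
        have e : a⁻¹ * s⁻¹ * a = q⁻¹ * s⁻¹ := by
          rw [hqi_def]
          have : s⁻¹ * a * s * a⁻¹ * s⁻¹ = a⁻¹ * (s⁻¹ * a * s) * s⁻¹ := by rw [haa']
          rw [this]; group
        calc conjBy (conjBy A s⁻¹) n = conjBy A (n * s⁻¹) := conjBy_conjBy _ _ _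
          _ = conjBy A (b * a⁻¹ * s⁻¹ * b'⁻¹) := by
              congr 1
              rw [hn]
              calc b * a⁻¹ * b'⁻¹ * s⁻¹ = b * a⁻¹ * (b'⁻¹ * s⁻¹) := by group
                _ = b * a⁻¹ * (s⁻¹ * b'⁻¹) := by rw [hsb']
                _ = _ := by group
          _ = conjBy (conjBy A b'⁻¹) (b * a⁻¹ * s⁻¹) := (conjBy_conjBy _ _ _).symm
          _ = conjBy (conjBy T a) (b * a⁻¹ * s⁻¹) := by rw [he']
          _ = conjBy T (b * a⁻¹ * s⁻¹ * a) := conjBy_conjBy _ _ _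
          _ = conjBy T (b * q⁻¹ * s⁻¹) := by
              congr 1
              calc b * a⁻¹ * s⁻¹ * a = b * (a⁻¹ * s⁻¹ * a) := by group
                _ = b * (q⁻¹ * s⁻¹) := by rw [e]
                _ = _ := by group
          _ = conjBy (conjBy T s⁻¹) (b * q⁻¹) := (conjBy_conjBy _ _ _).symm
          _ = conjBy T (b * q⁻¹) := by rw [c.conjBy_T_inv]
          _ = conjBy (conjBy T q⁻¹) b := (conjBy_conjBy _ _ _).symm
          _ = conjBy T q⁻¹ := conjBy_eq_self_of_commute fun y hy => commute_of_bot hqb hb hy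
      have h3 : conjBy T (n * s * n⁻¹ * q⁻¹)⁻¹ = T := by
        have e : (n * s * n⁻¹ * q⁻¹)⁻¹ = q * n * s⁻¹ * n⁻¹ := by group
        rw [e]
        calc conjBy T (q * n * s⁻¹ * n⁻¹) = conjBy (conjBy T n⁻¹) (q * n * s⁻¹) :=
              (conjBy_conjBy _ _ _).symm
          _ = conjBy A (q * n * s⁻¹) := by rw [hn2]
          _ = conjBy (conjBy A s⁻¹) (q * n) := (conjBy_conjBy _ _ _).symm
          _ = conjBy (conjBy (conjBy A s⁻¹) n) q := (conjBy_conjBy _ _ _).symm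
          _ = conjBy (conjBy T q⁻¹) q := by rw [key]
          _ = T := by rw [conjBy_conjBy]; simp
      conv_lhs => rw [← h3]
      rw [conjBy_conjBy]; simp
  · have e1 : b'⁻¹ * s * b' = s := by
      have h1 := c.hsT b' hb'
      calc b'⁻¹ * s * b' = b'⁻¹ * (s * b') := by group
        _ = b'⁻¹ * (b' * s) := by rw [h1]
        _ = s := by group
    have e2 : a⁻¹ * s * a = s * q := by rw [hq']; group
    have e3 : b * s = s * b := (c.hsT b hb).symm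
    have e4 : n * s * n⁻¹ = s * (b * q * b⁻¹) := by
      calc n * s * n⁻¹ = b * a⁻¹ * (b'⁻¹ * s * b') * a * b⁻¹ := by rw [hn]; group
        _ = b * (a⁻¹ * s * a) * b⁻¹ := by rw [e1]; group
        _ = b * (s * q) * b⁻¹ := by rw [e2]
        _ = (b * s) * q * b⁻¹ := by group
        _ = (s * b) * q * b⁻¹ := by rw [e3]
        _ = _ := by group
    rw [e4]
    group

/-- `(★★)`: `s` modulo the centralizer. -/
lemma star2 {a b b' : G} (ha : a ∈ A) (hb : b ∈ T) (hb' : b' ∈ T)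
    (he : conjBy A b⁻¹ = conjBy T a⁻¹) (he' : conjBy A b'⁻¹ = conjBy T a) :
    ∃ y : G, (∀ x ∈ A, y * x = x * y) ∧ (∀ t ∈ T, y * t = t * y) ∧
      (b * a⁻¹ * b'⁻¹) * s * (b * a⁻¹ * b'⁻¹)⁻¹ = y * qq s a ∧
      s = y * qq (qq s a⁻¹) b⁻¹ := by
  obtain ⟨y, h1, h2, h3, h4⟩ := c.star ha hb hb' he he'
  refine ⟨y, h1, h2, h3, ?_⟩
  rw [qq_def (qq s a⁻¹), c.qq_inv ha, inv_inv, inv_inv]
  have h5 : b⁻¹ * (qq s a * b * (qq s a)⁻¹) = (qq s a * b * (qq s a)⁻¹) * b⁻¹ :=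
    commute_of_bot (c.comm_q' ha) (T.inv_mem hb) (conj_mem_conjBy hb _)
  rw [h5]
  exact h4

lemma comm_fam' {x y t t' : G} (hx : x ∈ A) (hy : y ∈ A) (ht : t ∈ T) (ht' : t' ∈ T) :
    Commute (qq s x * t * (qq s x)⁻¹) (qq s y * t' * (qq s y)⁻¹) := c.comm_fam hx hy ht ht'

lemma comm_fam₀ {x t t' : G} (hx : x ∈ A) (ht : t ∈ T) (ht' : t' ∈ T) :
    Commute t (qq s x * t' * (qq s x)⁻¹) := by
  have := c.comm_fam' A.one_mem hx ht ht'
  simpa using this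

/-- `W̄(t)` in the family form. -/
lemma qq_inv_form {a t : G} (ha : a ∈ A) :
    qq (qq s a⁻¹) t = t * (qq s a * t⁻¹ * (qq s a)⁻¹) := by
  rw [qq_def (qq s a⁻¹), c.qq_inv ha, inv_inv]

lemma qq_form {a t : G} : qq (qq s a) t = t * ((qq s a)⁻¹ * t⁻¹ * qq s a) := rfl

/-- `W(t)` in the family form. -/
lemma qq_form' {a t : G} (ha : a ∈ A) :
    qq (qq s a) t = t * (qq s a⁻¹ * t⁻¹ * (qq s a⁻¹)⁻¹) := by
  rw [qq_def (qq s a), c.qq_inv ha, inv_inv]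

/-- The two forms agree up to conjugation. -/
lemma conj_form {a t : G} (ha : a ∈ A) (ht : t ∈ T) :
    qq (qq s a) t⁻¹ = (qq s a)⁻¹ * qq (qq s a⁻¹) t * qq s a := by
  rw [c.qq_inv_form ha, qq_def (qq s a), inv_inv]
  have h1 : t⁻¹ * ((qq s a)⁻¹ * t * qq s a) = ((qq s a)⁻¹ * t * qq s a) * t⁻¹ := by
    have := c.comm_fam₀ (A.inv_mem ha) (T.inv_mem ht) ht
    rw [c.qq_inv ha, inv_inv] at this
    exact this
  rw [h1]
  group

lemma comm_WW {a t t' : G} (ha : a ∈ A) (ht : t ∈ T) (ht' : t' ∈ T) :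
    Commute (qq (qq s a⁻¹) t) (qq (qq s a) t') := by
  rw [c.qq_inv_form ha, c.qq_form' ha]
  have h1 := c.comm_T ht ht'
  have h2 := c.comm_fam₀ (A.inv_mem ha) ht (T.inv_mem ht')
  have h3 : Commute (qq s a * t⁻¹ * (qq s a)⁻¹) t' := (c.comm_fam₀ ha ht' (T.inv_mem ht)).symm
  have h4 := c.comm_fam' ha (A.inv_mem ha) (T.inv_mem ht) (T.inv_mem ht')
  exact Commute.mul_left (Commute.mul_right h1 h2) (Commute.mul_right h3 h4)

lemma comm_WW' {a t t' : G} (ha : a ∈ A) (ht : t ∈ T) (ht' : t' ∈ T) :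
    Commute (qq (qq s a⁻¹) t) (qq (qq s a⁻¹) t') := by
  rw [c.qq_inv_form ha, c.qq_inv_form ha]
  have h1 := c.comm_T ht ht'
  have h2 := c.comm_fam₀ ha ht (T.inv_mem ht')
  have h3 : Commute (qq s a * t⁻¹ * (qq s a)⁻¹) t' := (c.comm_fam₀ ha ht' (T.inv_mem ht)).symm
  have h4 := c.comm_fam' ha ha (T.inv_mem ht) (T.inv_mem ht')
  exact Commute.mul_left (Commute.mul_right h1 h2) (Commute.mul_right h3 h4)

/-- The difference of the two forms lies in the centralizer of `A`. -/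
lemma z_comm_A {a t b y₁ : G} (ha : a ∈ A) (ht : t ∈ T) (hb : b ∈ T)
    (hy₁ : ∀ x ∈ A, y₁ * x = x * y₁) (hs : s = y₁ * qq (qq s a⁻¹) b⁻¹) {x : G} (hx : x ∈ A) :
    Commute ((qq (qq s a⁻¹) t)⁻¹ * qq (qq s a) t⁻¹) x := by
  have c₂ := c.mirror (A.inv_mem ha)
  set ū := qq s a⁻¹ with hū
  set q := qq s a with hq
  set v := qq ū t with hv
  set v₀ := qq ū b⁻¹ with hv₀
  have hū' : ū = q⁻¹ := c.qq_inv ha
  have e_s : s⁻¹ * a * s = v₀⁻¹ * a * v₀ := by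
    have h1 : s⁻¹ * a * s = v₀⁻¹ * (y₁⁻¹ * a * y₁) * v₀ := by
      conv_lhs => rw [hs]
      group
    have h2 : y₁⁻¹ * a * y₁ = a := by
      have := hy₁ a ha
      calc y₁⁻¹ * a * y₁ = y₁⁻¹ * (a * y₁) := by group
        _ = y₁⁻¹ * (y₁ * a) := by rw [this]
        _ = a := by group
    rw [h1, h2]
  have e_q : q⁻¹ = a⁻¹ * (v₀⁻¹ * a * v₀) := by
    rw [← hū', hū, qq_def, inv_inv, e_s]
  have hf1 : Commute (v⁻¹ * a⁻¹ * v) x := by
    have h1 : v⁻¹ * a⁻¹ * v ∈ conjBy A v⁻¹ := by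
      have := conj_mem_conjBy (A.inv_mem ha) v⁻¹
      rwa [inv_inv] at this
    exact (commute_of_bot (c₂.comm_q ht) hx h1).symm
  have hmul : v₀ * v = qq ū (b⁻¹ * t) := (c₂.qq_mul (T.inv_mem hb) ht).symm
  have hf2 : Commute ((v₀ * v)⁻¹ * a * (v₀ * v)) x := by
    have h1 : (v₀ * v)⁻¹ * a * (v₀ * v) ∈ conjBy A (v₀ * v)⁻¹ := by
      have := conj_mem_conjBy ha (v₀ * v)⁻¹
      rwa [inv_inv] at this
    rw [hmul] at h1 ⊢
    exact (commute_of_bot (c₂.comm_q (Subgroup.mul_mem _ (T.inv_mem hb) ht)) hx h1).symm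
  have hq_x : Commute q x := c.qq_comm ha hx
  have e : v⁻¹ * qq q t⁻¹ = (v⁻¹ * a⁻¹ * v) * ((v₀ * v)⁻¹ * a * (v₀ * v)) * q := by
    have h2 := c.conj_form ha ht
    rw [← hq, ← hū, ← hv] at h2
    rw [h2]
    have e3 : q⁻¹ * v * q = q⁻¹ * v * q := rfl
    calc v⁻¹ * (q⁻¹ * v * q) = v⁻¹ * q⁻¹ * v * q := by group
      _ = v⁻¹ * (a⁻¹ * (v₀⁻¹ * a * v₀)) * v * q := by rw [e_q]
      _ = _ := by group
  rw [e]
  exact Commute.mul_left (Commute.mul_left hf1 hf2) hq_x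

/-- Under `A^s ≠ A`, the element `q` really moves `T`. -/
lemma q_moves (hne : conjBy A s⁻¹ ≠ A) {a : G} (ha : a ∈ A) (ha1 : a ≠ 1) :
    conjBy T (qq s a) ≠ T := by
  intro h
  have hq : ∀ t ∈ T, qq s a * t = t * qq s a := rigid c.hAT (fun x hx => c.qq_comm ha hx) h
  have hqi : ∀ u ∈ A ⊔ T, (qq s a)⁻¹ * u = u * (qq s a)⁻¹ := by
    apply comm_sup
    · intro x hx
      have := c.qq_comm ha hx
      calc (qq s a)⁻¹ * x = (qq s a)⁻¹ * (x * qq s a) * (qq s a)⁻¹ := by group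
        _ = (qq s a)⁻¹ * (qq s a * x) * (qq s a)⁻¹ := by rw [this]
        _ = x * (qq s a)⁻¹ := by group
    · intro x hx
      have := hq x hx
      calc (qq s a)⁻¹ * x = (qq s a)⁻¹ * (x * qq s a) * (qq s a)⁻¹ := by group
        _ = (qq s a)⁻¹ * (qq s a * x) * (qq s a)⁻¹ := by rw [this]
        _ = x * (qq s a)⁻¹ := by group
  have e : (qq s a)⁻¹ * a = s⁻¹ * a * s := by
    rw [qq_def]
    have h1 := c.comm_cj (A.inv_mem ha) ha
    calc (a * (s⁻¹ * a⁻¹ * s))⁻¹ * a = (s⁻¹ * a * s) * a⁻¹ * a := by group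
      _ = _ := by group
  have hr : (qq s a)⁻¹ * a ∈ rootElements S := by
    rw [e]
    refine ⟨?_, conjBy A s⁻¹, c.hS.conj_mem A c.hA s⁻¹, c.mem_conj ha⟩
    intro h1
    apply ha1
    have e2 : a = s * (s⁻¹ * a * s) * s⁻¹ := by group
    rw [e2, h1]; simp
  by_cases hq1 : (qq s a)⁻¹ = 1
  · apply hne
    rw [hq1, one_mul] at e
    have hmem : a ∈ A ⊓ conjBy A s⁻¹ := ⟨ha, by
      have := c.mem_conj ha
      rwa [← e] at this⟩
    rcases inf_eq_bot_or_eq c.hS (c.hS.conj_mem A c.hA s⁻¹) c.hT c.hAT with h1 | h1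
    · rw [h1] at hmem
      exact absurd hmem ha1
    · exact h1.symm
  · exact mul_not_mem_rootElements c.hS c.hA c.hT c.hAT hqi hq1 ha ha1 hr

/-- Matched elements invert. -/
theorem odd (hne : conjBy A s⁻¹ ≠ A) {a b b' : G} (ha : a ∈ A) (ha1 : a ≠ 1) (hb : b ∈ T)
    (hb' : b' ∈ T) (he : conjBy A b⁻¹ = conjBy T a⁻¹) (he' : conjBy A b'⁻¹ = conjBy T a) :
    b' = b⁻¹ := by
  obtain ⟨y₁, hy₁A, hy₁T, -, hs₁⟩ := c.star2 ha hb hb' he he'
  have he₂ : conjBy A b'⁻¹ = conjBy T a⁻¹⁻¹ := by rw [inv_inv]; exact he'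
  obtain ⟨y₂, hy₂A, hy₂T, -, hs₂⟩ := c.star2 (A.inv_mem ha) hb' hb he₂ he
  rw [inv_inv] at hs₂
  have c₂ := c.mirror (A.inv_mem ha)
  set ū := qq s a⁻¹ with hū
  set q := qq s a with hq
  set τ := b⁻¹ * b'⁻¹ with hτ
  have hτT : τ ∈ T := Subgroup.mul_mem _ (T.inv_mem hb) (T.inv_mem hb')
  set z := (qq ū b')⁻¹ * qq q b'⁻¹ with hz
  have hzA : ∀ x ∈ A, z * x = x * z := fun x hx =>
    c.z_comm_A ha hb' hb hy₁A hs₁ hx
  have hWbT : ∀ t ∈ T, ∀ u ∈ T, qq ū t * u = u * qq ū t := fun t ht u hu => c₂.qq_comm ht hu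
  have hWT : ∀ t ∈ T, ∀ u ∈ T, qq q t * u = u * qq q t := fun t ht u hu =>
    (c.mirror ha).qq_comm ht hu
  have hzT : ∀ u ∈ T, z * u = u * z := by
    intro u hu
    have h1 := hWbT b' hb' u hu
    have h2 := hWT b'⁻¹ (T.inv_mem hb') u hu
    have h1' : (qq ū b')⁻¹ * u = u * (qq ū b')⁻¹ := by
      calc (qq ū b')⁻¹ * u = (qq ū b')⁻¹ * (u * qq ū b') * (qq ū b')⁻¹ := by group
        _ = (qq ū b')⁻¹ * (qq ū b' * u) * (qq ū b')⁻¹ := by rw [h1]
        _ = _ := by group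
    calc z * u = (qq ū b')⁻¹ * (qq q b'⁻¹ * u) := by rw [hz]; group
      _ = (qq ū b')⁻¹ * (u * qq q b'⁻¹) := by rw [h2]
      _ = ((qq ū b')⁻¹ * u) * qq q b'⁻¹ := by group
      _ = (u * (qq ū b')⁻¹) * qq q b'⁻¹ := by rw [h1']
      _ = u * z := by rw [hz]; group
  have hzv : Commute z (qq ū b') := by
    have h1 : Commute (qq ū b')⁻¹ (qq ū b') := (Commute.refl _).inv_left
    have h2 : Commute (qq q b'⁻¹) (qq ū b') := (c.comm_WW ha hb' (T.inv_mem hb')).symm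
    exact Commute.mul_left h1 h2
  have hfac : qq ū b⁻¹ = qq ū τ * qq ū b' := by
    rw [← c₂.qq_mul hτT hb']
    congr 1
    rw [hτ]; group
  have heq : y₁ * qq ū τ = y₂ * z := by
    have h1 : y₁ * (qq ū τ * qq ū b') = y₂ * (qq ū b' * z) := by
      calc y₁ * (qq ū τ * qq ū b') = y₁ * qq ū b⁻¹ := by rw [hfac]
        _ = s := hs₁.symm
        _ = y₂ * qq q b'⁻¹ := hs₂
        _ = y₂ * (qq ū b' * z) := by rw [hz]; group
    have h2 : qq ū b' * z = z * qq ū b' := hzv.symm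
    rw [h2] at h1
    have h3 : y₁ * qq ū τ * qq ū b' = y₂ * z * qq ū b' := by
      calc y₁ * qq ū τ * qq ū b' = y₁ * (qq ū τ * qq ū b') := by group
        _ = y₂ * (z * qq ū b') := h1
        _ = _ := by group
    exact mul_right_cancel h3
  set cc := y₁⁻¹ * y₂ * z with hcc
  have hWbτ : qq ū τ = cc := by
    rw [hcc]
    calc qq ū τ = y₁⁻¹ * (y₁ * qq ū τ) := by group
      _ = y₁⁻¹ * (y₂ * z) := by rw [heq]
      _ = _ := by group
  have hinvcomm : ∀ {y u : G}, y * u = u * y → y⁻¹ * u = u * y⁻¹ := by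
    intro y u h
    calc y⁻¹ * u = y⁻¹ * (u * y) * y⁻¹ := by group
      _ = y⁻¹ * (y * u) * y⁻¹ := by rw [h]
      _ = _ := by group
  have hccA : ∀ x ∈ A, cc * x = x * cc := by
    intro x hx
    have h1 : Commute y₁⁻¹ x := hinvcomm (hy₁A x hx)
    have h2 : Commute y₂ x := hy₂A x hx
    have h3 : Commute z x := hzA x hx
    exact Commute.mul_left (Commute.mul_left h1 h2) h3
  have hccT : ∀ x ∈ T, cc * x = x * cc := by
    intro x hx
    have h1 : Commute y₁⁻¹ x := hinvcomm (hy₁T x hx)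
    have h2 : Commute y₂ x := hy₂T x hx
    have h3 : Commute z x := hzT x hx
    exact Commute.mul_left (Commute.mul_left h1 h2) h3
  by_contra hb'ne
  have hτ1 : τ⁻¹ ≠ 1 := by
    intro h1
    apply hb'ne
    have h2 : τ = 1 := by simpa using h1
    rw [hτ] at h2
    have e := eq_inv_of_mul_eq_one_left h2
    rw [inv_inv] at e
    exact e.symm
  have hτ1m : τ⁻¹ ∈ T := T.inv_mem hτT
  have h4 : q * τ⁻¹ * q⁻¹ = cc * τ⁻¹ := by
    have h5 := hWbτ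
    rw [c.qq_inv_form ha] at h5
    rw [← hq] at h5
    have h6 : cc * τ⁻¹ = τ⁻¹ * cc := hccT _ hτ1m
    rw [h6, ← h5]
    group
  have hroot : cc * τ⁻¹ ∈ rootElements S := by
    rw [← h4]
    exact rootElements_conj ⟨hτ1, T, c.hT, hτ1m⟩ c.hS q
  have hcc1 : cc = 1 := by
    by_contra hcc1
    have hsup : ∀ u ∈ T ⊔ A, cc * u = u * cc := comm_sup hccT hccA
    exact mul_not_mem_rootElements c.hS c.hT c.hA (RankOnePair_symm c.hAT) hsup hcc1 hτ1m hτ1 hroot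
  rw [hcc1, one_mul] at h4
  have hmem : τ⁻¹ ∈ T ⊓ conjBy T q := by
    refine ⟨hτ1m, ?_⟩
    have := conj_mem_conjBy hτ1m q
    rwa [h4] at this
  rcases inf_eq_bot_or_eq c.hS (c.hS.conj_mem T c.hT q) c.hA (RankOnePair_symm c.hAT) with h1 | h1
  · rw [h1] at hmem
    exact hτ1 hmem
  · exact c.q_moves hne ha ha1 h1.symm

/-- The main result of this section. -/
theorem special (hne : conjBy A s⁻¹ ≠ A) : IsSpecialRankOnePair A T := by
  apply special_of_odd c.hAT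
  intro a ha ha1 b hb hb1 he
  obtain ⟨b', hb', -, he'⟩ := c.hAT.cond_left a⁻¹ (A.inv_mem ha) (inv_ne_one.2 ha1)
  rw [inv_inv] at he'
  have h1 := c.odd hne ha ha1 hb hb' he he'
  rw [h1, inv_inv] at he'
  exact he'

end Setting

/-- A common rank one partner of two different commuting members yields a setting. -/
theorem setting_of_config (hS : IsRootSubgroupSet S) (hA : A ∈ S) (hC : C ∈ S) (hT : T ∈ S)
    (hAC : ⁅A, C⁆ = ⊥) (hne : A ≠ C) (hAT : IsRankOnePair A T) (hCT : IsRankOnePair C T) :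
    ∃ g : G, Setting S T A g ∧ conjBy T g⁻¹ ≠ T := by
  obtain ⟨a, ha, ha1⟩ := exists_ne_one_left hAT
  obtain ⟨b, hb, hb1, he⟩ := hAT.cond_left a ha ha1
  obtain ⟨c, hc, hc1, he2⟩ := hCT.cond_right b hb hb1
  have hac : a * c = c * a := commute_of_bot hAC ha hc
  have hcA : ∀ x ∈ A, c⁻¹ * x = x * c⁻¹ := fun x hx =>
    (commute_of_bot hAC hx (C.inv_mem hc)).symm
  have hgA : ∀ x ∈ A, a * c⁻¹ * x = x * (a * c⁻¹) := by
    intro x hx
    have h1 := comm_of_isMulCommutative (hS.commutative A hA) ha hx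
    calc a * c⁻¹ * x = a * (c⁻¹ * x) := by group
      _ = a * (x * c⁻¹) := by rw [hcA x hx]
      _ = (a * x) * c⁻¹ := by group
      _ = (x * a) * c⁻¹ := by rw [h1]
      _ = _ := by group
  have hcomm : ⁅T, conjBy T (a * c⁻¹)⁻¹⁆ = ⊥ := by
    have h1 := comm_conj hAC b⁻¹
    rw [he, ← he2] at h1
    have h2 := comm_conj h1 c
    rw [conjBy_conjBy, conjBy_conjBy] at h2
    simp only [mul_inv_cancel, conjBy_one] at h2
    have e : (a * c⁻¹)⁻¹ = c * a⁻¹ := by group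
    rw [e, Subgroup.commutator_comm]
    exact h2
  refine ⟨a * c⁻¹, ⟨hS, hT, hA, RankOnePair_symm hAT, hgA, hcomm⟩, ?_⟩
  intro h
  have hT' : conjBy T (a * c⁻¹) = T := by
    conv_lhs => rw [← h]
    rw [conjBy_conjBy]; simp
  have hgT := rigid hAT hgA hT'
  have hinvcomm : ∀ {y u : G}, y * u = u * y → y⁻¹ * u = u * y⁻¹ := by
    intro y u h
    calc y⁻¹ * u = y⁻¹ * (u * y) * y⁻¹ := by group
      _ = y⁻¹ * (y * u) * y⁻¹ := by rw [h]
      _ = _ := by group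
  have hsup : ∀ u ∈ A ⊔ T, (a * c⁻¹)⁻¹ * u = u * (a * c⁻¹)⁻¹ :=
    comm_sup (fun x hx => hinvcomm (hgA x hx)) (fun x hx => hinvcomm (hgT x hx))
  have e : (a * c⁻¹)⁻¹ * a = c := by
    calc (a * c⁻¹)⁻¹ * a = c * a⁻¹ * a := by group
      _ = c := by group
  have hr : (a * c⁻¹)⁻¹ * a ∈ rootElements S := by
    rw [e]
    exact ⟨hc1, C, hC, hc⟩
  by_cases h1 : (a * c⁻¹)⁻¹ = 1
  · rw [h1, one_mul] at e
    have hmem : a ∈ A ⊓ C := ⟨ha, by rw [e]; exact hc⟩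
    rcases inf_eq_bot_or_eq hS hC hT hAT with h2 | h2
    · rw [h2] at hmem
      exact ha1 hmem
    · exact hne h2
  · exact mul_not_mem_rootElements hS hA hT hAT hsup h1 ha ha1 hr

/-- A common rank one partner of two different commuting members forces specialness. -/
theorem special_of_config (hS : IsRootSubgroupSet S) (hA : A ∈ S) (hC : C ∈ S) (hT : T ∈ S)
    (hAC : ⁅A, C⁆ = ⊥) (hne : A ≠ C) (hAT : IsRankOnePair A T) (hCT : IsRankOnePair C T) :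
    IsSpecialRankOnePair A T := by
  obtain ⟨g, hg, hg'⟩ := setting_of_config hS hA hC hT hAC hne hAT hCT
  exact special_symm (hg.special hg')

end Cfsg.Agent.Lib.RootSubgroups.SpecialConfig
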