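/-
The block configuration: rank one pairs `A, T` with the same commuting members (part of S5039).
-/
import Mathlib
import Cfsg.Prelude.Def_RootSubgroups
import Cfsg.Agent.Lib.RootSubgroups.SpecialConfig
import Cfsg.Agent.S5016

set_option autoImplicit false

namespace Cfsg.Agent.Lib.RootSubgroups.BlockPair

open Cfsg Cfsg.Agent.Lib.RootSubgroups.RankOne Cfsg.Agent.Lib.RootSubgroups.Abstract
  Cfsg.Agent.Lib.RootSubgroups.Abstract2 Cfsg.Agent.Lib.RootSubgroups.LineConn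
  Cfsg.Agent.Lib.RootSubgroups.Nondeg Cfsg.Agent.Lib.RootSubgroups.Classes
  Cfsg.Agent.Lib.RootSubgroups.Incomparable Cfsg.Agent.Lib.RootSubgroups.SpecialConfig
open scoped commutatorElement

variable {G : Type*} [Group G] {A T T₀ C : Subgroup G} {S : Set (Subgroup G)} {s : G}

lemma inv_comm' {y u : G} (h : y * u = u * y) : y⁻¹ * u = u * y⁻¹ := by
  calc y⁻¹ * u = y⁻¹ * (u * y) * y⁻¹ := by group
    _ = y⁻¹ * (y * u) * y⁻¹ := by rw [h]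
    _ = _ := by group

lemma conjBy_inv_eq {P : Subgroup G} {g : G} (h : conjBy P g = P) : conjBy P g⁻¹ = P := by
  conv_lhs => rw [← h]
  rw [conjBy_conjBy]; simp

lemma conjBy_of_inv_eq {P : Subgroup G} {g : G} (h : conjBy P g⁻¹ = P) : conjBy P g = P := by
  have := conjBy_inv_eq h
  rwa [inv_inv] at this

/-- Conjugating a setting. -/
lemma setting_conj (c : Setting S A T s) (g : G) :
    Setting S (conjBy A g) (conjBy T g) (g * s * g⁻¹) where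
  hS := c.hS
  hA := c.hS.conj_mem A c.hA g
  hT := c.hS.conj_mem T c.hT g
  hAT := isRankOnePair_conjBy c.hAT g
  hsT := by
    intro t ht
    have h1 : g⁻¹ * t * g ∈ T := mem_conjBy.1 ht
    have h2 := c.hsT _ h1
    have e : t = g * (g⁻¹ * t * g) * g⁻¹ := by group
    calc g * s * g⁻¹ * t = g * (s * (g⁻¹ * t * g)) * g⁻¹ := by group
      _ = g * ((g⁻¹ * t * g) * s) * g⁻¹ := by rw [h2]
      _ = _ := by group
  hcomm := by
    have h1 := comm_conj c.hcomm g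
    have e : conjBy (conjBy A g) (g * s * g⁻¹)⁻¹ = conjBy (conjBy A s⁻¹) g := by
      rw [conjBy_conjBy, conjBy_conjBy]
      congr 1
      group
    rw [e]
    exact h1

lemma setting_conj_ne (hne : conjBy A s⁻¹ ≠ A) (g : G) :
    conjBy (conjBy A g) (g * s * g⁻¹)⁻¹ ≠ conjBy A g := by
  have e : conjBy (conjBy A g) (g * s * g⁻¹)⁻¹ = conjBy (conjBy A s⁻¹) g := by
    rw [conjBy_conjBy, conjBy_conjBy]
    congr 1
    group
  rw [e]
  intro h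
  exact hne (conjBy_inj.1 h)

lemma moves_inv (c : Setting S A T s) (hne : conjBy A s⁻¹ ≠ A) {a : G} (ha : a ∈ A) (ha1 : a ≠ 1) :
    conjBy T (qq s a)⁻¹ ≠ T := by
  rw [← c.qq_inv ha]
  exact c.q_moves hne (A.inv_mem ha) (inv_ne_one.2 ha1)

lemma mirror_moves (c : Setting S A T s) (hne : conjBy A s⁻¹ ≠ A) {a t : G} (ha : a ∈ A)
    (ha1 : a ≠ 1) (ht : t ∈ T) (ht1 : t ≠ 1) : conjBy A (qq (qq s a) t)⁻¹ ≠ A :=
  moves_inv (c.mirror ha) (moves_inv c hne ha ha1) ht ht1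

/-- Matched elements: the inverse match. -/
lemma odd_conj (c : Setting S A T s) (hne : conjBy A s⁻¹ ≠ A) {a b : G} (ha : a ∈ A) (ha1 : a ≠ 1)
    (hb : b ∈ T) (he : conjBy A b⁻¹ = conjBy T a⁻¹) : conjBy A b⁻¹⁻¹ = conjBy T a := by
  obtain ⟨b', hb', -, he'⟩ := c.hAT.cond_left a⁻¹ (A.inv_mem ha) (inv_ne_one.2 ha1)
  rw [inv_inv] at he'
  have h1 := c.odd hne ha ha1 hb hb' he he'
  rw [h1] at he'
  exact he'

/-- Conjugation-invariant version of `exists_setting`. -/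
theorem exists_setting (hS : IsRootSubgroupClass S) (hdeg : IsDegenerateRootSet S)
    (hcomm : ∃ A ∈ S, ∃ C ∈ S, A ≠ C ∧ ⁅A, C⁆ = ⊥) (hA : A ∈ S) (hT : T ∈ S)
    (hAT : IsRankOnePair A T) :
    ∃ (T₀ : Subgroup G) (s : G), Setting S A T₀ s ∧ conjBy A s⁻¹ ≠ A := by
  by_contra hno
  have step : ∀ P ∈ S, ∀ P' ∈ S, IsRankOnePair P P' → ∀ D ∈ S, D ≠ P → ⁅P, D⁆ = ⊥ →
      D ≠ P' ∧ ⁅P', D⁆ = ⊥ := by
    intro P hP P' hP' hPP' D hD hDP hPD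
    have hDP' : D ≠ P' := by
      rintro rfl
      exact rankOne_not_comm hPP' hPD
    refine ⟨hDP', ?_⟩
    rcases hS.1.pair P' hP' D hD with h | h | h
    · exact h
    · exfalso
      obtain ⟨g, hg, hg'⟩ := setting_of_config hS.1 hP hD hP' hPD hDP.symm hPP' (RankOnePair_symm h)
      obtain ⟨t, ht, ht1⟩ := exists_ne_one_left (RankOnePair_symm hPP')
      have c2 := hg.mirror ht
      have hne := moves_inv hg hg' ht ht1
      obtain ⟨x, hx⟩ := hS.2.2 P hP A hA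
      subst hx
      exact hno ⟨conjBy P' x, x * qq g t * x⁻¹, setting_conj c2 x, setting_conj_ne hne x⟩
    · exact absurd h (hdeg _ hP' _ hD)
  have hcon : IsConnectedFamily (FAdj S) S :=
    (connected_iff hS.1 ⟨A, hA, T, hT, hAT.ne⟩).2 ⟨hS.2, A, hA, fun h => (h.2 T).1 ⟨hA, hT, hAT⟩⟩
  obtain ⟨A₁, hA₁, C₁, hC₁, hne₁, hcomm₁⟩ := hcomm
  have key : ∀ {Z : Subgroup G}, Relation.ReflTransGen (FAdj S) A₁ Z → C₁ ≠ Z ∧ ⁅Z, C₁⁆ = ⊥ := by
    intro Z hZ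
    induction hZ with
    | refl => exact ⟨hne₁.symm, hcomm₁⟩
    | tail _ h2 ih =>
      exact step _ h2.1 _ h2.2.1 h2.2.2 C₁ hC₁ ih.1 ih.2
  exact (key (hcon A₁ hA₁ C₁ hC₁)).1 rfl

/-- The central twist. -/
theorem exists_central_twist (c : Setting S A T₀ s) (hne : conjBy A s⁻¹ ≠ A)
    (hSig : ∀ D ∈ S, D ≠ A → ⁅A, D⁆ = ⊥ → ⁅T, D⁆ = ⊥) {e₁ e₂ : G} (he₁ : e₁ ∈ A) (he₂ : e₂ ∈ A)
    (he₁1 : e₁ ≠ 1) (he₂1 : e₂ ≠ 1) (he₁₂ : e₁ ≠ e₂) {x : G} (hx : x ∈ A) :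
    ∃ z : G, (∀ u ∈ A, z * u = u * z) ∧ (∀ u ∈ T, z * u = u * z) ∧
      ∀ t ∈ T₀, (x * z) * t = t * (x * z) := by
  by_cases hx1 : x = 1
  · exact ⟨1, by simp, by simp, by simp [hx1]⟩
  obtain ⟨a₁, ha₁, ha₁1, ha₁x⟩ : ∃ a₁ ∈ A, a₁ ≠ 1 ∧ a₁ ≠ x := by
    by_cases h : e₁ = x
    · exact ⟨e₂, he₂, he₂1, fun h2 => he₁₂ (h.trans h2.symm)⟩
    · exact ⟨e₁, he₁, he₁1, h⟩
  set a₂ := a₁ * x⁻¹ with ha₂_def
  have ha₂ : a₂ ∈ A := A.mul_mem ha₁ (A.inv_mem hx)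
  have ha₂1 : a₂ ≠ 1 := by
    intro h
    apply ha₁x
    exact mul_inv_eq_one.1 h
  have hsp := c.special hne
  obtain ⟨b₁, hb₁, hb₁1, he₁'⟩ := c.hAT.cond_left a₁ ha₁ ha₁1
  have he₁'' := odd_conj c hne ha₁ ha₁1 hb₁ he₁'
  obtain ⟨hn₁1, hn₁2⟩ := swap_conj hb₁ (T₀.inv_mem hb₁) he₁' he₁''
  set n₁ := b₁ * a₁⁻¹ * b₁⁻¹⁻¹ with hn₁
  have ht : n₁⁻¹ * a₂ * n₁ ∈ T₀ := by
    have h3 : a₂ ∈ conjBy T₀ n₁ := by rw [hn₁1]; exact ha₂
    exact mem_conjBy.1 h3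
  have ht1 : n₁⁻¹ * a₂ * n₁ ≠ 1 := by
    intro h3
    apply ha₂1
    have e : a₂ = n₁ * (n₁⁻¹ * a₂ * n₁) * n₁⁻¹ := by group
    rw [e, h3]; simp
  set t := n₁⁻¹ * a₂ * n₁ with ht_def
  set b := t⁻¹ with hb_def
  have hb : b ∈ T₀ := T₀.inv_mem ht
  have hb1 : b ≠ 1 := inv_ne_one.2 ht1
  obtain ⟨a, ha, ha1, he⟩ := c.hAT.cond_right b hb hb1
  have he' := odd_conj c hne ha ha1 hb he.symm
  obtain ⟨hn1, hn2⟩ := swap_conj hb (T₀.inv_mem hb) he.symm he'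
  set n := b * a⁻¹ * b⁻¹⁻¹ with hn
  have hnan : n⁻¹ * a * n = t := by
    have h1 := hsp.2 a ha ha1 b hb hb1 he.symm
    have e1 : n⁻¹ * a * n = b⁻¹ * a * (b⁻¹ * a * b) * a⁻¹ * b := by
      rw [hn]; group
    rw [e1, h1, hb_def]
    group
  have hAn : conjBy A n⁻¹ = T₀ := by
    rw [← hn1, conjBy_conjBy]; simp
  set h := n₁ * n⁻¹ with hh
  have hAh : conjBy A h = A := by
    rw [hh, ← conjBy_conjBy, hAn, hn₁1]
  have hha : h * a * h⁻¹ = a₂ := by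
    calc h * a * h⁻¹ = n₁ * (n⁻¹ * a * n) * n₁⁻¹ := by rw [hh]; group
      _ = n₁ * (n₁⁻¹ * a₂ * n₁) * n₁⁻¹ := by rw [hnan]
      _ = a₂ := by group
  obtain ⟨y₁, hy₁A, hy₁T, hy₁, -⟩ := c.star ha₁ hb₁ (T₀.inv_mem hb₁) he₁' he₁''
  obtain ⟨y₀, hy₀A, hy₀T, hy₀, -⟩ := c.star ha hb (T₀.inv_mem hb) he.symm he'
  rw [← hn₁] at hy₁
  rw [← hn] at hy₀
  -- `h` lies in `A ⊔ T₀`
  have hn₁_mem : n₁ ∈ A ⊔ T₀ := by
    rw [hn₁]
    exact Subgroup.mul_mem _ (Subgroup.mul_mem _ (Subgroup.mem_sup_right hb₁)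
      (Subgroup.mem_sup_left (A.inv_mem ha₁))) (Subgroup.mem_sup_right (T₀.inv_mem (T₀.inv_mem hb₁)))
  have hn_mem : n ∈ A ⊔ T₀ := by
    rw [hn]
    exact Subgroup.mul_mem _ (Subgroup.mul_mem _ (Subgroup.mem_sup_right hb)
      (Subgroup.mem_sup_left (A.inv_mem ha))) (Subgroup.mem_sup_right (T₀.inv_mem (T₀.inv_mem hb)))
  have hh_mem : h ∈ A ⊔ T₀ := Subgroup.mul_mem _ hn₁_mem (Subgroup.inv_mem _ hn_mem)
  have hy₀h : y₀ * h = h * y₀ := comm_sup hy₀A hy₀T h hh_mem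
  set s₂ := h * s * h⁻¹ with hs₂
  set f₁ := s⁻¹ * a₁⁻¹ * s with hf₁
  set f₂ := s₂⁻¹ * a₂⁻¹ * s₂ with hf₂
  have hq₁ : qq s a₁ = a₁ * f₁ := rfl
  have hconj : h * qq s a * h⁻¹ = a₂ * f₂ := by
    rw [hf₂, ← hha, hs₂, qq_def]
    group
  have hmain : y₀ * (a₂ * f₂) = y₁ * (a₁ * f₁) := by
    rw [← hconj, ← hq₁, ← hy₁]
    calc y₀ * (h * qq s a * h⁻¹) = (y₀ * h) * qq s a * h⁻¹ := by group
      _ = (h * y₀) * qq s a * h⁻¹ := by rw [hy₀h]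
      _ = h * (y₀ * qq s a) * h⁻¹ := by group
      _ = h * (n * s * n⁻¹) * h⁻¹ := by rw [hy₀]
      _ = n₁ * s * n₁⁻¹ := by rw [hh]; group
  have ha₁e : a₁ = a₂ * x := by rw [ha₂_def]; group
  have hcancel : y₀ * f₂ = y₁ * x * f₁ := by
    have h1 : a₂ * (y₀ * f₂) = a₂ * (y₁ * x * f₁) := by
      calc a₂ * (y₀ * f₂) = (a₂ * y₀) * f₂ := by group
        _ = (y₀ * a₂) * f₂ := by rw [hy₀A a₂ ha₂]
        _ = y₀ * (a₂ * f₂) := by group
        _ = y₁ * (a₁ * f₁) := hmain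
        _ = y₁ * (a₂ * x * f₁) := by rw [ha₁e]
        _ = (y₁ * a₂) * x * f₁ := by group
        _ = (a₂ * y₁) * x * f₁ := by rw [hy₁A a₂ ha₂]
        _ = _ := by group
    exact mul_left_cancel h1
  have hxz : x * (f₁ * f₂⁻¹) = y₁⁻¹ * y₀ := by
    have e1 : x * f₁ = y₁⁻¹ * (y₁ * x * f₁) := by group
    calc x * (f₁ * f₂⁻¹) = (x * f₁) * f₂⁻¹ := by group
      _ = y₁⁻¹ * (y₁ * x * f₁) * f₂⁻¹ := by rw [e1]
      _ = y₁⁻¹ * (y₀ * f₂) * f₂⁻¹ := by rw [hcancel]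
      _ = _ := by group
  -- memberships
  have hf₁_mem : f₁ ∈ conjBy A s⁻¹ := c.mem_conj (A.inv_mem ha₁)
  have hf₂_mem : f₂ ∈ conjBy A s₂⁻¹ := by
    have := conj_mem_conjBy (A.inv_mem ha₂) s₂⁻¹
    rwa [inv_inv] at this
  have c₂ := setting_conj c h
  have hne₂ := setting_conj_ne hne h
  rw [hAh] at c₂ hne₂
  have hC₂ := c₂.hcomm
  have hC₁ := c.hcomm
  have hT₁ := hSig _ (c.hS.conj_mem A c.hA s⁻¹) hne hC₁
  have hT₂ := hSig _ (c.hS.conj_mem A c.hA s₂⁻¹) hne₂ hC₂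
  refine ⟨f₁ * f₂⁻¹, ?_, ?_, ?_⟩
  · intro u hu
    have h1 : f₁ * u = u * f₁ := (commute_of_bot hC₁ hu hf₁_mem).symm
    have h2 : f₂ * u = u * f₂ := (commute_of_bot hC₂ hu hf₂_mem).symm
    have h3 := inv_comm' h2
    calc f₁ * f₂⁻¹ * u = f₁ * (f₂⁻¹ * u) := by group
      _ = f₁ * (u * f₂⁻¹) := by rw [h3]
      _ = (f₁ * u) * f₂⁻¹ := by group
      _ = (u * f₁) * f₂⁻¹ := by rw [h1]
      _ = _ := by group
  · intro u hu
    have h1 : f₁ * u = u * f₁ := (commute_of_bot hT₁ hu hf₁_mem).symm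
    have h2 : f₂ * u = u * f₂ := (commute_of_bot hT₂ hu hf₂_mem).symm
    have h3 := inv_comm' h2
    calc f₁ * f₂⁻¹ * u = f₁ * (f₂⁻¹ * u) := by group
      _ = f₁ * (u * f₂⁻¹) := by rw [h3]
      _ = (f₁ * u) * f₂⁻¹ := by group
      _ = (u * f₁) * f₂⁻¹ := by rw [h1]
      _ = _ := by group
  · intro u hu
    rw [hxz]
    have h1 := hy₁T u hu
    have h2 := hy₀T u hu
    have h3 := inv_comm' h1
    calc y₁⁻¹ * y₀ * u = y₁⁻¹ * (y₀ * u) := by group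
      _ = y₁⁻¹ * (u * y₀) := by rw [h2]
      _ = (y₁⁻¹ * u) * y₀ := by group
      _ = (u * y₁⁻¹) * y₀ := by rw [h3]
      _ = _ := by group

/-- The elements of `A ⊔ T` that centralize `T₀` modulo the centre of `A ⊔ T`. -/
def twistSubgroup (A T T₀ : Subgroup G) : Subgroup G where
  carrier := {g | g ∈ A ⊔ T ∧ ∃ z : G, (∀ u ∈ A ⊔ T, z * u = u * z) ∧
    ∀ t ∈ T₀, (g * z) * t = t * (g * z)}
  mul_mem' := by
    rintro g₁ g₂ ⟨h₁, z₁, hz₁, hg₁⟩ ⟨h₂, z₂, hz₂, hg₂⟩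
    refine ⟨Subgroup.mul_mem _ h₁ h₂, z₁ * z₂, ?_, ?_⟩
    · intro u hu
      calc z₁ * z₂ * u = z₁ * (z₂ * u) := by group
        _ = z₁ * (u * z₂) := by rw [hz₂ u hu]
        _ = (z₁ * u) * z₂ := by group
        _ = (u * z₁) * z₂ := by rw [hz₁ u hu]
        _ = _ := by group
    · intro t ht
      have e : g₁ * g₂ * (z₁ * z₂) = (g₁ * z₁) * (g₂ * z₂) := by
        calc g₁ * g₂ * (z₁ * z₂) = g₁ * (g₂ * z₁) * z₂ := by group
          _ = g₁ * (z₁ * g₂) * z₂ := by rw [hz₁ g₂ h₂]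
          _ = _ := by group
      rw [e]
      calc g₁ * z₁ * (g₂ * z₂) * t = g₁ * z₁ * ((g₂ * z₂) * t) := by group
        _ = g₁ * z₁ * (t * (g₂ * z₂)) := by rw [hg₂ t ht]
        _ = ((g₁ * z₁) * t) * (g₂ * z₂) := by group
        _ = (t * (g₁ * z₁)) * (g₂ * z₂) := by rw [hg₁ t ht]
        _ = _ := by group
  one_mem' := ⟨Subgroup.one_mem _, 1, by simp, by simp⟩
  inv_mem' := by
    rintro g ⟨h, z, hz, hg⟩
    refine ⟨Subgroup.inv_mem _ h, z⁻¹, fun u hu => inv_comm' (hz u hu), ?_⟩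
    intro t ht
    have e : g⁻¹ * z⁻¹ = (g * z)⁻¹ := by
      have h2 : (g * z)⁻¹ = (z * g)⁻¹ := by rw [hz g h]
      rw [h2]; group
    rw [e]
    exact inv_comm' (hg t ht)

/-- Every element of `A ⊔ T` centralizes `T₀` modulo the centre. -/
theorem exists_twist_sup (c : Setting S A T₀ s) (hne : conjBy A s⁻¹ ≠ A)
    (c' : Setting S T T₀ s) (hne' : conjBy T s⁻¹ ≠ T)
    (hSig₁ : ∀ D ∈ S, D ≠ A → ⁅A, D⁆ = ⊥ → ⁅T, D⁆ = ⊥)
    (hSig₂ : ∀ D ∈ S, D ≠ T → ⁅T, D⁆ = ⊥ → ⁅A, D⁆ = ⊥)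
    {e₁ e₂ : G} (he₁ : e₁ ∈ A) (he₂ : e₂ ∈ A) (he₁1 : e₁ ≠ 1) (he₂1 : e₂ ≠ 1) (he₁₂ : e₁ ≠ e₂)
    {f₁ f₂ : G} (hf₁ : f₁ ∈ T) (hf₂ : f₂ ∈ T) (hf₁1 : f₁ ≠ 1) (hf₂1 : f₂ ≠ 1) (hf₁₂ : f₁ ≠ f₂)
    {g : G} (hg : g ∈ A ⊔ T) :
    ∃ z : G, (∀ u ∈ A ⊔ T, z * u = u * z) ∧ ∀ t ∈ T₀, (g * z) * t = t * (g * z) := by
  have hle : A ⊔ T ≤ twistSubgroup A T T₀ := by
    refine sup_le ?_ ?_
    · intro x hx
      obtain ⟨z, h1, h2, h3⟩ := exists_central_twist c hne hSig₁ he₁ he₂ he₁1 he₂1 he₁₂ hx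
      exact ⟨Subgroup.mem_sup_left hx, z, comm_sup h1 h2, h3⟩
    · intro x hx
      obtain ⟨z, h1, h2, h3⟩ := exists_central_twist c' hne' hSig₂ hf₁ hf₂ hf₁1 hf₂1 hf₁₂ hx
      exact ⟨Subgroup.mem_sup_right hx, z, comm_sup h2 h1, h3⟩
  exact (hle hg).2

/-- Elements of `A ⊔ T` normalizing `A` centralize `A`. -/
theorem comm_of_normalizes (c : Setting S A T₀ s) {g : G}
    (hz : ∃ z : G, (∀ u ∈ A, z * u = u * z) ∧ ∀ t ∈ T₀, (g * z) * t = t * (g * z))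
    (hg : conjBy A g = A) {a : G} (ha : a ∈ A) : g * a = a * g := by
  by_cases ha1 : a = 1
  · simp [ha1]
  obtain ⟨z, hzA, hzT⟩ := hz
  set y := g * z with hy
  have hAy : conjBy A y = A := by
    rw [hy, ← conjBy_conjBy, conjBy_eq_self_of_commute hzA, hg]
  obtain ⟨b, hb, -, he⟩ := c.hAT.cond_left a ha ha1
  have hT₀y : conjBy T₀ y = T₀ := conjBy_eq_self_of_commute hzT
  have hyb : y * b⁻¹ = b⁻¹ * y := hzT b⁻¹ (T₀.inv_mem hb)
  have h1 : conjBy T₀ (y * a⁻¹ * y⁻¹) = conjBy T₀ a⁻¹ := by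
    calc conjBy T₀ (y * a⁻¹ * y⁻¹) = conjBy (conjBy T₀ y⁻¹) (y * a⁻¹) := (conjBy_conjBy _ _ _).symm
      _ = conjBy T₀ (y * a⁻¹) := by rw [conjBy_inv_eq hT₀y]
      _ = conjBy (conjBy T₀ a⁻¹) y := (conjBy_conjBy _ _ _).symm
      _ = conjBy (conjBy A b⁻¹) y := by rw [he]
      _ = conjBy A (y * b⁻¹) := conjBy_conjBy _ _ _
      _ = conjBy A (b⁻¹ * y) := by rw [hyb]
      _ = conjBy (conjBy A y) b⁻¹ := (conjBy_conjBy _ _ _).symm
      _ = conjBy A b⁻¹ := by rw [hAy]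
      _ = conjBy T₀ a⁻¹ := he
  have hmem : y * a⁻¹ * y⁻¹ ∈ A := by
    have := conj_mem_conjBy (A.inv_mem ha) y
    rwa [hAy] at this
  have h2 := conjBy_right_inj c.hAT hmem (A.inv_mem ha) h1
  have h3 : y * a = a * y := by
    have h4 : y * a⁻¹ = a⁻¹ * y := by
      calc y * a⁻¹ = (y * a⁻¹ * y⁻¹) * y := by group
        _ = a⁻¹ * y := by rw [h2]
    have h5 := inv_comm' h4.symm
    rw [inv_inv] at h5
    exact h5.symm
  have hza := hzA a ha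
  have hzi := inv_comm' hza
  calc g * a = y * z⁻¹ * a := by rw [hy]; group
    _ = y * (z⁻¹ * a) := by group
    _ = y * (a * z⁻¹) := by rw [hzi]
    _ = (y * a) * z⁻¹ := by group
    _ = (a * y) * z⁻¹ := by rw [h3]
    _ = a * g := by rw [hy]; group

/-- The abstract commutation argument. -/
lemma cube_aux {x x' x'' t t' r : G} (h1 : Commute x x') (h2 : Commute x x'') (h3 : Commute x' x'')
    (h4 : Commute t x') (h5 : Commute t x'') (h6 : Commute t' x) (h7 : Commute t' x'')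
    (hx : r⁻¹ * x * r = x') (ht : r⁻¹ * t * r = t')
    (hY : Commute (x⁻¹ * (x' * x' * x''⁻¹)) r) : Commute (x' * x' * x') t' := by
  set W := x' * x' with hW
  set Y := x⁻¹ * (W * x''⁻¹) with hYd
  have hWx : Commute W x := (h1.mul_right h1).symm
  have hWx'' : Commute W x'' := h3.mul_left h3
  have htW : Commute t W := h4.mul_right h4
  have e1 : Y * t * Y⁻¹ = x⁻¹ * t * x := by
    have e : Y * t * Y⁻¹ = x⁻¹ * (W * (x''⁻¹ * t * x'') * W⁻¹) * x := by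
      rw [hYd]; group
    rw [e]
    have e2 : x''⁻¹ * t * x'' = t := by
      have := h5.eq
      calc x''⁻¹ * t * x'' = x''⁻¹ * (t * x'') := by group
        _ = x''⁻¹ * (x'' * t) := by rw [this]
        _ = t := by group
    have e3 : W * t * W⁻¹ = t := by
      have := htW.eq
      calc W * t * W⁻¹ = (W * t) * W⁻¹ := rfl
        _ = (t * W) * W⁻¹ := by rw [this]
        _ = t := by group
    rw [e2, e3]
  have e4 : Y * t' * Y⁻¹ = W * t' * W⁻¹ := by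
    have e : Y * t' * Y⁻¹ = x⁻¹ * (W * (x''⁻¹ * t' * x'') * W⁻¹) * x := by
      rw [hYd]; group
    rw [e]
    have e2 : x''⁻¹ * t' * x'' = t' := by
      have := h7.eq
      calc x''⁻¹ * t' * x'' = x''⁻¹ * (t' * x'') := by group
        _ = x''⁻¹ * (x'' * t') := by rw [this]
        _ = t' := by group
    rw [e2]
    have e3 : x⁻¹ * (W * t' * W⁻¹) * x = W * (x⁻¹ * t' * x) * W⁻¹ := by
      have hxW : x⁻¹ * W = W * x⁻¹ := inv_comm' hWx.symm.eq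
      have hxWi : W⁻¹ * x = x * W⁻¹ := inv_comm' hWx.eq
      calc x⁻¹ * (W * t' * W⁻¹) * x = (x⁻¹ * W) * t' * (W⁻¹ * x) := by group
        _ = (W * x⁻¹) * t' * (x * W⁻¹) := by rw [hxW, hxWi]
        _ = _ := by group
    rw [e3]
    have e5 : x⁻¹ * t' * x = t' := by
      have := h6.eq
      calc x⁻¹ * t' * x = x⁻¹ * (t' * x) := by group
        _ = x⁻¹ * (x * t') := by rw [this]
        _ = t' := by group
    rw [e5]
  have e6 : r⁻¹ * (Y * t * Y⁻¹) * r = Y * t' * Y⁻¹ := by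
    have hY' : r⁻¹ * Y * r = Y := by
      have := hY.eq
      calc r⁻¹ * Y * r = r⁻¹ * (Y * r) := by group
        _ = r⁻¹ * (r * Y) := by rw [this]
        _ = Y := by group
    have hYi : r⁻¹ * Y⁻¹ * r = Y⁻¹ := by
      have := inv_comm' hY.eq
      calc r⁻¹ * Y⁻¹ * r = r⁻¹ * (Y⁻¹ * r) := by group
        _ = r⁻¹ * (r * Y⁻¹) := by rw [this]
        _ = Y⁻¹ := by group
    calc r⁻¹ * (Y * t * Y⁻¹) * r = (r⁻¹ * Y * r) * (r⁻¹ * t * r) * (r⁻¹ * Y⁻¹ * r) := by group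
      _ = _ := by rw [hY', ht, hYi]
  have e7 : r⁻¹ * (x⁻¹ * t * x) * r = x'⁻¹ * t' * x' := by
    rw [← hx, ← ht]; group
  rw [e1, e7, e4] at e6
  have e8 : W * x' * t' = t' * (W * x') := by
    have hxW : x' * W = W * x' := by rw [hW]; group
    calc W * x' * t' = x' * W * t' := by rw [hxW]
      _ = x' * (W * t' * W⁻¹) * W := by group
      _ = x' * (x'⁻¹ * t' * x') * W := by rw [e6]
      _ = t' * (x' * W) := by group
      _ = _ := by rw [hxW]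
  exact e8

/-- The exponent is at most three as soon as some matched element has square not one. -/
theorem cube_of_block (c : Setting S A T₀ s) (hne : conjBy A s⁻¹ ≠ A) (hAT : IsRankOnePair A T)
    (hT : T ∈ S) (hSig : ∀ D ∈ S, D ≠ A → ⁅A, D⁆ = ⊥ → ⁅T, D⁆ = ⊥) {a₀ b₀ : G} (ha₀ : a₀ ∈ A)
    (ha₀1 : a₀ ≠ 1) (hb₀ : b₀ ∈ T₀) (he : conjBy A b₀⁻¹ = conjBy T₀ a₀⁻¹) (hb₀2 : b₀ * b₀ ≠ 1)
    {x : G} (hx : x ∈ A) : x * x * x = 1 := by
  have he' := odd_conj c hne ha₀ ha₀1 hb₀ he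
  obtain ⟨y, hyA, hyT, -, hs⟩ := c.star2 ha₀ hb₀ (T₀.inv_mem hb₀) he he'
  have c₂ := c.mirror (A.inv_mem ha₀)
  have hb₀i : b₀⁻¹ ∈ T₀ := T₀.inv_mem hb₀
  have c' := c₂.mirror hb₀i
  set u₀ := qq s a₀⁻¹ with hu₀
  set s' := qq u₀ b₀⁻¹ with hs'
  have hbb : b₀⁻¹ * b₀⁻¹ ≠ 1 := by
    intro h
    apply hb₀2
    have e : b₀ * b₀ = (b₀⁻¹ * b₀⁻¹)⁻¹ := by simp
    rw [e, h]; simp
  -- the action of `s'` on `A`
  have hyi : ∀ v ∈ A, y⁻¹ * v = v * y⁻¹ := fun v hv => inv_comm' (hyA v hv)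
  have hact : ∀ v ∈ A, s⁻¹ * v * s = s'⁻¹ * v * s' := by
    intro v hv
    have e : s⁻¹ * v * s = s'⁻¹ * (y⁻¹ * v * y) * s' := by
      conv_lhs => rw [hs]
      group
    rw [e]
    have : y⁻¹ * v * y = v := by
      calc y⁻¹ * v * y = (v * y⁻¹) * y := by rw [hyi v hv]
        _ = v := by group
    rw [this]
  have hC : conjBy A s'⁻¹ = conjBy A s⁻¹ := by
    have e : s⁻¹ = s'⁻¹ * y⁻¹ := by
      conv_lhs => rw [hs]
      group
    rw [e, ← conjBy_conjBy (A := A), conjBy_inv_eq (conjBy_eq_self_of_commute hyA)]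
  have hne' : conjBy A s'⁻¹ ≠ A := by rw [hC]; exact hne
  have hCm : conjBy A s'⁻¹ ∈ S := c.hS.conj_mem A c.hA s'⁻¹
  have h1 : ⁅T, conjBy A s'⁻¹⁆ = ⊥ := hSig _ hCm hne' c'.hcomm
  have hmul : qq u₀ (b₀⁻¹ * b₀⁻¹) = s' * s' := c₂.qq_mul hb₀i hb₀i
  have hinv : (s' * s')⁻¹ = s'⁻¹ * s'⁻¹ := by group
  have hcA : ⁅A, conjBy A (s' * s')⁻¹⁆ = ⊥ := by
    rw [← hmul]; exact c₂.comm_q (T₀.mul_mem hb₀i hb₀i)
  have hneA : conjBy A (s' * s')⁻¹ ≠ A := by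
    rw [← hmul]
    exact mirror_moves c hne (A.inv_mem ha₀) (inv_ne_one.2 ha₀1) (T₀.mul_mem hb₀i hb₀i) hbb
  have h4 : ⁅T, conjBy A (s' * s')⁻¹⁆ = ⊥ := hSig _ (c.hS.conj_mem A c.hA _) hneA hcA
  have hA2 : conjBy A (s' * s')⁻¹ = conjBy (conjBy A s'⁻¹) s'⁻¹ := by
    rw [conjBy_conjBy, hinv]
  have h5 : ⁅conjBy A s'⁻¹, conjBy A (s' * s')⁻¹⁆ = ⊥ := by
    rw [hA2]; exact comm_conj c'.hcomm s'⁻¹
  have h6 : ⁅conjBy T s'⁻¹, conjBy A (s' * s')⁻¹⁆ = ⊥ := by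
    rw [hA2]; exact comm_conj h1 s'⁻¹
  have h7 : ⁅A, conjBy T s'⁻¹⁆ = ⊥ := by
    have h8 : ⁅A, conjBy A s'⁆ = ⊥ := by
      have := comm_conj c'.hcomm s'
      rw [conjBy_conjBy] at this
      simp only [mul_inv_cancel, conjBy_one] at this
      rw [Subgroup.commutator_comm]
      exact this
    have h9 : conjBy A s' ≠ A := fun h => hne' (conjBy_inv_eq h)
    have h10 : ⁅T, conjBy A s'⁆ = ⊥ := hSig _ (c.hS.conj_mem A c.hA s') h9 h8
    have h11 := comm_conj h10 s'⁻¹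
    rw [conjBy_conjBy A] at h11
    simp only [inv_mul_cancel, conjBy_one] at h11
    rw [Subgroup.commutator_comm]
    exact h11
  -- the family
  have hform : s' = b₀⁻¹ * (qq s a₀ * b₀⁻¹⁻¹ * (qq s a₀)⁻¹) := c.qq_inv_form ha₀
  have hfam : ∀ w ∈ A, Commute s' (qq s w * s' * (qq s w)⁻¹) := by
    intro w hw
    have e1 : qq s w * s' * (qq s w)⁻¹ = (qq s w * b₀⁻¹ * (qq s w)⁻¹) *
        (qq s (w * a₀) * b₀⁻¹⁻¹ * (qq s (w * a₀))⁻¹) := by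
      rw [c.qq_mul hw ha₀]
      conv_lhs => rw [hform]
      group
    rw [e1]
    conv_lhs => rw [hform]
    have hwa : w * a₀ ∈ A := A.mul_mem hw ha₀
    have hbi : b₀⁻¹⁻¹ ∈ T₀ := T₀.inv_mem hb₀i
    have p13 : Commute b₀⁻¹ (qq s w * b₀⁻¹ * (qq s w)⁻¹) := c.comm_fam₀ hw hb₀i hb₀i
    have p14 : Commute b₀⁻¹ (qq s (w * a₀) * b₀⁻¹⁻¹ * (qq s (w * a₀))⁻¹) := c.comm_fam₀ hwa hb₀i hbi
    have p23 : Commute (qq s a₀ * b₀⁻¹⁻¹ * (qq s a₀)⁻¹) (qq s w * b₀⁻¹ * (qq s w)⁻¹) :=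
      c.comm_fam' ha₀ hw hbi hb₀i
    have p24 : Commute (qq s a₀ * b₀⁻¹⁻¹ * (qq s a₀)⁻¹)
        (qq s (w * a₀) * b₀⁻¹⁻¹ * (qq s (w * a₀))⁻¹) := c.comm_fam' ha₀ hwa hbi hbi
    exact Commute.mul_left (Commute.mul_right p13 p14) (Commute.mul_right p23 p24)
  set q := qq s x with hq
  set x' := s'⁻¹ * x * s' with hx'
  set x'' := s'⁻¹ * x' * s' with hx''
  have hqe : q = x * x'⁻¹ := by
    rw [hq, qq_def, hact x⁻¹ (A.inv_mem hx), hx']; group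
  have hqi : qq s x⁻¹ = q⁻¹ := c.qq_inv hx
  have hfam' := hfam x⁻¹ (A.inv_mem hx)
  rw [hqi, inv_inv] at hfam'
  have hx1 : Commute x x' := c'.comm_cj hx hx
  have hx'm : x' ∈ conjBy A s'⁻¹ := c'.mem_conj hx
  have hx''m : x'' ∈ conjBy A (s' * s')⁻¹ := by
    have := conj_mem_conjBy hx (s' * s')⁻¹
    have e : (s' * s')⁻¹ * x * (s' * s')⁻¹⁻¹ = x'' := by
      rw [hx'', hx', inv_inv, mul_inv_rev]; simp only [mul_assoc]
    rwa [e] at this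
  have hY : Commute (x⁻¹ * (x' * x' * x''⁻¹)) s' := by
    have e : x⁻¹ * (x' * x' * x''⁻¹) = (q⁻¹ * s' * q)⁻¹ * s' := by
      have e1 : (q⁻¹ * s' * q)⁻¹ * s' = x' * x⁻¹ * (s'⁻¹ * x * s') * (s'⁻¹ * x'⁻¹ * s') := by
        rw [hqe]; group
      have e2 : s'⁻¹ * x'⁻¹ * s' = x''⁻¹ := by rw [hx'']; group
      rw [e1, e2, ← hx']
      have e3 : x' * x⁻¹ = x⁻¹ * x' := (inv_comm' hx1.eq).symm
      rw [e3]; group
    rw [e]
    exact Commute.mul_left hfam'.symm.inv_left (Commute.refl _)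
  have hx2 : Commute x x'' := commute_of_bot hcA hx hx''m
  have hx3 : Commute x' x'' := commute_of_bot h5 hx'm hx''m
  have hcomm : ∀ t ∈ T, (x * x * x) * t = t * (x * x * x) := by
    intro t ht
    have ht'm : s'⁻¹ * t * s' ∈ conjBy T s'⁻¹ := by
      have := conj_mem_conjBy ht s'⁻¹
      rwa [inv_inv] at this
    have key := cube_aux (t := t) (t' := s'⁻¹ * t * s') (r := s') hx1 hx2 hx3
      (commute_of_bot h1 ht hx'm) (commute_of_bot h4 ht hx''m)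
      (commute_of_bot h7 hx ht'm).symm (commute_of_bot h6 ht'm hx''m) rfl rfl hY
    have e3 : x' * x' * x' = s'⁻¹ * (x * x * x) * s' := by rw [hx']; group
    rw [e3] at key
    have h2 : s'⁻¹ * ((x * x * x) * t) * s' = s'⁻¹ * (t * (x * x * x)) * s' := by
      have := key.eq
      calc s'⁻¹ * ((x * x * x) * t) * s' = (s'⁻¹ * (x * x * x) * s') * (s'⁻¹ * t * s') := by group
        _ = (s'⁻¹ * t * s') * (s'⁻¹ * (x * x * x) * s') := this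
        _ = _ := by group
    have h3 := mul_right_cancel h2
    exact mul_left_cancel h3
  exact eq_one_of_conjBy_eq hAT (A.mul_mem (A.mul_mem hx hx) hx) (conjBy_eq_self_of_commute hcomm)

section SL2

open Cfsg.Agent.S5016

/-- The diagonal element. -/
def dgm {k : Type*} [Field k] (l : k) (hl : l ≠ 0) : Matrix.SpecialLinearGroup (Fin 2) k :=
  ⟨!![l, 0; 0, l⁻¹], by simp [Matrix.det_fin_two, hl]⟩

lemma coe_dgm {k : Type*} [Field k] (l : k) (hl : l ≠ 0) :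
    ((dgm l hl : Matrix.SpecialLinearGroup (Fin 2) k) : Matrix (Fin 2) (Fin 2) k) =
      !![l, 0; 0, l⁻¹] := rfl

/-- Data from an `SL₂` over a field with more than three elements. -/
theorem sl2_data {k : Type*} [Field k] (hk : 3 < ENat.card k) {A₀ B₀ : Subgroup G}
    (h : IsPSL2PairOver k A₀ B₀) :
    ∃ a₀ a₃ d : G, a₀ ∈ A₀ ∧ a₃ ∈ A₀ ∧ a₀ ≠ 1 ∧ a₃ ≠ 1 ∧ a₀ ≠ a₃ ∧ d ∈ A₀ ⊔ B₀ ∧
      d * a₀ * d⁻¹ = a₃ := by
  obtain ⟨φ, hrange, hker, hup, hlow⟩ := h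
  obtain ⟨l, hl0, hl2⟩ : ∃ l : k, l ≠ 0 ∧ l * l ≠ 1 := by
    by_contra hno
    push Not at hno
    have hsub : (Set.univ : Set k) ⊆ ({0, 1, -1} : Set k) := by
      intro x _
      by_cases hx : x = 0
      · simp [hx]
      · have h1 := hno x hx
        have h2 : (x - 1) * (x + 1) = 0 := by
          ring_nf
          rw [pow_two, h1]; ring
        rcases mul_eq_zero.1 h2 with h3 | h3
        · have : x = 1 := sub_eq_zero.1 h3
          simp [this]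
        · have : x = -1 := eq_neg_of_add_eq_zero_left h3
          simp [this]
    have h1 : ENat.card k ≤ 3 := by
      rw [← Set.encard_univ]
      refine (Set.encard_le_encard hsub).trans ?_
      refine (Set.encard_insert_le _ _).trans ?_
      have h2 : ({1, -1} : Set k).encard ≤ 2 := by
        refine (Set.encard_insert_le _ _).trans ?_
        rw [Set.encard_singleton]
        norm_num
      calc ({1, -1} : Set k).encard + 1 ≤ 2 + 1 := by gcongr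
        _ = 3 := by norm_num
    exact absurd hk (not_lt.2 h1)
  have hne : ∀ c : k, c ≠ 0 → φ (up c) ≠ 1 := by
    intro c hc h1
    have hmem : up c ∈ φ.ker := h1
    have hcen := hker hmem
    rw [Subgroup.mem_center_iff] at hcen
    have h2 := hcen (low 1)
    have h3 := congrArg (fun g : Matrix.SpecialLinearGroup (Fin 2) k =>
      (g : Matrix (Fin 2) (Fin 2) k) 0 0) h2
    simp [coe_up, coe_low, Matrix.mul_fin_two] at h3
    exact hc h3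
  set dg : Matrix.SpecialLinearGroup (Fin 2) k := dgm l hl0 with hdgd
  have hdg : dg * up 1 = up (l * l) * dg := by
    apply Subtype.ext
    simp only [hdgd, Matrix.SpecialLinearGroup.coe_mul, coe_up, coe_dgm, Matrix.mul_fin_two]
    simp [hl0]
  refine ⟨φ (up 1), φ (up (l * l)), φ dg, ?_, ?_, hne 1 one_ne_zero,
    hne _ (mul_ne_zero hl0 hl0), ?_, ?_, ?_⟩
  · rw [← hup]; exact ⟨up 1, mem_upper.2 ⟨1, rfl⟩, rfl⟩
  · rw [← hup]; exact ⟨up (l * l), mem_upper.2 ⟨_, rfl⟩, rfl⟩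
  · intro h1
    have h2 : φ (up (l * l - 1)) = 1 := by
      have e : up (l * l - 1) = up (l * l) * (up 1)⁻¹ := by
        rw [up_inv, up_add]; ring_nf
      rw [e, map_mul, map_inv, ← h1]; simp
    by_cases h3 : l * l - 1 = 0
    · exact hl2 (sub_eq_zero.1 h3)
    · exact hne _ h3 h2
  · rw [← hrange]; exact ⟨dg, rfl⟩
  · rw [← map_inv, ← map_mul, ← map_mul, hdg]
    simp

end SL2

universe u

theorem block_false {G : Type u} [Group G] {S : Set (Subgroup G)} {A T : Subgroup G}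
    (hS : IsRootSubgroupClass S) (hdeg : IsDegenerateRootSet S)
    (hcomm : ∃ A ∈ S, ∃ C ∈ S, A ≠ C ∧ ⁅A, C⁆ = ⊥)
    (hH : IsDegenerateRootSet S → (∀ A ∈ S, ∀ a ∈ A, 0 < orderOf a ∧ orderOf a ≤ 3) →
      ∀ A ∈ S, ∀ B ∈ rankOnePartners S A, ∃ A₀ B₀ : Subgroup G, A₀ ≤ A ∧ B₀ ≤ B ∧
        ∃ (k : Type u) (_ : Field k), 3 < ENat.card k ∧ IsPSL2PairOver k A₀ B₀)
    (hA : A ∈ S) (hT : T ∈ S) (hAT : IsRankOnePair A T)
    (hSig₁ : ∀ D ∈ S, D ≠ A → ⁅A, D⁆ = ⊥ → ⁅T, D⁆ = ⊥)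
    (hSig₂ : ∀ D ∈ S, D ≠ T → ⁅T, D⁆ = ⊥ → ⁅A, D⁆ = ⊥) : False := by
  obtain ⟨T₀, s, c, hne⟩ := exists_setting hS hdeg hcomm hA hT hAT
  have hexp : (∀ x ∈ A, x * x * x = 1) ∨ (∀ x ∈ A, x * x = 1) := by
    by_cases hall : ∀ b ∈ T₀, b * b = 1
    · right
      obtain ⟨g, hg⟩ := hS.2.2 T₀ c.hT A hA
      intro x hx
      rw [hg] at hx
      have h1 := hall _ (mem_conjBy.1 hx)
      have e : x * x = g * ((g⁻¹ * x * g) * (g⁻¹ * x * g)) * g⁻¹ := by group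
      rw [e, h1]; simp
    · left
      push Not at hall
      obtain ⟨b, hb, hb2⟩ := hall
      have hb1 : b ≠ 1 := by
        rintro rfl
        simp at hb2
      obtain ⟨a, ha, ha1, he⟩ := c.hAT.cond_right b hb hb1
      intro x hx
      exact cube_of_block c hne hAT hT hSig₁ ha ha1 hb he.symm hb2 hx
  have hord : ∀ P ∈ S, ∀ p ∈ P, 0 < orderOf p ∧ orderOf p ≤ 3 := by
    intro P hP p hp
    obtain ⟨g, hg⟩ := hS.2.2 A hA P hP
    rw [hg] at hp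
    have hmem := mem_conjBy.1 hp
    rcases hexp with h | h
    · have h1 := h _ hmem
      have h2 : p ^ 3 = 1 := by
        have e : p * p * p = g * ((g⁻¹ * p * g) * (g⁻¹ * p * g) * (g⁻¹ * p * g)) * g⁻¹ := by group
        rw [pow_three', e, h1]; simp
      have h3 : orderOf p ∣ 3 := orderOf_dvd_of_pow_eq_one h2
      exact ⟨Nat.pos_of_dvd_of_pos h3 (by norm_num), Nat.le_of_dvd (by norm_num) h3⟩
    · have h1 := h _ hmem
      have h2 : p ^ 2 = 1 := by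
        have e : p * p = g * ((g⁻¹ * p * g) * (g⁻¹ * p * g)) * g⁻¹ := by group
        rw [pow_two, e, h1]; simp
      have h3 : orderOf p ∣ 2 := orderOf_dvd_of_pow_eq_one h2
      have h4 := Nat.le_of_dvd (by norm_num) h3
      exact ⟨Nat.pos_of_dvd_of_pos h3 (by norm_num), by omega⟩
  obtain ⟨A₀, B₀, hA₀, hB₀, k, _, hk, hpair⟩ := hH hdeg hord A hA T ⟨hT, hAT⟩
  obtain ⟨a₀, a₃, d, ha₀, ha₃, ha₀1, ha₃1, hne₀, hd, hda⟩ := sl2_data hk hpair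
  have ha₀' := hA₀ ha₀
  have ha₃' := hA₀ ha₃
  obtain ⟨g, hg⟩ := hS.2.2 A hA T hT
  have hf₁ : g * a₀ * g⁻¹ ∈ T := by rw [hg]; exact conj_mem_conjBy ha₀' g
  have hf₂ : g * a₃ * g⁻¹ ∈ T := by rw [hg]; exact conj_mem_conjBy ha₃' g
  have hf₁1 : g * a₀ * g⁻¹ ≠ 1 := by
    intro h
    apply ha₀1
    have e : a₀ = g⁻¹ * (g * a₀ * g⁻¹) * g := by group
    rw [e, h]; simp
  have hf₂1 : g * a₃ * g⁻¹ ≠ 1 := by
    intro h
    apply ha₃1
    have e : a₃ = g⁻¹ * (g * a₃ * g⁻¹) * g := by group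
    rw [e, h]; simp
  have hf₁₂ : g * a₀ * g⁻¹ ≠ g * a₃ * g⁻¹ := by
    intro h
    apply hne₀
    have e : ∀ u : G, u = g⁻¹ * (g * u * g⁻¹) * g := fun u => by group
    rw [e a₀, e a₃, h]
  -- the block facts
  have hCm := hS.1.conj_mem A hA s⁻¹
  have hT_C : ⁅T, conjBy A s⁻¹⁆ = ⊥ := hSig₁ _ hCm hne c.hcomm
  have hRC : IsRankOnePair (conjBy A s⁻¹) (conjBy T s⁻¹) := isRankOnePair_conjBy hAT s⁻¹
  have hTne : conjBy T s⁻¹ ≠ T := by
    intro h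
    rw [h] at hRC
    exact rankOne_not_comm (RankOnePair_symm hRC) hT_C
  have hAT' : ⁅A, conjBy T s⁻¹⁆ = ⊥ := by
    have h8 : ⁅A, conjBy A s⁆ = ⊥ := by
      have := comm_conj c.hcomm s
      rw [conjBy_conjBy] at this
      simp only [mul_inv_cancel, conjBy_one] at this
      rw [Subgroup.commutator_comm]
      exact this
    have h9 : conjBy A s ≠ A := fun h => hne (conjBy_inv_eq h)
    have h10 : ⁅T, conjBy A s⁆ = ⊥ := hSig₁ _ (hS.1.conj_mem A hA s) h9 h8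
    have h11 := comm_conj h10 s⁻¹
    rw [conjBy_conjBy A] at h11
    simp only [inv_mul_cancel, conjBy_one] at h11
    rw [Subgroup.commutator_comm]
    exact h11
  have hDne : conjBy T s⁻¹ ≠ A := by
    intro h
    rw [h] at hRC
    exact rankOne_not_comm (RankOnePair_symm hRC) c.hcomm
  have hcT : ⁅T, conjBy T s⁻¹⁆ = ⊥ := hSig₁ _ (hS.1.conj_mem T hT s⁻¹) hDne hAT'
  have hTT₀ : IsRankOnePair T T₀ := by
    rcases hS.1.pair T hT T₀ c.hT with h | h | h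
    · exfalso
      by_cases h' : T₀ = T
      · subst h'
        have h2 := isRankOnePair_conjBy c.hAT s⁻¹
        rw [c.conjBy_T_inv] at h2
        exact rankOne_not_comm (RankOnePair_symm h2) hT_C
      · exact rankOne_not_comm c.hAT (hSig₂ T₀ c.hT h' h)
    · exact h
    · exact absurd h (hdeg _ hT _ c.hT)
  have c' : Setting S T T₀ s := ⟨hS.1, hT, c.hT, hTT₀, c.hsT, hcT⟩
  have hdm : d ∈ A ⊔ T := sup_le_sup hA₀ hB₀ hd
  obtain ⟨z, hz1, hz2⟩ := exists_twist_sup c hne c' hTne hSig₁ hSig₂ ha₀' ha₃' ha₀1 ha₃1 hne₀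
    hf₁ hf₂ hf₁1 hf₂1 hf₁₂ hdm
  have hdA : conjBy A d = A := by
    have hmem : a₃ ∈ A ⊓ conjBy A d := ⟨ha₃', by
      rw [← hda]; exact conj_mem_conjBy ha₀' d⟩
    rcases inf_eq_bot_or_eq hS.1 (hS.1.conj_mem A hA d) hT hAT with h | h
    · rw [h] at hmem
      exact absurd hmem ha₃1
    · exact h.symm
  have hda' := comm_of_normalizes c ⟨z, fun u hu => hz1 u (Subgroup.mem_sup_left hu), hz2⟩ hdA ha₀'
  apply hne₀
  rw [← hda, hda']
  group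

/-- Every rank one pair of a class containing two different commuting members is special. -/
theorem special_of_class {G : Type u} [Group G] {S : Set (Subgroup G)} (hS : IsRootSubgroupClass S)
    (hcomm : ∃ A ∈ S, ∃ C ∈ S, A ≠ C ∧ ⁅A, C⁆ = ⊥)
    (hH : IsDegenerateRootSet S → (∀ A ∈ S, ∀ a ∈ A, 0 < orderOf a ∧ orderOf a ≤ 3) →
      ∀ A ∈ S, ∀ B ∈ rankOnePartners S A, ∃ A₀ B₀ : Subgroup G, A₀ ≤ A ∧ B₀ ≤ B ∧
        ∃ (k : Type u) (_ : Field k), 3 < ENat.card k ∧ IsPSL2PairOver k A₀ B₀)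
    {A T : Subgroup G} (hA : A ∈ S) (hT : T ∈ S) (hAT : IsRankOnePair A T) :
    IsSpecialRankOnePair A T := by
  by_cases hdeg : IsDegenerateRootSet S
  · by_cases h1 : ∃ D ∈ S, D ≠ A ∧ ⁅A, D⁆ = ⊥ ∧ IsRankOnePair D T
    · obtain ⟨D, hD, hne, hc, hDT⟩ := h1
      exact special_of_config hS.1 hA hD hT hc hne.symm hAT hDT
    by_cases h2 : ∃ D ∈ S, D ≠ T ∧ ⁅T, D⁆ = ⊥ ∧ IsRankOnePair D A
    · obtain ⟨D, hD, hne, hc, hDA⟩ := h2
      exact special_symm (special_of_config hS.1 hT hD hA hc hne.symm (RankOnePair_symm hAT) hDA)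
    exfalso
    refine block_false hS hdeg hcomm hH hA hT hAT ?_ ?_
    · intro D hD hne hc
      rcases hS.1.pair T hT D hD with h | h | h
      · exact h
      · exact absurd ⟨D, hD, hne, hc, RankOnePair_symm h⟩ h1
      · exact absurd h (hdeg _ hT _ hD)
    · intro D hD hne hc
      rcases hS.1.pair A hA D hD with h | h | h
      · exact h
      · exact absurd ⟨D, hD, hne, hc, RankOnePair_symm h⟩ h2
      · exact absurd h (hdeg _ hA _ hD)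
  · have hnd : IsNondegenerateRootSet S := by
      refine ⟨hcomm, ⟨A, hA, T, hT, hAT⟩, ?_⟩
      unfold IsDegenerateRootSet at hdeg
      push Not at hdeg
      obtain ⟨P, hP, Q, hQ, h⟩ := hdeg
      exact ⟨P, hP, Q, hQ, h⟩
    obtain ⟨C, hC, hFC⟩ := exists_line_comm hS hnd hA hT hAT
    have hC' := hC
    obtain ⟨⟨hCS, hCne, hcomm'⟩, hpart⟩ := hC
    have hLP := (lp_of_le_line hS.1 hA hT hAT hC' hCS le_sup_right hCne).2
    exact special_of_line hS.1 hA hT hAT hCS hcomm' hLP hFC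

end Cfsg.Agent.Lib.RootSubgroups.BlockPair
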