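import Mathlib

/-!
Hankel determinants and the continued-fraction (Euclid) state used to produce, for a generic
linear form `L`, polynomials `P`, `S` with `L (P X^j) = 0` etc.
-/

set_option autoImplicit false

open Polynomial

namespace Cfsg.Agent.Lib.RootSubgroups.EuclidHankel

variable {k : Type*} [Field k]

/-- The Hankel matrix of a linear form. -/
noncomputable def hank (L : k[X] →ₗ[k] k) (s n : ℕ) : Matrix (Fin n) (Fin n) k :=
  Matrix.of fun i j => L (X ^ ((i : ℕ) + j + s))

lemma hank_inj {L : k[X] →ₗ[k] k} {s n : ℕ} (h : (hank L s n).det ≠ 0) {f : k[X]}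
    (hf : f.degree < n) (h0 : ∀ j < n, L (f * X ^ (j + s)) = 0) : f = 0 := by
  by_contra hne
  have hnd : f.natDegree < n := (Polynomial.natDegree_lt_iff_degree_lt hne).2 hf
  have hv : (fun i : Fin n => f.coeff i) = 0 := by
    apply Matrix.eq_zero_of_mulVec_eq_zero h
    ext j
    have h1 := h0 j j.2
    rw [Polynomial.as_sum_range_C_mul_X_pow' f hnd, Finset.sum_mul, map_sum,
      Finset.sum_range] at h1
    simp only [Matrix.mulVec, dotProduct, hank, Matrix.of_apply, Pi.zero_apply]
    rw [← h1]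
    refine Finset.sum_congr rfl fun i _ => ?_
    have : (C (f.coeff i) * X ^ (i : ℕ) * X ^ ((j : ℕ) + s) : k[X]) =
        f.coeff i • X ^ ((i : ℕ) + j + s) := by
      rw [smul_eq_C_mul, mul_assoc, ← pow_add, add_assoc]
    rw [this, map_smul, smul_eq_mul, mul_comm, add_comm (j : ℕ) (i : ℕ)]
  apply hne
  ext m
  by_cases hm : m < n
  · have := congrFun hv ⟨m, hm⟩
    simpa using this
  · rw [Polynomial.coeff_eq_zero_of_natDegree_lt (by omega)]; simp

lemma degree_C_mul_le' (a : k) (p : k[X]) : (C a * p).degree ≤ p.degree := by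
  by_cases ha : a = 0
  · simp [ha]
  · rw [Polynomial.degree_C_mul ha]

/-- The invariants of the Euclid-type recursion. -/
structure EState (L : k[X] →ₗ[k] k) (i : ℕ) (P S : k[X]) : Prop where
  degP : P.degree < (i + 1 : ℕ)
  coeffP : P.coeff 0 = 1
  degS : S.degree < (i : ℕ)
  orthP : ∀ j < i, L (P * X ^ j) = 0
  orthS : ∀ j, j + 1 < i → L (S * X ^ (j + 1)) = 0
  onS : 0 < i → L S = L 1

lemma estate_zero (L : k[X] →ₗ[k] k) : EState L 0 1 0 where
  degP := by simp
  coeffP := by simp
  degS := by simp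
  orthP := by simp
  orthS := by simp
  onS := by simp

lemma estate_step {L : k[X] →ₗ[k] k} {i : ℕ} {P S : k[X]} (hst : EState L i P S)
    (h0 : (hank L 0 (i + 1)).det ≠ 0) (h1 : (hank L 1 (i + 1)).det ≠ 0) (hL : L 1 ≠ 0) :
    ∃ (c a : k), EState L (i + 1) (P + C a * X * (S + C c * P)) (S + C c * P) := by
  have hP0 : P ≠ 0 := by
    rintro rfl
    have := hst.coeffP
    simp at this
  have hω : L (P * X ^ i) ≠ 0 := by
    intro hz
    apply hP0
    apply hank_inj h0 hst.degP
    intro j hj
    rw [add_zero]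
    rcases Nat.lt_succ_iff_lt_or_eq.1 hj with hj | rfl
    · exact hst.orthP j hj
    · exact hz
  set ω := L (P * X ^ i) with hωdef
  -- choose `c`
  obtain ⟨c, hc1, hc2⟩ : ∃ c : k, (∀ j, j + 1 < i + 1 → L ((S + C c * P) * X ^ (j + 1)) = 0) ∧
      L (S + C c * P) = L 1 := by
    rcases Nat.eq_zero_or_pos i with rfl | hi
    · refine ⟨1, ?_, ?_⟩
      · intro j hj; omega
      · have hS : S = 0 := by
          have := hst.degS
          simpa using this
        have hP : P = 1 := by
          have h := hst.degP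
          have hc := hst.coeffP
          have := Polynomial.eq_C_of_degree_le_zero (p := P) (by
            have : P.degree < 1 := by simpa using h
            exact Polynomial.degree_le_of_natDegree_le (by
              by_contra hh
              have : 1 ≤ P.natDegree := by omega
              have h3 := Polynomial.natDegree_lt_iff_degree_lt hP0 |>.2 (by simpa using h : P.degree < ((0 + 1 : ℕ) : WithBot ℕ))
              omega))
          rw [this, hc]; simp
        simp [hS, hP]
    · refine ⟨-L (S * X ^ i) / ω, ?_, ?_⟩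
      · intro j hj
        rw [add_mul, mul_assoc, ← smul_eq_C_mul, map_add, map_smul, smul_eq_mul]
        rcases Nat.lt_succ_iff_lt_or_eq.1 hj with hj | hj
        · rw [hst.orthS j hj, hst.orthP _ hj]; simp
        · rw [hj, ← hωdef]; field_simp; ring
      · rw [← smul_eq_C_mul, map_add, map_smul, smul_eq_mul]
        have : L P = 0 := by
          have := hst.orthP 0 hi
          simpa using this
        rw [this, hst.onS hi]; simp
  set S' := S + C c * P with hS'def
  have hS'deg : S'.degree < (i + 1 : ℕ) := by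
    refine lt_of_le_of_lt (Polynomial.degree_add_le _ _) (max_lt ?_ ?_)
    · refine lt_of_lt_of_le hst.degS ?_
      exact_mod_cast Nat.le_succ i
    · exact lt_of_le_of_lt (degree_C_mul_le' _ _) hst.degP
  have hS'0 : S' ≠ 0 := by
    intro hz
    rw [hz] at hc2
    exact hL (by rw [← hc2]; simp)
  have hω' : L (S' * X ^ (i + 1)) ≠ 0 := by
    intro hz
    apply hS'0
    apply hank_inj h1 hS'deg
    intro j hj
    rcases Nat.lt_succ_iff_lt_or_eq.1 hj with hj | rfl
    · exact hc1 j (by omega)
    · exact hz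
  refine ⟨c, -ω / L (S' * X ^ (i + 1)), ?_⟩
  set a := -ω / L (S' * X ^ (i + 1)) with ha
  refine ⟨?_, ?_, hS'deg, ?_, ?_, fun _ => hc2⟩
  · refine lt_of_le_of_lt (Polynomial.degree_add_le _ _) (max_lt ?_ ?_)
    · refine lt_of_lt_of_le hst.degP ?_
      exact_mod_cast Nat.le_succ _
    · have h1 : (C a * X * S').degree ≤ (1 : WithBot ℕ) + S'.degree := by
        refine le_trans (Polynomial.degree_mul_le _ _) ?_
        gcongr
        refine le_trans (degree_C_mul_le' _ _) ?_
        simp
      refine lt_of_le_of_lt h1 ?_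
      by_cases hS0 : S' = 0
      · exact absurd hS0 hS'0
      rw [Polynomial.degree_eq_natDegree hS0] at hS'deg ⊢
      have : S'.natDegree < i + 1 := by exact_mod_cast hS'deg
      have h2 : (1 : WithBot ℕ) + (S'.natDegree : WithBot ℕ) = ((1 + S'.natDegree : ℕ) : WithBot ℕ) := by
        push_cast; rfl
      rw [h2]
      exact_mod_cast (by omega : 1 + S'.natDegree < i + 1 + 1)
  · simp [hst.coeffP, mul_assoc]
  · intro j hj
    have : (P + C a * X * S') * X ^ j = P * X ^ j + a • (S' * X ^ (j + 1)) := by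
      rw [smul_eq_C_mul]; ring
    rw [this, map_add, map_smul, smul_eq_mul]
    rcases Nat.lt_succ_iff_lt_or_eq.1 hj with hj | rfl
    · rw [hst.orthP j hj, hc1 j (by omega)]; simp
    · rw [← hωdef, ha]; field_simp; ring
  · exact hc1

/-! ### Functions polynomial on affine lines -/

section PolyFun

variable {A : Type*} [AddCommGroup A] [Module k A]

/-- Functions whose restriction to every affine line is polynomial. -/
def PolyFun (f : A → k) : Prop :=
  ∀ θ w : A, ∃ p : k[X], ∀ t : k, f (θ + t • w) = p.eval t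

lemma PolyFun.const (c : k) : PolyFun (fun _ : A => c) :=
  fun _ _ => ⟨C c, fun _ => by simp⟩

lemma PolyFun.linear (l : A →ₗ[k] k) : PolyFun (fun a => l a) :=
  fun θ w => ⟨C (l θ) + C (l w) * X, fun t => by
    simp only [map_add, map_smul, smul_eq_mul, eval_add, eval_mul, eval_C, eval_X]; ring⟩

lemma PolyFun.add {f g : A → k} (hf : PolyFun f) (hg : PolyFun g) :
    PolyFun (fun a => f a + g a) := fun θ w => by
  obtain ⟨p, hp⟩ := hf θ w
  obtain ⟨q, hq⟩ := hg θ w
  exact ⟨p + q, fun t => by simp [hp, hq]⟩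

lemma PolyFun.mul {f g : A → k} (hf : PolyFun f) (hg : PolyFun g) :
    PolyFun (fun a => f a * g a) := fun θ w => by
  obtain ⟨p, hp⟩ := hf θ w
  obtain ⟨q, hq⟩ := hg θ w
  exact ⟨p * q, fun t => by simp [hp, hq]⟩

lemma PolyFun.sum {ι : Type*} (s : Finset ι) {f : ι → A → k} (hf : ∀ i ∈ s, PolyFun (f i)) :
    PolyFun (fun a => ∑ i ∈ s, f i a) := by
  classical
  induction s using Finset.induction_on with
  | empty => simpa using PolyFun.const (0 : k)
  | insert i s his ih =>
    simp only [Finset.sum_insert his]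
    exact (hf i (Finset.mem_insert_self _ _)).add
      (ih fun j hj => hf j (Finset.mem_insert_of_mem hj))

lemma PolyFun.prod {ι : Type*} (s : Finset ι) {f : ι → A → k} (hf : ∀ i ∈ s, PolyFun (f i)) :
    PolyFun (fun a => ∏ i ∈ s, f i a) := by
  classical
  induction s using Finset.induction_on with
  | empty => simpa using PolyFun.const (1 : k)
  | insert i s his ih =>
    simp only [Finset.prod_insert his]
    exact (hf i (Finset.mem_insert_self _ _)).mul
      (ih fun j hj => hf j (Finset.mem_insert_of_mem hj))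

lemma PolyFun.det {n : ℕ} {M : A → Matrix (Fin n) (Fin n) k}
    (hM : ∀ i j, PolyFun (fun a => M a i j)) : PolyFun (fun a => (M a).det) := by
  simp only [Matrix.det_apply']
  refine PolyFun.sum _ fun σ _ => ?_
  exact (PolyFun.const _).mul (PolyFun.prod _ fun i _ => hM _ _)

lemma exists_eval_ne_zero [Infinite k] {p : k[X]} (hp : p ≠ 0) : ∃ t, p.eval t ≠ 0 := by
  by_contra h
  push Not at h
  exact hp (Polynomial.funext fun t => by simpa using h t)

lemma PolyFun.exists_common [Infinite k] {f g : A → k} (hf : PolyFun f) (hg : PolyFun g)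
    {a b : A} (ha : f a ≠ 0) (hb : g b ≠ 0) : ∃ c, f c ≠ 0 ∧ g c ≠ 0 := by
  obtain ⟨p, hp⟩ := hf a (b - a)
  obtain ⟨q, hq⟩ := hg a (b - a)
  have hp0 : p ≠ 0 := by
    rintro rfl
    apply ha
    have := hp 0
    simpa using this
  have hq0 : q ≠ 0 := by
    rintro rfl
    apply hb
    have := hq 1
    simpa using this
  obtain ⟨t, ht⟩ := exists_eval_ne_zero (mul_ne_zero hp0 hq0)
  rw [Polynomial.eval_mul] at ht
  refine ⟨a + t • (b - a), ?_, ?_⟩
  · rw [hp]; exact left_ne_zero_of_mul ht
  · rw [hq]; exact right_ne_zero_of_mul ht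

lemma PolyFun.exists_two [Infinite k] {f : A → k} (hf : PolyFun f) {a : A} (ha : f a ≠ 0) (w : A) :
    ∃ t₁ t₂ : k, t₁ ≠ 0 ∧ t₂ ≠ 0 ∧ t₁ ≠ t₂ ∧ f (a + t₁ • w) ≠ 0 ∧ f (a + t₂ • w) ≠ 0 := by
  obtain ⟨p, hp⟩ := hf a w
  have hp0 : p ≠ 0 := by
    rintro rfl
    apply ha
    have := hp 0
    simpa using this
  obtain ⟨t₁, ht₁⟩ := exists_eval_ne_zero (mul_ne_zero hp0 (X_ne_zero (R := k)))
  have ht₁' : p.eval t₁ ≠ 0 ∧ t₁ ≠ 0 := by
    simpa [Polynomial.eval_mul] using ht₁
  obtain ⟨t₂, ht₂⟩ := exists_eval_ne_zero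
    (mul_ne_zero (mul_ne_zero hp0 (X_ne_zero (R := k))) (X_sub_C_ne_zero t₁))
  have ht₂' : (p.eval t₂ ≠ 0 ∧ t₂ ≠ 0) ∧ t₂ - t₁ ≠ 0 := by
    simpa [Polynomial.eval_mul] using ht₂
  refine ⟨t₁, t₂, ht₁'.2, ht₂'.1.2, ?_, ?_, ?_⟩
  · intro h; apply ht₂'.2; rw [h, sub_self]
  · rw [hp]; exact ht₁'.1
  · rw [hp]; exact ht₂'.1.1

lemma exists_common_finset [Infinite k] {ι : Type*} (s : Finset ι) {f : ι → A → k}
    (hf : ∀ i ∈ s, PolyFun (f i)) (hne : ∀ i ∈ s, ∃ a, f i a ≠ 0) :
    ∃ a, ∏ i ∈ s, f i a ≠ 0 := by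
  classical
  induction s using Finset.induction_on with
  | empty => exact ⟨0, by simp⟩
  | insert i s his ih =>
    obtain ⟨a, ha⟩ := ih (fun j hj => hf j (Finset.mem_insert_of_mem hj))
      (fun j hj => hne j (Finset.mem_insert_of_mem hj))
    obtain ⟨b, hb⟩ := hne i (Finset.mem_insert_self _ _)
    obtain ⟨c, hc1, hc2⟩ := (hf i (Finset.mem_insert_self _ _)).exists_common
      (PolyFun.prod s fun j hj => hf j (Finset.mem_insert_of_mem hj)) hb ha
    refine ⟨c, ?_⟩
    rw [Finset.prod_insert his]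
    exact mul_ne_zero hc1 hc2

end PolyFun

/-- An antitriangular matrix with ones on the antidiagonal is invertible. -/
lemma antitri_det_ne_zero {n : ℕ} (N : Matrix (Fin n) (Fin n) k)
    (h0 : ∀ i j : Fin n, (i : ℕ) + j + 1 < n → N i j = 0)
    (h1 : ∀ i j : Fin n, (i : ℕ) + j + 1 = n → N i j = 1) : N.det ≠ 0 := by
  have hdet := Matrix.det_permute' (Fin.revPerm (n := n)) N
  have htri : (N.submatrix id (Fin.revPerm (n := n))).det = 1 := by
    rw [Matrix.det_of_isLowerTriangular]
    · refine Finset.prod_eq_one fun i _ => ?_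
      simp only [Matrix.submatrix_apply, id, Fin.revPerm_apply]
      apply h1
      have := i.2
      rw [Fin.val_rev]; omega
    · intro i j hij
      simp only [Matrix.submatrix_apply, id, Fin.revPerm_apply]
      apply h0
      have hij' : (i : ℕ) < j := hij
      have := j.2
      rw [Fin.val_rev]; omega
  intro hz
  rw [htri, hz, mul_zero] at hdet
  exact one_ne_zero hdet

end Cfsg.Agent.Lib.RootSubgroups.EuclidHankel
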