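import Mathlib
import Cfsg.Agent.Lib.RootSubgroups.EuclidHankel

/-!
`SL₂` over a finite-dimensional commutative algebra `A = k[α]`, `k` infinite:
the group generated by `u(c)`, `l(cα)` contains all `u(a)`, `l(a)`.
-/

set_option autoImplicit false

open Polynomial Matrix

namespace Cfsg.Agent.Lib.RootSubgroups.EuclidSL2

open Cfsg.Agent.Lib.RootSubgroups.EuclidHankel

section Basic

variable {A : Type*} [CommRing A]

/-- upper unitriangular matrix -/
def uu (a : A) : SpecialLinearGroup (Fin 2) A := ⟨!![1, a; 0, 1], by simp [Matrix.det_fin_two]⟩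

/-- lower unitriangular matrix -/
def ll (b : A) : SpecialLinearGroup (Fin 2) A := ⟨!![1, 0; b, 1], by simp [Matrix.det_fin_two]⟩

/-- diagonal matrix -/
def hh (u : Aˣ) : SpecialLinearGroup (Fin 2) A :=
  ⟨!![(u : A), 0; 0, ((u⁻¹ : Aˣ) : A)], by simp [Matrix.det_fin_two]⟩

/-- matrix entries -/
def ent (g : SpecialLinearGroup (Fin 2) A) (i j : Fin 2) : A := (g : Matrix (Fin 2) (Fin 2) A) i j

lemma sl_ext {g h : SpecialLinearGroup (Fin 2) A}
    (h00 : ent g 0 0 = ent h 0 0) (h01 : ent g 0 1 = ent h 0 1) (h10 : ent g 1 0 = ent h 1 0)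
    (h11 : ent g 1 1 = ent h 1 1) : g = h := by
  apply Subtype.ext
  ext i j
  fin_cases i <;> fin_cases j <;> assumption

lemma ent_mul (g h : SpecialLinearGroup (Fin 2) A) (i j : Fin 2) :
    ent (g * h) i j = ent g i 0 * ent h 0 j + ent g i 1 * ent h 1 j := by
  have h1 : ((g * h : SpecialLinearGroup (Fin 2) A) : Matrix (Fin 2) (Fin 2) A) =
      (g : Matrix (Fin 2) (Fin 2) A) * (h : Matrix (Fin 2) (Fin 2) A) :=
    Matrix.SpecialLinearGroup.coe_mul g h
  unfold ent
  rw [h1, Matrix.mul_apply, Fin.sum_univ_two]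

lemma ent_det (g : SpecialLinearGroup (Fin 2) A) :
    ent g 0 0 * ent g 1 1 - ent g 0 1 * ent g 1 0 = 1 := by
  have := g.2
  rwa [Matrix.det_fin_two] at this

@[simp] lemma ent_one_00 : ent (1 : SpecialLinearGroup (Fin 2) A) 0 0 = 1 := by simp [ent]
@[simp] lemma ent_one_01 : ent (1 : SpecialLinearGroup (Fin 2) A) 0 1 = 0 := by simp [ent]
@[simp] lemma ent_one_10 : ent (1 : SpecialLinearGroup (Fin 2) A) 1 0 = 0 := by simp [ent]
@[simp] lemma ent_one_11 : ent (1 : SpecialLinearGroup (Fin 2) A) 1 1 = 1 := by simp [ent]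
@[simp] lemma ent_uu_00 (a : A) : ent (uu a) 0 0 = 1 := by simp [ent, uu]
@[simp] lemma ent_uu_01 (a : A) : ent (uu a) 0 1 = a := by simp [ent, uu]
@[simp] lemma ent_uu_10 (a : A) : ent (uu a) 1 0 = 0 := by simp [ent, uu]
@[simp] lemma ent_uu_11 (a : A) : ent (uu a) 1 1 = 1 := by simp [ent, uu]
@[simp] lemma ent_ll_00 (a : A) : ent (ll a) 0 0 = 1 := by simp [ent, ll]
@[simp] lemma ent_ll_01 (a : A) : ent (ll a) 0 1 = 0 := by simp [ent, ll]
@[simp] lemma ent_ll_10 (a : A) : ent (ll a) 1 0 = a := by simp [ent, ll]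
@[simp] lemma ent_ll_11 (a : A) : ent (ll a) 1 1 = 1 := by simp [ent, ll]
@[simp] lemma ent_hh_00 (u : Aˣ) : ent (hh u) 0 0 = u := by simp [ent, hh]
@[simp] lemma ent_hh_01 (u : Aˣ) : ent (hh u) 0 1 = 0 := by simp [ent, hh]
@[simp] lemma ent_hh_10 (u : Aˣ) : ent (hh u) 1 0 = 0 := by simp [ent, hh]
@[simp] lemma ent_hh_11 (u : Aˣ) : ent (hh u) 1 1 = ((u⁻¹ : Aˣ) : A) := by simp [ent, hh]

@[simp] lemma uu_zero : (uu 0 : SpecialLinearGroup (Fin 2) A) = 1 := by
  apply sl_ext <;> simp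

@[simp] lemma ll_zero : (ll 0 : SpecialLinearGroup (Fin 2) A) = 1 := by
  apply sl_ext <;> simp

lemma uu_add (a b : A) : uu (a + b) = uu a * uu b := by
  apply sl_ext <;> simp [ent_mul] <;> ring

lemma ll_add (a b : A) : ll (a + b) = ll a * ll b := by
  apply sl_ext <;> simp [ent_mul]

lemma uu_neg (a : A) : uu (-a) = (uu a)⁻¹ := by
  rw [eq_inv_iff_mul_eq_one, ← uu_add]; simp

lemma ll_neg (a : A) : ll (-a) = (ll a)⁻¹ := by
  rw [eq_inv_iff_mul_eq_one, ← ll_add]; simp

lemma hh_mul_uu (u : Aˣ) (a : A) : hh u * uu a = uu ((u : A) * u * a) * hh u := by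
  apply sl_ext <;> simp [ent_mul]
  linear_combination (-(u : A) * a) * u.mul_inv

lemma hh_mul_ll (u : Aˣ) (b : A) :
    hh u * ll b = ll (((u⁻¹ : Aˣ) : A) * ((u⁻¹ : Aˣ) : A) * b) * hh u := by
  apply sl_ext <;> simp [ent_mul]
  linear_combination (-((u⁻¹ : Aˣ) : A) * b) * u.inv_mul

lemma hh_conj_uu (u : Aˣ) (a : A) : hh u * uu a * (hh u)⁻¹ = uu ((u : A) * u * a) := by
  rw [mul_inv_eq_iff_eq_mul, hh_mul_uu]

lemma hh_conj_ll (u : Aˣ) (b : A) :
    hh u * ll b * (hh u)⁻¹ = ll (((u⁻¹ : Aˣ) : A) * ((u⁻¹ : Aˣ) : A) * b) := by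
  rw [mul_inv_eq_iff_eq_mul, hh_mul_ll]

end Basic

section Group

variable {k A : Type*} [Field k] [CommRing A] [Algebra k A]

/-- torus elements coming from `k`. -/
noncomputable def hk (t : kˣ) : SpecialLinearGroup (Fin 2) A := hh (Units.map (algebraMap k A).toMonoidHom t)

/-- The hypotheses on the group `X`. -/
structure IsEuclidGroup (k : Type*) [Field k] {A : Type*} [CommRing A] [Algebra k A] (α : A)
    (X : Subgroup (SpecialLinearGroup (Fin 2) A)) : Prop where
  hu : ∀ c : k, uu (algebraMap k A c) ∈ X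
  hl : ∀ c : k, ll (algebraMap k A c * α) ∈ X
  hconj : ∀ (t : kˣ) (g : SpecialLinearGroup (Fin 2) A), g ∈ X →
    hk (k := k) t * g * (hk (k := k) t)⁻¹ ∈ X

/-- The generated group. -/
def gensG (k : Type*) [Field k] {A : Type*} [CommRing A] [Algebra k A] (α : A) :
    Subgroup (SpecialLinearGroup (Fin 2) A) :=
  Subgroup.closure (Set.range (fun c : k => uu (algebraMap k A c)) ∪
    Set.range (fun c : k => ll (algebraMap k A c * α)))

lemma isEuclidGroup_gensG (α : A) : IsEuclidGroup k α (gensG k α) where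
  hu c := Subgroup.subset_closure (Or.inl ⟨c, rfl⟩)
  hl c := Subgroup.subset_closure (Or.inr ⟨c, rfl⟩)
  hconj t g hg := by
    induction hg using Subgroup.closure_induction with
    | mem x hx =>
      rcases hx with ⟨c, rfl⟩ | ⟨c, rfl⟩
      · apply Subgroup.subset_closure
        refine Or.inl ⟨t * t * c, ?_⟩
        simp only [hk, hh_conj_uu]
        simp
      · apply Subgroup.subset_closure
        refine Or.inr ⟨(t⁻¹ : kˣ) * (t⁻¹ : kˣ) * c, ?_⟩
        simp only [hk, hh_conj_ll]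
        simp [mul_assoc]
    | one => simp
    | mul x y _ _ hx hy =>
      have : hk (k := k) t * (x * y) * (hk (k := k) t)⁻¹ =
          (hk (k := k) t * x * (hk (k := k) t)⁻¹) * (hk (k := k) t * y * (hk (k := k) t)⁻¹) := by
        group
      rw [this]
      exact mul_mem hx hy
    | inv x _ hx =>
      have : hk (k := k) t * x⁻¹ * (hk (k := k) t)⁻¹ =
          (hk (k := k) t * x * (hk (k := k) t)⁻¹)⁻¹ := by
        group
      rw [this]
      exact inv_mem hx

variable {α : A} {X : Subgroup (SpecialLinearGroup (Fin 2) A)}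

lemma two_squares (h2 : (2 : k) ≠ 0) (c : k) :
    c = ((c + 1) / 2) * ((c + 1) / 2) + (-((c - 1) / 2 * ((c - 1) / 2))) := by
  field_simp
  ring

lemma uu_smul_sq (hX : IsEuclidGroup k α X) {a : A} (ha : uu a ∈ X) (s : k) :
    uu (algebraMap k A (s * s) * a) ∈ X := by
  by_cases hs : s = 0
  · subst hs
    simp
  · have := hX.hconj (Units.mk0 s hs) _ ha
    simp only [hk, hh_conj_uu] at this
    simpa using this

lemma ll_smul_sq (hX : IsEuclidGroup k α X) {a : A} (ha : ll a ∈ X) (s : k) :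
    ll (algebraMap k A (s * s) * a) ∈ X := by
  by_cases hs : s = 0
  · subst hs
    simp
  · have := hX.hconj (Units.mk0 s⁻¹ (inv_ne_zero hs)) _ ha
    simp only [hk, hh_conj_ll] at this
    simpa using this

/-- the set of `a` with `u(a) ∈ X`, a `k`-subspace -/
def uSet (hX : IsEuclidGroup k α X) (h2 : (2 : k) ≠ 0) : Submodule k A where
  carrier := {a | uu a ∈ X}
  zero_mem' := by simp [X.one_mem]
  add_mem' := by
    intro a b ha hb
    simp only [Set.mem_ofPred_eq, uu_add] at *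
    exact mul_mem ha hb
  smul_mem' := by
    intro c a ha
    simp only [Set.mem_ofPred_eq] at *
    rw [two_squares h2 c, Algebra.smul_def, map_add, add_mul, uu_add, map_neg, neg_mul, uu_neg]
    exact mul_mem (uu_smul_sq hX ha _) (inv_mem (uu_smul_sq hX ha _))

lemma mem_uSet (hX : IsEuclidGroup k α X) (h2 : (2 : k) ≠ 0) {a : A} :
    a ∈ uSet hX h2 ↔ uu a ∈ X := Iff.rfl

end Group

section Word

variable {k A : Type*} [Field k] [CommRing A] [Algebra k A]

/-- The linear form attached to `θ`. -/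
noncomputable def Lth (e : A →ₗ[k] k) (α θ : A) : k[X] →ₗ[k] k :=
  e ∘ₗ (LinearMap.mulLeft k θ) ∘ₗ (aeval α : k[X] →ₐ[k] A).toLinearMap

@[simp] lemma Lth_apply (e : A →ₗ[k] k) (α θ : A) (f : k[X]) :
    Lth e α θ f = e (θ * aeval α f) := rfl

variable {α : A} {X : Subgroup (SpecialLinearGroup (Fin 2) A)}

lemma exists_word (hX : IsEuclidGroup k α X) (L : k[X] →ₗ[k] k) (i : ℕ)
    (hgood : ∀ n, 1 ≤ n → n ≤ i → (hank L 0 n).det ≠ 0 ∧ (hank L 1 n).det ≠ 0) (hL : L 1 ≠ 0) :
    ∃ P S : k[X], EState L i P S ∧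
      ∃ g ∈ X, ent g 0 0 = aeval α P ∧ ent g 1 0 = α * aeval α S := by
  induction i with
  | zero =>
    refine ⟨1, 0, estate_zero L, 1, X.one_mem, ?_, ?_⟩ <;> simp
  | succ i ih =>
    obtain ⟨P, S, hst, g, hg, h00, h10⟩ := ih fun n h1 h2 => hgood n h1 (by omega)
    obtain ⟨c, a, hst'⟩ := estate_step hst (hgood (i + 1) (by omega) le_rfl).1
      (hgood (i + 1) (by omega) le_rfl).2 hL
    refine ⟨_, _, hst', uu (algebraMap k A a) * (ll (algebraMap k A c * α) * g),
      mul_mem (hX.hu a) (mul_mem (hX.hl c) hg), ?_, ?_⟩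
    · simp only [ent_mul, h00, h10]
      simp
      ring
    · simp only [ent_mul, h00, h10]
      simp
      ring

end Word

section Main

variable {k A : Type*} [Field k] [CommRing A] [Nontrivial A] [Algebra k A]

/-- coordinate of the top power -/
noncomputable def topCoord (pb : PowerBasis k A) : A →ₗ[k] k :=
  pb.basis.coord ⟨pb.dim - 1, by have := pb.dim_pos; omega⟩

variable (pb : PowerBasis k A)

lemma topCoord_pow {m : ℕ} (hm : m < pb.dim) :
    topCoord pb (pb.gen ^ m) = if m = pb.dim - 1 then 1 else 0 := by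
  have h := pb.basis_eq_pow ⟨m, hm⟩
  simp only at h
  rw [← h, topCoord, Module.Basis.coord_apply, Module.Basis.repr_self_apply]
  simp [Fin.ext_iff]

lemma hank_entry (e : A →ₗ[k] k) (α θ : A) (s n : ℕ) (i j : Fin n) :
    hank (Lth e α θ) s n i j = e (θ * α ^ ((i : ℕ) + j + s)) := by
  simp [hank]

lemma polyFun_hank (e : A →ₗ[k] k) (α : A) (s n : ℕ) :
    PolyFun (fun θ : A => (hank (Lth e α θ) s n).det) := by
  apply PolyFun.det
  intro i j
  have : (fun θ : A => hank (Lth e α θ) s n i j) =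
      fun θ => (e ∘ₗ LinearMap.mulRight k (α ^ ((i : ℕ) + j + s))) θ := by
    funext θ
    simp [hank_entry]
  rw [this]
  exact PolyFun.linear _

lemma det_hank_one : (hank (Lth (topCoord pb) pb.gen 1) 0 pb.dim).det ≠ 0 := by
  apply antitri_det_ne_zero
  · intro i j hij
    rw [hank_entry, one_mul, add_zero, topCoord_pow _ (by omega), if_neg (by omega)]
  · intro i j hij
    rw [hank_entry, one_mul, add_zero, topCoord_pow _ (by omega), if_pos (by omega)]

lemma exists_aeval_lt (z : A) : ∃ f : k[X], f.degree < (pb.dim : ℕ) ∧ z = aeval pb.gen f := by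
  obtain ⟨f, hf, rfl⟩ := pb.exists_eq_aeval z
  refine ⟨f, ?_, rfl⟩
  exact lt_of_le_of_lt Polynomial.degree_le_natDegree (by exact_mod_cast hf)

lemma nondeg {z : A} (hz : ∀ j < pb.dim, topCoord pb (z * pb.gen ^ j) = 0) : z = 0 := by
  obtain ⟨f, hf, rfl⟩ := exists_aeval_lt pb z
  have : f = 0 := by
    apply hank_inj (det_hank_one pb) hf
    intro j hj
    simpa using hz j hj
  simp [this]

lemma exists_dual (v : Fin pb.dim → k) :
    ∃ θ : A, ∀ m : Fin pb.dim, topCoord pb (θ * pb.gen ^ (m : ℕ)) = v m := by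
  haveI := pb.finite
  let Φ : A →ₗ[k] (Fin pb.dim → k) := LinearMap.pi fun m =>
    topCoord pb ∘ₗ LinearMap.mulRight k (pb.gen ^ (m : ℕ))
  have hinj : Function.Injective Φ := by
    rw [← LinearMap.ker_eq_bot, LinearMap.ker_eq_bot']
    intro z hz
    apply nondeg pb
    intro j hj
    have := congrFun hz ⟨j, hj⟩
    simpa [Φ] using this
  have hsurj : Function.Surjective Φ := by
    apply (LinearMap.injective_iff_surjective_of_finrank_eq_finrank _).1 hinj
    rw [pb.finrank, Module.finrank_fin_fun]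
  obtain ⟨θ, hθ⟩ := hsurj v
  refine ⟨θ, fun m => ?_⟩
  have := congrFun hθ m
  simpa [Φ] using this

lemma exists_witness0 {n : ℕ} (h1 : 1 ≤ n) (hn : n ≤ pb.dim) :
    ∃ θ : A, (hank (Lth (topCoord pb) pb.gen θ) 0 n).det ≠ 0 := by
  obtain ⟨θ, hθ⟩ := exists_dual pb (fun m => if (m : ℕ) = n - 1 then 1 else 0)
  refine ⟨θ, ?_⟩
  apply antitri_det_ne_zero
  · intro i j hij
    rw [hank_entry, add_zero, hθ ⟨(i : ℕ) + j, by omega⟩]
    simp only
    rw [if_neg (by omega)]
  · intro i j hij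
    rw [hank_entry, add_zero, hθ ⟨(i : ℕ) + j, by omega⟩]
    simp only
    rw [if_pos (by omega)]

lemma exists_witness1 (hα : IsUnit pb.gen) {n : ℕ} (h1 : 1 ≤ n) (hn : n ≤ pb.dim) :
    ∃ θ : A, (hank (Lth (topCoord pb) pb.gen θ) 1 n).det ≠ 0 := by
  obtain ⟨θ, hθ⟩ := exists_witness0 pb h1 hn
  obtain ⟨β, hβ⟩ := hα.exists_right_inv
  refine ⟨θ * β, ?_⟩
  have : hank (Lth (topCoord pb) pb.gen (θ * β)) 1 n = hank (Lth (topCoord pb) pb.gen θ) 0 n := by
    ext i j
    rw [hank_entry, hank_entry, add_zero]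
    congr 1
    rw [pow_succ]
    calc θ * β * (pb.gen ^ ((i : ℕ) + j) * pb.gen)
        = θ * pb.gen ^ ((i : ℕ) + j) * (pb.gen * β) := by ring
      _ = _ := by rw [hβ, mul_one]
  rw [this]
  exact hθ

/-- The product of all the relevant Hankel determinants. -/
noncomputable def goodF (θ : A) : k :=
  ∏ n ∈ Finset.Icc 1 pb.dim,
    ((hank (Lth (topCoord pb) pb.gen θ) 0 n).det * (hank (Lth (topCoord pb) pb.gen θ) 1 n).det)

lemma polyFun_goodF : PolyFun (goodF pb) :=
  PolyFun.prod _ fun _ _ => (polyFun_hank _ _ _ _).mul (polyFun_hank _ _ _ _)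

lemma goodF_spec {θ : A} (hθ : goodF pb θ ≠ 0) {n : ℕ} (h1 : 1 ≤ n) (hn : n ≤ pb.dim) :
    (hank (Lth (topCoord pb) pb.gen θ) 0 n).det ≠ 0 ∧
      (hank (Lth (topCoord pb) pb.gen θ) 1 n).det ≠ 0 := by
  have := (Finset.prod_ne_zero_iff.1 hθ) n (Finset.mem_Icc.2 ⟨h1, hn⟩)
  exact ⟨left_ne_zero_of_mul this, right_ne_zero_of_mul this⟩

lemma exists_goodF [Infinite k] (hα : IsUnit pb.gen) : ∃ θ : A, goodF pb θ ≠ 0 := by
  apply exists_common_finset
  · intro n _
    exact (polyFun_hank _ _ _ _).mul (polyFun_hank _ _ _ _)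
  · intro n hn
    obtain ⟨h1, h2⟩ := Finset.mem_Icc.1 hn
    obtain ⟨a, ha⟩ := exists_witness0 pb h1 h2
    obtain ⟨b, hb⟩ := exists_witness1 pb hα h1 h2
    obtain ⟨c, hc1, hc2⟩ := (polyFun_hank (topCoord pb) pb.gen 0 n).exists_common
      (polyFun_hank (topCoord pb) pb.gen 1 n) ha hb
    exact ⟨c, mul_ne_zero hc1 hc2⟩

variable {Y : Subgroup (SpecialLinearGroup (Fin 2) A)}

lemma conj_ll_of_zero (g : SpecialLinearGroup (Fin 2) A) (h00 : ent g 0 0 = 0) (b : A) :
    g⁻¹ * ll b * g = uu (-(b * ent g 0 1 * ent g 0 1)) := by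
  rw [mul_assoc, inv_mul_eq_iff_eq_mul]
  have hdet := ent_det g
  rw [h00] at hdet
  apply sl_ext <;> simp [ent_mul, h00]
  linear_combination (-b * ent g 0 1) * hdet

lemma conj_uu_of_zero (g : SpecialLinearGroup (Fin 2) A) (h00 : ent g 0 0 = 0) (a : A) :
    g * uu a * g⁻¹ = ll (-(a * ent g 1 0 * ent g 1 0)) := by
  rw [mul_inv_eq_iff_eq_mul]
  have hdet := ent_det g
  rw [h00] at hdet
  apply sl_ext <;> simp [ent_mul, h00]
  linear_combination (-a * ent g 1 0) * hdet

lemma good_conclusion (hX : IsEuclidGroup k pb.gen Y) {θ : A}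
    (hgood : ∀ n, 1 ≤ n → n ≤ pb.dim → (hank (Lth (topCoord pb) pb.gen θ) 0 n).det ≠ 0 ∧
      (hank (Lth (topCoord pb) pb.gen θ) 1 n).det ≠ 0) :
    IsUnit θ ∧ uu (pb.gen * θ * θ) ∈ Y ∧ ∃ y : A, IsUnit y ∧ ∀ a, uu a ∈ Y → ll (a * y * y) ∈ Y := by
  haveI := pb.finite
  have hd := pb.dim_pos
  set L := Lth (topCoord pb) pb.gen θ with hLdef
  have hLapply : ∀ f, L f = topCoord pb (θ * aeval pb.gen f) := fun f => rfl
  have hae : ∀ (f : k[X]) (j : ℕ), aeval pb.gen (f * X ^ j) = aeval pb.gen f * pb.gen ^ j := by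
    intro f j
    simp
  have hL : L 1 ≠ 0 := by
    have := (hgood 1 le_rfl hd).1
    rw [Matrix.det_fin_one] at this
    simpa [hank] using this
  obtain ⟨P, S, hst, g, hg, h00, h10⟩ := exists_word hX L pb.dim hgood hL
  -- `θ` is not a zero divisor
  have hθ : ∀ z, θ * z = 0 → z = 0 := by
    intro z hz
    obtain ⟨f, hf, rfl⟩ := exists_aeval_lt pb z
    have : f = 0 := by
      apply hank_inj (hgood pb.dim hd le_rfl).1 hf
      intro j hj
      rw [hLapply, add_zero, hae, ← mul_assoc, hz]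
      simp
    simp [this]
  have hθu : IsUnit θ := by
    have hinj : Function.Injective (LinearMap.mulLeft k θ) := by
      rw [← LinearMap.ker_eq_bot, LinearMap.ker_eq_bot']
      intro z hz
      exact hθ z hz
    obtain ⟨z, hz⟩ := LinearMap.injective_iff_surjective.1 hinj 1
    exact IsUnit.of_mul_eq_one z hz
  -- `P(α) = 0`
  have hP : aeval pb.gen P = 0 := by
    apply hθ
    apply nondeg pb
    intro j hj
    have := hst.orthP j hj
    rw [hLapply, hae] at this
    simpa [mul_assoc] using this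
  have hg00 : ent g 0 0 = 0 := by rw [h00, hP]
  set κ := L (S * X ^ pb.dim) with hκ
  have hκ0 : κ ≠ 0 := by
    intro hz
    have hS : S = 0 := by
      apply hank_inj (hgood pb.dim hd le_rfl).2 hst.degS
      intro j hj
      rcases Nat.lt_succ_iff_lt_or_eq.1 (show j + 1 < pb.dim + 1 by omega) with hj' | hj'
      · exact hst.orthS j hj'
      · rw [hj']; exact hz
    have := hst.onS hd
    rw [hS, map_zero] at this
    exact hL this.symm
  have hy : θ * ent g 1 0 = algebraMap k A κ := by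
    rw [← sub_eq_zero]
    apply nondeg pb
    intro j hj
    rw [h10, sub_mul, map_sub, ← Algebra.smul_def, map_smul, topCoord_pow pb hj]
    rcases Nat.lt_succ_iff_lt_or_eq.1 (show j + 1 < pb.dim + 1 by omega) with hj' | hj'
    · have h3 := hst.orthS j hj'
      rw [hLapply, hae] at h3
      rw [if_neg (by omega), smul_zero, sub_zero]
      rw [← h3]
      congr 1
      ring
    · rw [if_pos (by omega), smul_eq_mul, mul_one, hκ, hLapply, hae, sub_eq_zero, ← hj']
      congr 1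
      ring
  have hκu : IsUnit (algebraMap k A κ) := (isUnit_iff_ne_zero.2 hκ0).map (algebraMap k A)
  have hyu : IsUnit (ent g 1 0) := by
    rw [← hy] at hκu
    exact isUnit_of_mul_isUnit_right hκu
  refine ⟨hθu, ?_, ent g 1 0, hyu, ?_⟩
  · have hdet := ent_det g
    rw [hg00] at hdet
    have hq : algebraMap k A κ * ent g 0 1 = -θ := by
      rw [← hy]
      linear_combination (-θ) * hdet
    have h1 := mul_mem (mul_mem (inv_mem hg) (hX.hl (-(κ * κ)))) hg
    rw [conj_ll_of_zero g hg00] at h1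
    convert h1 using 2
    rw [map_neg, map_mul]
    linear_combination (-pb.gen * (algebraMap k A κ * ent g 0 1 - θ)) * hq
  · intro a ha
    have h1 := mul_mem (mul_mem hg (inv_mem ha)) (inv_mem hg)
    rw [← uu_neg, conj_uu_of_zero g hg00] at h1
    convert h1 using 2
    ring

/-- The main theorem for a power basis. -/
theorem main_pb [Infinite k] (h2 : (2 : k) ≠ 0) (hα : IsUnit pb.gen)
    (hX : IsEuclidGroup k pb.gen Y) (a : A) : uu a ∈ Y ∧ ll a ∈ Y := by
  haveI := pb.finite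
  obtain ⟨θ₀, hθ₀⟩ := exists_goodF pb hα
  have hgood : ∀ {θ}, goodF pb θ ≠ 0 → _ := fun {θ} hθ =>
    good_conclusion pb hX (θ := θ) (fun n h1 hn => goodF_spec pb hθ h1 hn)
  obtain ⟨hθ₀u, hθ₀mem, y, hyu, hy⟩ := hgood hθ₀
  have hall : ∀ w, pb.gen * θ₀ * w ∈ uSet hX h2 := by
    intro w
    obtain ⟨t₁, t₂, ht₁, ht₂, ht₁₂, h₁, h₂⟩ := (polyFun_goodF pb).exists_two hθ₀ w
    have m₁ := (hgood h₁).2.1
    have m₂ := (hgood h₂).2.1
    have m₀ : pb.gen * θ₀ * θ₀ ∈ uSet hX h2 := hθ₀mem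
    set U := uSet hX h2
    have m₁' : pb.gen * (t₁ • w + t₁ • w) * θ₀ + t₁ • (t₁ • (pb.gen * w * w)) ∈ U := by
      have : pb.gen * (t₁ • w + t₁ • w) * θ₀ + t₁ • (t₁ • (pb.gen * w * w)) =
          pb.gen * (θ₀ + t₁ • w) * (θ₀ + t₁ • w) - pb.gen * θ₀ * θ₀ := by
        simp only [Algebra.smul_def]; ring
      rw [this]
      exact U.sub_mem m₁ m₀
    have m₂' : pb.gen * (t₂ • w + t₂ • w) * θ₀ + t₂ • (t₂ • (pb.gen * w * w)) ∈ U := by
      have : pb.gen * (t₂ • w + t₂ • w) * θ₀ + t₂ • (t₂ • (pb.gen * w * w)) =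
          pb.gen * (θ₀ + t₂ • w) * (θ₀ + t₂ • w) - pb.gen * θ₀ * θ₀ := by
        simp only [Algebra.smul_def]; ring
      rw [this]
      exact U.sub_mem m₂ m₀
    have key : (t₁ * t₂ * (t₂ - t₁) * 2) • (pb.gen * θ₀ * w) ∈ U := by
      have : (t₁ * t₂ * (t₂ - t₁) * 2) • (pb.gen * θ₀ * w) =
          (t₂ * t₂) • (pb.gen * (t₁ • w + t₁ • w) * θ₀ + t₁ • (t₁ • (pb.gen * w * w))) -
          (t₁ * t₁) • (pb.gen * (t₂ • w + t₂ • w) * θ₀ + t₂ • (t₂ • (pb.gen * w * w))) := by
        simp only [Algebra.smul_def, map_mul, map_sub, map_ofNat]; ring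
      rw [this]
      exact U.sub_mem (U.smul_mem _ m₁') (U.smul_mem _ m₂')
    have hne : t₁ * t₂ * (t₂ - t₁) * 2 ≠ 0 :=
      mul_ne_zero (mul_ne_zero (mul_ne_zero ht₁ ht₂) (sub_ne_zero.2 ht₁₂.symm)) h2
    exact (U.smul_mem_iff hne).1 key
  have hu : ∀ a, uu a ∈ Y := by
    intro a
    obtain ⟨w, hw⟩ := ((hα.mul hθ₀u).exists_right_inv)
    have := hall (w * a)
    rw [mem_uSet] at this
    convert this using 2
    rw [← mul_assoc, hw, one_mul]
  refine ⟨hu a, ?_⟩
  obtain ⟨z, hz⟩ := (hyu.mul hyu).exists_right_inv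
  have := hy (a * z) (hu _)
  convert this using 2
  calc a = a * (y * y * z) := by rw [hz, mul_one]
    _ = _ := by ring

/-- The main theorem. -/
theorem main_infinite [Infinite k] [FiniteDimensional k A] (h2 : (2 : k) ≠ 0) {α : A}
    (hα : IsUnit α) (hgen : Algebra.adjoin k {α} = ⊤) (hX : IsEuclidGroup k α Y) (a : A) :
    uu a ∈ Y ∧ ll a ∈ Y := by
  have hint : IsIntegral k α := Algebra.IsIntegral.isIntegral α
  have h := main_pb (PowerBasis.ofAdjoinEqTop hint hgen) (Y := Y) h2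
  simp only [PowerBasis.ofAdjoinEqTop_gen] at h
  exact h hα hX a

end Main

end Cfsg.Agent.Lib.RootSubgroups.EuclidSL2
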