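import Cfsg.Agent.Lib.Classical.SL2.MaxList
import Cfsg.Agent.Lib.RootSubgroups.EuclidSL2

/-!
`SL₂(F)`, `F = k(α)` a finite field, is generated by `u(c)`, `l(cα)` (`c ∈ k`), `k` of odd order `≠ 3`.
Also the summary for all fields.
-/

set_option autoImplicit false
set_option linter.unusedSectionVars false
set_option linter.style.haveILetI false

open scoped MatrixGroups
open Matrix OnePoint MulAction

namespace Cfsg.Agent.Lib.RootSubgroups.EuclidFinite

open Cfsg.Agent.Lib.Classical.SL2.Moebius Cfsg.Agent.Lib.Classical.SL2.Rational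
open Cfsg.Agent.Lib.Classical.SL2.Klein Cfsg.Agent.Lib.Classical.SL2.SubfieldCase
open Cfsg.Agent.Lib.Classical.SL2.Dickson Cfsg.Agent.Lib.Classical.SL2.Precise
open Cfsg.Agent.Lib.Classical.SL2.Tori Cfsg.Agent.Lib.Classical.SL2.SubLat
open Cfsg.Agent.Lib.Classical.SL2.SubMax Cfsg.Agent.Lib.Classical.SL2.MaxList
open Cfsg.Agent.Lib.Classical
open Cfsg.Agent.Lib.RootSubgroups.EuclidSL2

local notation "PGL2" => ProjGenLinGroup (Fin 2)
local notation "PSL2" => ProjectiveSpecialLinearGroup (Fin 2)

section Field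

variable {F : Type*} [Field F]

/-- `SL₂` of a field is generated by unitriangular matrices. -/
theorem sl2_gen {X : Subgroup (SpecialLinearGroup (Fin 2) F)} (hu : ∀ a, uu a ∈ X)
    (hl : ∀ a, ll a ∈ X) (g : SpecialLinearGroup (Fin 2) F) : g ∈ X := by
  have key : ∀ g : SpecialLinearGroup (Fin 2) F, ent g 1 0 ≠ 0 → g ∈ X := by
    intro g hc
    have hdet := ent_det g
    have : g = uu ((ent g 0 0 - 1) / ent g 1 0) * ll (ent g 1 0) *
        uu ((ent g 1 1 - 1) / ent g 1 0) := by
      apply sl_ext <;> simp [ent_mul] <;> field_simp <;> try ring_nf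
      linear_combination (-1 : F) * hdet
    rw [this]
    exact mul_mem (mul_mem (hu _) (hl _)) (hu _)
  by_cases hc : ent g 1 0 = 0
  · have hdet := ent_det g
    rw [hc] at hdet
    have h00 : ent g 0 0 ≠ 0 := by
      intro h
      rw [h] at hdet
      simp at hdet
    have h1 : ll 1 * g ∈ X := key _ (by simpa [ent_mul, hc] using h00)
    have : g = (ll 1)⁻¹ * (ll 1 * g) := by group
    rw [this]
    exact mul_mem (inv_mem (hl 1)) h1
  · exact key g hc

end Field

section Finite

variable {F : Type*} [Field F] [Fintype F] [DecidableEq F]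

/-- The Dickson list for a subgroup containing enough unipotent elements. -/
theorem precise_unip' (p : ℕ) [Fact p.Prime] [CharP F p] (U : Subgroup (PGL2 F))
    {a b : F} (ha0 : a ≠ 0) (ha1 : a ≠ 1) (hb : b ≠ 0) (hu1 : ProjGenLinGroup.mk (uG 1) ∈ U)
    (hua : ProjGenLinGroup.mk (uG a) ∈ U) (hl : ProjGenLinGroup.mk (lG b) ∈ U) :
    (p = 3 ∧ Nonempty (U ≃* alternatingGroup (Fin 5))) ∨
    ∃ (C : PGL2 F) (F₀ : Subfield F), 3 ≤ Nat.card F₀ ∧
      (U = ((φ₀ F₀).range).map (MulAut.conj C).toMonoidHom ∨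
        U = ((φ₁ F₀).range).map (MulAut.conj C).toMonoidHom) := by
  classical
  let E := AlgebraicClosure F
  haveI : CharP E p := charP_of_injective_algebraMap (algebraMap F E).injective p
  have hu := uni_uG (E := E) (one_ne_zero : (1 : F) ≠ 0)
  have hl' := uni_lG (E := E) hb
  rcases precise_pgl (E := E) (p := p) U with ⟨ω, h⟩ | ⟨A, B, hAB, -, h⟩ | ⟨h, -⟩ | h | h
  · exfalso
    have h1 := hu.2 _ (h _ hu1)
    have h2 := hl'.2 _ (h _ hl)
    rw [h1] at h2
    exact OnePoint.infty_ne_coe _ h2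
  · exfalso
    have hswap : ∀ c : F, c ≠ 0 → ProjGenLinGroup.mk (uG c) ∈ U →
        toE E (ProjGenLinGroup.mk (uG c)) • A = B ∧ toE E (ProjGenLinGroup.mk (uG c)) • B = A := by
      intro c hc hm
      rcases h _ hm with h1 | h1
      · have := uni_uG (E := E) hc
        exact absurd ((this.2 _ h1.1).trans (this.2 _ h1.2).symm) hAB
      · exact h1
    obtain ⟨h1, h2⟩ := hswap 1 one_ne_zero hu1
    obtain ⟨h3, h4⟩ := hswap a ha0 hua
    have hc : a - 1 ≠ 0 := sub_ne_zero.2 ha1
    have hz : toE E (ProjGenLinGroup.mk (uG (a - 1))) * toE E (ProjGenLinGroup.mk (uG (1 : F))) =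
        toE E (ProjGenLinGroup.mk (uG a)) := by
      rw [← map_mul, ← map_mul, uG_mul, sub_add_cancel]
    have hu2 := uni_uG (E := E) hc
    have h5 : toE E (ProjGenLinGroup.mk (uG (a - 1))) • B = B := by
      conv_lhs => rw [← h1]
      rw [← mul_smul, hz, h3]
    have h6 : toE E (ProjGenLinGroup.mk (uG (a - 1))) • A = A := by
      conv_lhs => rw [← h2]
      rw [← mul_smul, hz, h4]
    exact hAB ((hu2.2 _ h6).trans (hu2.2 _ h5).symm)
  · exact absurd hu (h _ hu1 (mk_uG_ne_one one_ne_zero) _)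
  · exact Or.inl h
  · exact Or.inr h

lemma toGL_uu (a : F) : SpecialLinearGroup.toGL (uu a) = uG a := by
  apply gl_ext
  · exact ent_uu_00 a
  · exact ent_uu_01 a
  · exact ent_uu_10 a
  · exact ent_uu_11 a

lemma toGL_ll (a : F) : SpecialLinearGroup.toGL (ll a) = lG a := by
  apply gl_ext
  · exact ent_ll_00 a
  · exact ent_ll_01 a
  · exact ent_ll_10 a
  · exact ent_ll_11 a

/-- `tr² / det` of a member of a conjugate of `PGL₂(F₀)` lies in `F₀`. -/
lemma tr_sq_mem {F₀ : Subfield F} {C : PGL2 F} {g : GL (Fin 2) F}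
    (h : ProjGenLinGroup.mk g ∈ ((φ₀ F₀).range).map (MulAut.conj C).toMonoidHom) :
    (g 0 0 + g 1 1) ^ 2 / (g 0 0 * g 1 1 - g 0 1 * g 1 0) ∈ F₀ := by
  obtain ⟨y, ⟨x, rfl⟩, hy⟩ := h
  induction x using ProjGenLinGroup.induction_on with | mk g₀ =>
  obtain ⟨c, rfl⟩ := ProjGenLinGroup.mk_surjective C
  set m := GeneralLinearGroup.map (algebraMap F₀ F) g₀ with hm
  have h1 : ProjGenLinGroup.mk (c * m * c⁻¹) = ProjGenLinGroup.mk g := by
    rw [← hy]
    simp only [map_mul, map_inv, MulEquiv.coe_toMonoidHom, MulAut.conj_apply]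
    rfl
  obtain ⟨u, hu⟩ := ProjGenLinGroup.mk_eq_mk_iff.1 h1
  set M : GL (Fin 2) F := c * m * c⁻¹ with hM
  have htr : M 0 0 + M 1 1 = m 0 0 + m 1 1 := by
    have : ((M : GL (Fin 2) F) : Matrix (Fin 2) (Fin 2) F).trace =
        ((m : GL (Fin 2) F) : Matrix (Fin 2) (Fin 2) F).trace := by
      rw [hM, Units.val_mul, Units.val_mul, Matrix.trace_mul_comm, ← mul_assoc, Units.inv_mul,
        one_mul]
    rwa [Matrix.trace_fin_two, Matrix.trace_fin_two] at this
  have hdet : M 0 0 * M 1 1 - M 0 1 * M 1 0 = m 0 0 * m 1 1 - m 0 1 * m 1 0 := by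
    have : ((M : GL (Fin 2) F) : Matrix (Fin 2) (Fin 2) F).det =
        ((m : GL (Fin 2) F) : Matrix (Fin 2) (Fin 2) F).det := by
      rw [hM, Units.val_mul, Units.val_mul, Matrix.det_mul, Matrix.det_mul, mul_comm _ (Matrix.det _),
        ← mul_assoc, ← Matrix.det_mul, Units.inv_mul, Matrix.det_one, one_mul]
    rwa [Matrix.det_fin_two, Matrix.det_fin_two] at this
  have hg : ∀ i j, g i j = M i j * u := by
    intro i j
    rw [← hu, mul_scalar_apply]
  have hu0 : (u : F) ≠ 0 := u.ne_zero
  have hd0 : m 0 0 * m 1 1 - m 0 1 * m 1 0 ≠ 0 := by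
    have := m.det_ne_zero
    rwa [Matrix.det_fin_two] at this
  have e : (g 0 0 + g 1 1) ^ 2 / (g 0 0 * g 1 1 - g 0 1 * g 1 0) =
      (m 0 0 + m 1 1) ^ 2 / (m 0 0 * m 1 1 - m 0 1 * m 1 0) := by
    have h3 : g 0 0 + g 1 1 = (m 0 0 + m 1 1) * u := by
      rw [hg, hg, ← htr]; ring
    have h4 : g 0 0 * g 1 1 - g 0 1 * g 1 0 = (m 0 0 * m 1 1 - m 0 1 * m 1 0) * (u * u) := by
      rw [hg, hg, hg, hg, ← hdet]; ring
    rw [h3, h4]
    field_simp
  rw [e]
  simp only [hm, toE_map_entry]
  apply F₀.div_mem (F₀.pow_mem (F₀.add_mem (g₀ 0 0).2 (g₀ 1 1).2) 2)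
  exact F₀.sub_mem (F₀.mul_mem (g₀ 0 0).2 (g₀ 1 1).2) (F₀.mul_mem (g₀ 0 1).2 (g₀ 1 0).2)

/-- The main theorem for finite fields. -/
theorem finite_case {k : Type*} [Field k] [Finite k] [Algebra k F] (h2 : (2 : k) ≠ 0)
    (hk3 : Nat.card k ≠ 3) {α : F} (hα : α ≠ 0) (hgen : Algebra.adjoin k {α} = ⊤) (a : F) :
    uu a ∈ gensG k α ∧ ll a ∈ gensG k α := by
  classical
  haveI : Fintype k := Fintype.ofFinite k
  obtain ⟨p, hp⟩ := CharP.exists F
  haveI hpp : Fact p.Prime := ⟨CharP.char_is_prime F p⟩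
  have hinj : Function.Injective (algebraMap k F) := (algebraMap k F).injective
  have h2F : (2 : F) ≠ 0 := by
    intro h
    apply h2
    apply hinj
    rw [map_zero, map_ofNat]
    exact h
  have hX := isEuclidGroup_gensG (k := k) α
  set X := gensG k α with hXdef
  let π : SpecialLinearGroup (Fin 2) F →* PGL2 F :=
    ProjGenLinGroup.mk.comp SpecialLinearGroup.toGL
  have hπu : ∀ a, π (uu a) = ProjGenLinGroup.mk (uG a) := fun a => by
    simp only [π, MonoidHom.comp_apply, toGL_uu]
  have hπl : ∀ a, π (ll a) = ProjGenLinGroup.mk (lG a) := fun a => by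
    simp only [π, MonoidHom.comp_apply, toGL_ll]
  set U := X.map π with hU
  have hUu : ∀ c : k, ProjGenLinGroup.mk (uG (algebraMap k F c)) ∈ U := fun c =>
    ⟨_, hX.hu c, hπu _⟩
  have hUl : ∀ c : k, ProjGenLinGroup.mk (lG (algebraMap k F c * α)) ∈ U := fun c =>
    ⟨_, hX.hl c, hπl _⟩
  have hu1 : ProjGenLinGroup.mk (uG (1 : F)) ∈ U := by
    have := hUu 1
    simpa using this
  have hu2 : ProjGenLinGroup.mk (uG (2 : F)) ∈ U := by
    have := hUu 2
    rwa [map_ofNat] at this
  have hl1 : ProjGenLinGroup.mk (lG α) ∈ U := by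
    have := hUl 1
    simpa using this
  have hULp : U ≤ Lp F := by
    rw [Lp_eq_range]
    rintro _ ⟨x, -, rfl⟩
    exact ⟨x, rfl⟩
  have hodd : Odd (Fintype.card F) := by
    rw [Nat.odd_iff]
    apply FiniteField.odd_card_of_char_ne_two
    intro h
    haveI : CharP F 2 := ringChar.of_eq h
    apply h2F
    have := CharP.cast_eq_zero F 2
    simpa using this
  have hUtop : U = Lp F := by
    rcases precise_unip' p U h2F (fun h => one_ne_zero (by linear_combination h : (1 : F) = 0)) hα hu1 hu2 hl1 with ⟨hp3, ⟨e⟩⟩ | ⟨C, F₀, -, hUF⟩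
    · exfalso
      -- `|k|` divides `60`
      let f : Multiplicative k →* PGL2 F :=
        { toFun := fun c => ProjGenLinGroup.mk (uG (algebraMap k F (Multiplicative.toAdd c)))
          map_one' := by simp [uG_zero]
          map_mul' := by
            intro x y
            rw [← map_mul, uG_mul]
            simp }
      have hf : Function.Injective f := by
        intro x y hxy
        have := mk_uG_injective hxy
        exact Multiplicative.toAdd.injective (hinj this)
      have hle : f.range ≤ U := by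
        rintro _ ⟨c, rfl⟩
        exact hUu _
      have hd : Nat.card f.range ∣ Nat.card U := Subgroup.card_dvd_of_le hle
      have hc1 : Nat.card f.range = Nat.card k := by
        have := Nat.card_congr (MonoidHom.ofInjective hf).toEquiv
        rw [← this]
        rfl
      have hc2 : Nat.card U = 60 := by
        rw [Nat.card_congr e.toEquiv, Cfsg.Agent.Lib.Classical.SL2.Coatom.card_A5]
      rw [hc1, hc2] at hd
      subst hp3
      haveI : CharP k 3 := (algebraMap k F).charP hinj 3
      obtain ⟨n, -, hn⟩ := FiniteField.card k 3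
      rw [Nat.card_eq_fintype_card] at hd hk3
      rw [hn] at hd hk3
      have hn2 : 2 ≤ (n : ℕ) := by
        have hn0 := n.pos
        by_contra hlt
        have : (n : ℕ) = 1 := by omega
        rw [this] at hk3
        exact hk3 rfl
      have h9 : 3 ^ 2 ∣ 60 := (pow_dvd_pow 3 hn2).trans hd
      norm_num at h9
    · have hUφ : U ≤ ((φ₀ F₀).range).map (MulAut.conj C).toMonoidHom := by
        rcases hUF with h | h
        · rw [h]
        · rw [h]; exact Subgroup.map_mono (φ₁_le_φ₀ F₀)
      have hsub : (algebraMap k F).fieldRange ≤ F₀ := by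
        apply subfield_le_of_conj C
        rintro _ ⟨c, rfl⟩
        exact hUφ (hUu c)
      have hαF₀ : α ∈ F₀ := by
        have hk1 : ProjGenLinGroup.mk (uG (1 : F) * lG α) ∈ U := by
          rw [map_mul]
          exact mul_mem hu1 hl1
        have hk2 : ProjGenLinGroup.mk (uG (-1 : F) * lG α) ∈ U := by
          rw [map_mul]
          refine mul_mem ?_ hl1
          have := hUu (-1)
          simpa using this
        have h3 := tr_sq_mem (hUφ hk1)
        have h4 := tr_sq_mem (hUφ hk2)
        simp only [gl_mul_apply, uG_00, uG_01, uG_10, uG_11, lG_00, lG_01, lG_10, lG_11] at h3 h4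
        have e3 : (1 * 1 + 1 * α + (0 * 0 + 1 * 1)) ^ 2 /
            ((1 * 1 + 1 * α) * (0 * 0 + 1 * 1) - (1 * 0 + 1 * 1) * (0 * 1 + 1 * α)) = (2 + α) ^ 2 := by
          have : (1 * 1 + 1 * α) * (0 * 0 + 1 * 1) - (1 * 0 + 1 * 1) * (0 * 1 + 1 * α) = 1 := by ring
          rw [this, div_one]; ring
        have e4 : (1 * 1 + -1 * α + (0 * 0 + 1 * 1)) ^ 2 /
            ((1 * 1 + -1 * α) * (0 * 0 + 1 * 1) - (1 * 0 + -1 * 1) * (0 * 1 + 1 * α)) = (2 - α) ^ 2 := by
          have : (1 * 1 + -1 * α) * (0 * 0 + 1 * 1) - (1 * 0 + -1 * 1) * (0 * 1 + 1 * α) = 1 := by ring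
          rw [this, div_one]; ring
        rw [e3] at h3
        rw [e4] at h4
        have h5 : (8 : F) * α ∈ F₀ := by
          have : (8 : F) * α = (2 + α) ^ 2 - (2 - α) ^ 2 := by ring
          rw [this]
          exact F₀.sub_mem h3 h4
        have h8 : (8 : F) ≠ 0 := by
          have : (8 : F) = 2 * 2 * 2 := by norm_num
          rw [this]
          exact mul_ne_zero (mul_ne_zero h2F h2F) h2F
        have h8m : (8 : F) ∈ F₀ := by
          have : (8 : F) = ((8 : ℕ) : F) := by norm_num
          rw [this]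
          exact natCast_mem F₀ 8
        have : α = (8 : F)⁻¹ * ((8 : F) * α) := by field_simp
        rw [this]
        exact F₀.mul_mem (F₀.inv_mem h8m) h5
      have hF₀ : F₀ = ⊤ := by
        rw [eq_top_iff]
        intro x _
        have hx : x ∈ Algebra.adjoin k {α} := by rw [hgen]; trivial
        induction hx using Algebra.adjoin_induction with
        | mem x hx =>
          rw [Set.mem_singleton_iff] at hx
          rw [hx]
          exact hαF₀
        | algebraMap r => exact hsub ⟨r, rfl⟩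
        | add x y _ _ hx hy => exact F₀.add_mem (hx trivial) (hy trivial)
        | mul x y _ _ hx hy => exact F₀.mul_mem (hx trivial) (hy trivial)
      subst hF₀
      rcases hUF with h | h
      · exfalso
        rw [φ₀_top, map_conj_top] at h
        apply Lp_ne_top hodd
        rw [eq_top_iff, ← h]
        exact hULp
      · rw [φ₁_top] at h
        rw [h]
        apply le_antisymm
        · exact (map_conj_le_Lp_iff _ _).2 le_rfl
        · intro x hx
          refine ⟨C⁻¹ * x * C, ?_, ?_⟩
          · have := Subgroup.Normal.conj_mem (inferInstance : (Lp F).Normal) _ hx C⁻¹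
            simpa using this
          · simp only [MulEquiv.coe_toMonoidHom, MulAut.conj_apply]
            group
  -- lifting
  have hmem : ∀ s : SpecialLinearGroup (Fin 2) F, ∃ x ∈ X, π x = π s := by
    intro s
    have : π s ∈ U := by
      rw [hUtop, Lp_eq_range]
      exact ⟨s, rfl⟩
    obtain ⟨x, hx, hxs⟩ := this
    exact ⟨x, hx, hxs⟩
  have h2u : (2 : F) * (2 : F)⁻¹ = 1 := mul_inv_cancel₀ h2F
  constructor
  · obtain ⟨x, hx, hxs⟩ := hmem (uu ((2 : F)⁻¹ * a))
    obtain ⟨u, hu⟩ := ProjGenLinGroup.mk_eq_mk_iff.1 hxs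
    rw [toGL_uu] at hu
    have h00 := congrArg (fun g : GL (Fin 2) F => g 0 0) hu
    have h01 := congrArg (fun g : GL (Fin 2) F => g 0 1) hu
    have h10 := congrArg (fun g : GL (Fin 2) F => g 1 0) hu
    have h11 := congrArg (fun g : GL (Fin 2) F => g 1 1) hu
    simp only [mul_scalar_apply, uG_00, uG_01, uG_10, uG_11] at h00 h01 h10 h11
    have e00 : ent x 0 0 * u = 1 := h00
    have e01 : ent x 0 1 * u = (2 : F)⁻¹ * a := h01
    have e10 : ent x 1 0 * u = 0 := h10
    have e11 : ent x 1 1 * u = 1 := h11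
    have hu0 : (u : F) ≠ 0 := u.ne_zero
    have e10' : ent x 1 0 = 0 := (mul_eq_zero.1 e10).resolve_right hu0
    have hdet := ent_det x
    rw [e10', mul_zero, sub_zero] at hdet
    have e11' : ent x 1 1 = ent x 0 0 := by
      have : (ent x 1 1 - ent x 0 0) * u = 0 := by rw [sub_mul, e00, e11, sub_self]
      exact sub_eq_zero.1 ((mul_eq_zero.1 this).resolve_right hu0)
    rw [e11'] at hdet
    have hx01 : ent x 0 1 = ent x 0 0 * ((2 : F)⁻¹ * a) := by
      rw [← e01]
      calc ent x 0 1 = ent x 0 1 * (ent x 0 0 * u) := by rw [e00, mul_one]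
        _ = _ := by ring
    have : x * x = uu a := by
      apply sl_ext
      · simp only [ent_mul, e10', ent_uu_00]
        rw [mul_zero, add_zero, hdet]
      · simp only [ent_mul, e11', ent_uu_01]
        rw [hx01]
        linear_combination ((2 : F)⁻¹ * a * 2) * hdet + a * h2u
      · simp only [ent_mul, e10', e11', ent_uu_10]
        ring
      · simp only [ent_mul, e10', e11', ent_uu_11]
        rw [zero_mul, zero_add, hdet]
    rw [← this]
    exact mul_mem hx hx
  · obtain ⟨x, hx, hxs⟩ := hmem (ll ((2 : F)⁻¹ * a))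
    obtain ⟨u, hu⟩ := ProjGenLinGroup.mk_eq_mk_iff.1 hxs
    rw [toGL_ll] at hu
    have h00 := congrArg (fun g : GL (Fin 2) F => g 0 0) hu
    have h01 := congrArg (fun g : GL (Fin 2) F => g 0 1) hu
    have h10 := congrArg (fun g : GL (Fin 2) F => g 1 0) hu
    have h11 := congrArg (fun g : GL (Fin 2) F => g 1 1) hu
    simp only [mul_scalar_apply, lG_00, lG_01, lG_10, lG_11] at h00 h01 h10 h11
    have e00 : ent x 0 0 * u = 1 := h00
    have e01 : ent x 0 1 * u = 0 := h01
    have e10 : ent x 1 0 * u = (2 : F)⁻¹ * a := h10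
    have e11 : ent x 1 1 * u = 1 := h11
    have hu0 : (u : F) ≠ 0 := u.ne_zero
    have e01' : ent x 0 1 = 0 := (mul_eq_zero.1 e01).resolve_right hu0
    have hdet := ent_det x
    rw [e01', zero_mul, sub_zero] at hdet
    have e11' : ent x 1 1 = ent x 0 0 := by
      have : (ent x 1 1 - ent x 0 0) * u = 0 := by rw [sub_mul, e00, e11, sub_self]
      exact sub_eq_zero.1 ((mul_eq_zero.1 this).resolve_right hu0)
    rw [e11'] at hdet
    have hx10 : ent x 1 0 = ent x 0 0 * ((2 : F)⁻¹ * a) := by
      rw [← e10]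
      calc ent x 1 0 = ent x 1 0 * (ent x 0 0 * u) := by rw [e00, mul_one]
        _ = _ := by ring
    have : x * x = ll a := by
      apply sl_ext
      · simp only [ent_mul, e01', ent_ll_00]
        rw [zero_mul, add_zero, hdet]
      · simp only [ent_mul, e01', e11', ent_ll_01]
        ring
      · simp only [ent_mul, e11', ent_ll_10]
        rw [hx10]
        linear_combination ((2 : F)⁻¹ * a * 2) * hdet + a * h2u
      · simp only [ent_mul, e01', e11', ent_ll_11]
        rw [mul_zero, zero_add, hdet]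
    rw [← this]
    exact mul_mem hx hx

end Finite

section Summary

/-- The generation theorem for a simple extension. -/
theorem gens_eq_top {k F : Type*} [Field k] [Field F] [Algebra k F] [FiniteDimensional k F]
    (h2 : (2 : k) ≠ 0) (hk3 : Nat.card k ≠ 3) {α : F} (hα : α ≠ 0)
    (hgen : Algebra.adjoin k {α} = ⊤) : gensG k α = ⊤ := by
  classical
  have hboth : ∀ a, uu a ∈ gensG k α ∧ ll a ∈ gensG k α := by
    intro a
    by_cases hfin : Finite k
    · haveI : Finite F := Module.finite_of_finite k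
      haveI : Fintype F := Fintype.ofFinite F
      exact finite_case h2 hk3 hα hgen a
    · haveI : Infinite k := not_finite_iff_infinite.1 hfin
      exact main_infinite h2 (isUnit_iff_ne_zero.2 hα) hgen (isEuclidGroup_gensG α) a
  rw [eq_top_iff]
  intro g _
  exact sl2_gen (fun a => (hboth a).1) (fun a => (hboth a).2) g

end Summary

end Cfsg.Agent.Lib.RootSubgroups.EuclidFinite
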