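/-
Double transitivity on the members in a line (S5038).
-/
import Mathlib
import Cfsg.Prelude.Def_RootSubgroups
import Cfsg.Agent.Lib.RootSubgroups.RankOne
import Cfsg.Agent.Lib.RootSubgroups.Abstract
import Cfsg.Agent.Lib.RootSubgroups.Abstract2
import Cfsg.Agent.Lib.RootSubgroups.LineConn
import Cfsg.Agent.Lib.RootSubgroups.Nondeg

set_option autoImplicit false

namespace Cfsg.Agent.Lib.RootSubgroups.LineTrans

open Cfsg Cfsg.Agent.Lib.RootSubgroups.RankOne Cfsg.Agent.Lib.RootSubgroups.Abstract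
  Cfsg.Agent.Lib.RootSubgroups.Abstract2 Cfsg.Agent.Lib.RootSubgroups.LineConn
  Cfsg.Agent.Lib.RootSubgroups.Nondeg
open scoped commutatorElement

variable {G : Type*} [Group G] {A B C D E F L M s t r : Subgroup G} {S : Set (Subgroup G)}

section

variable (hS : IsRootSubgroupSet S)
include hS

/-- The first step: a third point with a root subgroup acting on the line. -/
lemma line_step (hs : s ∈ S) (hF : F ∈ S) (hsF : IsRankOnePair s F) (ht : t ∈ linePartners S s)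
    {K : Subgroup G} (hK : K ∈ S) (htK : IsRankOnePair t K) :
    ∃ C ∈ S, ∃ E ∈ S, C ≠ s ∧ ⁅s, E⁆ = C ∧ s ⊔ C = s ⊔ t := by
  obtain ⟨C, hC, hCle, hCne, hFC⟩ := exists_comm_in_line hS hs hF hsF ht
  obtain ⟨hcomm, hLP⟩ := lp_of_le_line hS hs hF hsF ht hC hCle hCne
  have hcase := case_A_D hS hs hC hF hsF hcomm hLP hFC
  have hQ := comm_comm_eq hS hs hC hF hsF hcomm hLP hFC
  refine ⟨C, hC, _, hFC, hCne, hQ, ?_⟩
  apply le_antisymm (sup_le le_sup_left hCle)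
  refine sup_le le_sup_left ?_
  -- `t ≤ s ⊔ C`
  have htS : t ∈ S := ht.1.1
  obtain ⟨hhs, hts, hcst⟩ := ht.1
  have hcommst : ∀ x ∈ s, ∀ y ∈ t, x * y = y * x := fun x hx y hy => commute_of_bot hcst hx hy
  obtain ⟨c, hc, hc1⟩ := exists_ne_one_of_ne_bot (hS.ne_bot C hC)
  obtain ⟨s₁, hs₁, t₁, ht₁, hce⟩ := mem_sup_of_commute hcommst (hCle hc)
  have hsC : s ⊓ C = ⊥ := by
    rcases inf_eq_bot_or_eq hS hC hF hsF with h | h
    · exact h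
    · exact absurd h.symm hCne
  have ht₁1 : t₁ ≠ 1 := by
    intro h1
    rw [h1, mul_one] at hce
    have h2 : c ∈ s ⊓ C := ⟨hce ▸ hs₁, hc⟩
    rw [hsC] at h2
    exact hc1 h2
  have ht₁m : t₁ ∈ s ⊔ C := by
    have e : t₁ = s₁⁻¹ * c := by rw [hce]; group
    rw [e]
    exact Subgroup.mul_mem _ (Subgroup.mem_sup_left (s.inv_mem hs₁)) (Subgroup.mem_sup_right hc)
  have hpart := line_partition hS hs hcase hF hsF
  rw [hQ] at hpart
  obtain ⟨M, ⟨hMS, hMle⟩, ht₁M⟩ := hpart.2.1 t₁ ht₁m ht₁1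
  rcases inf_eq_bot_or_eq hS hMS hK htK with h | h
  · exfalso
    have h2 : t₁ ∈ t ⊓ M := ⟨ht₁, ht₁M⟩
    rw [h] at h2
    exact ht₁1 h2
  · rw [h]; exact hMle

/-- A further member of the line with `s` generates the line. -/
lemma sup_eq_of_member (hs : s ∈ S) (hF : F ∈ S) (hsF : IsRankOnePair s F) {E₀ : Subgroup G}
    (hE₀ : E₀ ∈ S) (hC : ⁅s, E₀⁆ ∈ S) (hr : r ∈ membersIn S (s ⊔ ⁅s, E₀⁆)) (hne : r ≠ s) :
    s ⊔ r = s ⊔ ⁅s, E₀⁆ := by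
  have hcase := commutatorCase_of_mem hS hs hE₀ hC
  have hr' := hr
  rw [members_eq hS hs hcase hF hsF] at hr'
  apply le_antisymm (sup_le le_sup_left hr.2)
  rcases hr' with ⟨e, he, rfl⟩ | h
  · have he1 : e ≠ 1 := by
      rintro rfl
      apply hne
      simp
    refine sup_le le_sup_left ?_
    intro y hy
    have h' := commutatorCase_symm hcase
    have hy' : y ∈ ⁅E₀, s⁆ := by rw [Subgroup.commutator_comm]; exact hy
    obtain ⟨a, ha, hae⟩ := exists_comm_eq h' he he1 hy'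
    have e1 : y = (e * a * e⁻¹) * a⁻¹ := hae.symm
    rw [e1]
    exact Subgroup.mul_mem _ (Subgroup.mem_sup_right (conj_mem_conjBy ha e))
      (Subgroup.mem_sup_left (s.inv_mem ha))
  · rw [Set.mem_singleton_iff] at h
    rw [h]

end

/-- The point stabilizer property. -/
def PS (S : Set (Subgroup G)) (L C : Subgroup G) : Prop :=
  ∃ E ∈ S, E ≤ Subgroup.normalizer (L : Set G) ∧ (∀ e ∈ E, conjBy C e = C) ∧
    (∀ r₁ ∈ membersIn S L, ∀ r₂ ∈ membersIn S L, r₁ ≠ C → r₂ ≠ C → ∃ e ∈ E, conjBy r₁ e = r₂) ∧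
    (∀ r ∈ membersIn S L, r ≠ C → ∃ e ∈ E, conjBy r e ≠ r)

lemma conj_member {L r : Subgroup G} (hS : IsRootSubgroupSet S) (hr : r ∈ membersIn S L) {e : G}
    (he : e ∈ Subgroup.normalizer (L : Set G)) : conjBy r e ∈ membersIn S L := by
  refine ⟨hS.conj_mem r hr.1 e, ?_⟩
  rintro _ ⟨y, hy, rfl⟩
  exact (Subgroup.mem_normalizer_iff.1 he y).1 (hr.2 hy)

section

variable (hS : IsRootSubgroupSet S)
include hS

/-- The line as a whole acted on by `E`. -/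
lemma exists_PS (hs : s ∈ S) (hF : F ∈ S) (hsF : IsRankOnePair s F) (ht : t ∈ linePartners S s)
    {K : Subgroup G} (hK : K ∈ S) (htK : IsRankOnePair t K) :
    ∃ C ∈ membersIn S (s ⊔ t), C ≠ s ∧ PS S (s ⊔ t) C := by
  obtain ⟨C, hC, E₀, hE₀, hne, hQ, hsup⟩ := line_step hS hs hF hsF ht hK htK
  subst hQ
  rw [← hsup]
  have hcase := commutatorCase_of_mem hS hs hE₀ hC
  have hmem := members_eq hS hs hcase hF hsF
  refine ⟨⁅s, E₀⁆, ⟨hC, le_sup_right⟩, hne, E₀, hE₀, ?_, ?_, ?_, ?_⟩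
  · have key : ∀ e ∈ E₀, ∀ n ∈ s ⊔ ⁅s, E₀⁆, e * n * e⁻¹ ∈ s ⊔ ⁅s, E₀⁆ := by
      intro e he n hn
      obtain ⟨a, ha, y, hy, rfl⟩ := mem_sup_of_commute (fun a ha c hc => comm_commute hcase ha hc) hn
      have e1 : e * (a * y) * e⁻¹ = (e * a * e⁻¹) * (e * y * e⁻¹) := by group
      rw [e1]
      refine Subgroup.mul_mem _ (conj_le he (conj_mem_conjBy ha e)) (Subgroup.mem_sup_right ?_)
      rw [← conjBy_commutator_right he]
      exact conj_mem_conjBy hy e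
    intro e he
    rw [Subgroup.mem_normalizer_iff]
    intro n
    constructor
    · exact key e he n
    · intro hn
      have := key e⁻¹ (E₀.inv_mem he) _ hn
      have e1 : e⁻¹ * (e * n * e⁻¹) * e⁻¹⁻¹ = n := by group
      rwa [e1] at this
  · intro e he
    exact conjBy_commutator_right he
  · intro r₁ hr₁ r₂ hr₂ hne₁ hne₂
    rw [hmem] at hr₁ hr₂
    rcases hr₁ with ⟨e₁, he₁, rfl⟩ | h
    · rcases hr₂ with ⟨e₂, he₂, rfl⟩ | h
      · refine ⟨e₂ * e₁⁻¹, E₀.mul_mem he₂ (E₀.inv_mem he₁), ?_⟩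
        simp only [conjBy_conjBy, inv_mul_cancel_right]
      · exact absurd h hne₂
    · exact absurd h hne₁
  · intro r hr hne₁
    rw [hmem] at hr
    rcases hr with ⟨e₁, he₁, rfl⟩ | h
    · have hne₂ : E₀ ≠ ⊥ := hS.ne_bot E₀ hE₀
      obtain ⟨e, he, he1⟩ := exists_ne_one_of_ne_bot hne₂
      refine ⟨e, he, ?_⟩
      intro h
      rw [conjBy_conjBy] at h
      have h2 : conjBy s (e₁⁻¹ * (e * e₁)) = s := by
        rw [← conjBy_conjBy, h, conjBy_conjBy]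
        simp
      have h3 := conjBy_ne_self' hcase hS (b := e₁⁻¹ * (e * e₁))
        (E₀.mul_mem (E₀.inv_mem he₁) (E₀.mul_mem he he₁))
      have h4 : e₁⁻¹ * (e * e₁) ≠ 1 := by
        intro h5
        apply he1
        have : e = e₁ * (e₁⁻¹ * (e * e₁)) * e₁⁻¹ := by group
        rw [this, h5]
        simp
      exact h3 h4 h2
    · exact absurd h hne₁

lemma sup_eq_line (hs : s ∈ S) (hF : F ∈ S) (hsF : IsRankOnePair s F) (ht : t ∈ linePartners S s)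
    {K : Subgroup G} (hK : K ∈ S) (htK : IsRankOnePair t K) (hr : r ∈ membersIn S (s ⊔ t))
    (hne : r ≠ s) : s ⊔ r = s ⊔ t := by
  obtain ⟨C, hC, E₀, hE₀, hne', hQ, hsup⟩ := line_step hS hs hF hsF ht hK htK
  subst hQ
  rw [← hsup] at hr ⊢
  exact sup_eq_of_member hS hs hF hsF hE₀ hC hr hne

/-- (S5038) -/
theorem line_two_transitive (hF : ∀ A ∈ S, ∃ K ∈ S, IsRankOnePair A K) (hA : A ∈ S)
    (hB : B ∈ linePartners S A) {C₁ C₂ D₁ D₂ : Subgroup G} (hC₁ : C₁ ∈ membersIn S (A ⊔ B))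
    (hC₂ : C₂ ∈ membersIn S (A ⊔ B)) (hD₁ : D₁ ∈ membersIn S (A ⊔ B))
    (hD₂ : D₂ ∈ membersIn S (A ⊔ B)) (hC : C₁ ≠ C₂) (hD : D₁ ≠ D₂) :
    ∃ x ∈ ⨆ E ∈ normalizingMembers S (A ⊔ B), E, conjBy C₁ x = D₁ ∧ conjBy C₂ x = D₂ := by
  set L := A ⊔ B with hL
  obtain ⟨FA, hFA, hAFA⟩ := hF A hA
  obtain ⟨KB, hKB, hBKB⟩ := hF B hB.1.1
  obtain ⟨P₀, hP₀, hP₀ne, E₀, hE₀S, hE₀n, hE₀fix, hE₀tr, -⟩ := exists_PS hS hA hFA hAFA hB hKB hBKB
  -- second point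
  have hsup₀ : A ⊔ P₀ = L := sup_eq_line hS hA hFA hAFA hB hKB hBKB hP₀ hP₀ne
  have hA' : A ∈ linePartners S P₀ := by
    refine ⟨⟨hA, hP₀ne.symm, ?_⟩, ?_⟩
    · apply bot_of_commute
      intro x hx a ha
      have := comm_sup (fun y hy => comm_of_isMulCommutative (hS.commutative A hA) ha hy)
        (fun y hy => commute_of_bot hB.1.2.2 ha hy) x (hP₀.2 hx)
      exact this.symm
    · rw [sup_comm, hsup₀]
      exact hB.2
  obtain ⟨F₀, hF₀, hP₀F₀⟩ := hF P₀ hP₀.1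
  obtain ⟨P₁, hP₁, hP₁ne, E₁, hE₁S, hE₁n, -, -, hE₁mv⟩ := exists_PS hS hP₀.1 hF₀ hP₀F₀ hA' hFA hAFA
  rw [sup_comm, hsup₀] at hP₁ hE₁n hE₁mv
  -- `H`
  set H := ⨆ E ∈ normalizingMembers S L, E with hH
  have hE₀H : E₀ ≤ H := le_iSup₂_of_le E₀ ⟨hE₀S, hE₀n⟩ le_rfl
  have hE₁H : E₁ ≤ H := le_iSup₂_of_le E₁ ⟨hE₁S, hE₁n⟩ le_rfl
  have hHn : H ≤ Subgroup.normalizer (L : Set G) := iSup₂_le fun E hE => hE.2
  have htrans : ∀ r ∈ membersIn S L, ∃ h ∈ H, conjBy P₀ h = r := by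
    intro r hr
    by_cases hr0 : r = P₀
    · exact ⟨1, Subgroup.one_mem _, by simp [hr0]⟩
    · obtain ⟨e₁, he₁, hmv⟩ := hE₁mv P₀ hP₀ hP₁ne.symm
      have hmem : conjBy P₀ e₁ ∈ membersIn S L := conj_member hS hP₀ (hE₁n he₁)
      obtain ⟨e₀, he₀, hee⟩ := hE₀tr _ hmem r hr hmv hr0
      refine ⟨e₀ * e₁, Subgroup.mul_mem _ (hE₀H he₀) (hE₁H he₁), ?_⟩
      rw [← conjBy_conjBy, hee]
  obtain ⟨g₁, hg₁, hg₁e⟩ := htrans C₁ hC₁
  obtain ⟨g₂, hg₂, hg₂e⟩ := htrans D₁ hD₁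
  have hy₁ : conjBy C₂ g₁⁻¹ ∈ membersIn S L := conj_member hS hC₂ (hHn (H.inv_mem hg₁))
  have hy₂ : conjBy D₂ g₂⁻¹ ∈ membersIn S L := conj_member hS hD₂ (hHn (H.inv_mem hg₂))
  have hy₁ne : conjBy C₂ g₁⁻¹ ≠ P₀ := by
    intro h
    apply hC
    rw [← hg₁e, ← h, conjBy_conjBy]
    simp
  have hy₂ne : conjBy D₂ g₂⁻¹ ≠ P₀ := by
    intro h
    apply hD
    rw [← hg₂e, ← h, conjBy_conjBy]
    simp
  obtain ⟨e₀, he₀, hee⟩ := hE₀tr _ hy₁ _ hy₂ hy₁ne hy₂ne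
  refine ⟨g₂ * e₀ * g₁⁻¹, Subgroup.mul_mem _ (Subgroup.mul_mem _ hg₂ (hE₀H he₀)) (H.inv_mem hg₁), ?_, ?_⟩
  · rw [← hg₁e, conjBy_conjBy]
    have e1 : g₂ * e₀ * g₁⁻¹ * g₁ = g₂ * e₀ := by group
    rw [e1, ← conjBy_conjBy, hE₀fix e₀ he₀, hg₂e]
  · have e1 : conjBy C₂ (g₂ * e₀ * g₁⁻¹) = conjBy (conjBy (conjBy C₂ g₁⁻¹) e₀) g₂ := by
      rw [conjBy_conjBy, conjBy_conjBy]
    rw [e1, hee, conjBy_conjBy]
    simp

end

end Cfsg.Agent.Lib.RootSubgroups.LineTrans
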