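/-
The calculus of special rank one groups with abelian unipotent subgroups.
-/
import Mathlib
import Cfsg.Prelude.Def_RootSubgroups
import Cfsg.Prelude.Def_Transfer
import Cfsg.Agent.Lib.RootSubgroups.SpecialConfig

set_option autoImplicit false

namespace Cfsg.Agent.Lib.RootSubgroups.SpecialCalc

open Cfsg Cfsg.Agent.Lib.RootSubgroups.RankOne

variable {G : Type*} [Group G] {A B : Subgroup G}

/-- Special rank one pair with abelian unipotent subgroups. -/
structure SP (A B : Subgroup G) : Prop where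
  sp : IsSpecialRankOnePair A B
  ca : ∀ x ∈ A, ∀ y ∈ A, x * y = y * x
  cb : ∀ x ∈ B, ∀ y ∈ B, x * y = y * x

lemma SP.of_hasAbelian (hs : IsSpecialRankOnePair A B) (hab : HasAbelianUnipotents A B) : SP A B where
  sp := hs
  ca := fun x hx y hy => by
    have := hab.1
    have h1 := mul_comm' (⟨x, hx⟩ : A) ⟨y, hy⟩
    simpa using congrArg Subtype.val h1
  cb := fun x hx y hy => by
    have := hab.2
    have h1 := mul_comm' (⟨x, hx⟩ : B) ⟨y, hy⟩
    simpa using congrArg Subtype.val h1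

lemma SP.rk (h : SP A B) : IsRankOnePair A B := h.sp.1

lemma SP.symm (h : SP A B) : SP B A where
  sp := Cfsg.Agent.Lib.RootSubgroups.SpecialConfig.special_symm h.sp
  ca := h.cb
  cb := h.ca

open Classical in
/-- The element `y = b⁻¹` matched to `a`: `y A y⁻¹ = a⁻¹ B a`. -/
noncomputable def yy (A B : Subgroup G) (a : G) : G :=
  if h : ∃ y ∈ B, y ≠ 1 ∧ conjBy A y = conjBy B a⁻¹ then h.choose else 1

/-- The swapping element. -/
noncomputable def nn (A B : Subgroup G) (a : G) : G := a * yy A B a * a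

/-- `Q_a(x) = n_a y_x n_a⁻¹`. -/
noncomputable def QQ (A B : Subgroup G) (a x : G) : G := nn A B a * yy A B x * (nn A B a)⁻¹

namespace SP

variable (h : SP A B)
include h

lemma yy_spec {a : G} (ha : a ∈ A) (ha1 : a ≠ 1) :
    yy A B a ∈ B ∧ yy A B a ≠ 1 ∧ conjBy A (yy A B a) = conjBy B a⁻¹ := by
  have hex : ∃ y ∈ B, y ≠ 1 ∧ conjBy A y = conjBy B a⁻¹ := by
    obtain ⟨b, hb, hb1, he⟩ := h.rk.cond_left a ha ha1
    exact ⟨b⁻¹, B.inv_mem hb, inv_ne_one.2 hb1, he⟩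
  rw [yy, dif_pos hex]
  exact hex.choose_spec

lemma yy_mem {a : G} (ha : a ∈ A) (ha1 : a ≠ 1) : yy A B a ∈ B := (h.yy_spec ha ha1).1

lemma yy_ne_one {a : G} (ha : a ∈ A) (ha1 : a ≠ 1) : yy A B a ≠ 1 := (h.yy_spec ha ha1).2.1

lemma yy_conj {a : G} (ha : a ∈ A) (ha1 : a ≠ 1) : conjBy A (yy A B a) = conjBy B a⁻¹ :=
  (h.yy_spec ha ha1).2.2

/-- Uniqueness of the matched element. -/
lemma yy_unique {a y : G} (ha : a ∈ A) (hy : y ∈ B) (he : conjBy A y = conjBy B a⁻¹) :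
    yy A B a = y := by
  have ha1 : a ≠ 1 := by
    rintro rfl
    apply h.rk.ne
    have h1 : conjBy A y = B := by rw [he]; simp
    rw [conjBy_eq_iff] at h1
    rw [h1]
    exact conjBy_of_mem (B.inv_mem hy)
  have h1 := h.yy_conj ha ha1
  exact conjBy_left_inj h.rk (h.yy_mem ha ha1) hy (h1.trans he.symm)

lemma yy_inj {a a' : G} (ha : a ∈ A) (ha1 : a ≠ 1) (ha' : a' ∈ A) (ha'1 : a' ≠ 1)
    (he : yy A B a = yy A B a') : a = a' := by
  have h1 := h.yy_conj ha ha1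
  have h2 := h.yy_conj ha' ha'1
  rw [he, h2] at h1
  have := conjBy_right_inj h.rk (A.inv_mem ha') (A.inv_mem ha) h1
  exact (inv_inj.1 this).symm

lemma braid {a : G} (ha : a ∈ A) (ha1 : a ≠ 1) :
    a * yy A B a * a = yy A B a * a * yy A B a := by
  set y := yy A B a
  have hy := h.yy_mem ha ha1
  have hy1 := h.yy_ne_one ha ha1
  have he := h.yy_conj ha ha1
  have h1 := h.sp.2 a ha ha1 y⁻¹ (B.inv_mem hy) (inv_ne_one.2 hy1) (by rw [inv_inv]; exact he)
  rw [inv_inv] at h1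
  calc a * y * a = a * (y * a * y⁻¹) * y := by group
    _ = a * (a⁻¹ * y * a) * y := by rw [h1]
    _ = _ := by group

lemma nn_conj_left {a : G} (ha : a ∈ A) (ha1 : a ≠ 1) :
    nn A B a * a * (nn A B a)⁻¹ = yy A B a := by
  have hb := h.braid ha ha1
  have e1 : nn A B a * a = yy A B a * nn A B a := by
    rw [nn]
    calc a * yy A B a * a * a = (a * yy A B a * a) * a := rfl
      _ = (yy A B a * a * yy A B a) * a := by rw [hb]
      _ = yy A B a * (a * yy A B a * a) := by group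
  rw [e1]; group

lemma nn_conj_right {a : G} (ha : a ∈ A) (ha1 : a ≠ 1) :
    nn A B a * yy A B a * (nn A B a)⁻¹ = a := by
  have hb := h.braid ha ha1
  have e1 : nn A B a * yy A B a = a * nn A B a := by
    rw [nn]
    calc a * yy A B a * a * yy A B a = a * (yy A B a * a * yy A B a) := by group
      _ = a * (a * yy A B a * a) := by rw [← hb]
  rw [e1]; group

lemma nn_mem {a : G} (ha : a ∈ A) (ha1 : a ≠ 1) : nn A B a ∈ A ⊔ B :=
  Subgroup.mul_mem _ (Subgroup.mul_mem _ (Subgroup.mem_sup_left ha)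
    (Subgroup.mem_sup_right (h.yy_mem ha ha1))) (Subgroup.mem_sup_left ha)

lemma conjBy_nn {a : G} (ha : a ∈ A) (ha1 : a ≠ 1) : conjBy A (nn A B a) = B := by
  rw [nn, ← conjBy_conjBy, conjBy_of_mem ha, ← conjBy_conjBy, h.yy_conj ha ha1, conjBy_conjBy]
  simp

lemma conjBy_nn_inv {a : G} (ha : a ∈ A) (ha1 : a ≠ 1) : conjBy A (nn A B a)⁻¹ = B := by
  by_contra hne
  have hn := h.nn_mem ha ha1
  have hC : conjBy A (nn A B a)⁻¹ ∈ unipotentSubgroups A B :=
    ⟨_, Subgroup.inv_mem _ hn, rfl⟩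
  have hr := isRankOnePair_of_unipotent h.rk hC (right_mem_unipotent h.rk) hne
  have hy : yy A B a = (nn A B a)⁻¹ * a * (nn A B a)⁻¹⁻¹ := by
    have e1 := h.nn_conj_right ha ha1
    calc yy A B a = (nn A B a)⁻¹ * (nn A B a * yy A B a * (nn A B a)⁻¹) * nn A B a := by group
      _ = (nn A B a)⁻¹ * a * nn A B a := by rw [e1]
      _ = _ := by simp
  have hm : yy A B a ∈ conjBy A (nn A B a)⁻¹ ⊓ B := by
    refine ⟨?_, h.yy_mem ha ha1⟩
    rw [hy]
    exact conj_mem_conjBy ha _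
  rw [inf_eq_bot hr] at hm
  exact h.yy_ne_one ha ha1 hm

lemma conjBy_B_nn {a : G} (ha : a ∈ A) (ha1 : a ≠ 1) : conjBy B (nn A B a) = A := by
  calc conjBy B (nn A B a) = conjBy (conjBy A (nn A B a)⁻¹) (nn A B a) := by
        rw [h.conjBy_nn_inv ha ha1]
    _ = conjBy A (nn A B a * (nn A B a)⁻¹) := conjBy_conjBy _ _ _
    _ = A := by simp

lemma conjBy_B_nn_inv {a : G} (ha : a ∈ A) (ha1 : a ≠ 1) : conjBy B (nn A B a)⁻¹ = A := by
  calc conjBy B (nn A B a)⁻¹ = conjBy (conjBy A (nn A B a)) (nn A B a)⁻¹ := by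
        rw [h.conjBy_nn ha ha1]
    _ = conjBy A ((nn A B a)⁻¹ * nn A B a) := conjBy_conjBy _ _ _
    _ = A := by simp

lemma yy_inv {a : G} (ha : a ∈ A) (ha1 : a ≠ 1) : yy A B a⁻¹ = (yy A B a)⁻¹ := by
  apply h.yy_unique (A.inv_mem ha) (B.inv_mem (h.yy_mem ha ha1))
  have h1 := h.conjBy_nn_inv ha ha1
  have e : (nn A B a)⁻¹ = a⁻¹ * (yy A B a)⁻¹ * a⁻¹ := by rw [nn]; group
  rw [e, ← conjBy_conjBy, conjBy_of_mem (A.inv_mem ha), ← conjBy_conjBy] at h1
  calc conjBy A (yy A B a)⁻¹ = conjBy (conjBy (conjBy A (yy A B a)⁻¹) a⁻¹) a := by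
        rw [conjBy_conjBy]; simp
    _ = conjBy B a := by rw [h1]
    _ = _ := by rw [inv_inv]

lemma nn_inv {a : G} (ha : a ∈ A) (ha1 : a ≠ 1) : nn A B a⁻¹ = (nn A B a)⁻¹ := by
  rw [nn, nn, h.yy_inv ha ha1]; group

lemma yy_one : yy A B 1 = 1 := by
  rw [yy, dif_neg]
  rintro ⟨y, hy, -, he⟩
  apply h.rk.ne
  have h1 : conjBy A y = B := by rw [he]; simp
  rw [conjBy_eq_iff] at h1
  rw [h1]
  exact conjBy_of_mem (B.inv_mem hy)

lemma conj_B_mem {a y : G} (ha : a ∈ A) (ha1 : a ≠ 1) (hy : y ∈ B) :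
    nn A B a * y * (nn A B a)⁻¹ ∈ A := by
  have := conj_mem_conjBy hy (nn A B a)
  rwa [h.conjBy_B_nn ha ha1] at this

lemma conj_A_mem {a x : G} (ha : a ∈ A) (ha1 : a ≠ 1) (hx : x ∈ A) :
    nn A B a * x * (nn A B a)⁻¹ ∈ B := by
  have := conj_mem_conjBy hx (nn A B a)
  rwa [h.conjBy_nn ha ha1] at this

lemma QQ_mem {a x : G} (ha : a ∈ A) (ha1 : a ≠ 1) (hx : x ∈ A) (hx1 : x ≠ 1) : QQ A B a x ∈ A :=
  h.conj_B_mem ha ha1 (h.yy_mem hx hx1)

lemma QQ_ne_one {a x : G} (hx : x ∈ A) (hx1 : x ≠ 1) : QQ A B a x ≠ 1 := by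
  intro h1
  apply h.yy_ne_one hx hx1
  have e : yy A B x = (nn A B a)⁻¹ * QQ A B a x * nn A B a := by rw [QQ]; group
  rw [e, h1]; simp

lemma QQ_self {a : G} (ha : a ∈ A) (ha1 : a ≠ 1) : QQ A B a a = a := h.nn_conj_right ha ha1

lemma QQ_inv {a x : G} (hx : x ∈ A) (hx1 : x ≠ 1) : QQ A B a x⁻¹ = (QQ A B a x)⁻¹ := by
  rw [QQ, QQ, h.yy_inv hx hx1]; group

/-- `(★)`: `y_{Q_a x} = n_a x n_a⁻¹`. -/
lemma yy_QQ {a x : G} (ha : a ∈ A) (ha1 : a ≠ 1) (hx : x ∈ A) (hx1 : x ≠ 1) :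
    yy A B (QQ A B a x) = nn A B a * x * (nn A B a)⁻¹ := by
  apply h.yy_unique (h.QQ_mem ha ha1 hx hx1) (h.conj_A_mem ha ha1 hx)
  have h1 := h.yy_conj (A.inv_mem hx) (inv_ne_one.2 hx1)
  rw [h.yy_inv hx hx1, inv_inv] at h1
  set n := nn A B a with hn
  set z := n * x * n⁻¹ with hz
  set w := QQ A B a x with hw
  have e1 : conjBy (conjBy A (yy A B x)⁻¹) n = conjBy B w⁻¹ := by
    rw [conjBy_conjBy]
    have e : n * (yy A B x)⁻¹ = w⁻¹ * n := by rw [hw, QQ, ← hn]; group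
    rw [e, ← conjBy_conjBy, h.conjBy_nn ha ha1]
  have e2 : conjBy (conjBy B x) n = conjBy A z := by
    rw [conjBy_conjBy]
    have e : n * x = z * n := by rw [hz]; group
    rw [e, ← conjBy_conjBy, h.conjBy_B_nn ha ha1]
  rw [← e2, ← e1, h1]

/-- The element `u(a, d)` has `y_u = y_a y_d`. -/
lemma yy_uu {a d : G} (ha : a ∈ A) (ha1 : a ≠ 1) (hd : d ∈ A) (hd1 : d ≠ 1) (had : a * d ≠ 1) :
    yy A B (d * (QQ A B d (a * d))⁻¹) = yy A B a * yy A B d := by
  have hc : a * d ∈ A := A.mul_mem ha hd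
  have hwm := h.QQ_mem (x := a * d) hd hd1 hc had
  apply h.yy_unique (A.mul_mem hd (A.inv_mem hwm))
    (B.mul_mem (h.yy_mem ha ha1) (h.yy_mem hd hd1))
  set w := QQ A B d (a * d) with hw
  have hcomm := h.cb _ (h.yy_mem ha ha1) _ (h.yy_mem hd hd1)
  have had' := h.ca a ha d hd
  have hdw : d⁻¹ * w = w * d⁻¹ := h.ca _ (A.inv_mem hd) _ hwm
  have e : (d * w⁻¹)⁻¹ = d⁻¹ * w := by rw [mul_inv_rev, inv_inv, hdw]
  rw [e, hcomm, ← conjBy_conjBy, h.yy_conj ha ha1, conjBy_conjBy]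
  have e2 : yy A B d = d⁻¹ * nn A B d * d⁻¹ := by rw [nn]; group
  have e3 : d⁻¹ * nn A B d * d⁻¹ * a⁻¹ = d⁻¹ * nn A B d * (a * d)⁻¹ := by
    rw [mul_inv_rev]; group
  rw [e2, e3, ← conjBy_conjBy, ← h.yy_conj hc had, conjBy_conjBy]
  have e4 : d⁻¹ * nn A B d * yy A B (a * d) = d⁻¹ * w * nn A B d := by
    rw [hw, QQ]; group
  rw [e4, ← conjBy_conjBy, h.conjBy_nn hd hd1]

/-- The Hua-symmetric identity. -/
theorem hs {a d : G} (ha : a ∈ A) (ha1 : a ≠ 1) (hd : d ∈ A) (hd1 : d ≠ 1) (had : a * d ≠ 1) :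
    d * (QQ A B d (a * d))⁻¹ = a * (QQ A B a (a * d))⁻¹ := by
  have hc : a * d ∈ A := A.mul_mem ha hd
  have hda : d * a = a * d := h.ca d hd a ha
  have h1 := h.yy_uu ha ha1 hd hd1 had
  have h2 := h.yy_uu hd hd1 ha ha1 (by rw [hda]; exact had)
  rw [hda, h.cb _ (h.yy_mem hd hd1) _ (h.yy_mem ha ha1)] at h2
  have hu₁ : d * (QQ A B d (a * d))⁻¹ ∈ A :=
    A.mul_mem hd (A.inv_mem (h.QQ_mem hd hd1 hc had))
  have hu₂ : a * (QQ A B a (a * d))⁻¹ ∈ A :=
    A.mul_mem ha (A.inv_mem (h.QQ_mem ha ha1 hc had))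
  have hne : ∀ {u : G}, u ∈ A → yy A B u = yy A B a * yy A B d → u ≠ 1 := by
    intro u _ hu h3
    rw [h3, h.yy_one] at hu
    have h4 : yy A B d = (yy A B a)⁻¹ := eq_inv_of_mul_eq_one_right hu.symm
    rw [← h.yy_inv ha ha1] at h4
    have h5 := h.yy_inj hd hd1 (A.inv_mem ha) (inv_ne_one.2 ha1) h4
    apply had
    rw [h5]; simp
  exact h.yy_inj hu₁ (hne hu₁ h1) hu₂ (hne hu₂ h2) (h1.trans h2.symm)

lemma QQ_conj (a e x : G) :
    QQ A B a x = (nn A B a * (nn A B e)⁻¹) * QQ A B e x * (nn A B a * (nn A B e)⁻¹)⁻¹ := by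
  rw [QQ, QQ]; group

/-- `Q_a(x)` and `x` have related orders. -/
lemma QQ_pow_eq_one {a x : G} (hx : x ∈ A) (hx1 : x ≠ 1) {j : ℕ} (hj : x ^ j = 1) :
    (QQ A B a x) ^ j = 1 := by
  have h1 : (yy A B x) ^ j = 1 := by
    rw [← h.nn_conj_left hx hx1, conj_pow, hj]; simp
  rw [QQ, conj_pow, h1]; simp

end SP

/-- The statement `T(k)`. -/
def TT (A B : Subgroup G) (k : ℕ) : Prop :=
  ∀ e ∈ A, e ^ k ≠ 1 → (QQ A B e (e ^ k)) ^ k = e

namespace SP

variable (h : SP A B)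
include h

lemma TT_one : TT A B 1 := by
  intro e he he1
  rw [pow_one] at he1 ⊢
  rw [pow_one, h.QQ_self he he1]

lemma TT_two : TT A B 2 := by
  intro e he he2
  have he1 : e ≠ 1 := by
    rintro rfl
    simp at he2
  have hc : e ^ 2 = e * e := pow_two e
  rw [hc] at he2 ⊢
  have hee : e * e ∈ A := A.mul_mem he he
  set w := QQ A B e (e * e) with hw
  have hwm : w ∈ A := h.QQ_mem he he1 hee he2
  have h1 := h.yy_uu he he1 he he1 he2
  have h2 := h.yy_QQ he he1 hee he2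
  rw [← hw] at h1 h2
  have h3 : nn A B e * (e * e) * (nn A B e)⁻¹ = yy A B e * yy A B e := by
    rw [← h.nn_conj_left he he1]; group
  rw [h3] at h2
  have hu : e * w⁻¹ ∈ A := A.mul_mem he (A.inv_mem hwm)
  have hu1 : e * w⁻¹ ≠ 1 := by
    intro h4
    rw [h4, h.yy_one] at h1
    rw [← h1] at h2
    exact h.yy_ne_one hwm (h.QQ_ne_one hee he2) h2
  have h4 := h.yy_inj hu hu1 hwm (h.QQ_ne_one hee he2) (h1.trans h2.symm)
  have e1 : e = w * w := by
    calc e = (e * w⁻¹) * w := by group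
      _ = w * w := by rw [h4]
  rw [pow_two]
  exact e1.symm

lemma TT_mul {m n : ℕ} (hm : TT A B m) (hn : TT A B n) : TT A B (m * n) := by
  intro e he he1
  have hem : e ^ m ≠ 1 := by
    intro h1
    apply he1
    rw [pow_mul, h1]; simp
  have hm' : e ^ m ∈ A := A.pow_mem he m
  have h1 := hn (e ^ m) hm' (by rw [← pow_mul]; exact he1)
  rw [← pow_mul] at h1
  set c := e ^ (m * n) with hc
  have h2 := h.QQ_self hm' hem
  rw [h.QQ_conj (e ^ m) e] at h1 h2
  set g := nn A B (e ^ m) * (nn A B e)⁻¹ with hg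
  rw [conj_pow] at h1
  have h3 : (QQ A B e c) ^ n = QQ A B e (e ^ m) := by
    have h4 : g * (QQ A B e c) ^ n * g⁻¹ = g * QQ A B e (e ^ m) * g⁻¹ := h1.trans h2.symm
    have h5 := mul_right_cancel h4
    exact mul_left_cancel h5
  rw [mul_comm m n, pow_mul, h3]
  exact hm e he hem

lemma TT_step {k : ℕ} (hT : TT A B (k + 1)) : TT A B k := by
  intro e he hek
  have he1 : e ≠ 1 := by
    rintro rfl
    simp at hek
  have hekm : e ^ k ∈ A := A.pow_mem he k
  by_cases hk1 : e ^ (k + 1) = 1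
  · have h1 : e ^ k = e⁻¹ := by
      rw [pow_succ] at hk1
      exact eq_inv_of_mul_eq_one_left hk1
    rw [h1, h.QQ_inv he he1, h.QQ_self he he1, inv_pow, h1, inv_inv]
  · have hw := hT e he hk1
    have hc : e ^ (k + 1) ∈ A := A.pow_mem he _
    set c := e ^ (k + 1) with hcd
    set w := QQ A B e c with hwd
    have hwm : w ∈ A := h.QQ_mem he he1 hc hk1
    have hec : e ^ k * e = c := (pow_succ e k).symm
    have hHS := h.hs hekm hek he he1 (by rw [hec]; exact hk1)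
    rw [hec, ← hwd, h.QQ_conj (e ^ k) e c, ← hwd] at hHS
    set g := nn A B (e ^ k) * (nn A B e)⁻¹ with hg
    set v := g * w * g⁻¹ with hv
    have hvm : v ∈ A := by
      rw [hv, hwd, ← h.QQ_conj (e ^ k) e c]
      exact h.QQ_mem hekm hek hc hk1
    -- `e * v = e ^ k * w`
    have h1 : e * v = e ^ k * w := by
      have h2 : e * w⁻¹ * (w * v) = e ^ k * v⁻¹ * (w * v) := by rw [hHS]
      have h3 : e * w⁻¹ * (w * v) = e * v := by group
      have h4 : e ^ k * v⁻¹ * (w * v) = e ^ k * (v⁻¹ * (w * v)) := by group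
      have h5 : v⁻¹ * (w * v) = w := by
        rw [h.ca w hwm v hvm]; group
      rw [h3, h4, h5] at h2
      exact h2
    have hcomm1 : Commute e v := h.ca e he v hvm
    have hcomm2 : Commute (e ^ k) w := h.ca _ hekm w hwm
    have h2 : (e * v) ^ (k + 1) = (e ^ k * w) ^ (k + 1) := by rw [h1]
    rw [hcomm1.mul_pow, hcomm2.mul_pow, hv, conj_pow, hw, ← hcd] at h2
    have e2 : (e ^ k) ^ (k + 1) * e = c * e ^ (k * k) := by
      rw [← pow_mul, hcd, ← pow_succ, ← pow_add]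
      congr 1
      ring
    rw [e2] at h2
    have h3 : g * e * g⁻¹ = e ^ (k * k) := mul_left_cancel h2
    have h4 := h.QQ_self hekm hek
    rw [h.QQ_conj (e ^ k) e, ← hg] at h4
    have h5 : g * (QQ A B e (e ^ k)) ^ k * g⁻¹ = e ^ (k * k) := by
      rw [← conj_pow, h4, ← pow_mul]
    rw [← h3] at h5
    exact mul_left_cancel (mul_right_cancel h5)

/-- `k · ι(k e) = e`. -/
theorem TT_all {k : ℕ} (hk : 1 ≤ k) : TT A B k := by
  induction k using Nat.strong_induction_on with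
  | _ k ih =>
    rcases Nat.lt_or_ge k 3 with h3 | h3
    · interval_cases k
      · exact h.TT_one
      · exact h.TT_two
    by_cases hp : k.Prime
    · have hodd : Odd k := hp.odd_of_ne_two (by omega)
      obtain ⟨m, hm⟩ := hodd
      have h1 : TT A B (m + 1) := ih (m + 1) (by omega) (by omega)
      have h2 : TT A B (2 * (m + 1)) := h.TT_mul h.TT_two h1
      have e : 2 * (m + 1) = k + 1 := by omega
      rw [e] at h2
      exact h.TT_step h2
    · obtain ⟨a, b, ha, hb, hab⟩ := (Nat.not_prime_iff_exists_mul_eq (by omega)).1 hp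
      have ha0 : 1 ≤ a := by
        rcases Nat.eq_zero_or_pos a with h0 | h0
        · rw [h0] at hab; omega
        · exact h0
      have hb0 : 1 ≤ b := by
        rcases Nat.eq_zero_or_pos b with h0 | h0
        · rw [h0] at hab; omega
        · exact h0
      rw [← hab]
      exact h.TT_mul (ih a ha ha0) (ih b hb hb0)

/-- Every element of finite order in `A` has prime order. -/
theorem orderOf_prime {e : G} (he : e ∈ A) (he1 : e ≠ 1) (hf : IsOfFinOrder e) :
    (orderOf e).Prime := by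
  set m := orderOf e with hm
  have hm0 : 0 < m := hf.orderOf_pos
  have hm1 : m ≠ 1 := by
    intro h1
    exact he1 (orderOf_eq_one_iff.1 h1)
  obtain ⟨p, hp, hpm⟩ := Nat.exists_prime_and_dvd hm1
  have hpe : e ^ p = 1 := by
    by_contra hne
    have hT := h.TT_all hp.one_le e he hne
    obtain ⟨r, hr⟩ := hpm
    have hr0 : 0 < r := by
      rcases Nat.eq_zero_or_pos r with h0 | h0
      · rw [h0] at hr; omega
      · exact h0
    have hc : (e ^ p) ^ r = 1 := by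
      rw [← pow_mul, ← hr, hm]; exact pow_orderOf_eq_one e
    have hw := h.QQ_pow_eq_one (a := e) (A.pow_mem he p) hne hc
    have he' : e ^ r = 1 := by
      rw [← hT, ← pow_mul, mul_comm, pow_mul, hw, one_pow]
    have h1 : m ∣ r := orderOf_dvd_of_pow_eq_one he'
    have h2 := Nat.le_of_dvd hr0 h1
    have h3 : r < m := by
      rw [hr]
      have := hp.two_le
      nlinarith
    omega
  have : orderOf e = p := orderOf_eq_prime (hp := ⟨hp⟩) hpe he1
  rw [hm, this]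
  exact hp

/-- The structure theorem for the unipotent subgroups. -/
theorem dichotomy :
    (∃ p : ℕ, p.Prime ∧ IsElementaryAbelian p A) ∨
    ((∀ a ∈ A, a ≠ 1 → ¬ IsOfFinOrder a) ∧ ∀ a ∈ A, ∀ n : ℕ, 0 < n → ∃ c ∈ A, c ^ n = a) := by
  have hab : IsMulCommutative A := ⟨⟨fun x y => Subtype.ext (h.ca x x.2 y y.2)⟩⟩
  by_cases htors : ∃ e ∈ A, e ≠ 1 ∧ IsOfFinOrder e
  · left
    obtain ⟨e, he, he1, hf⟩ := htors
    have hp := h.orderOf_prime he he1 hf
    set p := orderOf e with hpd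
    have hpe : e ^ p = 1 := pow_orderOf_eq_one e
    refine ⟨p, hp, hab, ?_⟩
    intro x hx
    by_contra hxp
    by_cases hxf : IsOfFinOrder x
    · have hx1 : x ≠ 1 := by
        rintro rfl
        simp at hxp
      have hq := h.orderOf_prime hx hx1 hxf
      have hne : orderOf x ≠ p := by
        intro h1
        apply hxp
        rw [← h1]
        exact pow_orderOf_eq_one x
      have hcop : (orderOf x).Coprime p := (Nat.coprime_primes hq hp).2 hne
      have hc : Commute x e := h.ca x hx e he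
      have h1 := hc.orderOf_mul_eq_mul_orderOf_of_coprime hcop
      have hm : x * e ∈ A := A.mul_mem hx he
      have hf' : IsOfFinOrder (x * e) := hc.isOfFinOrder_mul hxf hf
      have hm1 : x * e ≠ 1 := by
        intro h2
        rw [h2, orderOf_one] at h1
        have := Nat.eq_one_of_mul_eq_one_right h1.symm
        exact hq.one_lt.ne' this
      have h2 := h.orderOf_prime hm hm1 hf'
      rw [h1] at h2
      exact Nat.not_prime_mul hq.one_lt.ne' hp.one_lt.ne' h2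
    · have hcomm : Commute x e := h.ca x hx e he
      have hxe : (x * e) ^ p = x ^ p := by
        rw [hcomm.mul_pow, hpe, mul_one]
      have hm : x * e ∈ A := A.mul_mem hx he
      have h1 := h.TT_all hp.one_le x hx hxp
      have h2 := h.TT_all hp.one_le (x * e) hm (by rw [hxe]; exact hxp)
      rw [hxe] at h2
      set v₁ := QQ A B x (x ^ p) with hv₁
      set v₂ := QQ A B (x * e) (x ^ p) with hv₂
      have hxp' : x ^ p ∈ A := A.pow_mem hx p
      have hx1 : x ≠ 1 := by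
        rintro rfl
        simp at hxp
      have hm1 : x * e ≠ 1 := by
        intro h3
        apply hxp
        rw [← hxe, h3, one_pow]
      have hv₁m : v₁ ∈ A := h.QQ_mem hx hx1 hxp' hxp
      have hv₂m : v₂ ∈ A := h.QQ_mem hm hm1 hxp' hxp
      have hcv : Commute v₂ v₁⁻¹ := h.ca _ hv₂m _ (A.inv_mem hv₁m)
      have ht : (v₂ * v₁⁻¹) ^ p = e := by
        rw [hcv.mul_pow, h2, inv_pow, h1]
        calc x * e * x⁻¹ = (x * e) * x⁻¹ := rfl
          _ = (e * x) * x⁻¹ := by rw [hcomm.eq]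
          _ = e := by group
      have htm : v₂ * v₁⁻¹ ∈ A := A.mul_mem hv₂m (A.inv_mem hv₁m)
      have ht1 : v₂ * v₁⁻¹ ≠ 1 := by
        intro h3
        rw [h3, one_pow] at ht
        exact he1 ht.symm
      have hf' : IsOfFinOrder (v₂ * v₁⁻¹) := by
        rw [isOfFinOrder_iff_pow_eq_one]
        refine ⟨p * p, mul_pos hp.pos hp.pos, ?_⟩
        rw [pow_mul, ht, hpe]
      have hq := h.orderOf_prime htm ht1 hf'
      have hd : orderOf (v₂ * v₁⁻¹) ∣ p * p :=
        orderOf_dvd_of_pow_eq_one (by rw [pow_mul, ht, hpe])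
      have hd' : orderOf (v₂ * v₁⁻¹) ∣ p := by
        rcases (Nat.Prime.dvd_mul hq).1 hd with h3 | h3 <;> exact h3
      have : (v₂ * v₁⁻¹) ^ p = 1 := orderOf_dvd_iff_pow_eq_one.1 hd'
      rw [this] at ht
      exact he1 ht.symm
  · right
    push Not at htors
    refine ⟨htors, ?_⟩
    intro a ha n hn
    by_cases ha1 : a = 1
    · exact ⟨1, A.one_mem, by simp [ha1]⟩
    have han : a ^ n ≠ 1 := by
      intro h1
      exact htors a ha ha1 (isOfFinOrder_iff_pow_eq_one.2 ⟨n, hn, h1⟩)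
    exact ⟨QQ A B a (a ^ n), h.QQ_mem ha ha1 (A.pow_mem ha n) han, h.TT_all hn a ha han⟩

/-- Membership in the diagonal. -/
lemma diag_mem {a d : G} (ha : a ∈ A) (ha1 : a ≠ 1) (hd : d ∈ A) (hd1 : d ≠ 1) :
    nn A B a * (nn A B d)⁻¹ ∈ rankOneDiagonal A B := by
  have h1 : conjBy A (nn A B a * (nn A B d)⁻¹) = A := by
    rw [← conjBy_conjBy, h.conjBy_nn_inv hd hd1, h.conjBy_B_nn ha ha1]
  have h2 : conjBy B (nn A B a * (nn A B d)⁻¹) = B := by
    rw [← conjBy_conjBy, h.conjBy_B_nn_inv hd hd1, h.conjBy_nn ha ha1]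
  exact ⟨⟨Subgroup.mul_mem _ (h.nn_mem ha ha1) (Subgroup.inv_mem _ (h.nn_mem hd hd1)),
    mem_normalizer_iff_conjBy.2 h1⟩, mem_normalizer_iff_conjBy.2 h2⟩

/-- The difference of two elements is a commutator with the diagonal. -/
lemma mul_inv_eq_comm {a d : G} (ha : a ∈ A) (ha1 : a ≠ 1) (hd : d ∈ A) (hd1 : d ≠ 1)
    (had : a * d ≠ 1) :
    ∃ g ∈ rankOneDiagonal A B, ∃ w ∈ A, a * d⁻¹ = g * w * g⁻¹ * w⁻¹ := by
  have hc : a * d ∈ A := A.mul_mem ha hd
  have hHS := h.hs ha ha1 hd hd1 had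
  rw [h.QQ_conj a d (a * d)] at hHS
  set g := nn A B a * (nn A B d)⁻¹ with hg
  set w := QQ A B d (a * d) with hw
  have hwm : w ∈ A := h.QQ_mem hd hd1 hc had
  have hvm : g * w * g⁻¹ ∈ A := by
    rw [hg, hw, ← h.QQ_conj a d (a * d)]
    exact h.QQ_mem ha ha1 hc had
  refine ⟨g, h.diag_mem ha ha1 hd hd1, w, hwm, ?_⟩
  set v := g * w * g⁻¹ with hv
  have h1 : d⁻¹ * v = v * d⁻¹ := h.ca _ (A.inv_mem hd) _ hvm
  have h2 : w⁻¹ * d⁻¹ = d⁻¹ * w⁻¹ := h.ca _ (A.inv_mem hwm) _ (A.inv_mem hd)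
  calc a * d⁻¹ = (a * v⁻¹) * (v * d⁻¹) := by group
    _ = (d * w⁻¹) * (v * d⁻¹) := by rw [hHS]
    _ = d * w⁻¹ * (d⁻¹ * v) := by rw [h1]
    _ = d * (w⁻¹ * d⁻¹) * v := by group
    _ = d * (d⁻¹ * w⁻¹) * v := by rw [h2]
    _ = w⁻¹ * v := by group
    _ = v * w⁻¹ := h.ca _ (A.inv_mem hwm) _ hvm

/-- Elements outside any three given ones. -/
lemma exists_not_mem_three (hc : 3 < ENat.card A) (p q r : G) :
    ∃ a ∈ A, a ≠ p ∧ a ≠ q ∧ a ≠ r := by
  by_contra hno
  push Not at hno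
  have hsub : (A : Set G) ⊆ {p, q, r} := by
    intro x hx
    by_cases h1 : x = p
    · simp [h1]
    by_cases h2 : x = q
    · simp [h2]
    have := hno x hx h1 h2
    simp [this]
  have h1 : ENat.card A ≤ 3 := by
    change ENat.card ↥(A : Set G) ≤ 3
    rw [ENat.card_coe_set_eq]
    refine (Set.encard_le_encard hsub).trans ?_
    refine (Set.encard_insert_le _ _).trans ?_
    have h2 : ({q, r} : Set G).encard ≤ 2 := by
      refine (Set.encard_insert_le _ _).trans ?_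
      rw [Set.encard_singleton]
      norm_num
    calc ({q, r} : Set G).encard + 1 ≤ 2 + 1 := by gcongr
      _ = 3 := by norm_num
  exact absurd hc (not_lt.2 h1)

/-- Squaring is injective unless the exponent is two. -/
lemma exists_good (hc : 3 < ENat.card A) {d : G} (hd : d ∈ A) (hd1 : d ≠ 1) :
    ∃ a ∈ A, a ≠ 1 ∧ a * d ≠ 1 ∧ a * a * d ≠ 1 := by
  obtain ⟨a₁, ha₁, h11, h12, -⟩ := h.exists_not_mem_three hc 1 d⁻¹ 1
  obtain ⟨a₂, ha₂, h21, h22, h23⟩ := h.exists_not_mem_three hc 1 d⁻¹ a₁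
  have hmul : ∀ {a : G}, a ≠ d⁻¹ → a * d ≠ 1 := fun ha h3 => ha (eq_inv_of_mul_eq_one_left h3)
  have hinj : (∀ x ∈ A, x * x = 1) ∨ (∀ x ∈ A, ∀ y ∈ A, x * x = y * y → x = y) := by
    have key : (∀ z ∈ A, z * z = 1 → z = 1) → ∀ x ∈ A, ∀ y ∈ A, x * x = y * y → x = y := by
      intro hz x hx y hy hxy
      have hm : x * y⁻¹ ∈ A := A.mul_mem hx (A.inv_mem hy)
      have hc1 : y⁻¹ * x = x * y⁻¹ := h.ca _ (A.inv_mem hy) _ hx
      have h3 : (x * y⁻¹) * (x * y⁻¹) = 1 := by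
        calc (x * y⁻¹) * (x * y⁻¹) = x * (y⁻¹ * x) * y⁻¹ := by group
          _ = x * (x * y⁻¹) * y⁻¹ := by rw [hc1]
          _ = (x * x) * y⁻¹ * y⁻¹ := by group
          _ = (y * y) * y⁻¹ * y⁻¹ := by rw [hxy]
          _ = 1 := by group
      exact mul_inv_eq_one.1 (hz _ hm h3)
    rcases h.dichotomy with ⟨p, hp, -, hexp⟩ | ⟨htf, -⟩
    · by_cases hp2 : p = 2
      · left
        intro x hx
        have := hexp x hx
        rw [hp2, pow_two] at this
        exact this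
      · right
        apply key
        intro z hz hz2
        have h1 : orderOf z ∣ 2 := orderOf_dvd_of_pow_eq_one (by rw [pow_two]; exact hz2)
        have h2 : orderOf z ∣ p := orderOf_dvd_of_pow_eq_one (hexp z hz)
        have h3 : Nat.Coprime 2 p := (Nat.coprime_primes Nat.prime_two hp).2 (Ne.symm hp2)
        have h4 : orderOf z = 1 := Nat.eq_one_of_dvd_coprimes h3 h1 h2
        exact orderOf_eq_one_iff.1 h4
    · right
      apply key
      intro z hz hz2
      by_contra hz1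
      exact htf z hz hz1 (isOfFinOrder_iff_pow_eq_one.2 ⟨2, by norm_num, by rw [pow_two]; exact hz2⟩)
  rcases hinj with hexp | hinj
  · refine ⟨a₁, ha₁, h11, hmul h12, ?_⟩
    rw [hexp a₁ ha₁, one_mul]
    exact hd1
  · by_cases h1 : a₁ * a₁ * d = 1
    · refine ⟨a₂, ha₂, h21, hmul h22, ?_⟩
      intro h2
      have h3 : a₁ * a₁ = a₂ * a₂ := by
        have := h1.trans h2.symm
        exact mul_right_cancel this
      exact h23 (hinj a₁ ha₁ a₂ ha₂ h3).symm
    · exact ⟨a₁, ha₁, h11, hmul h12, h1⟩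

/-- Every element of `A` is a commutator with the diagonal. -/
theorem mem_comm_diag (hc : 3 < ENat.card A) {d : G} (hd : d ∈ A) :
    d ∈ ⁅rankOneDiagonal A B, A⁆ := by
  by_cases hd1 : d = 1
  · rw [hd1]; exact Subgroup.one_mem _
  obtain ⟨a, ha, ha1, had, haad⟩ := h.exists_good hc hd hd1
  have hm : a * d ∈ A := A.mul_mem ha hd
  have hda : a * d * a = a * a * d := by
    rw [mul_assoc, h.ca d hd a ha, mul_assoc]
  obtain ⟨g, hg, w, hw, he⟩ := h.mul_inv_eq_comm hm had ha ha1 (by rw [hda]; exact haad)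
  have e : d = a * d * a⁻¹ := by
    rw [h.ca a ha d hd]; group
  rw [e, he]
  exact Subgroup.commutator_mem_commutator hg hw

lemma diag_le : rankOneDiagonal A B ≤ A ⊔ B := fun _ hx => hx.1.1

lemma card_right : ENat.card B = ENat.card A := by
  obtain ⟨a, ha, ha1⟩ := exists_ne_one_left h.rk
  have e : B = conjBy A (nn A B a) := (h.conjBy_nn ha ha1).symm
  have f : A ≃* conjBy A (nn A B a) :=
    A.equivMapOfInjective _ (MulAut.conj (nn A B a)).injective
  have hf : ENat.card (conjBy A (nn A B a)) = ENat.card A := (ENat.card_congr f.toEquiv).symm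
  rw [← hf, ← e]

theorem left_le_comm (hc : 3 < ENat.card A) : A ≤ ⁅A ⊔ B, A ⊔ B⁆ := by
  intro d hd
  exact Subgroup.commutator_mono h.diag_le le_sup_left (h.mem_comm_diag hc hd)

theorem right_le_comm (hc : 3 < ENat.card A) : B ≤ ⁅A ⊔ B, A ⊔ B⁆ := by
  have := h.symm.left_le_comm (by rw [h.card_right]; exact hc)
  rwa [sup_comm] at this

theorem sup_le_comm (hc : 3 < ENat.card A) : A ⊔ B ≤ ⁅A ⊔ B, A ⊔ B⁆ :=
  sup_le (h.left_le_comm hc) (h.right_le_comm hc)

end SP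

end Cfsg.Agent.Lib.RootSubgroups.SpecialCalc
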