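/-
The subgroup `⟨a, b(a)⟩` of a special rank one group with elementary abelian unipotent subgroups:
the calculus of the elements `n_s = a^s y^{1/s} a^s`, `s ∈ 𝔽_p^×`.
-/
import Mathlib
import Cfsg.Prelude.Def_RootSubgroups
import Cfsg.Agent.Lib.RootSubgroups.SpecialCalc

set_option autoImplicit false
set_option linter.unusedSectionVars false

namespace Cfsg.Agent.Lib.RootSubgroups.PrimeSL2

open Cfsg Cfsg.Agent.Lib.RootSubgroups.RankOne Cfsg.Agent.Lib.RootSubgroups.SpecialCalc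

variable {G : Type*} [Group G] {A B : Subgroup G} {p : ℕ} [Fact p.Prime]

/-- The power of `x` indexed by a residue. -/
def pw (x : G) (s : ZMod p) : G := x ^ s.val

lemma pow_mod_of {x : G} (hx : x ^ p = 1) (n : ℕ) : x ^ (n % p) = x ^ n := by
  conv_rhs => rw [← Nat.div_add_mod n p, pow_add, pow_mul, hx, one_pow, one_mul]

lemma pw_add {x : G} (hx : x ^ p = 1) (s t : ZMod p) : pw x (s + t) = pw x s * pw x t := by
  rw [pw, ZMod.val_add, pow_mod_of hx, pow_add]; rfl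

lemma pw_zero (x : G) : pw x (0 : ZMod p) = 1 := by simp [pw, ZMod.val_zero]

lemma pw_one (x : G) : pw x (1 : ZMod p) = x := by simp [pw, ZMod.val_one]

lemma pw_neg {x : G} (hx : x ^ p = 1) (s : ZMod p) : pw x (-s) = (pw x s)⁻¹ := by
  have := pw_add hx (-s) s
  rw [neg_add_cancel, pw_zero] at this
  exact eq_inv_of_mul_eq_one_left this.symm

lemma pw_pow {x : G} (hx : x ^ p = 1) (s : ZMod p) : (pw x s) ^ p = 1 := by
  rw [pw, ← pow_mul, mul_comm, pow_mul, hx, one_pow]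

lemma pw_mul {x : G} (hx : x ^ p = 1) (s t : ZMod p) : pw x (s * t) = pw (pw x s) t := by
  rw [pw, pw, pw, ZMod.val_mul, pow_mod_of hx, pow_mul]

lemma pw_conj (g x : G) (s : ZMod p) : g * pw x s * g⁻¹ = pw (g * x * g⁻¹) s := by
  rw [pw, pw, conj_pow]

/-- Data for the calculus. -/
structure Ctx (A B : Subgroup G) (p : ℕ) (a : G) : Prop where
  sp : SP A B
  ha : a ∈ A
  ha1 : a ≠ 1
  hA : ∀ x ∈ A, x ^ p = 1

/-- `n_s`. -/
noncomputable def NN (A B : Subgroup G) (a : G) (s : ZMod p) : G := nn A B (pw a s)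

namespace Ctx

variable {a : G} (c : Ctx A B p a)
include c

lemma hap : a ^ p = 1 := c.hA a c.ha

lemma pw_mem (s : ZMod p) : pw a s ∈ A := A.pow_mem c.ha _

lemma order : orderOf a = p :=
  haveI : Fact p.Prime := inferInstance
  orderOf_eq_prime c.hap c.ha1

lemma pow_ne_one {k : ℕ} (hk : 0 < k) (hk' : k < p) : a ^ k ≠ 1 := by
  intro h
  have := Nat.le_of_dvd hk (orderOf_dvd_of_pow_eq_one h)
  rw [c.order] at this
  omega

lemma pw_ne_one {s : ZMod p} (hs : s ≠ 0) : pw a s ≠ 1 :=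
  c.pow_ne_one (Nat.pos_of_ne_zero (by rwa [Ne, ZMod.val_eq_zero])) (ZMod.val_lt s)

lemma pw_inj {r s : ZMod p} (h : pw a r = pw a s) : r = s := by
  have h1 : pw a (r - s) = 1 := by
    have e := pw_add c.hap (r - s) s
    rw [sub_add_cancel, h] at e
    exact (mul_eq_right.1 e.symm)
  by_contra hne
  exact c.pw_ne_one (sub_ne_zero.2 hne) h1

local notation "y" => yy A B a

lemma n_y : nn A B a * y * (nn A B a)⁻¹ = a := c.sp.nn_conj_right c.ha c.ha1

lemma n_a : nn A B a * a * (nn A B a)⁻¹ = y := c.sp.nn_conj_left c.ha c.ha1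

lemma hyp : y ^ p = 1 := by
  have h1 : nn A B a * y ^ p * (nn A B a)⁻¹ = a ^ p := by
    have h0 := conj_pow (a := nn A B a) (b := y) (i := p)
    rw [c.n_y] at h0
    exact h0.symm
  rw [c.hap] at h1
  have h2 : y ^ p = (nn A B a)⁻¹ * (nn A B a * y ^ p * (nn A B a)⁻¹) * nn A B a := by group
  rw [h2, h1]; simp

/-- `y_{a^s} = y^{1/s}`. -/
lemma yy_pw {s : ZMod p} (hs : s ≠ 0) : yy A B (pw a s) = pw y s⁻¹ := by
  have hk1 : 1 ≤ s.val := Nat.pos_of_ne_zero (by rwa [Ne, ZMod.val_eq_zero])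
  have hne : a ^ s.val ≠ 1 := c.pw_ne_one hs
  have h1 := c.sp.TT_all hk1 a c.ha hne
  have hwm : QQ A B a (a ^ s.val) ∈ A := c.sp.QQ_mem c.ha c.ha1 (c.pw_mem s) hne
  set w := QQ A B a (a ^ s.val) with hw
  have hwp : w ^ p = 1 := c.hA w hwm
  -- `w = a^{1/s}`
  have h2 : w = pw a s⁻¹ := by
    have e1 : pw w (s * s⁻¹) = pw (pw w s) s⁻¹ := pw_mul hwp _ _
    rw [mul_inv_cancel₀ hs, pw_one] at e1
    rw [e1]
    congr 1
  have h3 : nn A B a * pw y s⁻¹ * (nn A B a)⁻¹ = pw a s⁻¹ := by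
    rw [pw_conj, c.n_y]
  have h4 : nn A B a * yy A B (pw a s) * (nn A B a)⁻¹ = nn A B a * pw y s⁻¹ * (nn A B a)⁻¹ := by
    rw [h3, ← h2, hw]
    rfl
  exact mul_left_cancel (mul_right_cancel h4)

lemma NN_def {s : ZMod p} (hs : s ≠ 0) : NN A B a s = pw a s * pw y s⁻¹ * pw a s := by
  rw [NN, nn, c.yy_pw hs]

lemma NN_def' {s : ZMod p} (hs : s ≠ 0) : NN A B a s = pw y s⁻¹ * pw a s * pw y s⁻¹ := by
  have := c.sp.braid (c.pw_mem s) (c.pw_ne_one hs)
  rw [c.yy_pw hs] at this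
  rw [c.NN_def hs, this]

lemma NN_one : NN A B a (1 : ZMod p) = nn A B a := by rw [NN, pw_one]

lemma conj_a_s {s : ZMod p} (hs : s ≠ 0) :
    NN A B a s * pw a s * (NN A B a s)⁻¹ = pw y s⁻¹ := by
  have := c.sp.nn_conj_left (c.pw_mem s) (c.pw_ne_one hs)
  rwa [c.yy_pw hs] at this

lemma conj_y_s {s : ZMod p} (hs : s ≠ 0) :
    NN A B a s * pw y s⁻¹ * (NN A B a s)⁻¹ = pw a s := by
  have := c.sp.nn_conj_right (c.pw_mem s) (c.pw_ne_one hs)
  rwa [c.yy_pw hs] at this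

/-- `n_s a^r n_s⁻¹ = y^{r/s²}`. -/
lemma conj_a {s : ZMod p} (hs : s ≠ 0) (r : ZMod p) :
    NN A B a s * pw a r * (NN A B a s)⁻¹ = pw y (s⁻¹ * (s⁻¹ * r)) := by
  have e : pw a r = pw (pw a s) (s⁻¹ * r) := by
    rw [← pw_mul c.hap, mul_inv_cancel_left₀ hs]
  rw [e, pw_conj, c.conj_a_s hs, ← pw_mul c.hyp]

/-- `n_s y^r n_s⁻¹ = a^{r s²}`. -/
lemma conj_y {s : ZMod p} (hs : s ≠ 0) (r : ZMod p) :
    NN A B a s * pw y r * (NN A B a s)⁻¹ = pw a (s * (s * r)) := by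
  have e : pw y r = pw (pw y s⁻¹) (s * r) := by
    rw [← pw_mul c.hyp, inv_mul_cancel_left₀ hs]
  rw [e, pw_conj, c.conj_y_s hs, ← pw_mul c.hap]

/-- `n_s⁻¹ y^r n_s = a^{r/…}`: the inverse formulas. -/
lemma conj_inv_y {s : ZMod p} (hs : s ≠ 0) (r : ZMod p) :
    (NN A B a s)⁻¹ * pw y r * NN A B a s = pw a (s * (s * r)) := by
  have h1 := c.conj_a hs (s * (s * r))
  have e : s⁻¹ * (s⁻¹ * (s * (s * r))) = r := by field_simp
  rw [e] at h1
  rw [← h1]; group

lemma conj_inv_a {s : ZMod p} (hs : s ≠ 0) (r : ZMod p) :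
    (NN A B a s)⁻¹ * pw a r * NN A B a s = pw y (s⁻¹ * (s⁻¹ * r)) := by
  have h1 := c.conj_y hs (s⁻¹ * (s⁻¹ * r))
  have e : s * (s * (s⁻¹ * (s⁻¹ * r))) = r := by field_simp
  rw [e] at h1
  rw [← h1]; group

/-- `n_c n_u n_c⁻¹ = n_{c²/u}`. -/
lemma NN_conj {e u : ZMod p} (he : e ≠ 0) (hu : u ≠ 0) :
    NN A B a e * NN A B a u * (NN A B a e)⁻¹ = NN A B a (e * (e * u⁻¹)) := by
  have hu' : e * (e * u⁻¹) ≠ 0 := mul_ne_zero he (mul_ne_zero he (inv_ne_zero hu))
  rw [c.NN_def' hu', c.NN_def hu]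
  have e1 : NN A B a e * (pw a u * pw y u⁻¹ * pw a u) * (NN A B a e)⁻¹ =
      (NN A B a e * pw a u * (NN A B a e)⁻¹) * (NN A B a e * pw y u⁻¹ * (NN A B a e)⁻¹) *
        (NN A B a e * pw a u * (NN A B a e)⁻¹) := by group
  rw [e1, c.conj_a he, c.conj_y he]
  have e2 : (e * (e * u⁻¹))⁻¹ = e⁻¹ * (e⁻¹ * u) := by field_simp
  rw [e2]

lemma NN_neg {s : ZMod p} (hs : s ≠ 0) : NN A B a (-s) = (NN A B a s)⁻¹ := by
  rw [NN, pw_neg c.hap, c.sp.nn_inv (c.pw_mem s) (c.pw_ne_one hs)]; rfl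

/-- The element `y^{1/r}` in terms of `n_r`. -/
lemma y_eq {r : ZMod p} (hr : r ≠ 0) : pw y r⁻¹ = pw a (-r) * NN A B a r * pw a (-r) := by
  rw [c.NN_def hr, pw_neg c.hap]; group

/-- The Steinberg identity. -/
theorem steinberg {u w : ZMod p} (hu : u ≠ 0) (hw : w ≠ 0) (huw : u + w ≠ 0) :
    (NN A B a (u + w))⁻¹ * NN A B a w = (NN A B a u)⁻¹ * NN A B a (u * w * (u + w)⁻¹) := by
  set m := u * w * (u + w)⁻¹ with hm
  set d := u * (u * (u + w)⁻¹) with hd
  set f := w * (w * (u + w)⁻¹) with hf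
  have hm0 : m ≠ 0 := mul_ne_zero (mul_ne_zero hu hw) (inv_ne_zero huw)
  have hd0 : d ≠ 0 := mul_ne_zero hu (mul_ne_zero hu (inv_ne_zero huw))
  have hap := c.hap
  -- additivity of `y`
  have h1 : pw y u⁻¹ * pw y w⁻¹ = pw y m⁻¹ := by
    rw [← pw_add c.hyp]
    congr 1
    rw [hm]
    field_simp
    ring
  rw [c.y_eq hu, c.y_eq hw, c.y_eq hm0] at h1
  -- the middle conjugation
  have h2 : NN A B a u * pw a (-(u + w)) = pw a d * NN A B a (-d) * pw a d * NN A B a u := by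
    have e := c.conj_a hu (-(u + w))
    have e' := c.y_eq (r := -d) (neg_ne_zero.2 hd0)
    have e2 : u⁻¹ * (u⁻¹ * -(u + w)) = (-d)⁻¹ := by
      rw [hd]; field_simp
    rw [e2, e', neg_neg] at e
    rw [← e]; group
  -- the torus element moves `a`
  have h3 : pw a d * (NN A B a u * NN A B a w) = NN A B a u * NN A B a w * pw a f := by
    have e1 := c.conj_a hw f
    have e2 := c.conj_y hu (w⁻¹ * (w⁻¹ * f))
    rw [← e1] at e2
    have e3 : u * (u * (w⁻¹ * (w⁻¹ * f))) = d := by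
      rw [hf, hd]; field_simp
    rw [e3] at e2
    rw [← e2]; group
  have h4 : pw a (-u) * pw a d = pw a (-m) := by
    rw [← pw_add hap]
    congr 1
    rw [hd, hm]
    field_simp
    ring
  have h5 : pw a f * pw a (-w) = pw a (-m) := by
    rw [← pw_add hap]
    congr 1
    rw [hf, hm]
    field_simp
    ring
  have h6 : pw a (-u) * pw a (-w) = pw a (-(u + w)) := by
    rw [← pw_add hap]
    congr 1
    ring
  -- assemble
  have h7 : NN A B a (-d) * NN A B a u * NN A B a w = NN A B a m := by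
    have e1 : pw a (-u) * NN A B a u * pw a (-u) * (pw a (-w) * NN A B a w * pw a (-w)) =
        pw a (-u) * (NN A B a u * (pw a (-u) * pw a (-w))) * NN A B a w * pw a (-w) := by group
    rw [e1, h6, h2] at h1
    have e2 : pw a (-u) * (pw a d * NN A B a (-d) * pw a d * NN A B a u) * NN A B a w * pw a (-w) =
        (pw a (-u) * pw a d) * NN A B a (-d) * (pw a d * (NN A B a u * NN A B a w)) * pw a (-w) := by
      group
    rw [e2, h3, h4] at h1
    have e3 : pw a (-m) * NN A B a (-d) * (NN A B a u * NN A B a w * pw a f) * pw a (-w) =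
        pw a (-m) * (NN A B a (-d) * NN A B a u * NN A B a w) * (pw a f * pw a (-w)) := by group
    rw [e3, h5] at h1
    exact mul_left_cancel (mul_right_cancel h1)
  rw [c.NN_neg hd0] at h7
  have h8 := c.NN_conj (e := u) (u := u + w) hu huw
  have hd' : u * (u * (u + w)⁻¹) = d := rfl
  rw [hd'] at h8
  rw [← h8] at h7
  have h9 : NN A B a u * (NN A B a (u + w))⁻¹ * NN A B a w = NN A B a m := by
    rw [← h7]; group
  rw [← h9]; group

end Ctx

/-! ### Elements acting by scalars -/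

variable {a : G}

/-- `g` acts on `a` by the scalar `κ` and on `y` by `κ⁻¹`. -/
def Sc (A B : Subgroup G) (a : G) (g : G) (κ : ZMod p) : Prop :=
  g * a * g⁻¹ = pw a κ ∧ g * yy A B a * g⁻¹ = pw (yy A B a) κ⁻¹

lemma Sc.pa (c : Ctx A B p a) {g : G} {κ : ZMod p} (h : Sc A B a g κ) (r : ZMod p) :
    g * pw a r * g⁻¹ = pw a (κ * r) := by
  rw [pw_conj, h.1, pw_mul c.hap]

lemma Sc.py (c : Ctx A B p a) {g : G} {κ : ZMod p} (h : Sc A B a g κ) (r : ZMod p) :
    g * pw (yy A B a) r * g⁻¹ = pw (yy A B a) (κ⁻¹ * r) := by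
  rw [pw_conj, h.2, pw_mul c.hyp]

lemma Sc.one : Sc A B a (1 : G) (1 : ZMod p) := by
  constructor <;> simp [pw_one]

lemma Sc.mul (c : Ctx A B p a) {g g' : G} {κ κ' : ZMod p} (h : Sc A B a g κ)
    (h' : Sc A B a g' κ') : Sc A B a (g * g') (κ * κ') := by
  constructor
  · have e : g * g' * a * (g * g')⁻¹ = g * (g' * a * g'⁻¹) * g⁻¹ := by group
    rw [e, h'.1, h.pa c]
  · have e : g * g' * yy A B a * (g * g')⁻¹ = g * (g' * yy A B a * g'⁻¹) * g⁻¹ := by group
    rw [e, h'.2, h.py c, mul_inv]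

lemma Sc.inv (c : Ctx A B p a) {g : G} {κ : ZMod p} (hκ : κ ≠ 0) (h : Sc A B a g κ) :
    Sc A B a g⁻¹ κ⁻¹ := by
  constructor
  · have h1 := h.pa c κ⁻¹
    rw [mul_inv_cancel₀ hκ, pw_one] at h1
    have e : g⁻¹ * a * g⁻¹⁻¹ = g⁻¹ * (g * pw a κ⁻¹ * g⁻¹) * g := by rw [h1, inv_inv]
    rw [e]; group
  · have h1 := h.py c κ
    rw [inv_mul_cancel₀ hκ, pw_one] at h1
    have e : g⁻¹ * yy A B a * g⁻¹⁻¹ = g⁻¹ * (g * pw (yy A B a) κ * g⁻¹) * g := by rw [h1, inv_inv]
    rw [e, inv_inv]; group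

lemma Sc.pow (c : Ctx A B p a) {g : G} {κ : ZMod p} (h : Sc A B a g κ) (j : ℕ) :
    Sc A B a (g ^ j) (κ ^ j) := by
  induction j with
  | zero => simpa using (Sc.one : Sc A B a (1 : G) (1 : ZMod p))
  | succ j ih =>
    rw [pow_succ, pow_succ]
    exact ih.mul c h

/-- The subgroup generated by `a, y`. -/
def XX (A B : Subgroup G) (a : G) : Subgroup G := Subgroup.closure {a, yy A B a}

lemma a_mem_XX : a ∈ XX A B a := Subgroup.subset_closure (by simp)

lemma y_mem_XX : yy A B a ∈ XX A B a := Subgroup.subset_closure (by simp)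

lemma pa_mem_XX (r : ZMod p) : pw a r ∈ XX A B a := (XX A B a).pow_mem a_mem_XX _

lemma py_mem_XX (r : ZMod p) : pw (yy A B a) r ∈ XX A B a := (XX A B a).pow_mem y_mem_XX _

namespace Ctx

variable {a : G} (c : Ctx A B p a)
include c

lemma NN_mem_XX {s : ZMod p} (hs : s ≠ 0) : NN A B a s ∈ XX A B a := by
  rw [c.NN_def hs]
  exact (XX A B a).mul_mem ((XX A B a).mul_mem (pa_mem_XX _) (py_mem_XX _)) (pa_mem_XX _)

/-- An element with trivial scalar is central in `⟨a, y⟩`. -/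
lemma comm_of_Sc_one {g : G} (h : Sc A B a g (1 : ZMod p)) {x : G} (hx : x ∈ XX A B a) :
    g * x = x * g := by
  have h1 : g * a = a * g := by
    have := h.1
    rw [pw_one] at this
    exact mul_inv_eq_iff_eq_mul.1 this
  have h2 : g * yy A B a = yy A B a * g := by
    have := h.2
    rw [inv_one, pw_one] at this
    exact mul_inv_eq_iff_eq_mul.1 this
  induction hx using Subgroup.closure_induction with
  | mem x hx =>
    rcases hx with rfl | rfl
    · exact h1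
    · exact h2
  | one => simp
  | mul x z _ _ hx hz => rw [← mul_assoc, hx, mul_assoc, hz, mul_assoc]
  | inv x _ hx =>
    have : x⁻¹ * (g * x) * x⁻¹ = x⁻¹ * (x * g) * x⁻¹ := by rw [hx]
    simpa [mul_assoc] using this.symm

/-- The scalar of `n_x⁻¹ n_z`. -/
lemma Sc_D {x z : ZMod p} (hx : x ≠ 0) (hz : z ≠ 0) :
    Sc A B a ((NN A B a x)⁻¹ * NN A B a z) (x * x * (z * z)⁻¹) := by
  constructor
  · have e : (NN A B a x)⁻¹ * NN A B a z * a * ((NN A B a x)⁻¹ * NN A B a z)⁻¹ =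
        (NN A B a x)⁻¹ * (NN A B a z * pw a (1 : ZMod p) * (NN A B a z)⁻¹) * NN A B a x := by
      rw [pw_one]; group
    rw [e, c.conj_a hz, c.conj_inv_y hx]
    congr 1
    field_simp
  · have e : (NN A B a x)⁻¹ * NN A B a z * yy A B a * ((NN A B a x)⁻¹ * NN A B a z)⁻¹ =
        (NN A B a x)⁻¹ * (NN A B a z * pw (yy A B a) (1 : ZMod p) * (NN A B a z)⁻¹) * NN A B a x := by
      rw [pw_one]; group
    rw [e, c.conj_y hz, c.conj_inv_a hx]
    congr 1
    field_simp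

/-- The scalar of `n_e n_x`. -/
lemma Sc_P {e x : ZMod p} (he : e ≠ 0) (hx : x ≠ 0) :
    Sc A B a (NN A B a e * NN A B a x) (e * e * (x * x)⁻¹) := by
  constructor
  · have e1 : NN A B a e * NN A B a x * a * (NN A B a e * NN A B a x)⁻¹ =
        NN A B a e * (NN A B a x * pw a (1 : ZMod p) * (NN A B a x)⁻¹) * (NN A B a e)⁻¹ := by
      rw [pw_one]; group
    rw [e1, c.conj_a hx, c.conj_y he]
    congr 1
    field_simp
  · have e1 : NN A B a e * NN A B a x * yy A B a * (NN A B a e * NN A B a x)⁻¹ =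
        NN A B a e * (NN A B a x * pw (yy A B a) (1 : ZMod p) * (NN A B a x)⁻¹) * (NN A B a e)⁻¹ := by
      rw [pw_one]; group
    rw [e1, c.conj_y hx, c.conj_a he]
    congr 1
    field_simp

/-- Elements of `⟨a, y⟩` acting by squares commute. -/
theorem comm_squares {g g' : G} {e e' : ZMod p} (he : e ≠ 0) (he' : e' ≠ 0)
    (hg : g ∈ XX A B a) (hg' : g' ∈ XX A B a) (h : Sc A B a g (e * e)) (h' : Sc A B a g' (e' * e')) :
    g * g' = g' * g := by
  classical
  obtain ⟨t₀, ht₀⟩ := IsCyclic.exists_generator (α := (ZMod p)ˣ)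
  have hfin : ∀ x : ZMod p, x ≠ 0 → ∃ j : ℕ, (t₀ : ZMod p) ^ j = x := by
    intro x hx
    obtain ⟨j, hj⟩ := mem_powers_iff_mem_zpowers.2 (ht₀ (Units.mk0 x hx))
    refine ⟨j, ?_⟩
    have := congrArg (Units.val) hj
    simpa using this
  have ht0 : (t₀ : ZMod p) ≠ 0 := t₀.ne_zero
  set τ : ZMod p := ((t₀ : (ZMod p)ˣ) : ZMod p) with hτ
  set h₀ := (NN A B a τ)⁻¹ * NN A B a (1 : ZMod p) with hh₀
  have hh₀m : h₀ ∈ XX A B a :=
    (XX A B a).mul_mem ((XX A B a).inv_mem (c.NN_mem_XX ht0)) (c.NN_mem_XX one_ne_zero)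
  have hh₀s : Sc A B a h₀ (τ * τ) := by
    have := c.Sc_D (x := τ) (z := 1) ht0 one_ne_zero
    simpa using this
  -- normal form
  have key : ∀ {g : G} {e : ZMod p}, e ≠ 0 → g ∈ XX A B a → Sc A B a g (e * e) →
      ∃ (z : G) (j : ℕ), z ∈ XX A B a ∧ (∀ x ∈ XX A B a, z * x = x * z) ∧ g = z * h₀ ^ j := by
    intro g e he hg hs
    obtain ⟨j, hj⟩ := hfin e he
    have h1 : Sc A B a (g * (h₀ ^ j)⁻¹) (1 : ZMod p) := by
      have h2 := (hh₀s.pow c j).inv c (pow_ne_zero _ (mul_ne_zero ht0 ht0))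
      have h3 := hs.mul c h2
      have e3 : e * e * ((τ * τ) ^ j)⁻¹ = 1 := by
        rw [mul_pow, hj]
        exact mul_inv_cancel₀ (mul_ne_zero he he)
      rwa [e3] at h3
    refine ⟨g * (h₀ ^ j)⁻¹, j, (XX A B a).mul_mem hg ((XX A B a).inv_mem ((XX A B a).pow_mem hh₀m j)),
      fun x hx => c.comm_of_Sc_one h1 hx, by group⟩
  obtain ⟨z, j, hz, hzc, rfl⟩ := key he hg h
  obtain ⟨z', j', hz', hzc', rfl⟩ := key he' hg' h'
  have hpj : h₀ ^ j ∈ XX A B a := (XX A B a).pow_mem hh₀m j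
  have hpj' : h₀ ^ j' ∈ XX A B a := (XX A B a).pow_mem hh₀m j'
  calc z * h₀ ^ j * (z' * h₀ ^ j') = z * (h₀ ^ j * z') * h₀ ^ j' := by group
    _ = z * (z' * h₀ ^ j) * h₀ ^ j' := by rw [hzc' _ hpj]
    _ = (z * z') * (h₀ ^ j * h₀ ^ j') := by group
    _ = (z' * z) * (h₀ ^ j' * h₀ ^ j) := by
        rw [hzc _ hz', ← pow_add, ← pow_add, add_comm]
    _ = z' * (z * h₀ ^ j') * h₀ ^ j := by group
    _ = z' * (h₀ ^ j' * z) * h₀ ^ j := by rw [hzc _ hpj']
    _ = _ := by group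

/-- `n_{c²x}⁻¹ n_{c²z} = n_x⁻¹ n_z`. -/
theorem D_square {e x z : ZMod p} (he : e ≠ 0) (hx : x ≠ 0) (hz : z ≠ 0) :
    (NN A B a (e * (e * x)))⁻¹ * NN A B a (e * (e * z)) = (NN A B a x)⁻¹ * NN A B a z := by
  have h1 : (1 : ZMod p) ≠ 0 := one_ne_zero
  set g := NN A B a e * NN A B a (1 : ZMod p) with hg
  have hgm : g ∈ XX A B a := (XX A B a).mul_mem (c.NN_mem_XX he) (c.NN_mem_XX h1)
  have hgs : Sc A B a g (e * e) := by
    have := c.Sc_P (e := e) (x := 1) he h1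
    simpa using this
  have hDm : (NN A B a x)⁻¹ * NN A B a z ∈ XX A B a :=
    (XX A B a).mul_mem ((XX A B a).inv_mem (c.NN_mem_XX hx)) (c.NN_mem_XX hz)
  have hDs : Sc A B a ((NN A B a x)⁻¹ * NN A B a z) ((x * z⁻¹) * (x * z⁻¹)) := by
    have := c.Sc_D hx hz
    convert this using 1
    field_simp
  have hcomm := c.comm_squares he (mul_ne_zero hx (inv_ne_zero hz)) hgm hDm hgs hDs
  have econj : ∀ {u : ZMod p}, u ≠ 0 → g * NN A B a u * g⁻¹ = NN A B a (e * (e * u)) := by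
    intro u hu
    have e1 : g * NN A B a u * g⁻¹ =
        NN A B a e * (NN A B a (1 : ZMod p) * NN A B a u * (NN A B a (1 : ZMod p))⁻¹) * (NN A B a e)⁻¹ := by
      rw [hg]; group
    rw [e1, c.NN_conj h1 hu, one_mul, one_mul, c.NN_conj he (inv_ne_zero hu), inv_inv]
  calc (NN A B a (e * (e * x)))⁻¹ * NN A B a (e * (e * z))
      = (g * NN A B a x * g⁻¹)⁻¹ * (g * NN A B a z * g⁻¹) := by rw [econj hx, econj hz]
    _ = g * ((NN A B a x)⁻¹ * NN A B a z) * g⁻¹ := by group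
    _ = ((NN A B a x)⁻¹ * NN A B a z) * g * g⁻¹ := by rw [hcomm]
    _ = _ := by group

/-- `z_u = n_u²` centralizes `a, y`. -/
lemma sq_Sc {u : ZMod p} (hu : u ≠ 0) : Sc A B a (NN A B a u * NN A B a u) (1 : ZMod p) := by
  have := c.Sc_P (e := u) (x := u) hu hu
  rwa [mul_inv_cancel₀ (mul_ne_zero hu hu)] at this

/-- `z_{c²/u} = z_u`. -/
lemma sq_conj {e u : ZMod p} (he : e ≠ 0) (hu : u ≠ 0) :
    NN A B a (e * (e * u⁻¹)) * NN A B a (e * (e * u⁻¹)) = NN A B a u * NN A B a u := by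
  rw [← c.NN_conj he hu]
  have h1 := c.comm_of_Sc_one (c.sq_Sc hu) (c.NN_mem_XX he)
  calc NN A B a e * NN A B a u * (NN A B a e)⁻¹ * (NN A B a e * NN A B a u * (NN A B a e)⁻¹)
      = NN A B a e * (NN A B a u * NN A B a u) * (NN A B a e)⁻¹ := by group
    _ = (NN A B a u * NN A B a u) * NN A B a e * (NN A B a e)⁻¹ := by rw [← h1]
    _ = _ := by group

/-- From `n_x⁻¹ n_z = n_{-x}⁻¹ n_{-z}` we get `z_x = z_z`. -/
lemma sq_eq_of_D {x z : ZMod p} (hx : x ≠ 0) (hz : z ≠ 0)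
    (h : (NN A B a (-x))⁻¹ * NN A B a (-z) = (NN A B a x)⁻¹ * NN A B a z) :
    NN A B a z * NN A B a z = NN A B a x * NN A B a x := by
  rw [c.NN_neg hx, c.NN_neg hz, inv_inv] at h
  have h1 : NN A B a x * (NN A B a x * (NN A B a z)⁻¹) * NN A B a z =
      NN A B a x * ((NN A B a x)⁻¹ * NN A B a z) * NN A B a z := by rw [h]
  have e1 : NN A B a x * (NN A B a x * (NN A B a z)⁻¹) * NN A B a z = NN A B a x * NN A B a x := by
    group
  have e2 : NN A B a x * ((NN A B a x)⁻¹ * NN A B a z) * NN A B a z = NN A B a z * NN A B a z := by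
    group
  rw [e1, e2] at h1
  exact h1.symm

/-- All `n_t²` coincide. -/
theorem sq_eq {t : ZMod p} (ht : t ≠ 0) : NN A B a t * NN A B a t = NN A B a (1 : ZMod p) * NN A B a (1 : ZMod p) := by
  classical
  have h1 : (1 : ZMod p) ≠ 0 := one_ne_zero
  by_cases hsq : IsSquare t
  · obtain ⟨e, rfl⟩ := hsq
    have he : e ≠ 0 := left_ne_zero_of_mul ht
    have := c.sq_conj he h1
    simpa using this
  by_cases hneg : IsSquare (-1 : ZMod p)
  · obtain ⟨i, hi⟩ := hneg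
    have hi0 : i ≠ 0 := by
      rintro rfl
      simp at hi
    have h2 := c.D_square (x := 1) (z := t) hi0 h1 ht
    have e1 : i * (i * 1) = -1 := by rw [mul_one, ← hi]
    have e2 : i * (i * t) = -t := by rw [← mul_assoc, ← hi]; ring
    rw [e1, e2] at h2
    exact c.sq_eq_of_D h1 ht h2
  -- `-1` is not a square
  have hch : ∀ {x z : ZMod p}, ¬ IsSquare x → ¬ IsSquare z → IsSquare (x * z) := by
    intro x z hx hz
    have hx0 : x ≠ 0 := by
      rintro rfl
      exact hx (IsSquare.zero)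
    have hz0 : z ≠ 0 := by
      rintro rfl
      exact hz (IsSquare.zero)
    have h3 := (quadraticChar_neg_one_iff_not_isSquare).2 hx
    have h4 := (quadraticChar_neg_one_iff_not_isSquare).2 hz
    rw [← quadraticChar_one_iff_isSquare (mul_ne_zero hx0 hz0), map_mul, h3, h4]
    norm_num
  have hmul : ∀ {x z : ZMod p}, IsSquare x → x ≠ 0 → ¬ IsSquare z → ¬ IsSquare (x * z) := by
    intro x z hx hx0 hz h
    obtain ⟨e, rfl⟩ := hx
    obtain ⟨f, hf⟩ := h
    apply hz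
    have he : e ≠ 0 := left_ne_zero_of_mul hx0
    refine ⟨f * e⁻¹, ?_⟩
    field_simp
    linear_combination hf
  -- a square `σ` with `1 + σ` not a square
  obtain ⟨σ, hσ, hσ0, hσ1⟩ : ∃ σ : ZMod p, IsSquare σ ∧ σ ≠ 0 ∧ ¬ IsSquare (1 + σ) := by
    by_contra hno
    push Not at hno
    have hall : ∀ n : ℕ, IsSquare (((n : ℕ) : ZMod p)) := by
      intro n
      induction n with
      | zero => simp
      | succ n ih =>
        push_cast
        by_cases hn : ((n : ℕ) : ZMod p) = 0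
        · rw [hn]; simp
        · rw [add_comm]
          exact hno _ ih hn
    apply hsq
    have := hall t.val
    rwa [ZMod.natCast_zmod_val] at this
  have hσne : 1 + σ ≠ 0 := by
    intro h0
    have : σ = -1 := by linear_combination h0
    rw [this] at hσ
    exact hneg hσ
  set l : ZMod p := -σ with hl
  have hl0 : l ≠ 0 := neg_ne_zero.2 hσ0
  have hln : ¬ IsSquare l := by
    have := hmul hσ hσ0 hneg
    have e : σ * -1 = l := by rw [hl]; ring
    rwa [e] at this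
  set u : ZMod p := 1 + σ with hu
  have hu1 : u + l = 1 := by rw [hu, hl]; ring
  -- the Steinberg identity for `d = 1`
  have hS := c.steinberg hσne hl0 (by rw [hu1]; exact h1)
  rw [hu1, inv_one, mul_one] at hS
  obtain ⟨e, he⟩ := hch hσ1 hneg
  have he0 : e ≠ 0 := by
    rintro rfl
    have : u * -1 = 0 := by rw [he]; ring
    simp at this
    exact hσne this
  have hD := c.D_square (x := -1) (z := -l) he0 (by simp) (neg_ne_zero.2 hl0)
  have e1 : e * (e * -1) = u := by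
    have : e * e = -u := by rw [← he]; ring
    rw [← mul_assoc, this]; ring
  have e2 : e * (e * -l) = u * l := by
    have : e * e = -u := by rw [← he]; ring
    rw [← mul_assoc, this]; ring
  rw [e1, e2] at hD
  have hl1 : NN A B a l * NN A B a l = NN A B a (1 : ZMod p) * NN A B a (1 : ZMod p) := by
    apply c.sq_eq_of_D h1 hl0
    rw [← hD, ← hS]
  -- `t` and `l` are in the same class
  obtain ⟨f, hf⟩ := hch hsq hln
  have hf0 : f ≠ 0 := by
    rintro rfl
    have : t * l = 0 := by rw [hf]; ring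
    exact (mul_ne_zero ht hl0) this
  have h5 := c.sq_conj hf0 hl0
  have e3 : f * (f * l⁻¹) = t := by
    rw [← mul_assoc, ← hf]
    field_simp
  rw [e3] at h5
  rw [h5, hl1]

end Ctx

end Cfsg.Agent.Lib.RootSubgroups.PrimeSL2
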