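/-
`⟨a, b(a)⟩ ≅ (P)SL₂(p)`: the homomorphism from `SL₂(p)` given by the Bruhat relations.
-/
import Mathlib
import Cfsg.Prelude.Def_RootSubgroups
import Cfsg.Agent.Lib.RootSubgroups.PrimeSL2
import Cfsg.Agent.Lib.PresSL2.Target

set_option autoImplicit false
set_option linter.unusedSectionVars false

namespace Cfsg.Agent.Lib.RootSubgroups.PrimeSL2b

open Cfsg Cfsg.Agent.Lib.RootSubgroups.RankOne Cfsg.Agent.Lib.RootSubgroups.SpecialCalc
open Cfsg.Agent.Lib.RootSubgroups.PrimeSL2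
open Cfsg.Agent.Lib.PresSL2.Bruhat Cfsg.Agent.Lib.PresSL2.Target Cfsg.Agent.Lib.GL2.SL2

section Pres

variable {F : Type*} [Field F] {G : Type*} [Group G]

/-- The generator map. -/
def gens (W : F → G) (h w : G) : F ⊕ Bool → G := Sum.elim W (fun b => if b then w else h)

/-- The relators of the Bruhat presentation. -/
def rels (t : F) : Set (FreeGroup (F ⊕ Bool)) :=
  (Set.range fun p : F × F =>
      FreeGroup.of (Sum.inl (p.1 + p.2) : F ⊕ Bool) *
        (FreeGroup.of (Sum.inl p.1) * FreeGroup.of (Sum.inl p.2))⁻¹) ∪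
  (Set.range fun x : F =>
      FreeGroup.of (Sum.inr false : F ⊕ Bool) * FreeGroup.of (Sum.inl x) *
        (FreeGroup.of (Sum.inr false))⁻¹ * (FreeGroup.of (Sum.inl (t ^ 2 * x)))⁻¹) ∪
  {FreeGroup.of (Sum.inr true : F ⊕ Bool) * FreeGroup.of (Sum.inr false) *
      (FreeGroup.of (Sum.inr true))⁻¹ * FreeGroup.of (Sum.inr false)} ∪
  {FreeGroup.of (Sum.inr true : F ⊕ Bool) * FreeGroup.of (Sum.inl 1) *
      (FreeGroup.of (Sum.inr true))⁻¹ *
      (FreeGroup.of (Sum.inl (-1)) * FreeGroup.of (Sum.inr true) * FreeGroup.of (Sum.inl (-1)))⁻¹} ∪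
  {FreeGroup.of (Sum.inr true : F ⊕ Bool) * FreeGroup.of (Sum.inl t) *
      (FreeGroup.of (Sum.inr true))⁻¹ *
      (FreeGroup.of (Sum.inl (-t⁻¹)) * (FreeGroup.of (Sum.inr false))⁻¹ *
        FreeGroup.of (Sum.inr true) * FreeGroup.of (Sum.inl (-t⁻¹)))⁻¹}

lemma lift_eq_one {t : F} {W : F → G} {h w : G} (Wadd : ∀ x y, W (x + y) = W x * W y)
    (Wh : ∀ x, h * W x * h⁻¹ = W (t ^ 2 * x)) (wh : w * h * w⁻¹ = h⁻¹)
    (R0 : w * W 1 * w⁻¹ = W (-1) * w * W (-1))
    (R1 : w * W t * w⁻¹ = W (-t⁻¹) * h⁻¹ * w * W (-t⁻¹)) :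
    ∀ r ∈ rels t, FreeGroup.lift (gens W h w) r = 1 := by
  rintro r ((((⟨p, rfl⟩ | ⟨x, rfl⟩) | hr) | hr) | hr)
  · simp [gens, Wadd]
  · simp [gens, ← Wh]
  · rw [Set.mem_singleton_iff] at hr
    subst hr
    simp [gens, wh]
  · rw [Set.mem_singleton_iff] at hr
    subst hr
    simp only [gens, map_mul, map_inv, FreeGroup.lift_apply_of, Sum.elim_inl, Sum.elim_inr,
      if_true, Bool.false_eq_true, if_false]
    rw [R0]; group
  · rw [Set.mem_singleton_iff] at hr
    subst hr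
    simp only [gens, map_mul, map_inv, FreeGroup.lift_apply_of, Sum.elim_inl, Sum.elim_inr,
      if_true, Bool.false_eq_true, if_false]
    rw [R1]; group

/-- The Bruhat relations give a homomorphism from `SL₂(F)`. -/
theorem exists_hom (t : F) (ht0 : t ≠ 0) (ht : ∀ x : F, x ≠ 0 → ∃ j : ℕ, t ^ j = x) {W : F → G} {h w : G}
    (Wadd : ∀ x y, W (x + y) = W x * W y)
    (Wh : ∀ x, h * W x * h⁻¹ = W (t ^ 2 * x)) (wh : w * h * w⁻¹ = h⁻¹)
    (R0 : w * W 1 * w⁻¹ = W (-1) * w * W (-1))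
    (R1 : w * W t * w⁻¹ = W (-t⁻¹) * h⁻¹ * w * W (-t⁻¹)) :
    ∃ ψ : SL2 F →* G, (∀ x, ψ (uu x) = W x) ∧ ψ (diagS t ht0) = h ∧ ψ wM = w := by
  classical
  -- the homomorphisms out of the presented group
  have hrelS := lift_eq_one (t := t) (W := (uu : F → SL2 F)) (h := diagS t ht0) (w := wM)
    (fun x y => (uu_mul x y).symm) (conj_uu t ht0) (wM_diag t ht0) wM_rel_one (wM_rel t ht0)
  have hrelG := lift_eq_one Wadd Wh wh R0 R1
  set φ := PresentedGroup.toGroup hrelS with hφ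
  set θ := PresentedGroup.toGroup hrelG with hθ
  -- the relations in the presented group
  let X : F → PresentedGroup (rels t) := fun x => PresentedGroup.of (Sum.inl x)
  let H : PresentedGroup (rels t) := PresentedGroup.of (Sum.inr false)
  let V : PresentedGroup (rels t) := PresentedGroup.of (Sum.inr true)
  have mkX : ∀ x, PresentedGroup.mk (rels t) (FreeGroup.of (Sum.inl x)) = X x := fun _ => rfl
  have mkH : PresentedGroup.mk (rels t) (FreeGroup.of (Sum.inr false)) = H := rfl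
  have mkV : PresentedGroup.mk (rels t) (FreeGroup.of (Sum.inr true)) = V := rfl
  have rX : ∀ x y, X (x + y) = X x * X y := by
    intro x y
    have := PresentedGroup.one_of_mem (rels := rels t) (x := _)
      (Or.inl (Or.inl (Or.inl (Or.inl ⟨(x, y), rfl⟩))))
    simp only [map_mul, map_inv, mkX] at this
    exact mul_inv_eq_one.1 this
  have rH : ∀ x, H * X x * H⁻¹ = X (t ^ 2 * x) := by
    intro x
    have := PresentedGroup.one_of_mem (rels := rels t) (x := _)
      (Or.inl (Or.inl (Or.inl (Or.inr ⟨x, rfl⟩))))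
    simp only [map_mul, map_inv, mkX, mkH] at this
    exact mul_inv_eq_one.1 this
  have rw₁ : V * H * V⁻¹ = H⁻¹ := by
    have := PresentedGroup.one_of_mem (rels := rels t) (x := _)
      (Or.inl (Or.inl (Or.inr (Set.mem_singleton _))))
    simp only [map_mul, map_inv, mkH, mkV] at this
    exact eq_inv_of_mul_eq_one_left this
  have rR0 : V * X 1 * V⁻¹ = X (-1) * V * X (-1) := by
    have := PresentedGroup.one_of_mem (rels := rels t) (x := _)
      (Or.inl (Or.inr (Set.mem_singleton _)))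
    simp only [map_mul, map_inv, mkX, mkV] at this
    exact mul_inv_eq_one.1 this
  have rR1 : V * X t * V⁻¹ = X (-t⁻¹) * H⁻¹ * V * X (-t⁻¹) := by
    have := PresentedGroup.one_of_mem (rels := rels t) (x := _)
      (Or.inr (Set.mem_singleton _))
    simp only [map_mul, map_inv, mkX, mkH, mkV] at this
    exact mul_inv_eq_one.1 this
  have hgen : Subgroup.closure (Set.range X ∪ {H, V}) = ⊤ := by
    rw [eq_top_iff, ← PresentedGroup.closure_range_of]
    apply Subgroup.closure_mono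
    rintro _ ⟨x | b, rfl⟩
    · exact Or.inl ⟨x, rfl⟩
    · cases b
      · exact Or.inr (Or.inl rfl)
      · exact Or.inr (Or.inr rfl)
  have hB : BHyp t X H V :=
    { ht0 := ht0, Wadd := rX, Wh := rH, wh := rw₁, ht := ht, R0 := rR0, R1 := rR1, gen := hgen }
  have hφX : ∀ x, φ (X x) = uu x := fun x => by
    rw [hφ, PresentedGroup.toGroup.of]; rfl
  have hφH : φ H = diagS t ht0 := by
    rw [hφ, PresentedGroup.toGroup.of]; rfl
  have hφV : φ V = wM := by
    rw [hφ, PresentedGroup.toGroup.of]; rfl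
  have hbij := bijective_SL hB φ hφX hφH hφV
  let e := MulEquiv.ofBijective φ hbij
  refine ⟨θ.comp e.symm.toMonoidHom, ?_, ?_, ?_⟩
  · intro x
    have : e.symm (uu x) = X x := by
      rw [MulEquiv.symm_apply_eq]; exact (hφX x).symm
    simp only [MonoidHom.comp_apply, MulEquiv.coe_toMonoidHom, this]
    rw [hθ, PresentedGroup.toGroup.of]; rfl
  · have : e.symm (diagS t ht0) = H := by
      rw [MulEquiv.symm_apply_eq]; exact hφH.symm
    simp only [MonoidHom.comp_apply, MulEquiv.coe_toMonoidHom, this]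
    rw [hθ, PresentedGroup.toGroup.of]; rfl
  · have : e.symm wM = V := by
      rw [MulEquiv.symm_apply_eq]; exact hφV.symm
    simp only [MonoidHom.comp_apply, MulEquiv.coe_toMonoidHom, this]
    rw [hθ, PresentedGroup.toGroup.of]; rfl

/-- Normal forms in `SL₂(F)`. -/
lemma nf (t : F) (ht0 : t ≠ 0) (ht : ∀ x : F, x ≠ 0 → ∃ j : ℕ, t ^ j = x) (M : SL2 F) :
    (∃ (r : F) (j : ℕ), M = uu r * diagS t ht0 ^ j) ∨
      (∃ (r : F) (j : ℕ) (r' : F), M = uu r * diagS t ht0 ^ j * wM * uu r') := by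
  by_cases hc : (M : Matrix (Fin 2) (Fin 2) F) 1 0 = 0
  · left
    have hd := det_eq M
    rw [hc, mul_zero, sub_zero] at hd
    have ha : (M : Matrix (Fin 2) (Fin 2) F) 0 0 ≠ 0 := left_ne_zero_of_mul_eq_one hd
    obtain ⟨j, hj⟩ := ht _ ha
    refine ⟨(M : Matrix (Fin 2) (Fin 2) F) 0 1 * (M : Matrix (Fin 2) (Fin 2) F) 0 0, j, ?_⟩
    have hdd : (M : Matrix (Fin 2) (Fin 2) F) 1 1 = ((M : Matrix (Fin 2) (Fin 2) F) 0 0)⁻¹ :=
      eq_inv_of_mul_eq_one_right hd
    rw [diagS_pow]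
    apply ext_sl <;> simp [mul_entries, hj, hc, hdd]
    field_simp
  · right
    set e := (M : Matrix (Fin 2) (Fin 2) F) 1 0 with hedef
    have hs : -e⁻¹ ≠ 0 := neg_ne_zero.2 (inv_ne_zero hc)
    obtain ⟨j, hj⟩ := ht _ hs
    refine ⟨(M : Matrix (Fin 2) (Fin 2) F) 0 0 * e⁻¹, j, (M : Matrix (Fin 2) (Fin 2) F) 1 1 * e⁻¹, ?_⟩
    have hd := det_eq M
    rw [← hedef] at hd
    rw [diagS_pow]
    have hb : (M : Matrix (Fin 2) (Fin 2) F) 0 1 =
        ((M : Matrix (Fin 2) (Fin 2) F) 0 0 * (M : Matrix (Fin 2) (Fin 2) F) 1 1 - 1) * e⁻¹ := by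
      have e' : (M : Matrix (Fin 2) (Fin 2) F) 0 0 * (M : Matrix (Fin 2) (Fin 2) F) 1 1 - 1 =
          (M : Matrix (Fin 2) (Fin 2) F) 0 1 * e := by
        linear_combination hd
      rw [e']
      field_simp
    apply ext_sl <;> simp [mul_entries, hj, ← hedef, hb]
    · field_simp
    · field_simp
      ring
    · field_simp

end Pres

section Main

variable {G : Type*} [Group G] {A B : Subgroup G} {p : ℕ} [Fact p.Prime] {a : G}

/-- The structure of `⟨a, y⟩`. -/
theorem main (c : Ctx A B p a) :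
    Nonempty (↥(XX A B a) ≃* Matrix.SpecialLinearGroup (Fin 2) (ZMod p)) ∨
      Nonempty (↥(XX A B a) ≃* Matrix.ProjectiveSpecialLinearGroup (Fin 2) (ZMod p)) := by
  classical
  obtain ⟨t₀, ht₀⟩ := IsCyclic.exists_generator (α := (ZMod p)ˣ)
  have ht0 : ((t₀ : (ZMod p)ˣ) : ZMod p) ≠ 0 := t₀.ne_zero
  have hfin : ∀ x : ZMod p, x ≠ 0 → ∃ j : ℕ, ((t₀ : (ZMod p)ˣ) : ZMod p) ^ j = x := by
    intro x hx
    obtain ⟨j, hj⟩ := mem_powers_iff_mem_zpowers.2 (ht₀ (Units.mk0 x hx))
    refine ⟨j, ?_⟩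
    have := congrArg (Units.val) hj
    simpa using this
  set τ : ZMod p := ((t₀ : (ZMod p)ˣ) : ZMod p) with hτ
  have h1 : (1 : ZMod p) ≠ 0 := one_ne_zero
  set N : ZMod p → G := NN A B a with hN
  have hz : N τ * N τ = N 1 * N 1 := c.sq_eq ht0
  set h := N τ * (N 1)⁻¹ with hh
  have hmem1 : N 1 ∈ XX A B a := c.NN_mem_XX h1
  have hmemh : h ∈ XX A B a :=
    (XX A B a).mul_mem (c.NN_mem_XX ht0) ((XX A B a).inv_mem hmem1)
  have hSc : Sc A B a h (τ * τ) := by
    have := c.Sc_P (e := τ) (x := -1) ht0 (neg_ne_zero.2 h1)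
    rw [c.NN_neg h1] at this
    simpa using this
  have hinv : (N τ)⁻¹ * N 1 = N τ * (N 1)⁻¹ := by
    have e : (N τ)⁻¹ * N 1 = (N τ)⁻¹ * (N 1 * N 1) * (N 1)⁻¹ := by group
    rw [e, ← hz]; group
  have hWh : ∀ x, h * pw a x * h⁻¹ = pw a (τ ^ 2 * x) := by
    intro x
    rw [hSc.pa c, pow_two]
  have hconj : N 1 * N τ * (N 1)⁻¹ = N τ⁻¹ := by
    have := c.NN_conj (e := 1) (u := τ) h1 ht0
    simpa using this
  have hhw : h⁻¹ * N 1 = N τ⁻¹ := by
    rw [← hconj, hh]
    have e : (N τ * (N 1)⁻¹)⁻¹ * N 1 = N 1 * ((N τ)⁻¹ * N 1) := by group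
    rw [e, hinv]; group
  have hwh : N 1 * h * (N 1)⁻¹ = h⁻¹ := by
    have e : h⁻¹ = N 1 * (N τ)⁻¹ := by rw [hh]; group
    have e2 : N 1 * h * (N 1)⁻¹ = N 1 * (N τ * (N 1)⁻¹) * (N 1)⁻¹ := rfl
    rw [e, e2, ← hinv]; group
  have hR0 : N 1 * pw a (1 : ZMod p) * (N 1)⁻¹ = pw a (-1 : ZMod p) * N 1 * pw a (-1 : ZMod p) := by
    have e1 := c.conj_a (s := 1) h1 1
    have e2 := c.y_eq (r := 1) h1
    simp only [inv_one, mul_one] at e1 e2
    exact e1.trans e2
  have hR1 : N 1 * pw a τ * (N 1)⁻¹ = pw a (-τ⁻¹) * h⁻¹ * N 1 * pw a (-τ⁻¹) := by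
    have e1 := c.conj_a (s := 1) h1 τ
    have e2 := c.y_eq (r := τ⁻¹) (inv_ne_zero ht0)
    simp only [inv_one, one_mul, inv_inv] at e1 e2
    rw [mul_assoc (pw a (-τ⁻¹)) h⁻¹, hhw]
    exact e1.trans e2
  obtain ⟨ψ, hψW, hψh, hψw⟩ := exists_hom τ ht0 hfin (W := pw a) (h := h) (w := N 1)
    (pw_add c.hap) hWh hwh hR0 hR1
  have hψpow : ∀ j : ℕ, ψ (diagS τ ht0 ^ j) = h ^ j := fun j => by rw [map_pow, hψh]
  -- the range
  have hr : ψ.range = XX A B a := by
    apply le_antisymm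
    · rintro _ ⟨M, rfl⟩
      rcases nf τ ht0 hfin M with ⟨r, j, rfl⟩ | ⟨r, j, r', rfl⟩
      · rw [map_mul, hψW, hψpow]
        exact (XX A B a).mul_mem (pa_mem_XX r) ((XX A B a).pow_mem hmemh j)
      · rw [map_mul, map_mul, map_mul, hψW, hψW, hψpow, hψw]
        exact (XX A B a).mul_mem ((XX A B a).mul_mem ((XX A B a).mul_mem (pa_mem_XX r)
          ((XX A B a).pow_mem hmemh j)) hmem1) (pa_mem_XX r')
    · apply (Subgroup.closure_le _).2
      rintro x (rfl | hx)
      · exact ⟨uu 1, by rw [hψW, pw_one]⟩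
      · rw [Set.mem_singleton_iff] at hx
        subst hx
        refine ⟨uu (-1) * wM * uu (-1), ?_⟩
        rw [map_mul, map_mul, hψW, hψw]
        have e2 := c.y_eq (r := 1) h1
        rw [inv_one, pw_one] at e2
        exact e2.symm
  -- the normaliser facts
  have hAw : conjBy A (N 1) = B := by
    have := c.sp.conjBy_nn (c.pw_mem (1 : ZMod p)) (c.pw_ne_one h1)
    exact this
  have hBh : conjBy B h = B := by
    have e1 : conjBy B (N 1)⁻¹ = A := c.sp.conjBy_B_nn_inv (c.pw_mem (1 : ZMod p)) (c.pw_ne_one h1)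
    have e2 : conjBy A (N τ) = B := c.sp.conjBy_nn (c.pw_mem τ) (c.pw_ne_one ht0)
    rw [hh, ← conjBy_conjBy, e1, e2]
  have hBpow : ∀ j : ℕ, conjBy B (h ^ j) = B := by
    intro j
    induction j with
    | zero => simp
    | succ j ih => rw [pow_succ, ← conjBy_conjBy, hBh, ih]
  -- the kernel is central
  have hker : ∀ M : Matrix.SpecialLinearGroup (Fin 2) (ZMod p), ψ M = 1 →
      M ∈ Subgroup.center (Matrix.SpecialLinearGroup (Fin 2) (ZMod p)) := by
    intro M hM
    rcases nf τ ht0 hfin M with ⟨r, j, rfl⟩ | ⟨r, j, r', rfl⟩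
    · rw [map_mul, hψW, hψpow] at hM
      have e1 : h ^ j = (pw a r)⁻¹ := eq_inv_of_mul_eq_one_right hM
      have e2 : conjBy B (pw a r)⁻¹ = conjBy B 1 := by
        rw [← e1, hBpow, conjBy_one]
      have e3 : (pw a r)⁻¹ = 1 :=
        conjBy_right_inj c.sp.rk (A.inv_mem (c.pw_mem r)) A.one_mem e2
      have e4 : pw a r = pw a (0 : ZMod p) := by
        rw [pw_zero]; exact inv_eq_one.1 e3
      have hr0 : r = 0 := c.pw_inj e4
      have e5 : h ^ j = 1 := by rw [e1, e3]
      have e6 := (hSc.pow c j).1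
      rw [e5] at e6
      have e7 : pw a ((1 : ZMod p)) = pw a ((τ * τ) ^ j) := by
        rw [← e6, pw_one]; simp
      have e8 : (τ * τ) ^ j = 1 := (c.pw_inj e7).symm
      rw [hr0, uu_zero, one_mul, diagS_pow]
      rw [Matrix.SpecialLinearGroup.mem_center_iff]
      refine ⟨τ ^ j, ?_, ?_⟩
      · rw [Fintype.card_fin, pow_two, ← mul_pow]; exact e8
      · have e9 : (τ ^ j)⁻¹ = τ ^ j := by
          rw [mul_pow] at e8
          exact inv_eq_of_mul_eq_one_right e8
        ext i k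
        fin_cases i <;> fin_cases k <;> simp [e9]
    · exfalso
      rw [map_mul, map_mul, map_mul, hψW, hψW, hψpow, hψw] at hM
      have e1 : conjBy A (pw a r * h ^ j * N 1 * pw a r') = A := by rw [hM, conjBy_one]
      rw [← conjBy_conjBy, conjBy_of_mem (c.pw_mem r'), ← conjBy_conjBy, hAw, ← conjBy_conjBy,
        hBpow] at e1
      exact conjBy_right_ne_left c.sp.rk (c.pw_mem r) e1
  by_cases hK : ψ.ker = ⊥
  · left
    have inj : Function.Injective ψ := (MonoidHom.ker_eq_bot_iff ψ).1 hK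
    exact ⟨((MonoidHom.ofInjective inj).trans (MulEquiv.subgroupCongr hr)).symm⟩
  · right
    have hKc : ψ.ker = Subgroup.center (Matrix.SpecialLinearGroup (Fin 2) (ZMod p)) := by
      apply le_antisymm
      · intro M hM
        exact hker M hM
      · intro z hzc
        obtain ⟨⟨g, hg⟩, hg1'⟩ := (Subgroup.ne_bot_iff_exists_ne_one).1 hK
        have hg1 : g ≠ 1 := fun e => hg1' (Subtype.ext e)
        have hgc := hker g hg
        obtain ⟨r, hr2, hrg⟩ := Matrix.SpecialLinearGroup.mem_center_iff.1 hgc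
        obtain ⟨r', hr'2, hrz⟩ := Matrix.SpecialLinearGroup.mem_center_iff.1 hzc
        rw [Fintype.card_fin, pow_two] at hr2 hr'2
        have hr1 : r ≠ 1 := by
          rintro rfl
          apply hg1
          ext i k
          have := congrFun (congrFun hrg i) k
          rw [← this]
          simp
        have hrm : r = -1 := (mul_self_eq_one_iff.1 hr2).resolve_left hr1
        rcases mul_self_eq_one_iff.1 hr'2 with rfl | rfl
        · have : z = 1 := by
            ext i k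
            have := congrFun (congrFun hrz i) k
            rw [← this]
            simp
          rw [this]; exact Subgroup.one_mem _
        · have : z = g := by
            ext i k
            have e1 := congrFun (congrFun hrz i) k
            have e2 := congrFun (congrFun hrg i) k
            rw [← e1, ← e2, hrm]
          rw [this]; exact hg
    exact ⟨(((QuotientGroup.quotientMulEquivOfEq hKc).symm.trans
      (QuotientGroup.quotientKerEquivRange ψ)).trans (MulEquiv.subgroupCongr hr)).symm⟩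

end Main

end Cfsg.Agent.Lib.RootSubgroups.PrimeSL2b
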