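/-
Quadratic pairs: elementary facts about the classes E_σ.
-/
import Mathlib
import Cfsg.Prelude.Def_RootSubgroups

set_option autoImplicit false

namespace Cfsg.Agent.Lib.RootSubgroups.Quadratic

open Cfsg

universe u

variable {k : Type*} [Field k] {M : Type*} [AddCommGroup M] [Module k M]

local notation "𝔾" => LinearMap.GeneralLinearGroup k M

/-- `σ - 1` as an endomorphism. -/
abbrev tt (σ : LinearMap.GeneralLinearGroup k M) : M →ₗ[k] M := (σ : M →ₗ[k] M) - 1

lemma val_eq (σ : 𝔾) : (σ : M →ₗ[k] M) = 1 + tt σ := by simp [tt]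

lemma range_le_ker_of_sq {t : M →ₗ[k] M} (h : t * t = 0) : LinearMap.range t ≤ LinearMap.ker t := by
  rintro _ ⟨m, rfl⟩
  have := congrArg (fun f => f m) h
  simpa using this

/-- Build a unit from a square-zero endomorphism. -/
def unitOfSq (t : M →ₗ[k] M) (h : t * t = 0) : 𝔾 where
  val := 1 + t
  inv := 1 - t
  val_inv := by
    have : (1 + t) * (1 - t) = 1 - t * t := by noncomm_ring
    rw [this, h, sub_zero]
  inv_val := by
    have : (1 - t) * (1 + t) = 1 - t * t := by noncomm_ring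
    rw [this, h, sub_zero]

@[simp] lemma unitOfSq_val (t : M →ₗ[k] M) (h : t * t = 0) :
    ((unitOfSq t h : 𝔾) : M →ₗ[k] M) = 1 + t := rfl

lemma tt_unitOfSq (t : M →ₗ[k] M) (h : t * t = 0) : tt (unitOfSq t h) = t := by
  simp [tt]

lemma smul_sq {t : M →ₗ[k] M} (h : t * t = 0) (c : k) : (c • t) * (c • t) = 0 := by
  simp [smul_mul_smul_comm, h]

lemma mem_scalarFamily_self {σ : 𝔾} (hs : tt σ * tt σ = 0) (c : k) :
    unitOfSq (c • tt σ) (smul_sq hs c) ∈ scalarFamily σ :=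
  ⟨c, rfl⟩

section Class

variable {G : Subgroup (LinearMap.GeneralLinearGroup k M)} {σ τ ρ : LinearMap.GeneralLinearGroup k M}

lemma quad_of_mem_min (h : σ ∈ minimalQuadraticElements G) : IsQuadraticOn σ := h.1.2.1

lemma tt_sq_of_min (h : σ ∈ minimalQuadraticElements G) : tt σ * tt σ = 0 := h.1.2.1.1

lemma self_mem_class (h : σ ∈ minimalQuadraticElements G) : σ ∈ sameActionClass G σ :=
  ⟨h, rfl, rfl⟩

/-- The key vanishing: `(τ - 1)(ρ - 1) = 0` for `τ, ρ ∈ E_σ`. -/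
lemma tt_mul_eq_zero (hσ : σ ∈ minimalQuadraticElements G) (hτ : τ ∈ sameActionClass G σ)
    (hρ : ρ ∈ sameActionClass G σ) : tt τ * tt ρ = 0 := by
  ext m
  have h1 : tt ρ m ∈ LinearMap.range (tt ρ) := ⟨m, rfl⟩
  rw [hρ.2.2] at h1
  have h2 := range_le_ker_of_sq (tt_sq_of_min hσ) h1
  rw [← hτ.2.1] at h2
  simpa using h2

lemma tt_mul (τ ρ : 𝔾) (h : tt τ * tt ρ = 0) : tt (τ * ρ) = tt τ + tt ρ := by
  have h1 : ((τ * ρ : 𝔾) : M →ₗ[k] M) = (τ : M →ₗ[k] M) * (ρ : M →ₗ[k] M) := Units.val_mul τ ρ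
  simp only [tt] at h ⊢
  rw [h1]
  have h2 : (τ : M →ₗ[k] M) * (ρ : M →ₗ[k] M) =
      1 + ((τ : M →ₗ[k] M) - 1) + ((ρ : M →ₗ[k] M) - 1) + ((τ : M →ₗ[k] M) - 1) * ((ρ : M →ₗ[k] M) - 1) := by
    noncomm_ring
  rw [h2, h]
  abel

lemma mul_comm_of (hσ : σ ∈ minimalQuadraticElements G) (hτ : τ ∈ sameActionClass G σ)
    (hρ : ρ ∈ sameActionClass G σ) : τ * ρ = ρ * τ := by
  apply Units.ext
  have h1 := tt_mul τ ρ (tt_mul_eq_zero hσ hτ hρ)
  have h2 := tt_mul ρ τ (tt_mul_eq_zero hσ hρ hτ)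
  have e : ∀ x y : 𝔾, tt x = tt y → x = y := by
    intro x y he
    apply Units.ext
    have := congrArg (fun f => f + 1) he
    simpa [tt] using this
  exact congrArg _ (e _ _ (by rw [h1, h2, add_comm]))

lemma mul_mem_class [FiniteDimensional k M] (hσ : σ ∈ minimalQuadraticElements G)
    (hτ : τ ∈ sameActionClass G σ) (hρ : ρ ∈ sameActionClass G σ) (hne : tt (τ * ρ) ≠ 0) :
    τ * ρ ∈ sameActionClass G σ := by
  have hz : tt τ * tt ρ = 0 := tt_mul_eq_zero hσ hτ hρ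
  have hz' : tt ρ * tt τ = 0 := tt_mul_eq_zero hσ hρ hτ
  have hadd : tt (τ * ρ) = tt τ + tt ρ := tt_mul τ ρ hz
  have hτq : tt τ * tt τ = 0 := tt_sq_of_min hτ.1
  have hρq : tt ρ * tt ρ = 0 := tt_sq_of_min hρ.1
  have hsq : tt (τ * ρ) * tt (τ * ρ) = 0 := by
    rw [hadd, mul_add, add_mul, add_mul, hτq, hρq, hz, hz']; simp
  have hG : τ * ρ ∈ G := G.mul_mem hτ.1.1.1 hρ.1.1.1
  have hfam : scalarFamily (τ * ρ) ⊆ (G : Set 𝔾) := by
    rintro υ ⟨c, hc⟩
    have h1 : unitOfSq (c • tt τ) (smul_sq hτq c) ∈ G :=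
      hτ.1.1.2.2 (mem_scalarFamily_self hτq c)
    have h2 : unitOfSq (c • tt ρ) (smul_sq hρq c) ∈ G :=
      hρ.1.1.2.2 (mem_scalarFamily_self hρq c)
    have h3 : υ = unitOfSq (c • tt τ) (smul_sq hτq c) * unitOfSq (c • tt ρ) (smul_sq hρq c) := by
      apply Units.ext
      have hc' : (υ : M →ₗ[k] M) = 1 + c • tt (τ * ρ) := hc
      rw [hc', Units.val_mul, unitOfSq_val, unitOfSq_val, hadd]
      have : (1 + c • tt τ) * (1 + c • tt ρ) = 1 + c • tt τ + c • tt ρ + (c • tt τ) * (c • tt ρ) := by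
        simp only [mul_add, add_mul, mul_one, one_mul]
        abel
      rw [this, smul_mul_smul_comm, hz]
      simp [smul_add, add_assoc]
    rw [h3]
    exact G.mul_mem h1 h2
  have hquad : τ * ρ ∈ quadraticElements G := ⟨hG, ⟨hsq, hne⟩, hfam⟩
  -- ranges
  have hrange_le : LinearMap.range (tt (τ * ρ)) ≤ LinearMap.range (tt σ) := by
    rw [hadd]
    rintro _ ⟨m, rfl⟩
    refine Submodule.add_mem _ ?_ ?_
    · rw [← hτ.2.2]; exact ⟨m, rfl⟩
    · rw [← hρ.2.2]; exact ⟨m, rfl⟩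
  have hmin := hσ.2 _ hquad
  have hrank : commutatorRank (τ * ρ) = commutatorRank σ :=
    le_antisymm (Submodule.finrank_mono hrange_le) hmin
  have hrange : LinearMap.range (tt (τ * ρ)) = LinearMap.range (tt σ) :=
    Submodule.eq_of_le_of_finrank_eq hrange_le hrank
  have hker_le : LinearMap.ker (tt σ) ≤ LinearMap.ker (tt (τ * ρ)) := by
    rw [hadd]
    intro m hm
    have h1 : m ∈ LinearMap.ker (tt τ) := by rw [hτ.2.1]; exact hm
    have h2 : m ∈ LinearMap.ker (tt ρ) := by rw [hρ.2.1]; exact hm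
    simp only [LinearMap.mem_ker, LinearMap.add_apply] at h1 h2 ⊢
    rw [h1, h2, add_zero]
  have hker : LinearMap.ker (tt (τ * ρ)) = LinearMap.ker (tt σ) := by
    symm
    apply Submodule.eq_of_le_of_finrank_eq hker_le
    have h1 := LinearMap.finrank_range_add_finrank_ker (tt (τ * ρ))
    have h2 := LinearMap.finrank_range_add_finrank_ker (tt σ)
    have h3 : Module.finrank k (LinearMap.range (tt (τ * ρ))) = Module.finrank k (LinearMap.range (tt σ)) := hrank
    omega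
  refine ⟨⟨hquad, fun υ hυ => ?_⟩, hker, hrange⟩
  have : commutatorRank (τ * ρ) = commutatorRank σ := hrank
  rw [this]
  exact hσ.2 υ hυ

lemma tt_inv (τ : 𝔾) (h : tt τ * tt τ = 0) : tt τ⁻¹ = - tt τ := by
  have h1 : τ⁻¹ = unitOfSq (- tt τ) (by rw [neg_mul_neg, h]) := by
    rw [inv_eq_iff_mul_eq_one]
    apply Units.ext
    rw [Units.val_mul, unitOfSq_val, val_eq τ]
    have : (1 + tt τ) * (1 + -tt τ) = 1 - tt τ * tt τ := by noncomm_ring
    rw [this, h, sub_zero]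
    rfl
  rw [h1, tt_unitOfSq]

lemma inv_mem_class (hτ : τ ∈ sameActionClass G σ) : τ⁻¹ ∈ sameActionClass G σ := by
  have hτq : tt τ * tt τ = 0 := tt_sq_of_min hτ.1
  have hinv : tt τ⁻¹ = - tt τ := tt_inv τ hτq
  have hrange : LinearMap.range (tt τ⁻¹) = LinearMap.range (tt τ) := by
    rw [hinv, LinearMap.range_neg]
  have hker : LinearMap.ker (tt τ⁻¹) = LinearMap.ker (tt τ) := by
    rw [hinv, LinearMap.ker_neg]
  have hsq : tt τ⁻¹ * tt τ⁻¹ = 0 := by
    rw [hinv, neg_mul_neg, hτq]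
  have hne : tt τ⁻¹ ≠ 0 := by
    rw [hinv, neg_ne_zero]
    exact hτ.1.1.2.1.2
  have hfam : scalarFamily τ⁻¹ ⊆ (G : Set 𝔾) := by
    rintro υ ⟨c, hc⟩
    apply hτ.1.1.2.2
    refine ⟨-c, ?_⟩
    have hc' : (υ : M →ₗ[k] M) = 1 + c • tt τ⁻¹ := hc
    rw [hc', hinv, smul_neg, neg_smul]
  have hquad : τ⁻¹ ∈ quadraticElements G := ⟨G.inv_mem hτ.1.1.1, ⟨hsq, hne⟩, hfam⟩
  have hrank : commutatorRank τ⁻¹ = commutatorRank τ := by
    unfold commutatorRank
    have hrange' : LinearMap.range ((τ⁻¹ : LinearMap.GeneralLinearGroup k M) - 1 : M →ₗ[k] M) = LinearMap.range ((τ : M →ₗ[k] M) - 1) := hrange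
    rw [hrange']
  refine ⟨⟨hquad, fun υ hυ => ?_⟩, ?_, ?_⟩
  · rw [hrank]; exact hτ.1.2 υ hυ
  · rw [hker, hτ.2.1]
  · rw [hrange, hτ.2.2]

/-- `E(σ)` as a subgroup with carrier `E_σ ∪ {1}`. -/
def classSubgroup [FiniteDimensional k M] (hσ : σ ∈ minimalQuadraticElements G) : Subgroup 𝔾 where
  carrier := sameActionClass G σ ∪ {1}
  one_mem' := Or.inr rfl
  mul_mem' := by
    rintro a b (ha | ha) (hb | hb)
    · by_cases hne : tt (a * b) = 0
      · right
        apply Units.ext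
        have : ((a * b : 𝔾) : M →ₗ[k] M) = 1 := by
          have h2 : ((a * b : 𝔾) : M →ₗ[k] M) - 1 = 0 := hne
          exact sub_eq_zero.1 h2
        simpa using this
      · left
        exact mul_mem_class hσ ha hb hne
    · left
      rw [Set.mem_singleton_iff] at hb
      rw [hb, mul_one]; exact ha
    · left
      rw [Set.mem_singleton_iff] at ha
      rw [ha, one_mul]; exact hb
    · right
      rw [Set.mem_singleton_iff] at ha hb ⊢
      rw [ha, hb, one_mul]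
  inv_mem' := by
    rintro a (ha | ha)
    · left; exact inv_mem_class ha
    · right
      rw [Set.mem_singleton_iff] at ha ⊢
      rw [ha, inv_one]

theorem sameActionSubgroup_coe [FiniteDimensional k M] (hσ : σ ∈ minimalQuadraticElements G) :
    (sameActionSubgroup G σ : Set 𝔾) = sameActionClass G σ ∪ {1} := by
  apply Set.Subset.antisymm
  · have : sameActionSubgroup G σ ≤ classSubgroup hσ := by
      rw [sameActionSubgroup, Subgroup.closure_le]
      intro x hx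
      exact Or.inl hx
    exact this
  · rintro x (hx | hx)
    · exact Subgroup.subset_closure hx
    · rw [Set.mem_singleton_iff] at hx
      rw [hx]
      exact Subgroup.one_mem _

end Class

end Cfsg.Agent.Lib.RootSubgroups.Quadratic
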