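/-
Quadratic pairs: the square-zero endomorphisms `x` with `1 + c x ∈ G`, conjugation, ranks, the translation
from the group elements of the definitions, filtrations, and the unipotence claim.
-/
import Mathlib
import Cfsg.Prelude.Def_RootSubgroups
import Cfsg.Agent.Lib.RootSubgroups.Quadratic

set_option autoImplicit false
set_option linter.unusedSimpArgs false
set_option linter.unusedVariables false

namespace Cfsg.Agent.Lib.RootSubgroups.QuadBasic

open Cfsg
open Cfsg.Agent.Lib.RootSubgroups.Quadratic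

variable {k : Type*} [Field k] {M : Type*} [AddCommGroup M] [Module k M]

/-- `1 + y` is realized in `G`. -/
def G1 (G : Subgroup (LinearMap.GeneralLinearGroup k M)) (y : M →ₗ[k] M) : Prop :=
  ∃ τ ∈ G, (τ : M →ₗ[k] M) = 1 + y

/-- The rank of an endomorphism. -/
noncomputable def rk (x : M →ₗ[k] M) : ℕ := Module.finrank k (LinearMap.range x)

/-- The endomorphisms `σ - 1` of elements of `𝒬(G)`. -/
structure IsQ (G : Subgroup (LinearMap.GeneralLinearGroup k M)) (x : M →ₗ[k] M) : Prop where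
  sq : x * x = 0
  ne : x ≠ 0
  fam : ∀ c : k, G1 G (c • x)

/-- The endomorphisms `σ - 1` of elements of `𝒬_d(G)`. -/
structure IsQD (G : Subgroup (LinearMap.GeneralLinearGroup k M)) (x : M →ₗ[k] M) : Prop where
  q : IsQ G x
  min : ∀ y, IsQ G y → rk x ≤ rk y

variable {G : Subgroup (LinearMap.GeneralLinearGroup k M)}

lemma G1.zero (G : Subgroup (LinearMap.GeneralLinearGroup k M)) : G1 G (0 : M →ₗ[k] M) :=
  ⟨1, G.one_mem, by simp⟩

lemma G1.mul {a b : M →ₗ[k] M} (ha : G1 G a) (hb : G1 G b) : G1 G (a + b + a * b) := by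
  obtain ⟨τ, hτ, e⟩ := ha
  obtain ⟨ρ, hρ, f⟩ := hb
  refine ⟨τ * ρ, G.mul_mem hτ hρ, ?_⟩
  rw [Units.val_mul, e, f]
  noncomm_ring

lemma val_inv_of_sq {τ : LinearMap.GeneralLinearGroup k M} {a : M →ₗ[k] M}
    (e : (τ : M →ₗ[k] M) = 1 + a) (hsq : a * a = 0) :
    ((τ⁻¹ : LinearMap.GeneralLinearGroup k M) : M →ₗ[k] M) = 1 - a := by
  have h1 : (τ : M →ₗ[k] M) * (1 - a) = 1 := by
    rw [e]
    have : (1 + a) * (1 - a) = 1 - a * a := by noncomm_ring
    rw [this, hsq, sub_zero]
  have h2 := Units.inv_mul_of_eq (u := τ) (a := (τ : M →ₗ[k] M)) rfl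
  calc ((τ⁻¹ : LinearMap.GeneralLinearGroup k M) : M →ₗ[k] M)
      = ((τ⁻¹ : LinearMap.GeneralLinearGroup k M) : M →ₗ[k] M) * ((τ : M →ₗ[k] M) * (1 - a)) := by
        rw [h1, mul_one]
    _ = 1 - a := by
        rw [← mul_assoc]
        have : ((τ⁻¹ : LinearMap.GeneralLinearGroup k M) : M →ₗ[k] M) * (τ : M →ₗ[k] M) = 1 := by
          rw [← Units.val_mul, inv_mul_cancel]; rfl
        rw [this, one_mul]

lemma G1.neg {a : M →ₗ[k] M} (ha : G1 G a) (hsq : a * a = 0) : G1 G (-a) := by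
  obtain ⟨τ, hτ, e⟩ := ha
  refine ⟨τ⁻¹, G.inv_mem hτ, ?_⟩
  rw [val_inv_of_sq e hsq, sub_eq_add_neg]

/-- Conjugate of an endomorphism by a group element. -/
def cj (τ : LinearMap.GeneralLinearGroup k M) (x : M →ₗ[k] M) : M →ₗ[k] M :=
  (τ : M →ₗ[k] M) * x * ((τ⁻¹ : LinearMap.GeneralLinearGroup k M) : M →ₗ[k] M)

lemma val_mul_inv (τ : LinearMap.GeneralLinearGroup k M) :
    (τ : M →ₗ[k] M) * ((τ⁻¹ : LinearMap.GeneralLinearGroup k M) : M →ₗ[k] M) = 1 := by
  rw [← Units.val_mul, mul_inv_cancel]; rfl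

lemma val_inv_mul (τ : LinearMap.GeneralLinearGroup k M) :
    ((τ⁻¹ : LinearMap.GeneralLinearGroup k M) : M →ₗ[k] M) * (τ : M →ₗ[k] M) = 1 := by
  rw [← Units.val_mul, inv_mul_cancel]; rfl

lemma cj_mul (τ : LinearMap.GeneralLinearGroup k M) (a b : M →ₗ[k] M) :
    cj τ (a * b) = cj τ a * cj τ b := by
  unfold cj
  calc (τ : M →ₗ[k] M) * (a * b) * ((τ⁻¹ : LinearMap.GeneralLinearGroup k M) : M →ₗ[k] M)
      = (τ : M →ₗ[k] M) * a * 1 * b * ((τ⁻¹ : LinearMap.GeneralLinearGroup k M) : M →ₗ[k] M) := by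
        simp [mul_assoc]
    _ = _ := by
        rw [← val_inv_mul τ]; simp only [mul_assoc]

lemma cj_add (τ : LinearMap.GeneralLinearGroup k M) (a b : M →ₗ[k] M) :
    cj τ (a + b) = cj τ a + cj τ b := by
  unfold cj; rw [mul_add, add_mul]

lemma cj_smul (τ : LinearMap.GeneralLinearGroup k M) (c : k) (a : M →ₗ[k] M) :
    cj τ (c • a) = c • cj τ a := by
  unfold cj; rw [mul_smul_comm, smul_mul_assoc]

lemma cj_neg (τ : LinearMap.GeneralLinearGroup k M) (a : M →ₗ[k] M) :
    cj τ (-a) = - cj τ a := by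
  unfold cj; rw [mul_neg, neg_mul]

lemma cj_zero (τ : LinearMap.GeneralLinearGroup k M) : cj τ (0 : M →ₗ[k] M) = 0 := by
  unfold cj; simp

lemma cj_one (τ : LinearMap.GeneralLinearGroup k M) : cj τ (1 : M →ₗ[k] M) = 1 := by
  unfold cj; rw [mul_one, val_mul_inv]

lemma cj_eq_zero {τ : LinearMap.GeneralLinearGroup k M} {a : M →ₗ[k] M} (h : cj τ a = 0) : a = 0 := by
  have : ((τ⁻¹ : LinearMap.GeneralLinearGroup k M) : M →ₗ[k] M) * cj τ a * (τ : M →ₗ[k] M) = a := by
    unfold cj
    calc _ = (((τ⁻¹ : LinearMap.GeneralLinearGroup k M) : M →ₗ[k] M) * (τ : M →ₗ[k] M)) * a *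
          (((τ⁻¹ : LinearMap.GeneralLinearGroup k M) : M →ₗ[k] M) * (τ : M →ₗ[k] M)) := by
            simp only [mul_assoc]
      _ = a := by rw [val_inv_mul, one_mul, mul_one]
  rw [← this, h]; simp

lemma G1.conj {a : M →ₗ[k] M} (ha : G1 G a) {τ : LinearMap.GeneralLinearGroup k M} (hτ : τ ∈ G) :
    G1 G (cj τ a) := by
  obtain ⟨ρ, hρ, e⟩ := ha
  refine ⟨τ * ρ * τ⁻¹, G.mul_mem (G.mul_mem hτ hρ) (G.inv_mem hτ), ?_⟩
  rw [Units.val_mul, Units.val_mul, e, mul_add, add_mul, mul_one, val_mul_inv]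
  rfl

lemma rk_mul_left (τ : LinearMap.GeneralLinearGroup k M) (a : M →ₗ[k] M) :
    rk ((τ : M →ₗ[k] M) * a) = rk a := by
  unfold rk
  have : LinearMap.range ((τ : M →ₗ[k] M) * a) =
      (LinearMap.range a).map (LinearMap.GeneralLinearGroup.toLinearEquiv τ : M →ₗ[k] M) := by
    rw [Module.End.mul_eq_comp, LinearMap.range_comp]; rfl
  rw [this]
  exact LinearEquiv.finrank_map_eq _ _

lemma rk_mul_right (τ : LinearMap.GeneralLinearGroup k M) (a : M →ₗ[k] M) :
    rk (a * (τ : M →ₗ[k] M)) = rk a := by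
  unfold rk
  have : LinearMap.range (a * (τ : M →ₗ[k] M)) = LinearMap.range a := by
    rw [Module.End.mul_eq_comp, LinearMap.range_comp]
    have : LinearMap.range (τ : M →ₗ[k] M) = ⊤ :=
      LinearEquiv.range (LinearMap.GeneralLinearGroup.toLinearEquiv τ)
    rw [this, Submodule.map_top]
  rw [this]

lemma rk_cj (τ : LinearMap.GeneralLinearGroup k M) (a : M →ₗ[k] M) : rk (cj τ a) = rk a := by
  unfold cj
  rw [rk_mul_right τ⁻¹, rk_mul_left]

lemma IsQ.conj {x : M →ₗ[k] M} (hx : IsQ G x) {τ : LinearMap.GeneralLinearGroup k M} (hτ : τ ∈ G) :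
    IsQ G (cj τ x) where
  sq := by rw [← cj_mul, hx.sq, cj_zero]
  ne := fun h => hx.ne (cj_eq_zero h)
  fam c := by rw [← cj_smul]; exact (hx.fam c).conj hτ

lemma IsQD.conj {x : M →ₗ[k] M} (hx : IsQD G x) {τ : LinearMap.GeneralLinearGroup k M} (hτ : τ ∈ G) :
    IsQD G (cj τ x) where
  q := hx.q.conj hτ
  min y hy := by rw [rk_cj]; exact hx.min y hy

lemma IsQ.smul {x : M →ₗ[k] M} (hx : IsQ G x) {c : k} (hc : c ≠ 0) : IsQ G (c • x) where
  sq := smul_sq hx.sq c
  ne := smul_ne_zero hc hx.ne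
  fam d := by rw [smul_smul]; exact hx.fam _

lemma rk_smul {c : k} (hc : c ≠ 0) (x : M →ₗ[k] M) : rk (c • x) = rk x := by
  unfold rk
  rw [LinearMap.range_smul _ _ hc]

lemma IsQD.smul {x : M →ₗ[k] M} (hx : IsQD G x) {c : k} (hc : c ≠ 0) : IsQD G (c • x) where
  q := hx.q.smul hc
  min y hy := by rw [rk_smul hc]; exact hx.min y hy

/-- Conjugating a square-zero element realized in `G`. -/
lemma exists_tau {t : M →ₗ[k] M} (ht : G1 G t) : ∃ τ ∈ G, (τ : M →ₗ[k] M) = 1 + t := ht

lemma cj_of_sq {τ : LinearMap.GeneralLinearGroup k M} {t : M →ₗ[k] M}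
    (e : (τ : M →ₗ[k] M) = 1 + t) (hsq : t * t = 0) (x : M →ₗ[k] M) :
    cj τ x = (1 + t) * x * (1 - t) := by
  unfold cj
  rw [e, val_inv_of_sq e hsq]

lemma IsQ.conj_sq {x t : M →ₗ[k] M} (hx : IsQ G x) (ht : G1 G t) (hsq : t * t = 0) :
    IsQ G ((1 + t) * x * (1 - t)) := by
  obtain ⟨τ, hτ, e⟩ := ht
  rw [← cj_of_sq e hsq]
  exact hx.conj hτ

lemma IsQD.conj_sq {x t : M →ₗ[k] M} (hx : IsQD G x) (ht : G1 G t) (hsq : t * t = 0) :
    IsQD G ((1 + t) * x * (1 - t)) := by
  obtain ⟨τ, hτ, e⟩ := ht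
  rw [← cj_of_sq e hsq]
  exact hx.conj hτ

/-! ### Translation from the group elements -/

lemma G1_of_scalarFamily {σ τ : LinearMap.GeneralLinearGroup k M} (hσ : σ ∈ quadraticElements G) (c : k) :
    G1 G (c • tt σ) := by
  have hs : tt σ * tt σ = 0 := hσ.2.1.1
  exact ⟨unitOfSq (c • tt σ) (smul_sq hs c), hσ.2.2 (mem_scalarFamily_self hs c), rfl⟩

lemma isQ_of_mem {σ : LinearMap.GeneralLinearGroup k M} (hσ : σ ∈ quadraticElements G) : IsQ G (tt σ) where
  sq := hσ.2.1.1
  ne := hσ.2.1.2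
  fam c := G1_of_scalarFamily (τ := σ) hσ c

/-- The unit of an element of `𝒬`. -/
noncomputable def uOf (x : M →ₗ[k] M) (h : x * x = 0) : LinearMap.GeneralLinearGroup k M := unitOfSq x h

lemma mem_quadraticElements_of_isQ {x : M →ₗ[k] M} (hx : IsQ G x) :
    unitOfSq x hx.sq ∈ quadraticElements G := by
  have hone : (1:k) • x = x := one_smul _ _
  obtain ⟨τ, hτ, e⟩ := hx.fam 1
  rw [hone] at e
  have hmem : unitOfSq x hx.sq ∈ G := by
    have : unitOfSq x hx.sq = τ := Units.ext (by rw [e]; rfl)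
    rw [this]; exact hτ
  refine ⟨hmem, ⟨?_, ?_⟩, ?_⟩
  · show tt (unitOfSq x hx.sq) * tt (unitOfSq x hx.sq) = 0
    rw [tt_unitOfSq]; exact hx.sq
  · show tt (unitOfSq x hx.sq) ≠ 0
    rw [tt_unitOfSq]; exact hx.ne
  · rintro υ ⟨c, hc⟩
    obtain ⟨ρ, hρ, f⟩ := hx.fam c
    have h2 : υ = ρ := by
      apply Units.ext
      rw [f, hc]
      have : ((unitOfSq x hx.sq : LinearMap.GeneralLinearGroup k M) : M →ₗ[k] M) - 1 = x :=
        tt_unitOfSq x hx.sq
      rw [this]
    rw [h2]; exact hρ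

lemma rk_tt (σ : LinearMap.GeneralLinearGroup k M) : rk (tt σ) = commutatorRank σ := rfl

lemma isQD_of_mem {σ : LinearMap.GeneralLinearGroup k M} (hσ : σ ∈ minimalQuadraticElements G) :
    IsQD G (tt σ) where
  q := isQ_of_mem hσ.1
  min y hy := by
    have := hσ.2 _ (mem_quadraticElements_of_isQ hy)
    rw [rk_tt]
    refine this.trans ?_
    unfold commutatorRank
    show rk (tt (unitOfSq y hy.sq)) ≤ _
    rw [tt_unitOfSq]

lemma mem_minimal_of_isQD {x : M →ₗ[k] M} (hx : IsQD G x) :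
    unitOfSq x hx.q.sq ∈ minimalQuadraticElements G := by
  refine ⟨mem_quadraticElements_of_isQ hx.q, fun τ hτ => ?_⟩
  show rk (tt (unitOfSq x hx.q.sq)) ≤ rk (tt τ)
  rw [tt_unitOfSq]
  exact hx.min _ (isQ_of_mem hτ)

/-! ### Word identities -/

section Words

variable {R : Type*} [Ring R]

/-- The commutator formula for a pair with `aba = bab = 0`. -/
lemma comm_formula {a b : R} (ha : a * a = 0) (hb : b * b = 0) (h1 : a * b * a = 0) (h2 : b * a * b = 0) :
    (1 + a) * (1 + b) * (1 - a) * (1 - b) = 1 + (a * b - b * a) := by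
  have ha' : ∀ c, a * (a * c) = 0 := fun c => by rw [← mul_assoc, ha, zero_mul]
  have hb' : ∀ c, b * (b * c) = 0 := fun c => by rw [← mul_assoc, hb, zero_mul]
  have h1' : a * (b * a) = 0 := by rw [← mul_assoc, h1]
  have h2' : b * (a * b) = 0 := by rw [← mul_assoc, h2]
  simp only [mul_add, add_mul, mul_sub, sub_mul, mul_one, one_mul, mul_assoc, ha, hb, ha', hb', h1', h2',
    mul_zero, zero_mul]
  abel

end Words

lemma G1.comm {a b : M →ₗ[k] M} (ha : G1 G a) (hb : G1 G b) (ha2 : a * a = 0) (hb2 : b * b = 0)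
    (h1 : a * b * a = 0) (h2 : b * a * b = 0) : G1 G (a * b - b * a) := by
  obtain ⟨τ, hτ, e⟩ := ha
  obtain ⟨ρ, hρ, f⟩ := hb
  refine ⟨τ * ρ * τ⁻¹ * ρ⁻¹, G.mul_mem (G.mul_mem (G.mul_mem hτ hρ) (G.inv_mem hτ)) (G.inv_mem hρ), ?_⟩
  simp only [Units.val_mul]
  rw [e, f, val_inv_of_sq e ha2, val_inv_of_sq f hb2]
  exact comm_formula ha2 hb2 h1 h2


/-! ### The unipotence claim -/

section Claim

variable {R : Type*} [Ring R]

/-- Normalization helper: all words are right-associated. -/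
lemma x_x {x : R} (hx : x * x = 0) (c : R) : x * (x * c) = 0 := by rw [← mul_assoc, hx, zero_mul]

lemma z_mul_x {x u : R} (hx : x * x = 0) : (x * u + u * x) * x = x * u * x := by
  rw [add_mul, mul_assoc u, hx, mul_zero, add_zero]

lemma x_mul_z {x u : R} (hx : x * x = 0) : x * (x * u + u * x) = x * u * x := by
  rw [mul_add, x_x hx, zero_add, mul_assoc]

lemma z_comm_x {x u : R} (hx : x * x = 0) : Commute (x * u + u * x) x := by
  show _ * x = x * _
  rw [z_mul_x hx, x_mul_z hx]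

lemma z_comm_u {x u : R} (hu : u * u = 0) : Commute (x * u + u * x) u := by
  have := z_comm_x (x := u) (u := x) hu
  rwa [add_comm] at this

lemma x1_expand {x u : R} (hu : u * u = 0) :
    (1 + u) * x * (1 - u) = x + u * x - x * u - u * x * u := by
  noncomm_ring

lemma x_x1_add {x u : R} (hx : x * x = 0) (hu : u * u = 0) :
    x * ((1 + u) * x * (1 - u)) + ((1 + u) * x * (1 - u)) * x = -((x * u + u * x) * (x * u + u * x)) := by
  have h1 := x_x hx
  have h2 := x_x hu
  simp only [mul_add, add_mul, mul_sub, sub_mul, mul_one, one_mul, mul_assoc, hx, hu, h1, h2, mul_zero, zero_mul]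
  abel

lemma x_x1_x {x u : R} (hx : x * x = 0) :
    x * ((1 + u) * x * (1 - u)) * x = -(x * u * x * u * x) := by
  have h1 := x_x hx
  simp only [mul_add, add_mul, mul_sub, sub_mul, mul_one, one_mul, mul_assoc, hx, h1, mul_zero, zero_mul]
  abel

lemma x_x1neg_x {x u : R} (hx : x * x = 0) :
    x * ((1 + -u) * x * (1 - -u)) * x = -(x * u * x * u * x) := by
  have h1 := x_x hx
  simp only [mul_add, add_mul, mul_sub, sub_mul, mul_one, one_mul, mul_assoc, hx, h1, mul_zero, zero_mul, mul_neg,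
    neg_mul, neg_neg]
  abel

lemma x1_x_x1 {x u : R} (hu : u * u = 0) (hb : x * ((1 + -u) * x * (1 - -u)) * x = 0) :
    ((1 + u) * x * (1 - u)) * x * ((1 + u) * x * (1 - u)) = 0 := by
  have h : (1 - u) * (1 + u) = 1 := by
    have : (1 - u) * (1 + u) = 1 - u * u := by noncomm_ring
    rw [this, hu, sub_zero]
  have e : ((1 + u) * x * (1 - u)) * x * ((1 + u) * x * (1 - u))
      = (1 + u) * (x * ((1 + -u) * x * (1 - -u)) * x) * (1 - u) := by
    simp only [sub_neg_eq_add, ← sub_eq_add_neg]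
    simp only [mul_assoc]
  rw [e, hb]
  simp

end Claim

lemma sq_of_x1 {x u : M →ₗ[k] M} (hx : x * x = 0) (hu : u * u = 0) :
    ((1 + u) * x * (1 - u)) * ((1 + u) * x * (1 - u)) = 0 := by
  have h : (1 - u) * (1 + u) = 1 := by
    have : (1 - u) * (1 + u) = 1 - u * u := by noncomm_ring
    rw [this, hu, sub_zero]
  calc ((1 + u) * x * (1 - u)) * ((1 + u) * x * (1 - u))
      = (1 + u) * x * ((1 - u) * (1 + u)) * x * (1 - u) := by simp only [mul_assoc]
    _ = 0 := by rw [h, mul_one, mul_assoc (1 + u), hx]; simp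

/-- The heart of the unipotence claim: once `(xu)²x = 0`, the element `xux` is square-zero with a family in
`G`, and the rank forces it to vanish. -/
theorem xux_zero_of_step [FiniteDimensional k M] (h4 : (4 : k) ≠ 0) {x u : M →ₗ[k] M} (hx : IsQD G x)
    (hu : IsQ G u) (h5 : x * u * x * u * x = 0) : x * u * x = 0 := by
  by_contra hne
  have hxx := hx.q.sq
  have huu := hu.sq
  have hxx' := x_x hxx
  have huu' := x_x huu
  have h5' : x * (u * (x * (u * x))) = 0 := by simpa only [mul_assoc] using h5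
  have h5'' : ∀ c, x * (u * (x * (u * (x * c)))) = 0 := fun c => by
    have := congrArg (· * c) h5'
    simpa only [mul_assoc, zero_mul] using this
  -- the square
  have ha2 : (x * u * x) * (x * u * x) = 0 := by
    simp only [mul_assoc, hxx, hxx', mul_zero]
  -- the family
  have hfam : ∀ c : k, G1 G (c • (x * u * x)) := by
    intro c
    set S : k := c / 4 with hS
    -- first commutator
    have hu1 : G1 G u := by simpa using hu.fam 1
    have hun : G1 G (-u) := hu1.neg huu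
    have hX1 : IsQD G ((1 + u) * x * (1 - u)) := hx.conj_sq hu1 huu
    have hX2 : IsQD G ((1 + -u) * x * (1 - -u)) := hx.conj_sq hun (by simpa using huu)
    have e1 : x * ((1 + u) * x * (1 - u)) * x = 0 := by
      rw [x_x1_x hxx, h5, neg_zero]
    have e2 : x * ((1 + -u) * x * (1 - -u)) * x = 0 := by
      rw [x_x1neg_x hxx, h5, neg_zero]
    have e3 : ((1 + u) * x * (1 - u)) * x * ((1 + u) * x * (1 - u)) = 0 := x1_x_x1 huu e2
    have e4 : ((1 + -u) * x * (1 - -u)) * x * ((1 + -u) * x * (1 - -u)) = 0 := by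
      apply x1_x_x1 (by simpa using huu)
      rw [neg_neg]; exact e1
    have hA : ∀ y : M →ₗ[k] M, IsQ G y → x * y * x = 0 → y * x * y = 0 →
        G1 G (S • (x * y - y * x)) := by
      intro y hy h1 h2
      have := G1.comm (hx.q.fam S) (hy.fam 1) (smul_sq hxx S) (smul_sq hy.sq 1)
        (by simp only [one_smul, smul_mul_assoc, mul_smul_comm, smul_smul, h1, smul_zero])
        (by simp only [one_smul, smul_mul_assoc, mul_smul_comm, smul_smul, h2, smul_zero])
      simp only [one_smul, smul_mul_assoc, mul_smul_comm] at this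
      rwa [smul_sub]
    have hA1 := hA _ hX1.q e1 e3
    have hA2 := hA _ hX2.q e2 e4
    -- explicit forms
    have f1 : x * ((1 + u) * x * (1 - u)) - ((1 + u) * x * (1 - u)) * x
        = (2:k) • (x * u * x) - (x * (u * (x * u))) + u * (x * (u * x)) := by
      simp only [mul_add, add_mul, mul_sub, sub_mul, mul_one, one_mul, mul_assoc, hxx, hxx', mul_zero, zero_mul]
      rw [two_smul]; abel
    have f2 : x * ((1 + -u) * x * (1 - -u)) - ((1 + -u) * x * (1 - -u)) * x
        = (-2:k) • (x * u * x) - (x * (u * (x * u))) + u * (x * (u * x)) := by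
      simp only [mul_add, add_mul, mul_sub, sub_mul, mul_one, one_mul, mul_assoc, hxx, hxx', mul_zero, zero_mul,
        mul_neg, neg_mul, neg_neg, sub_neg_eq_add]
      rw [neg_smul, two_smul]; abel
    rw [f1] at hA1
    rw [f2] at hA2
    set a := x * u * x with ha
    set b := x * (u * (x * u)) with hb
    set b' := u * (x * (u * x)) with hb'
    have A2sq : (S • ((-2:k) • a - b + b')) * (S • ((-2:k) • a - b + b')) = 0 := by
      simp only [ha, hb, hb', mul_add, add_mul, mul_sub, sub_mul, mul_assoc, smul_mul_assoc, mul_smul_comm, hxx,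
        hxx', huu, huu', h5', h5'', mul_zero, zero_mul, smul_zero, sub_zero, zero_sub, add_zero, zero_add,
        neg_zero, sub_self]
    have hG := hA1.mul (hA2.neg A2sq)
    have heq : S • ((2:k) • a - b + b') + -(S • ((-2:k) • a - b + b'))
        + S • ((2:k) • a - b + b') * -(S • ((-2:k) • a - b + b')) = c • a := by
      have hprod : S • ((2:k) • a - b + b') * -(S • ((-2:k) • a - b + b')) = 0 := by
        simp only [ha, hb, hb', mul_add, add_mul, mul_sub, sub_mul, mul_assoc, smul_mul_assoc, mul_smul_comm, hxx,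
          hxx', huu, huu', h5', h5'', mul_zero, zero_mul, smul_zero, sub_zero, zero_sub, add_zero, zero_add,
          neg_zero, sub_self, mul_neg, neg_mul]
      rw [hprod, add_zero]
      have hc : c = 4 * S := by rw [hS]; field_simp
      rw [hc]
      module
    rwa [heq] at hG
  have hQ : IsQ G (x * u * x) := ⟨ha2, hne, hfam⟩
  have hle : rk x ≤ rk (x * u * x) := hx.min _ hQ
  have hrange_le : LinearMap.range (x * u * x) ≤ LinearMap.range x := by
    rintro _ ⟨v, rfl⟩
    exact ⟨u (x v), rfl⟩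
  have hrange : LinearMap.range (x * u * x) = LinearMap.range x :=
    Submodule.eq_of_le_of_finrank_le hrange_le hle
  apply hx.q.ne
  ext v
  have step : ∀ w, ∃ w', x w = (x * u * x) w' := fun w => by
    have : x w ∈ LinearMap.range (x * u * x) := by rw [hrange]; exact ⟨w, rfl⟩
    obtain ⟨w', h⟩ := this
    exact ⟨w', h.symm⟩
  obtain ⟨v1, h1⟩ := step v
  obtain ⟨v2, h2⟩ := step v1
  have : (x * u * x) v1 = (x * u * x * u * x) v2 := by
    simp only [Module.End.mul_apply] at h2 ⊢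
    rw [h2]
  rw [h1, this, h5]
  simp

/-- **The unipotence claim**: if `z^m x = 0` then `xux = 0`. -/
theorem xux_zero_of_nil [FiniteDimensional k M] (h4 : (4 : k) ≠ 0) (m : ℕ) :
    ∀ {x u : M →ₗ[k] M}, IsQD G x → IsQ G u → (x * u + u * x) ^ m * x = 0 → x * u * x = 0 := by
  induction m using Nat.strong_induction_on with
  | _ m ih =>
    intro x u hx hu hm
    rcases Nat.lt_or_ge m 2 with h2 | h2
    · interval_cases m
      · exact absurd (by simpa using hm) hx.q.ne
      · rw [pow_one, z_mul_x hx.q.sq] at hm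
        exact hm
    · have hxx := hx.q.sq
      have huu := hu.sq
      have hu1 : G1 G u := by simpa using hu.fam 1
      have hX1 : IsQD G ((1 + u) * x * (1 - u)) := hx.conj_sq hu1 huu
      set z := x * u + u * x with hz
      set m' := (m + 1) / 2 with hm'
      have hm'lt : m' < m := by omega
      have hz2 : z ^ (2 * m') * x = 0 := by
        have : 2 * m' = (2 * m' - m) + m := by omega
        rw [this, pow_add, mul_assoc, hm, mul_zero]
      have hzz : (x * ((1 + u) * x * (1 - u)) + ((1 + u) * x * (1 - u)) * x) ^ m' * x = 0 := by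
        rw [x_x1_add hxx huu, neg_pow, ← pow_two, ← pow_mul, mul_assoc, hz2, mul_zero]
      have e1 := ih m' hm'lt hx hX1.q hzz
      rw [x_x1_x hxx, neg_eq_zero] at e1
      exact xux_zero_of_step h4 hx hu e1

end Cfsg.Agent.Lib.RootSubgroups.QuadBasic
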