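/-
Quadratic pairs: filtrations, lower central series in an ambient group, and the unipotence criterion.
-/
import Mathlib
import Cfsg.Agent.Lib.RootSubgroups.QuadBasic

set_option autoImplicit false
set_option linter.unusedSimpArgs false
set_option linter.unusedVariables false
set_option linter.unusedSectionVars false

namespace Cfsg.Agent.Lib.RootSubgroups.QuadFilt

open Cfsg
open Cfsg.Agent.Lib.RootSubgroups.Quadratic
open Cfsg.Agent.Lib.RootSubgroups.QuadBasic
open scoped commutatorElement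

/-! ### The lower central series of a subgroup, inside an ambient group -/

section Gam

variable {S T : Type*} [Group S] [Group T]

/-- The lower central series of `X`, as subgroups of the ambient group. -/
def gam (X : Subgroup S) : ℕ → Subgroup S
  | 0 => X
  | n + 1 => ⁅gam X n, X⁆

@[simp] lemma gam_zero (X : Subgroup S) : gam X 0 = X := rfl
lemma gam_succ (X : Subgroup S) (n : ℕ) : gam X (n + 1) = ⁅gam X n, X⁆ := rfl

lemma gam_map (f : S →* T) (X : Subgroup S) (n : ℕ) : (gam X n).map f = gam (X.map f) n := by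
  induction n with
  | zero => rfl
  | succ n ih => rw [gam_succ, gam_succ, Subgroup.map_commutator, ih]

lemma gam_le (X : Subgroup S) (n : ℕ) : gam X n ≤ X := by
  induction n with
  | zero => exact le_rfl
  | succ n ih =>
    rw [gam_succ, Subgroup.commutator_le]
    intro a ha b hb
    have ha' := ih ha
    rw [commutatorElement_def]
    exact X.mul_mem (X.mul_mem (X.mul_mem ha' hb) (X.inv_mem ha')) (X.inv_mem hb)

lemma gam_conj_mem (X : Subgroup S) (n : ℕ) {a g : S} (ha : a ∈ gam X n) (hg : g ∈ X) :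
    g * a * g⁻¹ ∈ gam X n := by
  induction n generalizing a with
  | zero => exact X.mul_mem (X.mul_mem hg ha) (X.inv_mem hg)
  | succ n ih =>
    -- `⁅N, X⁆` is normalized by `X`
    have hmap : gam X (n + 1) ≤ (gam X (n + 1)).comap (MulAut.conj g).toMonoidHom := by
      rw [gam_succ, Subgroup.commutator_le]
      intro u hu v hv
      show (MulAut.conj g) ⁅u, v⁆ ∈ ⁅gam X n, X⁆
      have : (MulAut.conj g) ⁅u, v⁆ = ⁅g * u * g⁻¹, g * v * g⁻¹⁆ := by
        simp [commutatorElement_def, MulAut.conj_apply, mul_assoc]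
      rw [this]
      exact Subgroup.commutator_mem_commutator (ih hu) (X.mul_mem (X.mul_mem hg hv) (X.inv_mem hg))
    exact hmap ha

/-- An automorphism-like endomorphism preserving `X` preserves its lower central series. -/
lemma gam_map_le (f : S →* S) (X : Subgroup S) (hf : ∀ g ∈ X, f g ∈ X) (n : ℕ) {a : S} (ha : a ∈ gam X n) :
    f a ∈ gam X n := by
  induction n generalizing a with
  | zero => exact hf a ha
  | succ n ih =>
    have hmap : gam X (n + 1) ≤ (gam X (n + 1)).comap f := by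
      rw [gam_succ, Subgroup.commutator_le]
      intro u hu v hv
      show f ⁅u, v⁆ ∈ ⁅gam X n, X⁆
      rw [map_commutatorElement]
      exact Subgroup.commutator_mem_commutator (ih hu) (hf v hv)
    exact hmap ha

end Gam

variable {k : Type*} [Field k] {M : Type*} [AddCommGroup M] [Module k M]

/-! ### Filtered subgroups -/

section Filt

variable [FiniteDimensional k M]

lemma filt_anti {F : ℕ → Submodule k M} (hF : ∀ i, F (i + 1) ≤ F i) {i j : ℕ} (h : i ≤ j) : F j ≤ F i :=
  antitone_nat_of_succ_le hF h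

/-- Preservation of a subspace by a unit implies preservation by the inverse. -/
lemma inv_preserves {g : LinearMap.GeneralLinearGroup k M} {W : Submodule k M}
    (hg : ∀ v ∈ W, (g : M →ₗ[k] M) v ∈ W) {w : M} (hw : w ∈ W) :
    ((g⁻¹ : LinearMap.GeneralLinearGroup k M) : M →ₗ[k] M) w ∈ W := by
  have hinj : Function.Injective ((g : M →ₗ[k] M).restrict hg) := by
    intro a b h
    apply Subtype.ext
    have h' : (g : M →ₗ[k] M) a = (g : M →ₗ[k] M) b := congrArg Subtype.val h
    have := congrArg ((g⁻¹ : LinearMap.GeneralLinearGroup k M) : M →ₗ[k] M) h'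
    have e : ∀ m, ((g⁻¹ : LinearMap.GeneralLinearGroup k M) : M →ₗ[k] M) ((g : M →ₗ[k] M) m) = m := fun m =>
      LinearMap.congr_fun (val_inv_mul g) m
    rwa [e, e] at this
  have hsurj := LinearMap.injective_iff_surjective.1 hinj
  obtain ⟨u, hu⟩ := hsurj ⟨w, hw⟩
  have hu' : (g : M →ₗ[k] M) u = w := congrArg Subtype.val hu
  have e : ((g⁻¹ : LinearMap.GeneralLinearGroup k M) : M →ₗ[k] M) w = u := by
    rw [← hu']
    exact LinearMap.congr_fun (val_inv_mul g) _
  rw [e]
  exact u.2

/-- The subgroup of elements moving `F i` into `F (i + j)`. -/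
def FiltSub (F : ℕ → Submodule k M) (hF : ∀ i, F (i + 1) ≤ F i) (j : ℕ) :
    Subgroup (LinearMap.GeneralLinearGroup k M) where
  carrier := {g | ∀ i, ∀ v ∈ F i, (g : M →ₗ[k] M) v - v ∈ F (i + j)}
  one_mem' := by
    intro i v hv
    simp
  mul_mem' := by
    intro a b ha hb i v hv
    have h1 := hb i v hv
    have h2 : (b : M →ₗ[k] M) v ∈ F i := by
      have := filt_anti hF (Nat.le_add_right i j) h1
      simpa using (F i).add_mem this hv
    have h3 := ha i _ h2
    have : ((a * b : LinearMap.GeneralLinearGroup k M) : M →ₗ[k] M) v - v =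
        ((a : M →ₗ[k] M) ((b : M →ₗ[k] M) v) - (b : M →ₗ[k] M) v) + ((b : M →ₗ[k] M) v - v) := by
      simp
    rw [this]
    exact (F (i + j)).add_mem h3 h1
  inv_mem' := by
    intro a ha i v hv
    have hpres : ∀ m, ∀ w ∈ F m, (a : M →ₗ[k] M) w ∈ F m := by
      intro m w hw
      have h1 := ha m w hw
      have := filt_anti hF (Nat.le_add_right m j) h1
      simpa using (F m).add_mem this hw
    have h1 := ha i v hv
    have h2 := inv_preserves (hpres (i + j)) h1
    have e : ((a⁻¹ : LinearMap.GeneralLinearGroup k M) : M →ₗ[k] M) v - v =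
        - ((a⁻¹ : LinearMap.GeneralLinearGroup k M) : M →ₗ[k] M) ((a : M →ₗ[k] M) v - v) := by
      have : ((a⁻¹ : LinearMap.GeneralLinearGroup k M) : M →ₗ[k] M) ((a : M →ₗ[k] M) v) = v :=
        LinearMap.congr_fun (val_inv_mul a) v
      rw [map_sub, this]
      abel
    rw [e]
    exact (F (i + j)).neg_mem h2

lemma mem_filtSub {F : ℕ → Submodule k M} {hF : ∀ i, F (i + 1) ≤ F i} {j : ℕ}
    {g : LinearMap.GeneralLinearGroup k M} :
    g ∈ FiltSub F hF j ↔ ∀ i, ∀ v ∈ F i, (g : M →ₗ[k] M) v - v ∈ F (i + j) := Iff.rfl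

lemma filtSub_preserves {F : ℕ → Submodule k M} {hF : ∀ i, F (i + 1) ≤ F i} {j : ℕ}
    {g : LinearMap.GeneralLinearGroup k M} (hg : g ∈ FiltSub F hF j) (m : ℕ) {w : M} (hw : w ∈ F m) :
    (g : M →ₗ[k] M) w ∈ F m := by
  have h1 := hg m w hw
  have := filt_anti hF (Nat.le_add_right m j) h1
  simpa using (F m).add_mem this hw

/-- The commutator step. -/
lemma filtSub_comm {F : ℕ → Submodule k M} {hF : ∀ i, F (i + 1) ≤ F i} {j : ℕ}
    {a b : LinearMap.GeneralLinearGroup k M} (ha : a ∈ FiltSub F hF j) (hb : b ∈ FiltSub F hF 1) :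
    ⁅a, b⁆ ∈ FiltSub F hF (j + 1) := by
  intro i v hv
  have hainv : ((a⁻¹ : LinearMap.GeneralLinearGroup k M) : M →ₗ[k] M) ∈ ({f | ∀ w ∈ F i, f w ∈ F i} : Set _) :=
    fun w hw => filtSub_preserves ((FiltSub F hF j).inv_mem ha) i hw
  have hbinv : ((b⁻¹ : LinearMap.GeneralLinearGroup k M) : M →ₗ[k] M) ∈ ({f | ∀ w ∈ F i, f w ∈ F i} : Set _) :=
    fun w hw => filtSub_preserves ((FiltSub F hF 1).inv_mem hb) i hw
  set u := ((a⁻¹ : LinearMap.GeneralLinearGroup k M) : M →ₗ[k] M)
    (((b⁻¹ : LinearMap.GeneralLinearGroup k M) : M →ₗ[k] M) v) with hu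
  have huF : u ∈ F i := hainv _ (hbinv _ hv)
  have hv' : v = (b : M →ₗ[k] M) ((a : M →ₗ[k] M) u) := by
    rw [hu]
    have h1 : (a : M →ₗ[k] M) (((a⁻¹ : LinearMap.GeneralLinearGroup k M) : M →ₗ[k] M)
        (((b⁻¹ : LinearMap.GeneralLinearGroup k M) : M →ₗ[k] M) v)) =
        ((b⁻¹ : LinearMap.GeneralLinearGroup k M) : M →ₗ[k] M) v :=
      LinearMap.congr_fun (val_mul_inv a) _
    have h2 : (b : M →ₗ[k] M) (((b⁻¹ : LinearMap.GeneralLinearGroup k M) : M →ₗ[k] M) v) = v :=
      LinearMap.congr_fun (val_mul_inv b) _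
    rw [h1, h2]
  have hval : ((⁅a, b⁆ : LinearMap.GeneralLinearGroup k M) : M →ₗ[k] M) v =
      (a : M →ₗ[k] M) ((b : M →ₗ[k] M) u) := by
    rw [commutatorElement_def]
    simp only [Units.val_mul, Module.End.mul_apply, hu]
  rw [hval]
  set p := (a : M →ₗ[k] M) u - u with hp
  set q := (b : M →ₗ[k] M) u - u with hq
  have hpF : p ∈ F (i + j) := ha i u huF
  have hqF : q ∈ F (i + 1) := hb i u huF
  have e : (a : M →ₗ[k] M) ((b : M →ₗ[k] M) u) - v =
      ((a : M →ₗ[k] M) q - q) - ((b : M →ₗ[k] M) p - p) := by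
    rw [hv', hp, hq]
    simp only [map_sub]
    abel
  rw [e]
  apply Submodule.sub_mem
  · have := ha (i + 1) q hqF
    have e2 : i + 1 + j = i + (j + 1) := by omega
    rwa [e2] at this
  · exact hb (i + j) p hpF

lemma gam_le_filtSub {F : ℕ → Submodule k M} {hF : ∀ i, F (i + 1) ≤ F i}
    {X : Subgroup (LinearMap.GeneralLinearGroup k M)} (hX : X ≤ FiltSub F hF 1) (n : ℕ) :
    gam X n ≤ FiltSub F hF (n + 1) := by
  induction n with
  | zero => exact hX
  | succ n ih =>
    rw [gam_succ, Subgroup.commutator_le]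
    intro a ha b hb
    exact filtSub_comm (ih ha) (hX hb)

omit [FiniteDimensional k M] in
/-- The clean form of the list condition of `IsUnipotentOn`. -/
lemma list_clean (l : List (LinearMap.GeneralLinearGroup k M)) :
    (l.map fun g => (g : M →ₗ[k] M) - 1) = l.map (fun g : LinearMap.GeneralLinearGroup k M => (g : M →ₗ[k] M) - 1) := by
  induction l with
  | nil => rfl
  | cons a l ih => simpa using ih

omit [FiniteDimensional k M] in
lemma isUnipotentOn_iff {H : Subgroup (LinearMap.GeneralLinearGroup k M)} :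
    IsUnipotentOn H ↔ ∃ n : ℕ, ∀ l : List (LinearMap.GeneralLinearGroup k M), (∀ g ∈ l, g ∈ H) → l.length = n →
      (l.map (fun g : LinearMap.GeneralLinearGroup k M => (g : M →ₗ[k] M) - 1)).prod = 0 := by
  unfold IsUnipotentOn
  simp only [list_clean]

/-- Unipotence from a filtration. -/
lemma unipotent_of_filt {F : ℕ → Submodule k M} {hF : ∀ i, F (i + 1) ≤ F i}
    {H : Subgroup (LinearMap.GeneralLinearGroup k M)} (hH : H ≤ FiltSub F hF 1) (h0 : F 0 = ⊤) {n : ℕ}
    (hn : F n = ⊥) : IsUnipotentOn H := by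
  refine ⟨n, fun l hl hlen => ?_⟩
  have key : ∀ (l : List (LinearMap.GeneralLinearGroup k M)), (∀ g ∈ l, g ∈ H) → ∀ i, ∀ v ∈ F i,
      (l.map fun g => (g : M →ₗ[k] M) - 1).prod v ∈ F (i + l.length) := by
    intro l
    induction l with
    | nil => intro _ i v hv; simpa using hv
    | cons a l ih =>
      intro hl i v hv
      have h1 := ih (fun g hg => hl g (List.mem_cons_of_mem _ hg)) i v hv
      have h2 := hH (hl a List.mem_cons_self) _ _ h1
      have e : i + (a :: l).length = i + l.length + 1 := by simp; omega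
      rw [e]
      simpa using h2
  ext v
  have := key l hl 0 v (by rw [h0]; trivial)
  rw [zero_add, hlen, hn] at this
  simpa using this

/-- The filtration generated by a set of endomorphisms. -/
def Fseq (T : Set (M →ₗ[k] M)) (S : Submodule k M) : ℕ → Submodule k M
  | 0 => S
  | n + 1 => ⨆ t ∈ T, (Fseq T S n).map t

lemma fseq_succ_le {T : Set (M →ₗ[k] M)} {S W : Submodule k M} {n : ℕ}
    (h : ∀ t ∈ T, ∀ v ∈ Fseq T S n, t v ∈ W) : Fseq T S (n + 1) ≤ W := by
  refine iSup₂_le fun t ht => ?_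
  rintro _ ⟨v, hv, rfl⟩
  exact h t ht v hv

lemma fseq_mem {T : Set (M →ₗ[k] M)} {S : Submodule k M} {n : ℕ} {t : M →ₗ[k] M} (ht : t ∈ T) {v : M}
    (hv : v ∈ Fseq T S n) : t v ∈ Fseq T S (n + 1) := by
  have : (Fseq T S n).map t ≤ Fseq T S (n + 1) := le_iSup₂_of_le t ht le_rfl
  exact this ⟨v, hv, rfl⟩

lemma fseq_anti {T : Set (M →ₗ[k] M)} {S : Submodule k M} (hS : ∀ t ∈ T, ∀ v ∈ S, t v ∈ S) (i : ℕ) :
    Fseq T S (i + 1) ≤ Fseq T S i := by
  induction i with
  | zero => exact fseq_succ_le hS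
  | succ n ih =>
    refine fseq_succ_le fun t ht v hv => ?_
    exact fseq_mem ht (ih hv)

lemma fseq_filt {T : Set (M →ₗ[k] M)} {S : Submodule k M} (hS : ∀ t ∈ T, ∀ v ∈ S, t v ∈ S)
    {g : LinearMap.GeneralLinearGroup k M} {c : k} {t : M →ₗ[k] M} (ht : t ∈ T)
    (hg : (g : M →ₗ[k] M) = 1 + c • t) : g ∈ FiltSub (Fseq T S) (fseq_anti hS) 1 := by
  intro i v hv
  rw [hg]
  have : (1 + c • t) v - v = c • t v := by simp
  rw [this]
  exact Submodule.smul_mem _ _ (fseq_mem ht hv)

/-- If all triple products of `T` vanish, everything generated by `1 + c t` acts unipotently. -/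
theorem unipotent_of_three {T : Set (M →ₗ[k] M)} (h3 : ∀ a ∈ T, ∀ b ∈ T, ∀ c ∈ T, a * b * c = 0)
    {S : Set (LinearMap.GeneralLinearGroup k M)}
    (hS : ∀ g ∈ S, ∃ c : k, ∃ t ∈ T, (g : M →ₗ[k] M) = 1 + c • t) : IsUnipotentOn (Subgroup.closure S) := by
  have htop : ∀ t ∈ T, ∀ v ∈ (⊤ : Submodule k M), t v ∈ (⊤ : Submodule k M) := fun _ _ _ _ => trivial
  have hH : Subgroup.closure S ≤ FiltSub (Fseq T ⊤) (fseq_anti htop) 1 := by
    rw [Subgroup.closure_le]
    intro g hg
    obtain ⟨c, t, ht, e⟩ := hS g hg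
    exact fseq_filt htop ht e
  refine unipotent_of_filt (n := 3) hH rfl ?_
  rw [eq_bot_iff]
  refine fseq_succ_le fun a ha v hv => ?_
  have h2 : Fseq T ⊤ 2 ≤ (⊥ : Submodule k M).comap a := by
    refine fseq_succ_le fun b hb v hv => ?_
    have h1 : Fseq T ⊤ 1 ≤ (⊥ : Submodule k M).comap (a * b) := by
      refine fseq_succ_le fun c hc v _ => ?_
      have := congrArg (fun f : M →ₗ[k] M => f v) (h3 a ha b hb c hc)
      simpa using this
    have := h1 hv
    simpa using this
  exact h2 hv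

/-- The pair version. -/
theorem unipotent_pair {x y : M →ₗ[k] M} (hx : x * x = 0) (hy : y * y = 0) (h1 : x * y * x = 0)
    (h2 : y * x * y = 0) {S : Set (LinearMap.GeneralLinearGroup k M)}
    (hS : ∀ g ∈ S, ∃ c : k, (g : M →ₗ[k] M) = 1 + c • x ∨ (g : M →ₗ[k] M) = 1 + c • y) :
    IsUnipotentOn (Subgroup.closure S) := by
  refine unipotent_of_three (T := {x, y}) ?_ ?_
  · have hx' := x_x hx
    have hy' := x_x hy
    rintro a (rfl | rfl) b (rfl | rfl) c (rfl | rfl)
    all_goals first
      | exact h1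
      | exact h2
      | (simp only [hx, hy, zero_mul, mul_zero, mul_assoc, hx', hy'])
  · intro g hg
    obtain ⟨c, h | h⟩ := hS g hg
    · exact ⟨c, x, Or.inl rfl, h⟩
    · exact ⟨c, y, Or.inr rfl, h⟩

/-! ### The filtration for a pair with nilpotent `z` -/

section PairFilt

variable {x y : M →ₗ[k] M}

lemma fseq_pair_le {S W : Submodule k M} {n : ℕ} (h1 : ∀ v ∈ Fseq {x, y} S n, x v ∈ W)
    (h2 : ∀ v ∈ Fseq {x, y} S n, y v ∈ W) : Fseq {x, y} S (n + 1) ≤ W := by
  refine fseq_succ_le fun t ht v hv => ?_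
  rcases ht with h | h
  · rw [h]; exact h1 v hv
  · rw [Set.mem_singleton_iff] at h
    rw [h]; exact h2 v hv

lemma mem_pair_left : x ∈ ({x, y} : Set (M →ₗ[k] M)) := Or.inl rfl
lemma mem_pair_right : y ∈ ({x, y} : Set (M →ₗ[k] M)) := Or.inr rfl

lemma pair_fseq_three (hx : x * x = 0) (hy : y * y = 0) (S : Submodule k M) :
    Fseq {x, y} S 3 ≤ (Fseq {x, y} S 1).map (x * y + y * x) := by
  set W := (Fseq {x, y} S 1).map (x * y + y * x) with hW
  have hxv : ∀ v, x (x v) = 0 := fun v => LinearMap.congr_fun hx v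
  have hyv : ∀ v, y (y v) = 0 := fun v => LinearMap.congr_fun hy v
  apply fseq_pair_le
  · -- `x` applied to the second layer
    have h2 : Fseq {x, y} S 2 ≤ W.comap x := by
      apply fseq_pair_le
      · intro v _
        rw [Submodule.mem_comap, hxv]; exact W.zero_mem
      · have h1 : Fseq {x, y} S 1 ≤ W.comap (x * y) := by
          apply fseq_pair_le
          · intro v hv
            refine ⟨x v, fseq_mem mem_pair_left hv, ?_⟩
            simp [hxv]
          · intro v _
            rw [Submodule.mem_comap, Module.End.mul_apply, hyv, map_zero]; exact W.zero_mem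
        intro v hv
        exact h1 hv
    intro v hv
    exact h2 hv
  · have h2 : Fseq {x, y} S 2 ≤ W.comap y := by
      apply fseq_pair_le
      · have h1 : Fseq {x, y} S 1 ≤ W.comap (y * x) := by
          apply fseq_pair_le
          · intro v _
            rw [Submodule.mem_comap, Module.End.mul_apply, hxv, map_zero]; exact W.zero_mem
          · intro v hv
            refine ⟨y v, fseq_mem mem_pair_right hv, ?_⟩
            simp [hyv]
        intro v hv
        exact h1 hv
      · intro v _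
        rw [Submodule.mem_comap, hyv]; exact W.zero_mem
    intro v hv
    exact h2 hv

lemma pair_fseq_step (hx : x * x = 0) (hy : y * y = 0) (S : Submodule k M) (i : ℕ) :
    Fseq {x, y} S (i + 3) ≤ (Fseq {x, y} S (i + 1)).map (x * y + y * x) := by
  induction i with
  | zero => exact pair_fseq_three hx hy S
  | succ n ih =>
    have hzx : ∀ v, x ((x * y + y * x) v) = (x * y + y * x) (x v) := fun v =>
      (LinearMap.congr_fun (z_comm_x (u := y) hx) v).symm
    have hzy : ∀ v, y ((x * y + y * x) v) = (x * y + y * x) (y v) := fun v =>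
      (LinearMap.congr_fun (z_comm_u (x := x) hy) v).symm
    apply fseq_pair_le
    · intro v hv
      obtain ⟨u, hu, rfl⟩ := ih hv
      exact ⟨x u, fseq_mem mem_pair_left hu, (hzx u).symm⟩
    · intro v hv
      obtain ⟨u, hu, rfl⟩ := ih hv
      exact ⟨y u, fseq_mem mem_pair_right hu, (hzy u).symm⟩

lemma pair_fseq_odd (hx : x * x = 0) (hy : y * y = 0) (S : Submodule k M) (n : ℕ) :
    Fseq {x, y} S (2 * n + 1) ≤ (Fseq {x, y} S 1).map ((x * y + y * x) ^ n) := by
  induction n with
  | zero =>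
    intro v hv
    exact ⟨v, hv, by simp⟩
  | succ n ih =>
    have e : 2 * (n + 1) + 1 = (2 * n) + 3 := by ring
    rw [e]
    intro v hv
    obtain ⟨u, hu, rfl⟩ := pair_fseq_step hx hy S (2 * n) hv
    obtain ⟨u', hu', rfl⟩ := ih hu
    refine ⟨u', hu', ?_⟩
    rw [pow_succ', Module.End.mul_apply]

lemma pair_fseq_bot (hx : x * x = 0) (hy : y * y = 0) {S : Submodule k M}
    (hS : ∀ t ∈ ({x, y} : Set (M →ₗ[k] M)), ∀ v ∈ S, t v ∈ S) {N : ℕ}
    (hN : ∀ v ∈ S, ((x * y + y * x) ^ N) v = 0) : Fseq {x, y} S (2 * N + 1) = ⊥ := by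
  rw [eq_bot_iff]
  intro v hv
  obtain ⟨u, hu, rfl⟩ := pair_fseq_odd hx hy S N hv
  have : u ∈ S := fseq_anti hS 0 hu
  simp [hN u this]

end PairFilt

end Filt

end Cfsg.Agent.Lib.RootSubgroups.QuadFilt
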