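/-
Quadratic pairs: every minimal element has a partner with which it generates a non-unipotent group.
-/
import Mathlib
import Cfsg.Agent.Lib.RootSubgroups.QuadFilt
import Cfsg.Agent.S5061

set_option autoImplicit false
set_option linter.unusedSimpArgs false
set_option linter.unusedVariables false
set_option linter.unusedSectionVars false

namespace Cfsg.Agent.Lib.RootSubgroups.QuadPartner

open Cfsg
open Cfsg.Agent.Lib.RootSubgroups.Quadratic
open Cfsg.Agent.Lib.RootSubgroups.QuadBasic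
open Cfsg.Agent.Lib.RootSubgroups.QuadFilt

variable {k : Type*} [Field k] {M : Type*} [AddCommGroup M] [Module k M]
variable {G : Subgroup (LinearMap.GeneralLinearGroup k M)}

/-- The elements `1 + c x`. -/
def famSet (x : M →ₗ[k] M) : Set (LinearMap.GeneralLinearGroup k M) :=
  {τ | ∃ c : k, (τ : M →ₗ[k] M) = 1 + c • x}

/-- The subgroup generated by the elements `1 + c x`. -/
def Fam (x : M →ₗ[k] M) : Subgroup (LinearMap.GeneralLinearGroup k M) := Subgroup.closure (famSet x)

lemma scalarFamily_eq (σ : LinearMap.GeneralLinearGroup k M) : scalarFamily σ = famSet (tt σ) := rfl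

lemma famSet_subset {x : M →ₗ[k] M} (hx : ∀ c : k, G1 G (c • x)) : famSet x ⊆ (G : Set _) := by
  rintro τ ⟨c, e⟩
  obtain ⟨ρ, hρ, f⟩ := hx c
  have : τ = ρ := Units.ext (by rw [e, f])
  rw [this]; exact hρ

lemma Fam_le {x : M →ₗ[k] M} (hx : ∀ c : k, G1 G (c • x)) : Fam x ≤ G :=
  (Subgroup.closure_le _).2 (famSet_subset hx)

lemma mem_famSet_of {x : M →ₗ[k] M} (hx : x * x = 0) (c : k) :
    unitOfSq (c • x) (smul_sq hx c) ∈ famSet x := ⟨c, rfl⟩

lemma conj_famSet (g : LinearMap.GeneralLinearGroup k M) (x : M →ₗ[k] M) :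
    (MulAut.conj g).toMonoidHom '' famSet x = famSet (cj g x) := by
  ext τ
  constructor
  · rintro ⟨ρ, ⟨c, e⟩, rfl⟩
    refine ⟨c, ?_⟩
    show ((g * ρ * g⁻¹ : LinearMap.GeneralLinearGroup k M) : M →ₗ[k] M) = _
    rw [Units.val_mul, Units.val_mul, e, mul_add, add_mul, mul_one, val_mul_inv, ← cj_smul]
    rfl
  · rintro ⟨c, e⟩
    refine ⟨g⁻¹ * τ * g, ⟨c, ?_⟩, ?_⟩
    · rw [Units.val_mul, Units.val_mul, e, mul_add, add_mul, mul_one, val_inv_mul]
      congr 1
      unfold cj
      have := val_inv_mul g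
      rw [mul_smul_comm, smul_mul_assoc]
      congr 1
      calc ((g⁻¹ : LinearMap.GeneralLinearGroup k M) : M →ₗ[k] M) * ((g : M →ₗ[k] M) * x *
            ((g⁻¹ : LinearMap.GeneralLinearGroup k M) : M →ₗ[k] M)) * (g : M →ₗ[k] M)
          = (((g⁻¹ : LinearMap.GeneralLinearGroup k M) : M →ₗ[k] M) * (g : M →ₗ[k] M)) * x *
            (((g⁻¹ : LinearMap.GeneralLinearGroup k M) : M →ₗ[k] M) * (g : M →ₗ[k] M)) := by
              simp only [mul_assoc]
        _ = x := by rw [val_inv_mul, one_mul, mul_one]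
    · show g * (g⁻¹ * τ * g) * g⁻¹ = τ
      group

lemma conjBy_Fam (g : LinearMap.GeneralLinearGroup k M) (x : M →ₗ[k] M) :
    conjBy (Fam x) g = Fam (cj g x) := by
  unfold conjBy Fam
  rw [MonoidHom.map_closure, conj_famSet]

lemma cj_mul_el (a b : LinearMap.GeneralLinearGroup k M) (x : M →ₗ[k] M) : cj (a * b) x = cj a (cj b x) := by
  unfold cj
  simp only [mul_inv_rev, Units.val_mul, mul_assoc]

lemma cj_one_el (x : M →ₗ[k] M) : cj (1 : LinearMap.GeneralLinearGroup k M) x = x := by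
  unfold cj
  simp

/-- A unipotent group on a nonzero space has a nonzero fixed vector. -/
lemma fixed_ne_bot {V : Subgroup (LinearMap.GeneralLinearGroup k M)} (hV : IsUnipotentOn V)
    (hM : ∃ m : M, m ≠ 0) : fixedSubmodule V ≠ ⊥ := by
  classical
  have hex : ∃ n : ℕ, ∀ l : List (LinearMap.GeneralLinearGroup k M), (∀ g ∈ l, g ∈ V) → l.length = n →
    (l.map (fun g : LinearMap.GeneralLinearGroup k M => (g : M →ₗ[k] M) - 1)).prod = 0 := isUnipotentOn_iff.1 hV
  set n := Nat.find hex with hn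
  have hspec : ∀ l : List (LinearMap.GeneralLinearGroup k M), (∀ g ∈ l, g ∈ V) → l.length = n →
    (l.map (fun g : LinearMap.GeneralLinearGroup k M => (g : M →ₗ[k] M) - 1)).prod = 0 := Nat.find_spec hex
  obtain ⟨m, hm⟩ := hM
  rcases Nat.eq_zero_or_pos n with h0 | hpos
  · exfalso
    have := hspec [] (by simp) (by simp [h0])
    simp only [List.map_nil, List.prod_nil] at this
    apply hm
    have h2 := LinearMap.congr_fun this m
    simpa using h2
  · have hlt : n - 1 < n := by omega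
    have hmin := Nat.find_min hex hlt
    push Not at hmin
    obtain ⟨l, hl, hlen, hne⟩ := hmin
    obtain ⟨v, hv⟩ : ∃ v, (l.map (fun g : LinearMap.GeneralLinearGroup k M => (g : M →ₗ[k] M) - 1)).prod v ≠ 0 := by
      by_contra hc
      push Not at hc
      exact hne (LinearMap.ext hc)
    intro hbot
    apply hv
    have hmem : (l.map (fun g : LinearMap.GeneralLinearGroup k M => (g : M →ₗ[k] M) - 1)).prod v ∈ fixedSubmodule V := by
      unfold fixedSubmodule
      simp only [Submodule.mem_iInf, LinearMap.mem_ker]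
      intro g hg
      have := hspec (g :: l) (by
        intro h hh
        rcases List.mem_cons.1 hh with rfl | hh
        · exact hg
        · exact hl h hh) (by simp [hlen]; omega)
      simp only [List.map_cons, List.prod_cons] at this
      exact LinearMap.congr_fun this v
    rw [hbot] at hmem
    simpa using hmem

/-- A normal unipotent subgroup of an irreducible group acts trivially. -/
lemma normal_unipotent_trivial (hirr : IsIrreducibleFor G) {V : Subgroup (LinearMap.GeneralLinearGroup k M)}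
    (hV : IsUnipotentOn V) (hN : ∀ g ∈ G, conjBy V g = V) {h : LinearMap.GeneralLinearGroup k M} (hh : h ∈ V) :
    (h : M →ₗ[k] M) = 1 := by
  have hinv : ∀ g ∈ G, ∀ w ∈ fixedSubmodule V, (g : M →ₗ[k] M) w ∈ fixedSubmodule V := by
    intro g hg w hw
    unfold fixedSubmodule at hw ⊢
    simp only [Submodule.mem_iInf, LinearMap.mem_ker] at hw ⊢
    intro a ha
    have hb : g⁻¹ * a * g ∈ V := by
      have h1 : a ∈ conjBy V g := by rw [hN g hg]; exact ha
      obtain ⟨b, hb, rfl⟩ := h1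
      have e : g⁻¹ * (MulAut.conj g).toMonoidHom b * g = b := by
        show g⁻¹ * (g * b * g⁻¹) * g = b
        group
      rw [e]; exact hb
    have h2 := hw _ hb
    have e : (a : M →ₗ[k] M) ((g : M →ₗ[k] M) w) = (g : M →ₗ[k] M) (((g⁻¹ * a * g : LinearMap.GeneralLinearGroup k M) : M →ₗ[k] M) w) := by
      have h3 := LinearMap.congr_fun (val_mul_inv g) ((a : M →ₗ[k] M) ((g : M →ₗ[k] M) w))
      simp only [Units.val_mul, Module.End.mul_apply]
      exact h3.symm
    have h4 : ((g⁻¹ * a * g : LinearMap.GeneralLinearGroup k M) : M →ₗ[k] M) w = w := by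
      have := h2
      simp only [LinearMap.sub_apply, Module.End.one_apply, sub_eq_zero] at this
      exact this
    simp only [LinearMap.sub_apply, Module.End.one_apply, sub_eq_zero]
    rw [e, h4]
  rcases hirr.2 _ hinv with hb | ht
  · exact absurd hb (fixed_ne_bot hV hirr.1)
  · ext v
    have : v ∈ fixedSubmodule V := by rw [ht]; trivial
    unfold fixedSubmodule at this
    simp only [Submodule.mem_iInf, LinearMap.mem_ker] at this
    have := this h hh
    simpa [sub_eq_zero] using this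

/-- Nilpotent `z` implies the pair is unipotent. -/
lemma xyx_of_nil [FiniteDimensional k M] (h4 : (4 : k) ≠ 0) {x y : M →ₗ[k] M} (hx : IsQD G x) (hy : IsQ G y)
    (hz : IsNilpotent (x * y + y * x)) : x * y * x = 0 := by
  obtain ⟨m, hm⟩ := hz
  exact xux_zero_of_nil h4 m hx hy (by rw [hm, zero_mul])

/-- The closure of two families of a pair with nilpotent `z` acts unipotently. -/
lemma unipotent_of_nil [FiniteDimensional k M] (h4 : (4 : k) ≠ 0) {x y : M →ₗ[k] M} (hx : IsQD G x)
    (hy : IsQD G y) (hz : IsNilpotent (x * y + y * x)) : IsUnipotentOn (Subgroup.closure (famSet x ∪ famSet y)) := by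
  have h1 := xyx_of_nil h4 hx hy.q hz
  have h2 := xyx_of_nil h4 hy hx.q (by rwa [add_comm])
  refine unipotent_pair hx.q.sq hy.q.sq h1 h2 ?_
  rintro g (⟨c, e⟩ | ⟨c, e⟩)
  · exact ⟨c, Or.inl e⟩
  · exact ⟨c, Or.inr e⟩

/-- **Existence of a partner.** -/
theorem exists_partner [FiniteDimensional k M] (h4 : (4 : k) ≠ 0) (hG : IsQuadraticPair G) {x : M →ₗ[k] M}
    (hx : IsQD G x) : ∃ y, IsQD G y ∧ ¬ IsNilpotent (x * y + y * x) := by
  by_contra hcon
  push Not at hcon
  set W : Set (Subgroup (LinearMap.GeneralLinearGroup k M)) := {A | ∃ g ∈ G, A = Fam (cj g x)} with hW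
  have hWG : ∀ A ∈ W, A ≤ G := by
    rintro A ⟨g, hg, rfl⟩
    exact Fam_le (hx.conj hg).q.fam
  have hWconj : ∀ A ∈ W, ∀ g ∈ G, conjBy A g ∈ W := by
    rintro A ⟨a, ha, rfl⟩ g hg
    refine ⟨g * a, G.mul_mem hg ha, ?_⟩
    rw [conjBy_Fam, cj_mul_el]
  have hWW : ∀ A ∈ W, ∀ B ∈ W, IsUnipotentOn (A ⊔ B) := by
    rintro A ⟨a, ha, rfl⟩ B ⟨b, hb, rfl⟩
    have hy : IsQD G (cj (a⁻¹ * b) x) := hx.conj (G.mul_mem (G.inv_mem ha) hb)
    have hz := hcon _ hy
    have h1 := xyx_of_nil h4 hx hy.q hz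
    have h2 := xyx_of_nil h4 hy hx.q (by rwa [add_comm])
    have eb : cj b x = cj a (cj (a⁻¹ * b) x) := by
      rw [← cj_mul_el]; simp
    have hxa := hx.conj ha
    have hyb := hx.conj hb
    have : Fam (cj a x) ⊔ Fam (cj b x) = Subgroup.closure (famSet (cj a x) ∪ famSet (cj b x)) := by
      unfold Fam; rw [Subgroup.closure_union]
    rw [this]
    refine unipotent_pair hxa.q.sq hyb.q.sq ?_ ?_ ?_
    · rw [eb, ← cj_mul, ← cj_mul, h1, cj_zero]
    · rw [eb, ← cj_mul, ← cj_mul, h2, cj_zero]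
    · rintro g (⟨c, e⟩ | ⟨c, e⟩)
      · exact ⟨c, Or.inl e⟩
      · exact ⟨c, Or.inr e⟩
  obtain ⟨hU, hN⟩ := Cfsg.Agent.S5061.result hWG hWW hWconj
  have hmem : Fam x ≤ ⨆ A ∈ W, A := by
    have hxW : Fam x ∈ W := ⟨1, G.one_mem, by rw [cj_one_el]⟩
    exact le_iSup₂_of_le (Fam x) hxW le_rfl
  have hu : unitOfSq ((1:k) • x) (smul_sq hx.q.sq 1) ∈ ⨆ A ∈ W, A :=
    hmem (Subgroup.subset_closure (mem_famSet_of hx.q.sq 1))
  have := normal_unipotent_trivial hG.1 hU hN hu
  apply hx.q.ne
  have h2 : (1 : M →ₗ[k] M) + (1:k) • x = 1 := this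
  simpa using h2

end Cfsg.Agent.Lib.RootSubgroups.QuadPartner
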