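/-
Quadratic pairs: the group `X = ⟨u(c), l(cα)⟩ ≤ SL₂(A)` for `A = k[α]`: automorphisms, pure elements in the
lower central series.
-/
import Mathlib
import Cfsg.Agent.Lib.RootSubgroups.EuclidFinite
import Cfsg.Agent.Lib.RootSubgroups.QuadFilt

set_option autoImplicit false
set_option linter.unusedSimpArgs false
set_option linter.unusedVariables false
set_option linter.unusedSectionVars false

namespace Cfsg.Agent.Lib.RootSubgroups.QuadSL2

open Cfsg.Agent.Lib.RootSubgroups.EuclidSL2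
open Cfsg.Agent.Lib.RootSubgroups.EuclidFinite
open Cfsg.Agent.Lib.RootSubgroups.QuadFilt
open scoped commutatorElement

local notation "SL₂" => Matrix.SpecialLinearGroup (Fin 2)

universe v

section Basic

variable {A : Type*} [CommRing A]

/-- A matrix of determinant one from its entries. -/
def mk2 (a b c d : A) (h : a * d - b * c = 1) : SL₂ A :=
  ⟨!![a, b; c, d], by rw [Matrix.det_fin_two_of]; exact h⟩

@[simp] lemma ent_mk2_00 (a b c d : A) (h : a * d - b * c = 1) : ent (mk2 a b c d h) 0 0 = a := by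
  simp [ent, mk2]
@[simp] lemma ent_mk2_01 (a b c d : A) (h : a * d - b * c = 1) : ent (mk2 a b c d h) 0 1 = b := by
  simp [ent, mk2]
@[simp] lemma ent_mk2_10 (a b c d : A) (h : a * d - b * c = 1) : ent (mk2 a b c d h) 1 0 = c := by
  simp [ent, mk2]
@[simp] lemma ent_mk2_11 (a b c d : A) (h : a * d - b * c = 1) : ent (mk2 a b c d h) 1 1 = d := by
  simp [ent, mk2]

lemma ent_inv (g : SL₂ A) : ent g⁻¹ 0 0 = ent g 1 1 ∧ ent g⁻¹ 0 1 = - ent g 0 1 ∧
    ent g⁻¹ 1 0 = - ent g 1 0 ∧ ent g⁻¹ 1 1 = ent g 0 0 := by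
  have hdet := ent_det g
  have : g⁻¹ = mk2 (ent g 1 1) (- ent g 0 1) (- ent g 1 0) (ent g 0 0) (by linear_combination hdet) := by
    rw [inv_eq_iff_mul_eq_one]
    apply sl_ext <;> simp [ent_mul]
    · linear_combination hdet
    · ring
    · ring
    · linear_combination hdet
  rw [this]
  simp

/-- The scaling automorphism `(a, b; c, d) ↦ (a, tb; t⁻¹c, d)`. -/
def dd (t : Aˣ) : SL₂ A →* SL₂ A where
  toFun g := mk2 (ent g 0 0) (t * ent g 0 1) (((t⁻¹ : Aˣ) : A) * ent g 1 0) (ent g 1 1) (by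
    have h := ent_det g
    have h2 := t.mul_inv
    linear_combination h - (ent g 0 1 * ent g 1 0) * h2)
  map_one' := by apply sl_ext <;> simp
  map_mul' g h := by
    have h2 := t.mul_inv
    apply sl_ext <;> simp [ent_mul]
    · linear_combination (- ent g 0 1 * ent h 1 0) * h2
    · ring
    · ring
    · linear_combination (- ent g 1 0 * ent h 0 1) * h2

@[simp] lemma dd_uu (t : Aˣ) (a : A) : dd t (uu a) = uu (t * a) := by
  apply sl_ext <;> simp [dd]

@[simp] lemma dd_ll (t : Aˣ) (b : A) : dd t (ll b) = ll (((t⁻¹ : Aˣ) : A) * b) := by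
  apply sl_ext <;> simp [dd]

/-- The swap automorphism `(a, b; c, d) ↦ (d, β⁻¹c; βb, a)`. -/
def swp (β : Aˣ) : SL₂ A →* SL₂ A where
  toFun g := mk2 (ent g 1 1) (((β⁻¹ : Aˣ) : A) * ent g 1 0) (β * ent g 0 1) (ent g 0 0) (by
    have h := ent_det g
    have h2 := β.mul_inv
    linear_combination h - (ent g 0 1 * ent g 1 0) * h2)
  map_one' := by apply sl_ext <;> simp
  map_mul' g h := by
    have h2 := β.mul_inv
    apply sl_ext <;> simp [ent_mul]
    · linear_combination (- ent g 1 0 * ent h 0 1) * h2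
    · ring
    · ring
    · linear_combination (- ent g 0 1 * ent h 1 0) * h2

@[simp] lemma swp_uu (β : Aˣ) (a : A) : swp β (uu a) = ll (β * a) := by
  apply sl_ext <;> simp [swp]

@[simp] lemma swp_ll (β : Aˣ) (b : A) : swp β (ll b) = uu (((β⁻¹ : Aˣ) : A) * b) := by
  apply sl_ext <;> simp [swp]

lemma uu_pow (a : A) (n : ℕ) : uu a ^ n = uu ((n : A) * a) := by
  induction n with
  | zero => simp
  | succ n ih =>
    rw [pow_succ, ih, ← uu_add]
    congr 1
    push_cast
    ring

/-- Commuting with `u(1)`. -/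
lemma comm_uu_one {g : SL₂ A} (h : g * uu 1 = uu 1 * g) :
    ent g 1 0 = 0 ∧ ent g 0 0 = ent g 1 1 ∧ ent g 0 0 * ent g 0 0 = 1 := by
  have h00 := congrArg (fun x => ent x 0 0) h
  have h01 := congrArg (fun x => ent x 0 1) h
  simp [ent_mul] at h00 h01
  have hdet := ent_det g
  have hd : ent g 0 0 = ent g 1 1 := by linear_combination h01
  refine ⟨h00, hd, ?_⟩
  rw [h00, ← hd] at hdet
  linear_combination hdet

lemma sq_of_comm {g : SL₂ A} (h : g * uu 1 = uu 1 * g) :
    g * g = uu (2 * (ent g 0 0 * ent g 0 1)) := by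
  obtain ⟨h1, h2, h3⟩ := comm_uu_one h
  apply sl_ext <;> simp [ent_mul, h1, ← h2, h3]
  ring

/-- An element of odd prime order commuting with `u(1)` is upper unitriangular. -/
lemma eq_uu_of_pow {g : SL₂ A} (h : g * uu 1 = uu 1 * g) {p : ℕ} (hp : Odd p) (hpA : (p : A) = 0)
    (hg : g ^ p = 1) : g = uu (ent g 0 0 * ent g 0 1) := by
  obtain ⟨m, hm⟩ := hp
  have h1 : g = g ^ (p + 1) := by rw [pow_succ, hg, one_mul]
  have h2 : p + 1 = 2 * (m + 1) := by omega
  rw [h2, pow_mul, pow_two, sq_of_comm h, uu_pow] at h1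
  have h3 : ((m + 1 : ℕ) : A) * (2 * (ent g 0 0 * ent g 0 1)) = ent g 0 0 * ent g 0 1 := by
    have : ((p + 1 : ℕ) : A) = ((2 * (m + 1) : ℕ) : A) := by rw [h2]
    push_cast at this
    rw [hpA, zero_add] at this
    push_cast
    linear_combination (- (ent g 0 0 * ent g 0 1)) * this
  rw [h3] at h1
  exact h1

/-- The torus element in terms of unitriangular elements. -/
lemma hh_eq (u : Aˣ) : hh u = uu (u : A) * ll (-((u⁻¹ : Aˣ) : A)) * uu (u : A) * uu (-1) * ll 1 * uu (-1) := by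
  apply sl_ext <;> simp [ent_mul]

/-- A group containing all unitriangular elements contains the torus. -/
lemma hh_mem {X : Subgroup (SL₂ A)} (hX : ∀ a, uu a ∈ X ∧ ll a ∈ X) (u : Aˣ) : hh u ∈ X := by
  rw [hh_eq]
  exact X.mul_mem (X.mul_mem (X.mul_mem (X.mul_mem (X.mul_mem (hX _).1 (hX _).2) (hX _).1) (hX _).1) (hX _).2) (hX _).1

lemma comm_uu_hh (b : A) (u : Aˣ) : ⁅uu b, hh u⁆ = uu ((1 - (u : A) * u) * b) := by
  rw [commutatorElement_def]
  have e : uu b * hh u * (uu b)⁻¹ * (hh u)⁻¹ = uu b * (hh u * (uu (-b)) * (hh u)⁻¹) := by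
    rw [uu_neg]; group
  rw [e, hh_conj_uu, ← uu_add]
  congr 1; ring

lemma comm_ll_hh (b : A) (u : Aˣ) : ⁅ll b, hh u⁆ =
    ll ((1 - ((u⁻¹ : Aˣ) : A) * ((u⁻¹ : Aˣ) : A)) * b) := by
  rw [commutatorElement_def]
  have e : ll b * hh u * (ll b)⁻¹ * (hh u)⁻¹ = ll b * (hh u * (ll (-b)) * (hh u)⁻¹) := by
    rw [ll_neg]; group
  rw [e, hh_conj_ll, ← ll_add]
  congr 1; ring

/-- With a good torus element, unitriangular elements survive in the lower central series. -/
lemma uu_ll_mem_gam {X : Subgroup (SL₂ A)} (hX : ∀ a, uu a ∈ X ∧ ll a ∈ X) (t s : Aˣ)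
    (hs : ((1 - (t : A) * t) * (s : A) = 1)) (s' : Aˣ)
    (hs' : ((1 - ((t⁻¹ : Aˣ) : A) * ((t⁻¹ : Aˣ) : A)) * (s' : A) = 1)) (r : ℕ) (a : A) :
    uu a ∈ gam X r ∧ ll a ∈ gam X r := by
  induction r generalizing a with
  | zero => exact hX a
  | succ r ih =>
    constructor
    · have h := Subgroup.commutator_mem_commutator (ih ((s : A) * a)).1 (hh_mem hX t)
      rw [comm_uu_hh] at h
      have e : (1 - (t : A) * t) * ((s : A) * a) = a := by
        rw [← mul_assoc, hs, one_mul]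
      rwa [e] at h
    · have h := Subgroup.commutator_mem_commutator (ih ((s' : A) * a)).2 (hh_mem hX t)
      rw [comm_ll_hh] at h
      have e : (1 - ((t⁻¹ : Aˣ) : A) * ((t⁻¹ : Aˣ) : A)) * ((s' : A) * a) = a := by
        rw [← mul_assoc, hs', one_mul]
      rwa [e] at h

end Basic

/-! ### Elements of a field -/

section FieldFacts

variable {k : Type*} [Field k]

/-- A field of characteristic not two and order not three has an element with `t ≠ 0`, `t² ≠ 1`. -/
lemma exists_good_t (h2 : (2 : k) ≠ 0) (hk3 : Nat.card k ≠ 3) : ∃ t : k, t ≠ 0 ∧ t * t ≠ 1 := by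
  by_contra hcon
  push Not at hcon
  have hall : ∀ t : k, t = 0 ∨ t = 1 ∨ t = -1 := by
    intro t
    by_cases h0 : t = 0
    · exact Or.inl h0
    · right
      have := hcon t h0
      have h3 : (t - 1) * (t + 1) = 0 := by linear_combination this
      rcases mul_eq_zero.1 h3 with h | h
      · left; linear_combination h
      · right; linear_combination h
  apply hk3
  have h01 : (0 : k) ≠ 1 := zero_ne_one
  have h0m : (0 : k) ≠ -1 := by
    intro h; apply h01; linear_combination -h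
  have h1m : (1 : k) ≠ -1 := by
    intro h; apply h2; linear_combination h
  classical
  have : (Set.univ : Set k) = ({0, 1, -1} : Finset k) := by
    ext t
    simp only [Set.mem_univ, Finset.coe_insert, Finset.coe_singleton, Set.mem_insert_iff,
      Set.mem_singleton_iff, true_iff]
    exact hall t
  have h3 : Nat.card k = ((Set.univ : Set k).ncard) := by simp
  rw [h3, this, Set.ncard_coe_finset]
  rw [Finset.card_insert_of_notMem, Finset.card_insert_of_notMem] <;> simp [h01, h0m, h1m]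

end FieldFacts

/-! ### The group `X = gensG k α` -/

section Gens

variable {k A : Type*} [Field k] [CommRing A] [Algebra k A]

lemma gens_uu (α : A) (c : k) : uu (algebraMap k A c) ∈ gensG k α :=
  Subgroup.subset_closure (Or.inl ⟨c, rfl⟩)

lemma gens_ll (α : A) (c : k) : ll (algebraMap k A c * α) ∈ gensG k α :=
  Subgroup.subset_closure (Or.inr ⟨c, rfl⟩)

/-- The scaling automorphism preserves `X`. -/
lemma dd_mem_gens (α : A) (t : kˣ) {g : SL₂ A} (hg : g ∈ gensG k α) :
    dd (Units.map (algebraMap k A).toMonoidHom t) g ∈ gensG k α := by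
  have : (gensG k α) ≤ (gensG k α).comap (dd (Units.map (algebraMap k A).toMonoidHom t)) := by
    unfold gensG
    rw [Subgroup.closure_le]
    rintro x (⟨c, rfl⟩ | ⟨c, rfl⟩)
    · apply Subgroup.subset_closure
      left
      refine ⟨t * c, ?_⟩
      simp [map_mul]
    · apply Subgroup.subset_closure
      right
      refine ⟨(t⁻¹ : kˣ) * c, ?_⟩
      simp [map_mul, mul_assoc]
  exact this hg

/-- The swap automorphism preserves `X`. -/
lemma swp_mem_gens (β : Aˣ) {g : SL₂ A} (hg : g ∈ gensG k (β : A)) : swp β g ∈ gensG k (β : A) := by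
  have : (gensG k (β : A)) ≤ (gensG k (β : A)).comap (swp β) := by
    unfold gensG
    rw [Subgroup.closure_le]
    rintro x (⟨c, rfl⟩ | ⟨c, rfl⟩)
    · apply Subgroup.subset_closure
      right
      refine ⟨c, ?_⟩
      simp [mul_comm]
    · apply Subgroup.subset_closure
      left
      refine ⟨c, ?_⟩
      have h := β.inv_mul
      simp only [swp_ll]
      congr 1
      linear_combination (- algebraMap k A c) * h
  exact this hg

/-- Scaling pure elements inside the lower central series. -/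
lemma uu_smul_mem_gam (α : A) {r : ℕ} {q : A} (h : uu q ∈ gam (gensG k α) r) (c : k) :
    uu (c • q) ∈ gam (gensG k α) r := by
  by_cases hc : c = 0
  · rw [hc, zero_smul, uu_zero]; exact Subgroup.one_mem _
  · have := gam_map_le (dd (Units.map (algebraMap k A).toMonoidHom (Units.mk0 c hc))) (gensG k α)
      (fun g hg => dd_mem_gens α _ hg) r h
    rw [dd_uu] at this
    simpa [Algebra.smul_def] using this

lemma swp_mem_gam (β : Aˣ) {r : ℕ} {q : A} (h : uu q ∈ gam (gensG k (β : A)) r) :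
    ll (β * q) ∈ gam (gensG k (β : A)) r := by
  have := gam_map_le (swp β) (gensG k (β : A)) (fun g hg => swp_mem_gens β hg) r h
  rwa [swp_uu] at this

/-- Homomorphic images. -/
def red {F : Type*} [CommRing F] [Algebra k F] (φ : A →ₐ[k] F) : SL₂ A →* SL₂ F :=
  Matrix.SpecialLinearGroup.map φ.toRingHom

lemma ent_red {F : Type*} [CommRing F] [Algebra k F] (φ : A →ₐ[k] F) (g : SL₂ A) (i j : Fin 2) :
    ent (red φ g) i j = φ (ent g i j) := rfl

@[simp] lemma red_uu {F : Type*} [CommRing F] [Algebra k F] (φ : A →ₐ[k] F) (a : A) :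
    red φ (uu a) = uu (φ a) := by
  apply sl_ext <;> simp [ent_red]

@[simp] lemma red_ll {F : Type*} [CommRing F] [Algebra k F] (φ : A →ₐ[k] F) (a : A) :
    red φ (ll a) = ll (φ a) := by
  apply sl_ext <;> simp [ent_red]

lemma red_gens {F : Type*} [CommRing F] [Algebra k F] (φ : A →ₐ[k] F) (α : A) :
    (gensG k α).map (red φ) = gensG k (φ α) := by
  unfold gensG
  rw [MonoidHom.map_closure, Set.image_union]
  congr 2
  · ext x; simp
  · ext x; simp

lemma red_gens_top {F : Type*} [Field F] [Algebra k F] [FiniteDimensional k A] (h2 : (2 : k) ≠ 0)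
    (hk3 : Nat.card k ≠ 3) (φ : A →ₐ[k] F) (hφ : Function.Surjective φ) {α : A} (hα : IsUnit α)
    (hgen : Algebra.adjoin k {α} = ⊤) : (gensG k α).map (red φ) = ⊤ := by
  rw [red_gens]
  haveI : FiniteDimensional k F := Module.Finite.of_surjective φ.toLinearMap hφ
  refine gens_eq_top h2 hk3 (hα.map φ).ne_zero ?_
  have := AlgHom.map_adjoin φ ({α} : Set A)
  rw [hgen, Set.image_singleton, Algebra.map_top, (AlgHom.range_eq_top φ).2 hφ] at this
  exact this.symm

end Gens

/-! ### The fixed point lemma -/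

section Fixed

variable {k A : Type*} [Field k] [CommRing A] [Algebra k A]

/-- The unitriangular subgroup `u(k)`. -/
def Usub (k : Type*) [Field k] (A : Type*) [CommRing A] [Algebra k A] : Subgroup (SL₂ A) where
  carrier := {g | ∃ c : k, g = uu (algebraMap k A c)}
  one_mem' := ⟨0, by simp⟩
  mul_mem' := by
    rintro _ _ ⟨a, rfl⟩ ⟨b, rfl⟩
    exact ⟨a + b, by rw [map_add, uu_add]⟩
  inv_mem' := by
    rintro _ ⟨a, rfl⟩
    exact ⟨-a, by rw [map_neg, uu_neg]⟩

lemma mem_Usub {g : SL₂ A} : g ∈ Usub k A ↔ ∃ c : k, g = uu (algebraMap k A c) := Iff.rfl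

lemma Usub_pgroup {p : ℕ} (hpA : (p : A) = 0) : IsPGroup p (Usub k A) := by
  rintro ⟨_, c, rfl⟩
  refine ⟨1, ?_⟩
  apply Subtype.ext
  simp [uu_pow, hpA]

/-- The congruence for the conjugation action of `u(k)` on a stable set. -/
lemma card_fixed_modEq {p : ℕ} [Fact p.Prime] [Finite (SL₂ A)] (hpA : (p : A) = 0) (Ω : Set (SL₂ A))
    (hΩ : ∀ u ∈ Usub k A, ∀ g ∈ Ω, u * g * u⁻¹ ∈ Ω) :
    Nat.card Ω ≡ Nat.card ({g | g ∈ Ω ∧ ∀ u ∈ Usub k A, u * g * u⁻¹ = g} : Set (SL₂ A)) [MOD p] := by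
  letI : MulAction (Usub k A) Ω :=
    { smul := fun u g => ⟨(u : SL₂ A) * g * (u : SL₂ A)⁻¹, hΩ u u.2 g g.2⟩
      one_smul := fun g => by
        apply Subtype.ext
        show ((1 : Usub k A) : SL₂ A) * g * ((1 : Usub k A) : SL₂ A)⁻¹ = g
        simp
      mul_smul := fun a b g => by
        apply Subtype.ext
        show ((a * b : Usub k A) : SL₂ A) * g * ((a * b : Usub k A) : SL₂ A)⁻¹ =
          (a : SL₂ A) * ((b : SL₂ A) * g * (b : SL₂ A)⁻¹) * (a : SL₂ A)⁻¹
        simp only [Subgroup.coe_mul, mul_inv_rev, mul_assoc] }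
  have h := (Usub_pgroup (k := k) hpA).card_modEq_card_fixedPoints Ω
  have e : Nat.card (MulAction.fixedPoints (Usub k A) Ω) =
      Nat.card ({g | g ∈ Ω ∧ ∀ u ∈ Usub k A, u * g * u⁻¹ = g} : Set (SL₂ A)) := by
    apply Nat.card_congr
    refine ⟨fun g => ⟨g.1.1, g.1.2, fun u hu => ?_⟩, fun g => ⟨⟨g.1, g.2.1⟩, fun u => ?_⟩, ?_, ?_⟩
    · have := g.2 ⟨u, hu⟩
      exact congrArg Subtype.val this
    · apply Subtype.ext
      exact g.2.2 u u.2
    · intro g; rfl
    · intro g; rfl
  rw [← e]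
  exact h

/-- **Lemma P**: a subgroup normalized by `u(k)`, of order divisible by `p`, contains a nontrivial
`u(q)`. -/
theorem exists_uu_of_dvd {p : ℕ} [Fact p.Prime] [Finite (SL₂ A)] (hp2 : Odd p) (hpA : (p : A) = 0)
    (N : Subgroup (SL₂ A)) (hN : ∀ u ∈ Usub k A, ∀ g ∈ N, u * g * u⁻¹ ∈ N) (hdvd : p ∣ Nat.card N) :
    ∃ q : A, q ≠ 0 ∧ uu q ∈ N := by
  have h := card_fixed_modEq (k := k) hpA (N : Set (SL₂ A)) hN
  -- the centralizer in `N`
  let C : Subgroup (SL₂ A) := N ⊓ Subgroup.centralizer (Usub k A : Set (SL₂ A))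
  have hC : (C : Set (SL₂ A)) = {g | g ∈ (N : Set (SL₂ A)) ∧ ∀ u ∈ Usub k A, u * g * u⁻¹ = g} := by
    ext g
    constructor
    · rintro ⟨h1, h2⟩
      refine ⟨h1, fun u hu => ?_⟩
      have := Subgroup.mem_centralizer_iff.1 h2 u hu
      rw [this]; simp
    · rintro ⟨h1, h2⟩
      refine ⟨h1, Subgroup.mem_centralizer_iff.2 fun u hu => ?_⟩
      have := h2 u hu
      rw [mul_inv_eq_iff_eq_mul] at this
      exact this
  have hcard : Nat.card C = Nat.card ({g | g ∈ (N : Set (SL₂ A)) ∧ ∀ u ∈ Usub k A, u * g * u⁻¹ = g} : Set (SL₂ A)) := by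
    rw [← hC]; rfl
  have hCdvd : p ∣ Nat.card C := by
    rw [hcard]
    have h0 : Nat.card (N : Set (SL₂ A)) ≡ 0 [MOD p] := (Nat.modEq_zero_iff_dvd).2 hdvd
    exact (Nat.modEq_zero_iff_dvd).1 (h.symm.trans h0)
  obtain ⟨g, hg⟩ := exists_prime_orderOf_dvd_card' p hCdvd
  have hgp : (g : SL₂ A) ^ p = 1 := by
    have := pow_orderOf_eq_one g
    rw [hg] at this
    exact congrArg Subtype.val this
  have hgne : (g : SL₂ A) ≠ 1 := by
    intro h1
    have : g = 1 := Subtype.ext h1
    rw [this, orderOf_one] at hg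
    exact (Fact.out : p.Prime).one_lt.ne hg
  have hcomm : (g : SL₂ A) * uu 1 = uu 1 * (g : SL₂ A) := by
    have h1 : uu (1 : A) ∈ Usub k A := ⟨1, by simp⟩
    exact (Subgroup.mem_centralizer_iff.1 g.2.2 _ h1).symm
  have := eq_uu_of_pow hcomm hp2 hpA hgp
  refine ⟨ent (g : SL₂ A) 0 0 * ent (g : SL₂ A) 0 1, ?_, ?_⟩
  · intro h0
    apply hgne
    rw [this, h0, uu_zero]
  · rw [← this]; exact g.2.1

end Fixed

/-! ### Pure elements -/

section Pure

variable {k A : Type*} [Field k] [CommRing A] [Algebra k A]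

/-- Unitriangular elements survive in the lower central series, given all of them and a good torus
element from `k`. -/
lemma uu_ll_mem_gam_k (h2 : (2 : k) ≠ 0) (hk3 : Nat.card k ≠ 3) {X : Subgroup (SL₂ A)}
    (hX : ∀ a, uu a ∈ X ∧ ll a ∈ X) (r : ℕ) (a : A) : uu a ∈ gam X r ∧ ll a ∈ gam X r := by
  obtain ⟨t, ht0, ht1⟩ := exists_good_t h2 hk3
  have hne : (1 - t * t) ≠ 0 := fun h => ht1 (by linear_combination -h)
  have hne' : (1 - t⁻¹ * t⁻¹) ≠ 0 := fun h => ht1 (by
    have : t * t * (1 - t⁻¹ * t⁻¹) = t * t - 1 := by field_simp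
    rw [h, mul_zero] at this
    linear_combination -this)
  refine uu_ll_mem_gam hX (Units.map (algebraMap k A).toMonoidHom (Units.mk0 t ht0))
    (Units.map (algebraMap k A).toMonoidHom (Units.mk0 ((1 - t * t)⁻¹) (inv_ne_zero hne))) ?_
    (Units.map (algebraMap k A).toMonoidHom (Units.mk0 ((1 - t⁻¹ * t⁻¹)⁻¹) (inv_ne_zero hne'))) ?_ r a
  · simp only [Units.coe_map, Units.val_mk0, RingHom.toMonoidHom_eq_coe, MonoidHom.coe_coe]
    rw [← map_mul, ← map_one (algebraMap k A), ← map_sub, ← map_mul, mul_inv_cancel₀ hne]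
  · have e : ((Units.map (algebraMap k A).toMonoidHom (Units.mk0 t ht0))⁻¹ : Aˣ) =
        Units.map (algebraMap k A).toMonoidHom (Units.mk0 t⁻¹ (inv_ne_zero ht0)) := by
      apply Units.ext
      rw [← map_inv]
      congr 2
      apply Units.ext
      simp
    rw [e]
    simp only [Units.coe_map, Units.val_mk0, RingHom.toMonoidHom_eq_coe, MonoidHom.coe_coe]
    rw [← map_mul, ← map_one (algebraMap k A), ← map_sub, ← map_mul, mul_inv_cancel₀ hne']

/-- `gam ⊤ r = ⊤` for `SL₂` of a field. -/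
lemma gam_top_sl2 {F : Type*} [Field F] [Algebra k F] (h2 : (2 : k) ≠ 0) (hk3 : Nat.card k ≠ 3) (r : ℕ) :
    gam (⊤ : Subgroup (SL₂ F)) r = ⊤ := by
  rw [eq_top_iff]
  intro g _
  exact sl2_gen (fun a => (uu_ll_mem_gam_k h2 hk3 (X := ⊤) (fun _ => ⟨trivial, trivial⟩) r a).1)
    (fun a => (uu_ll_mem_gam_k h2 hk3 (X := ⊤) (fun _ => ⟨trivial, trivial⟩) r a).2) g

lemma pure_infinite [Infinite k] [FiniteDimensional k A] [Nontrivial A] (h2 : (2 : k) ≠ 0)
    (hk3 : Nat.card k ≠ 3) {α : A} (hα : IsUnit α) (hgen : Algebra.adjoin k {α} = ⊤) (r : ℕ) (a : A) :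
    uu a ∈ gam (gensG k α) r ∧ ll a ∈ gam (gensG k α) r :=
  uu_ll_mem_gam_k h2 hk3 (fun a => main_infinite h2 hα hgen (isEuclidGroup_gensG α) a) r a

end Pure

/-! ### Characteristic and residue fields -/

section Residue

variable {k A : Type*} [Field k] [CommRing A] [Algebra k A]

lemma char_data [Finite k] [Nontrivial A] (h2 : (2 : k) ≠ 0) :
    ∃ p : ℕ, Fact p.Prime ∧ Odd p ∧ ((p : ℕ) : k) = 0 ∧ ((p : ℕ) : A) = 0 := by
  classical
  haveI : Fintype k := Fintype.ofFinite k
  obtain ⟨p, hp⟩ := CharP.exists k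
  have hprime : p.Prime := (CharP.char_is_prime k p)
  have hk0 : ((p : ℕ) : k) = 0 := CharP.cast_eq_zero k p
  refine ⟨p, ⟨hprime⟩, ?_, hk0, ?_⟩
  · rcases hprime.eq_two_or_odd' with h | h
    · exfalso; apply h2
      rw [h] at hk0
      exact_mod_cast hk0
    · exact h
  · rw [← map_natCast (algebraMap k A), hk0, map_zero]

lemma exists_residue {k : Type*} [Field k] {A : Type v} [CommRing A] [Algebra k A] (𝔪 : Ideal A) (h𝔪 : 𝔪.IsMaximal) :
    ∃ (F : Type v) (_ : Field F) (_ : Algebra k F) (φ : A →ₐ[k] F),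
      Function.Surjective φ ∧ RingHom.ker φ = 𝔪 := by
  letI := Ideal.Quotient.field 𝔪
  refine ⟨A ⧸ 𝔪, inferInstance, inferInstance, Ideal.Quotient.mkₐ k 𝔪, Ideal.Quotient.mkₐ_surjective k 𝔪, ?_⟩
  exact Ideal.Quotient.mkₐ_ker k 𝔪

lemma card_ge_four {F : Type*} [Field F] [Finite F] [Algebra k F] (h2 : (2 : k) ≠ 0) (hk3 : Nat.card k ≠ 3) :
    4 ≤ Nat.card F := by
  classical
  obtain ⟨t, ht0, ht1⟩ := exists_good_t h2 hk3
  haveI : Fintype F := Fintype.ofFinite F
  set t' : F := algebraMap k F t with ht'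
  have ht0' : t' ≠ 0 := by simpa [ht'] using ht0
  have ht1' : t' * t' ≠ 1 := by
    intro h
    apply ht1
    apply (algebraMap k F).injective
    simpa [ht'] using h
  have h2' : (2 : F) ≠ 0 := by
    intro h
    apply h2
    rw [← map_eq_zero (algebraMap k F), map_ofNat]
    exact h
  have ht1'' : t' ≠ 1 := fun h => ht1' (by rw [h, mul_one])
  have htm : t' ≠ -1 := fun h => ht1' (by rw [h]; ring)
  have h01 : (0 : F) ≠ 1 := zero_ne_one
  have h0m : (0 : F) ≠ -1 := by
    intro h; apply h01; linear_combination -h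
  have h1m : (1 : F) ≠ -1 := by
    intro h; apply h2'; linear_combination h
  have hc : ({0, 1, -1, t'} : Finset F).card = 4 := by
    rw [Finset.card_insert_of_notMem, Finset.card_insert_of_notMem, Finset.card_insert_of_notMem,
      Finset.card_singleton]
    · simpa using htm.symm
    · simp [h1m, ht1''.symm]
    · simp [h01, h0m, ht0'.symm]
  rw [Nat.card_eq_fintype_card, ← Finset.card_univ, ← hc]
  exact Finset.card_le_card (Finset.subset_univ _)

end Residue

section FiniteCase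

variable {k : Type*} {A : Type v} [Field k] [CommRing A] [Nontrivial A] [Algebra k A] [FiniteDimensional k A]

/-- `X` with all conjugates by `u(k)`. -/
lemma usub_le_gens (α : A) : Usub k A ≤ gensG k α := by
  rintro _ ⟨c, rfl⟩
  exact gens_uu α c

lemma orderOf_uu_dvd {F : Type*} [Field F] [Finite F] {p : ℕ} [hp : Fact p.Prime] (hpF : (p : F) = 0) :
    p ∣ Nat.card (SL₂ F) := by
  have h : orderOf (uu (1 : F)) = p := by
    apply orderOf_eq_prime
    · rw [uu_pow]; simp [hpF]
    · intro h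
      have := congrArg (fun g => ent g 0 1) h
      simp at this
  rw [← h]
  exact orderOf_dvd_natCard _

/-- Pure elements for finite `k`. -/
theorem pure_finite [Finite k] (h2 : (2 : k) ≠ 0) (hk3 : Nat.card k ≠ 3) {α : A} (hα : IsUnit α)
    (hgen : Algebra.adjoin k {α} = ⊤) (r : ℕ) : ∃ q : A, q ≠ 0 ∧ uu q ∈ gam (gensG k α) r := by
  classical
  haveI : Finite A := Module.finite_of_finite k
  obtain ⟨p, hp, hodd, hpk, hpA⟩ := char_data (A := A) h2
  obtain ⟨𝔪, h𝔪⟩ := Ideal.exists_maximal A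
  obtain ⟨F, _, _, φ, hφ, -⟩ := exists_residue (k := k) 𝔪 h𝔪
  haveI : FiniteDimensional k F := Module.Finite.of_surjective φ.toLinearMap hφ
  haveI : Finite F := Module.finite_of_finite k
  have hmap : (gam (gensG k α) r).map (red φ) = ⊤ := by
    rw [gam_map, red_gens_top h2 hk3 φ hφ hα hgen, gam_top_sl2 h2 hk3]
  have hpF : ((p : ℕ) : F) = 0 := by
    rw [← map_natCast (algebraMap k F), hpk, map_zero]
  have hd : p ∣ Nat.card (gam (gensG k α) r) := by
    have h1 := Subgroup.card_map_dvd (H := gam (gensG k α) r) (red φ)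
    rw [hmap, Subgroup.card_top] at h1
    exact (orderOf_uu_dvd hpF).trans h1
  refine exists_uu_of_dvd (k := k) hodd hpA _ (fun u hu g hg => ?_) hd
  exact gam_conj_mem _ r hg (usub_le_gens α hu)

end FiniteCase

section Pure2

variable {k : Type*} {A : Type v} [Field k] [CommRing A] [Nontrivial A] [Algebra k A] [FiniteDimensional k A]

/-- **Pure elements in the lower central series.** -/
theorem exists_pure (h2 : (2 : k) ≠ 0) (hk3 : Nat.card k ≠ 3) (β : Aˣ)
    (hgen : Algebra.adjoin k {(β : A)} = ⊤) (r : ℕ) :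
    ∃ q : A, q ≠ 0 ∧ ∀ c : k, uu (c • q) ∈ gam (gensG k (β : A)) r ∧
      ll (c • ((β : A) * q)) ∈ gam (gensG k (β : A)) r := by
  have key : ∃ q : A, q ≠ 0 ∧ uu q ∈ gam (gensG k (β : A)) r := by
    by_cases hfin : Finite k
    · exact pure_finite h2 hk3 β.isUnit hgen r
    · haveI : Infinite k := not_finite_iff_infinite.1 hfin
      exact ⟨1, one_ne_zero, (pure_infinite h2 hk3 β.isUnit hgen r 1).1⟩
  obtain ⟨q, hq, hm⟩ := key
  refine ⟨q, hq, fun c => ⟨uu_smul_mem_gam _ hm c, ?_⟩⟩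
  have := swp_mem_gam β (uu_smul_mem_gam _ hm c)
  rwa [mul_smul_comm] at this

end Pure2

end Cfsg.Agent.Lib.RootSubgroups.QuadSL2
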