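/-
Quadratic pairs: if in `X = ⟨u(c), l(cα)⟩ ≤ SL₂(A)` every `q` with `u(q) ∈ X` is zero or a unit then `A` is a field
and `X` contains all unitriangular matrices.
-/
import Mathlib
import Cfsg.Agent.Lib.RootSubgroups.QuadSL2
import Cfsg.Agent.Lib.Classical.NormalSL

set_option autoImplicit false
set_option linter.unusedSimpArgs false
set_option linter.unusedVariables false
set_option linter.unusedSectionVars false
set_option linter.style.haveILetI false

namespace Cfsg.Agent.Lib.RootSubgroups.QuadSL2F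

open Cfsg.Agent.Lib.RootSubgroups.EuclidSL2
open Cfsg.Agent.Lib.RootSubgroups.EuclidFinite
open Cfsg.Agent.Lib.RootSubgroups.QuadFilt
open Cfsg.Agent.Lib.RootSubgroups.QuadSL2
open scoped commutatorElement

local notation "SL₂" => Matrix.SpecialLinearGroup (Fin 2)

universe v

section Central

variable {F : Type*} [Field F] [Finite F]

/-- A normal subgroup of `SL₂(F)` of order prime to `p` is central. -/
lemma central_of_coprime {k : Type*} [Field k] [Algebra k F] (h2 : (2 : k) ≠ 0) (hk3 : Nat.card k ≠ 3)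
    {p : ℕ} [Fact p.Prime] (hpF : ((p : ℕ) : F) = 0) (N : Subgroup (SL₂ F)) [hN : N.Normal]
    (hd : ¬ p ∣ Nat.card N) : N ≤ Subgroup.center (SL₂ F) := by
  have hs : IsSimpleGroup (Matrix.ProjectiveSpecialLinearGroup (Fin 2) F) :=
    Matrix.ProjectiveSpecialLinearGroup.rank_two_simple (card_ge_four h2 hk3)
  have hperf : commutator (SL₂ F) = ⊤ := by
    have := gam_top_sl2 (F := F) h2 hk3 1
    rw [gam_succ, gam_zero] at this
    rw [commutator_def]
    exact this
  rcases Cfsg.Agent.Lib.Classical.NormalSL.normal_eq_top_or_le_center hperf hs N with ht | hc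
  · exfalso
    apply hd
    rw [ht, Subgroup.card_top]
    exact orderOf_uu_dvd hpF
  · exact hc

lemma sq_eq_one_of_center {g : SL₂ F} (hg : g ∈ Subgroup.center (SL₂ F)) : g * g = 1 := by
  obtain ⟨r, hr, hs⟩ := Matrix.SpecialLinearGroup.mem_center_iff.1 hg
  simp only [Fintype.card_fin, sq] at hr
  apply Subtype.ext
  rw [Matrix.SpecialLinearGroup.coe_mul, ← hs]
  ext i j
  fin_cases i <;> fin_cases j <;> simp [Matrix.mul_apply, Fin.sum_univ_two, Matrix.scalar_apply, hr]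

end Central

section Scalar

variable {A : Type*} [CommRing A]

/-- An involution in `SL₂` is scalar, when `2` is a unit. -/
lemma scalar_of_sq_one (h2 : IsUnit (2 : A)) {e : SL₂ A} (he : e * e = 1) :
    ent e 0 1 = 0 ∧ ent e 1 0 = 0 ∧ ent e 0 0 = ent e 1 1 := by
  have hdet := ent_det e
  have h00 := congrArg (fun x => ent x 0 0) he
  have h01 := congrArg (fun x => ent x 0 1) he
  have h10 := congrArg (fun x => ent x 1 0) he
  have h11 := congrArg (fun x => ent x 1 1) he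
  simp [ent_mul] at h00 h01 h10 h11
  set a := ent e 0 0
  set b := ent e 0 1
  set c := ent e 1 0
  set d := ent e 1 1
  have hT : (a + d) * a = 2 := by linear_combination h00 + hdet
  have hunit : IsUnit (a + d) := isUnit_of_mul_isUnit_left (by rw [hT]; exact h2)
  have hb : b = 0 := by
    have : (a + d) * b = 0 := by linear_combination h01
    exact (hunit.mul_right_eq_zero).1 this
  have hc : c = 0 := by
    have : (a + d) * c = 0 := by linear_combination h10
    exact (hunit.mul_right_eq_zero).1 this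
  refine ⟨hb, hc, ?_⟩
  have haunit : IsUnit a := isUnit_of_mul_isUnit_right (by rw [hT]; exact h2)
  have : a * (a - d) = 0 := by
    rw [hb, hc] at h00 hdet
    linear_combination h00 - hdet
  exact sub_eq_zero.1 ((haunit.mul_right_eq_zero).1 this)

end Scalar

section MainFinite

variable {k : Type*} {A : Type v} [Field k] [Finite k] [CommRing A] [Nontrivial A] [Algebra k A]
  [FiniteDimensional k A]

/-- The kernel of a reduction, in `X`. -/
def Ksub {F : Type*} [CommRing F] [Algebra k F] (φ : A →ₐ[k] F) (α : A) : Subgroup (SL₂ A) :=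
  gensG k α ⊓ (red φ).ker

lemma mem_Ksub {F : Type*} [CommRing F] [Algebra k F] {φ : A →ₐ[k] F} {α : A} {e : SL₂ A} :
    e ∈ Ksub φ α ↔ e ∈ gensG k α ∧ red φ e = 1 := by
  unfold Ksub
  rw [Subgroup.mem_inf, MonoidHom.mem_ker]

lemma Ksub_conj {F : Type*} [CommRing F] [Algebra k F] (φ : A →ₐ[k] F) (α : A) {g e : SL₂ A}
    (hg : g ∈ gensG k α) (he : e ∈ Ksub φ α) : g * e * g⁻¹ ∈ Ksub φ α := by
  rw [mem_Ksub] at he ⊢
  refine ⟨mul_mem (mul_mem hg he.1) (inv_mem hg), ?_⟩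
  rw [map_mul, map_mul, map_inv, he.2]
  simp

variable {α : A}

lemma ent_red_eq_of_one {F : Type*} [CommRing F] [Algebra k F] {φ : A →ₐ[k] F} {e : SL₂ A}
    (he : red φ e = 1) (i j : Fin 2) : φ (ent e i j) = ent (1 : SL₂ F) i j := by
  rw [← ent_red, he]

/-- The order of the kernel is prime to `p`. -/
lemma Ksub_coprime {F : Type*} [Field F] [Algebra k F] {p : ℕ} [Fact p.Prime] (hodd : Odd p) (hpA : ((p : ℕ) : A) = 0)
    (hF3 : ∀ q, uu q ∈ gensG k α → q = 0 ∨ IsUnit q) (φ : A →ₐ[k] F) :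
    ¬ p ∣ Nat.card (Ksub φ α) := by
  intro hd
  classical
  haveI : Finite A := Module.finite_of_finite k
  obtain ⟨q, hq, hm⟩ := exists_uu_of_dvd (k := k) hodd hpA (Ksub φ α)
    (fun u hu g hg => Ksub_conj φ α (usub_le_gens α hu) hg) hd
  rw [mem_Ksub] at hm
  rcases hF3 q hm.1 with h | h
  · exact hq h
  · have h1 := hm.2
    rw [red_uu] at h1
    have h2 := congrArg (fun g => ent g 0 1) h1
    simp only [ent_uu_01, ent_one_01] at h2
    exact (h.map φ).ne_zero h2

/-- Surjectivity of `Q → F`. -/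
lemma exists_uu_lift {F : Type*} [Field F] [Algebra k F] (h2 : (2 : k) ≠ 0) (hk3 : Nat.card k ≠ 3)
    {p : ℕ} [Fact p.Prime] (hodd : Odd p) (hpA : ((p : ℕ) : A) = 0)
    (hα : IsUnit α) (hgen : Algebra.adjoin k {α} = ⊤)
    (hF3 : ∀ q, uu q ∈ gensG k α → q = 0 ∨ IsUnit q) (φ : A →ₐ[k] F) (hφ : Function.Surjective φ) (a : F) :
    ∃ q, uu q ∈ gensG k α ∧ φ q = a := by
  classical
  haveI : Finite A := Module.finite_of_finite k
  have h2F : (2 : F) ≠ 0 := by
    intro h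
    apply h2
    rw [← map_eq_zero (algebraMap k F), map_ofNat]
    exact h
  set a' : F := a / 2 with ha'
  have htop := red_gens_top h2 hk3 φ hφ hα hgen
  obtain ⟨g₀, hg₀, hg₀'⟩ : uu a' ∈ (gensG k α).map (red φ) := by rw [htop]; trivial
  set Ω : Set (SL₂ A) := {g | g ∈ gensG k α ∧ red φ g = uu a'} with hΩ
  have hstable : ∀ u ∈ Usub k A, ∀ g ∈ Ω, u * g * u⁻¹ ∈ Ω := by
    rintro u ⟨c, rfl⟩ g ⟨hgX, hgr⟩
    refine ⟨mul_mem (mul_mem (gens_uu α c) hgX) (inv_mem (gens_uu α c)), ?_⟩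
    rw [map_mul, map_mul, map_inv, hgr, red_uu, mul_inv_eq_iff_eq_mul, ← uu_add, ← uu_add, add_comm]
  have hcardΩ : Nat.card Ω = Nat.card (Ksub φ α) := by
    apply Nat.card_congr
    refine ⟨fun g => ⟨g₀⁻¹ * g.1, ?_⟩, fun e => ⟨g₀ * e.1, ?_⟩, ?_, ?_⟩
    · rw [mem_Ksub]
      refine ⟨mul_mem (inv_mem hg₀) g.2.1, ?_⟩
      rw [map_mul, map_inv, hg₀', g.2.2]; simp
    · have he := mem_Ksub.1 e.2
      refine ⟨mul_mem hg₀ he.1, ?_⟩
      rw [map_mul, hg₀', he.2, mul_one]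
    · intro g; simp
    · intro e; simp
  have hmod := card_fixed_modEq (k := k) hpA Ω hstable
  have hcop := Ksub_coprime (k := k) hodd hpA hF3 φ
  have hne : ({g | g ∈ Ω ∧ ∀ u ∈ Usub k A, u * g * u⁻¹ = g} : Set (SL₂ A)).Nonempty := by
    by_contra hemp
    rw [Set.not_nonempty_iff_eq_empty] at hemp
    rw [hemp] at hmod
    apply hcop
    rw [← hcardΩ]
    have : Nat.card (∅ : Set (SL₂ A)) = 0 := by simp
    rw [this] at hmod
    exact (Nat.modEq_zero_iff_dvd).1 hmod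
  obtain ⟨g, ⟨hgX, hgr⟩, hfix⟩ := hne
  have hcomm : g * uu 1 = uu 1 * g := by
    have := hfix (uu 1) ⟨1, by simp⟩
    rw [mul_inv_eq_iff_eq_mul] at this
    exact this.symm
  refine ⟨2 * (ent g 0 0 * ent g 0 1), ?_, ?_⟩
  · rw [← sq_of_comm hcomm]
    exact mul_mem hgX hgX
  · have h1 : φ (ent g 0 0) = 1 := by rw [← ent_red, hgr]; simp
    have h2' : φ (ent g 0 1) = a' := by rw [← ent_red, hgr]; simp
    rw [map_mul, map_mul, h1, h2', map_ofNat, ha']
    field_simp

/-- Surjectivity of `Q' → F`. -/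
lemma exists_ll_lift {F : Type*} [Field F] [Algebra k F] (h2 : (2 : k) ≠ 0) (hk3 : Nat.card k ≠ 3)
    {p : ℕ} [Fact p.Prime] (hodd : Odd p) (hpA : ((p : ℕ) : A) = 0)
    (β : Aˣ) (hgen : Algebra.adjoin k {(β : A)} = ⊤)
    (hF3 : ∀ q, uu q ∈ gensG k (β : A) → q = 0 ∨ IsUnit q) (φ : A →ₐ[k] F) (hφ : Function.Surjective φ) (a : F) :
    ∃ q, ll q ∈ gensG k (β : A) ∧ φ q = a := by
  have hβ : φ (β : A) ≠ 0 := (β.isUnit.map φ).ne_zero
  obtain ⟨q, hq, e⟩ := exists_uu_lift h2 hk3 hodd hpA β.isUnit hgen hF3 φ hφ (a / φ (β : A))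
  refine ⟨(β : A) * q, ?_, ?_⟩
  · have := swp_mem_gens (k := k) β hq
    rwa [swp_uu] at this
  · rw [map_mul, e]
    field_simp

/-- `ll b ∈ X`, `b ≠ 0`, implies `b` is a unit. -/
lemma ll_unit (β : Aˣ) (hF3 : ∀ q, uu q ∈ gensG k (β : A) → q = 0 ∨ IsUnit q) {b : A}
    (hb : ll b ∈ gensG k (β : A)) (hb0 : b ≠ 0) : IsUnit b := by
  have := swp_mem_gens (k := k) β hb
  rw [swp_ll] at this
  rcases hF3 _ this with h | h
  · exfalso
    apply hb0
    have h3 := β.mul_inv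
    calc b = (β : A) * (((β⁻¹ : Aˣ) : A) * b) := by rw [← mul_assoc, h3, one_mul]
      _ = 0 := by rw [h, mul_zero]
  · have hb' : b = (β : A) * (((β⁻¹ : Aˣ) : A) * b) := by
      have h3 := β.mul_inv
      rw [← mul_assoc, h3, one_mul]
    rw [hb']
    exact β.isUnit.mul h

/-- Elements of the kernel are scalar. -/
lemma Ksub_scalar {F : Type*} [Field F] [Algebra k F] (h2 : (2 : k) ≠ 0) (hk3 : Nat.card k ≠ 3)
    {p : ℕ} [hpr : Fact p.Prime] (hodd : Odd p) (hpk : ((p : ℕ) : k) = 0) (hpA : ((p : ℕ) : A) = 0)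
    (hα : IsUnit α) (hgen : Algebra.adjoin k {α} = ⊤)
    (hF3 : ∀ q, uu q ∈ gensG k α → q = 0 ∨ IsUnit q) (φ : A →ₐ[k] F) {e : SL₂ A} (he : e ∈ Ksub φ α) :
    ent e 0 1 = 0 ∧ ent e 1 0 = 0 ∧ ent e 0 0 = ent e 1 1 := by
  classical
  haveI : Finite A := Module.finite_of_finite k
  haveI : IsArtinianRing A := inferInstance
  have hcop := Ksub_coprime (k := k) hodd hpA hF3 φ
  -- reduction modulo every maximal ideal
  have hmax : ∀ (𝔪 : Ideal A), 𝔪.IsMaximal → ∀ i j,
      ent (e * e) i j - ent (1 : SL₂ A) i j ∈ 𝔪 := by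
    intro 𝔪 h𝔪 i j
    obtain ⟨F', _, _, ψ, hψ, hker⟩ := exists_residue (k := k) 𝔪 h𝔪
    haveI : FiniteDimensional k F' := Module.Finite.of_surjective ψ.toLinearMap hψ
    haveI : Finite F' := Module.finite_of_finite k
    have hpF' : ((p : ℕ) : F') = 0 := by
      rw [← map_natCast (algebraMap k F'), hpk, map_zero]
    have htop := red_gens_top h2 hk3 ψ hψ hα hgen
    let N : Subgroup (SL₂ F') := (Ksub φ α).map (red ψ)
    haveI hNn : N.Normal := by
      constructor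
      rintro _ ⟨x, hx, rfl⟩ s
      obtain ⟨g, hg, rfl⟩ : s ∈ (gensG k α).map (red ψ) := by rw [htop]; trivial
      refine ⟨g * x * g⁻¹, Ksub_conj φ α hg hx, ?_⟩
      simp only [map_mul, map_inv]
    have hNd : ¬ p ∣ Nat.card N := fun h => hcop (h.trans (Subgroup.card_map_dvd (Ksub φ α) (red ψ)))
    have hcen := central_of_coprime h2 hk3 hpF' N hNd
    have h1 : red ψ e ∈ Subgroup.center (SL₂ F') := hcen ⟨e, he, rfl⟩
    have h3 := sq_eq_one_of_center h1
    rw [← map_mul] at h3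
    rw [← hker, RingHom.mem_ker]
    show ψ _ = 0
    rw [map_sub, ← ent_red, h3, ← ent_red, map_one, sub_self]
  -- the Jacobson radical is nilpotent
  obtain ⟨N, hN⟩ := IsArtinianRing.isNilpotent_jacobson_bot (R := A)
  set J : Ideal A := Ideal.jacobson ⊥ with hJ
  have hJmem : ∀ i j, ent (e * e) i j - ent (1 : SL₂ A) i j ∈ J := by
    intro i j
    rw [hJ, Ideal.jacobson, Submodule.mem_sInf]
    rintro 𝔪 ⟨-, h𝔪⟩
    exact hmax 𝔪 h𝔪 i j
  set f : Matrix (Fin 2) (Fin 2) A :=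
    ((e * e : SL₂ A) : Matrix (Fin 2) (Fin 2) A) - 1 with hf
  have hfent : ∀ i j, f i j ∈ J := by
    intro i j
    have := hJmem i j
    simpa [hf, ent, Matrix.sub_apply] using this
  have hfpow : ∀ n : ℕ, ∀ i j, (f ^ (n + 1)) i j ∈ J ^ (n + 1) := by
    intro n
    induction n with
    | zero => intro i j; simpa using hfent i j
    | succ n ih =>
      intro i j
      rw [pow_succ f (n + 1), Matrix.mul_apply, Fin.sum_univ_two, pow_succ J (n + 1)]
      exact Ideal.add_mem _ (Ideal.mul_mem_mul (ih i 0) (hfent 0 j)) (Ideal.mul_mem_mul (ih i 1) (hfent 1 j))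
  have hfN : f ^ (N + 1) = 0 := by
    ext i j
    have := hfpow N i j
    have hJN : J ^ (N + 1) = ⊥ := by
      rw [pow_succ, hN]; simp
    rw [hJN, Ideal.mem_bot] at this
    simpa using this
  -- the `p`-power order
  haveI : CharP A p := by
    obtain ⟨q, hq⟩ := CharP.exists k
    have hqp : q = p := by
      have h1 : q ∣ p := (CharP.cast_eq_zero_iff k q p).1 hpk
      have hqne : q ≠ 1 := CharP.char_ne_one k q
      exact (Nat.dvd_prime hpr.out).1 h1 |>.resolve_left hqne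
    subst hqp
    exact charP_of_injective_algebraMap (algebraMap k A).injective q
  haveI : CharP (Matrix (Fin 2) (Fin 2) A) p := inferInstance
  have hpow : ((e * e : SL₂ A) : Matrix (Fin 2) (Fin 2) A) ^ (p ^ (N + 1)) = 1 := by
    have h1 : ((e * e : SL₂ A) : Matrix (Fin 2) (Fin 2) A) = 1 + f := by simp [hf]
    rw [h1, add_pow_char_pow_of_commute p (N + 1) (Commute.one_left f)]
    have hle : N + 1 ≤ p ^ (N + 1) := (Nat.lt_pow_self hpr.out.one_lt).le
    rw [one_pow, ← Nat.add_sub_cancel' hle, pow_add, hfN, zero_mul, add_zero]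
  have heK : e * e ∈ Ksub φ α := mul_mem he he
  let ε : Ksub φ α := ⟨e * e, heK⟩
  have h1 : ε ^ (p ^ (N + 1)) = 1 := by
    apply Subtype.ext
    apply Subtype.ext
    show ((e * e : SL₂ A) ^ (p ^ (N + 1)) : SL₂ A).1 = 1
    rw [Matrix.SpecialLinearGroup.coe_pow]
    exact hpow
  have h2' : ε ^ (Nat.card (Ksub φ α)) = 1 := pow_card_eq_one'
  have hgcd : Nat.gcd (p ^ (N + 1)) (Nat.card (Ksub φ α)) = 1 :=
    Nat.Coprime.pow_left _ ((Nat.Prime.coprime_iff_not_dvd hpr.out).2 hcop)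
  have h3 := pow_gcd_eq_one.2 ⟨h1, h2'⟩
  rw [hgcd, pow_one] at h3
  have hee : e * e = 1 := congrArg Subtype.val h3
  have h2A : IsUnit (2 : A) := by
    have : (2 : A) = algebraMap k A 2 := (map_ofNat _ 2).symm
    rw [this]
    exact (isUnit_iff_ne_zero.2 h2).map _
  exact scalar_of_sq_one h2A hee

/-- The relation: `α' β ≡ 1` forces `α' β = 1`. -/
lemma relation {F : Type*} [Field F] [Algebra k F] (h2 : (2 : k) ≠ 0) (hk3 : Nat.card k ≠ 3)
    {p : ℕ} [hpr : Fact p.Prime] (hodd : Odd p) (hpk : ((p : ℕ) : k) = 0) (hpA : ((p : ℕ) : A) = 0)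
    (β₀ : Aˣ) (hgen : Algebra.adjoin k {(β₀ : A)} = ⊤)
    (hF3 : ∀ q, uu q ∈ gensG k (β₀ : A) → q = 0 ∨ IsUnit q) (φ : A →ₐ[k] F) (hφ : Function.Surjective φ)
    {a b : A} (ha : uu a ∈ gensG k (β₀ : A)) (hb : ll b ∈ gensG k (β₀ : A)) (hab : φ a * φ b = 1) :
    a * b = 1 := by
  have h2A : IsUnit (2 : A) := by
    have : (2 : A) = algebraMap k A 2 := (map_ofNat _ 2).symm
    rw [this]
    exact (isUnit_iff_ne_zero.2 h2).map _
  obtain ⟨d, hd, hd'⟩ := exists_ll_lift h2 hk3 hodd hpA β₀ hgen hF3 φ hφ (φ b * φ b)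
  set P : A := 1 - a * b with hP
  have hφP : φ P = 0 := by
    rw [hP, map_sub, map_one, map_mul, hab, sub_self]
  set g : SL₂ A := uu a * ll (-b) * uu a with hg
  set e : SL₂ A := ll d * (g * uu 1 * g⁻¹) with he
  have hginv : g⁻¹ = uu (-a) * ll b * uu (-a) := by
    rw [hg, mul_inv_rev, mul_inv_rev, ← uu_neg, ← ll_neg, neg_neg, mul_assoc]
  have hX : g ∈ gensG k (β₀ : A) := mul_mem (mul_mem ha (by rw [ll_neg]; exact inv_mem hb)) ha
  have hu1 : uu (1 : A) ∈ gensG k (β₀ : A) := by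
    have := gens_uu (k := k) (β₀ : A) 1
    simpa using this
  have heX : e ∈ gensG k (β₀ : A) := mul_mem hd (mul_mem (mul_mem hX hu1) (inv_mem hX))
  have e00 : ent e 0 0 = 1 + P * b := by
    rw [he, hginv, hg]; simp [ent_mul, hP]; ring
  have e01 : ent e 0 1 = P * P := by
    rw [he, hginv, hg]; simp [ent_mul, hP]; ring
  have e10 : ent e 1 0 = d * (1 + P * b) - b * b := by
    rw [he, hginv, hg]; simp [ent_mul, hP]; ring
  have e11 : ent e 1 1 = d * (P * P) + 1 - P * b := by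
    rw [he, hginv, hg]; simp [ent_mul, hP]; ring
  have hred : red φ e = 1 := by
    apply sl_ext
    · rw [ent_red, e00]; simp [hφP]
    · rw [ent_red, e01]; simp [hφP]
    · rw [ent_red, e10]; simp [hφP, hd']
    · rw [ent_red, e11]; simp [hφP]
  have hK : e ∈ Ksub φ (β₀ : A) := mem_Ksub.2 ⟨heX, hred⟩
  obtain ⟨s1, s2, s3⟩ := Ksub_scalar h2 hk3 hodd hpk hpA β₀.isUnit hgen hF3 φ hK
  rw [e01] at s1
  rw [e00, e11, s1] at s3
  have hb0 : b ≠ 0 := by
    intro h
    rw [h, map_zero, mul_zero] at hab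
    exact zero_ne_one hab
  have hbu : IsUnit b := ll_unit β₀ hF3 hb hb0
  have h4 : (2 * b) * P = 0 := by linear_combination s3
  have h5 := ((h2A.mul hbu).mul_right_eq_zero).1 h4
  rw [hP] at h5
  linear_combination -h5

/-- **The field criterion for finite `k`.** -/
theorem field_finite (h2 : (2 : k) ≠ 0) (hk3 : Nat.card k ≠ 3) (β₀ : Aˣ)
    (hgen : Algebra.adjoin k {(β₀ : A)} = ⊤) (hF3 : ∀ q, uu q ∈ gensG k (β₀ : A) → q = 0 ∨ IsUnit q) :
    (∀ a : A, a = 0 ∨ IsUnit a) ∧ ∀ a : A, uu a ∈ gensG k (β₀ : A) ∧ ll a ∈ gensG k (β₀ : A) := by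
  classical
  haveI : Finite A := Module.finite_of_finite k
  obtain ⟨p, hp, hodd, hpk, hpA⟩ := char_data (A := A) h2
  obtain ⟨𝔪, h𝔪⟩ := Ideal.exists_maximal A
  obtain ⟨F, _, _, φ, hφ, -⟩ := exists_residue (k := k) 𝔪 h𝔪
  set X := gensG k (β₀ : A) with hXdef
  have hX : IsEuclidGroup k (β₀ : A) X := isEuclidGroup_gensG _
  -- the subspace `Q`
  set Q : Submodule k A := uSet hX h2 with hQ
  have hQmem : ∀ {q : A}, q ∈ Q ↔ uu q ∈ X := Iff.rfl
  have h1Q : (1 : A) ∈ Q := by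
    have := hX.hu 1
    rw [map_one] at this
    exact this
  -- inverses
  have hinv : ∀ a, uu a ∈ X → a ≠ 0 → ∃ b, ll b ∈ X ∧ a * b = 1 := by
    intro a ha ha0
    have hau : IsUnit a := (hF3 a ha).resolve_left ha0
    obtain ⟨b, hb, hb'⟩ := exists_ll_lift h2 hk3 hodd hpA β₀ hgen hF3 φ hφ (φ a)⁻¹
    refine ⟨b, hb, ?_⟩
    refine relation h2 hk3 hodd hpk hpA β₀ hgen hF3 φ hφ ha hb ?_
    rw [hb']
    exact mul_inv_cancel₀ (hau.map φ).ne_zero
  -- `ll 1`
  have hl1 : ll (1 : A) ∈ X := by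
    obtain ⟨b, hb, hb'⟩ := hinv 1 h1Q one_ne_zero
    rw [one_mul] at hb'
    rwa [hb'] at hb
  -- the torus
  have hsq : ∀ v q : A, v ∈ Q → q ∈ Q → v * v * q ∈ Q := by
    intro v q hv hq
    by_cases hv0 : v = 0
    · rw [hv0]; simp
    · obtain ⟨b, hb, hvb⟩ := hinv v hv hv0
      let u : Aˣ := ⟨v, b, hvb, by rw [mul_comm]; exact hvb⟩
      have hu : hh u ∈ X := by
        rw [hh_eq]
        have hbn : ll (-((u⁻¹ : Aˣ) : A)) ∈ X := by
          show ll (-b) ∈ X
          rw [ll_neg]; exact inv_mem hb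
        have hm1 : uu (-1 : A) ∈ X := by
          rw [uu_neg]; exact inv_mem h1Q
        exact mul_mem (mul_mem (mul_mem (mul_mem (mul_mem hv hbn) hv) hm1) hl1) hm1
      have := mul_mem (mul_mem hu hq) (inv_mem hu)
      rwa [hh_conj_uu] at this
  -- polarization
  have hmul : ∀ a q : A, a ∈ Q → q ∈ Q → a * q ∈ Q := by
    intro a q ha hq
    have h2k : (2 : k)⁻¹ * 2 = 1 := inv_mul_cancel₀ h2
    set c : k := (2 : k)⁻¹ with hc
    have hv1 : c • (a + 1) ∈ Q := Q.smul_mem c (Q.add_mem ha h1Q)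
    have hv2 : c • (a - 1) ∈ Q := Q.smul_mem c (Q.sub_mem ha h1Q)
    have hcA : algebraMap k A c * 2 = 1 := by
      have := congrArg (algebraMap k A) h2k
      rwa [map_mul, map_ofNat, map_one] at this
    have e : a * q = (c • (a + 1)) * (c • (a + 1)) * q - (c • (a - 1)) * (c • (a - 1)) * q := by
      simp only [Algebra.smul_def]
      linear_combination (- a * q * (algebraMap k A c * 2 + 1)) * hcA
    rw [e]
    exact Q.sub_mem (hsq _ _ hv1 hq) (hsq _ _ hv2 hq)
  -- the inverse of the generator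
  have hβinv : ((β₀⁻¹ : Aˣ) : A) ∈ Q := by
    have := swp_mem_gens (k := k) β₀ hl1
    rw [swp_ll, mul_one] at this
    exact this
  have hpowQ : ∀ n : ℕ, ((β₀⁻¹ : Aˣ) : A) ^ n ∈ Q := by
    intro n
    induction n with
    | zero => simpa using h1Q
    | succ n ih =>
      rw [pow_succ]
      exact hmul _ _ ih hβinv
  have hβQ : (β₀ : A) ∈ Q := by
    have hfo : IsOfFinOrder (β₀⁻¹ : Aˣ) := isOfFinOrder_of_finite _
    obtain ⟨n, hn, hn1⟩ := hfo.exists_pow_eq_one
    have e : (β₀ : A) = ((β₀⁻¹ : Aˣ) : A) ^ (n - 1) := by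
      have h3 : (β₀⁻¹ : Aˣ) ^ (n - 1) * β₀⁻¹ = 1 := by
        rw [← pow_succ, Nat.sub_add_cancel hn, hn1]
      have h4 : (β₀⁻¹ : Aˣ) ^ (n - 1) = β₀ := by
        rw [mul_inv_eq_one] at h3
        exact h3
      have h5 := congrArg Units.val h4
      rw [Units.val_pow_eq_pow_val] at h5
      exact h5.symm
    rw [e]
    exact hpowQ _
  -- `Q` is everything
  have hQtop : ∀ a : A, a ∈ Q := by
    let S : Subalgebra k A :=
      { carrier := Q
        mul_mem' := fun {a b} ha hb => hmul a b ha hb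
        add_mem' := fun {a b} ha hb => Q.add_mem ha hb
        algebraMap_mem' := fun c => by
          have := Q.smul_mem c h1Q
          rwa [Algebra.smul_def, mul_one] at this }
    have hS : Algebra.adjoin k {(β₀ : A)} ≤ S := Algebra.adjoin_le (by
      rintro x (rfl : x = _)
      exact hβQ)
    intro a
    rw [hgen] at hS
    exact hS (Algebra.mem_top (x := a))
  refine ⟨fun a => hF3 a (hQtop a), fun a => ⟨hQtop a, ?_⟩⟩
  have := swp_mem_gens (k := k) β₀ (hQtop (((β₀⁻¹ : Aˣ) : A) * a))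
  rw [swp_uu, ← mul_assoc, β₀.mul_inv, one_mul] at this
  exact this

end MainFinite

section Summary

variable {k : Type*} {A : Type v} [Field k] [CommRing A] [Nontrivial A] [Algebra k A] [FiniteDimensional k A]

/-- **The field criterion.** -/
theorem field_criterion (h2 : (2 : k) ≠ 0) (hk3 : Nat.card k ≠ 3) (β₀ : Aˣ)
    (hgen : Algebra.adjoin k {(β₀ : A)} = ⊤) (hF3 : ∀ q, uu q ∈ gensG k (β₀ : A) → q = 0 ∨ IsUnit q) :
    (∀ a : A, a = 0 ∨ IsUnit a) ∧ ∀ a : A, uu a ∈ gensG k (β₀ : A) ∧ ll a ∈ gensG k (β₀ : A) := by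
  by_cases hfin : Finite k
  · exact field_finite h2 hk3 β₀ hgen hF3
  · haveI : Infinite k := not_finite_iff_infinite.1 hfin
    have h := fun a => main_infinite h2 β₀.isUnit hgen (isEuclidGroup_gensG (k := k) (β₀ : A)) a
    exact ⟨fun a => hF3 a (h a).1, h⟩

end Summary

end Cfsg.Agent.Lib.RootSubgroups.QuadSL2F
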