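/-
Matched pairs `x n x = x`, `n x n = n`, `x² = n² = 0` in a ring, and the `SL₂`-action they define.
-/
import Mathlib
import Cfsg.Agent.Lib.RootSubgroups.QuadSL2F

set_option autoImplicit false
set_option linter.unusedSimpArgs false
set_option linter.unusedVariables false
set_option linter.unusedSectionVars false
set_option linter.style.haveILetI false

namespace Cfsg.Agent.Lib.RootSubgroups.QuadMatched

open Cfsg.Agent.Lib.RootSubgroups.EuclidSL2
open Cfsg.Agent.Lib.RootSubgroups.QuadSL2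

local notation "SL₂" => Matrix.SpecialLinearGroup (Fin 2)

section Ring

variable {R : Type*} [Ring R]

/-- A matched pair. -/
structure IsMatched (x n : R) : Prop where
  xx : x * x = 0
  nn : n * n = 0
  xnx : x * n * x = x
  nxn : n * x * n = n

namespace IsMatched

variable {x n : R} (h : IsMatched x n)
include h

lemma symm : IsMatched n x := ⟨h.nn, h.xx, h.nxn, h.xnx⟩

lemma e1e1 : (x * n) * (x * n) = x * n := by
  rw [← mul_assoc, h.xnx]

lemma e1e2 : (x * n) * (n * x) = 0 := by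
  rw [mul_assoc, ← mul_assoc n, h.nn, zero_mul, mul_zero]

lemma e2e1 : (n * x) * (x * n) = 0 := by
  rw [mul_assoc, ← mul_assoc x, h.xx, zero_mul, mul_zero]

lemma e2e2 : (n * x) * (n * x) = n * x := by
  rw [← mul_assoc, h.nxn]

lemma e1x : (x * n) * x = x := h.xnx
lemma e1n : (x * n) * n = 0 := by rw [mul_assoc, h.nn, mul_zero]
lemma e2x : (n * x) * x = 0 := by rw [mul_assoc, h.xx, mul_zero]
lemma e2n : (n * x) * n = n := h.nxn
lemma xe1 : x * (x * n) = 0 := by rw [← mul_assoc, h.xx, zero_mul]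
lemma xe2 : x * (n * x) = x := by rw [← mul_assoc, h.xnx]
lemma ne1 : n * (x * n) = n := by rw [← mul_assoc, h.nxn]
lemma ne2 : n * (n * x) = 0 := by rw [← mul_assoc, h.nn, zero_mul]

/-- The idempotent `π = xn + nx`. -/
lemma pi_sq : (x * n + n * x) * (x * n + n * x) = x * n + n * x := by
  rw [add_mul, mul_add, mul_add, h.e1e1, h.e1e2, h.e2e1, h.e2e2]; simp

lemma pi_x : (x * n + n * x) * x = x := by
  rw [add_mul, h.e1x, h.e2x, add_zero]

lemma x_pi : x * (x * n + n * x) = x := by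
  rw [mul_add, h.xe1, h.xe2, zero_add]

lemma pi_n : (x * n + n * x) * n = n := by
  rw [add_mul, h.e1n, h.e2n, zero_add]

lemma n_pi : n * (x * n + n * x) = n := by
  rw [mul_add, h.ne1, h.ne2, add_zero]

end IsMatched

variable {A : Type*} [CommRing A]

/-- The multiplication table of the `SL₂`-action. -/
lemma psi_mul {x n : R} (h : IsMatched x n) (ι : A →+* R) (hx : ∀ a, Commute x (ι a)) (hn : ∀ a, Commute n (ι a))
    (a b c d a' b' c' d' : A) :
    (ι a * (x * n) + ι d * (n * x) + ι b * x + ι c * n) *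
      (ι a' * (x * n) + ι d' * (n * x) + ι b' * x + ι c' * n) =
    ι (a * a' + b * c') * (x * n) + ι (c * b' + d * d') * (n * x) + ι (a * b' + b * d') * x +
      ι (c * a' + d * c') * n := by
  have key : ∀ (p q : A) (s t : R), Commute s (ι q) → (ι p * s) * (ι q * t) = ι (p * q) * (s * t) := by
    intro p q s t hs
    rw [map_mul, mul_assoc, ← mul_assoc s, hs.eq, mul_assoc, mul_assoc]
  have he1 : ∀ a, Commute (x * n) (ι a) := fun a => (hx a).mul_left (hn a)
  have he2 : ∀ a, Commute (n * x) (ι a) := fun a => (hn a).mul_left (hx a)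
  simp only [add_mul, mul_add]
  rw [key _ _ _ _ (he1 _), key _ _ _ _ (he1 _), key _ _ _ _ (he1 _), key _ _ _ _ (he1 _),
    key _ _ _ _ (he2 _), key _ _ _ _ (he2 _), key _ _ _ _ (he2 _), key _ _ _ _ (he2 _),
    key _ _ _ _ (hx _), key _ _ _ _ (hx _), key _ _ _ _ (hx _), key _ _ _ _ (hx _),
    key _ _ _ _ (hn _), key _ _ _ _ (hn _), key _ _ _ _ (hn _), key _ _ _ _ (hn _)]
  rw [h.e1e1, h.e1e2, h.e1x, h.e1n, h.e2e1, h.e2e2, h.e2x, h.e2n, h.xe1, h.xe2, h.xx, h.ne1, h.ne2, h.nn]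
  simp only [mul_zero, add_zero, zero_add, map_add, add_mul]
  abel

/-- The (possibly non-unital) `SL₂`-action of a matched pair. -/
def psi (x n : R) (ι : A →+* R) (g : SL₂ A) : R :=
  ι (ent g 0 0) * (x * n) + ι (ent g 1 1) * (n * x) + ι (ent g 0 1) * x + ι (ent g 1 0) * n

lemma psi_mul' {x n : R} (h : IsMatched x n) (ι : A →+* R) (hx : ∀ a, Commute x (ι a))
    (hn : ∀ a, Commute n (ι a)) (g g' : SL₂ A) : psi x n ι (g * g') = psi x n ι g * psi x n ι g' := by
  unfold psi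
  rw [psi_mul h ι hx hn, ent_mul, ent_mul, ent_mul, ent_mul]

lemma psi_one (x n : R) (ι : A →+* R) : psi x n ι (1 : SL₂ A) = x * n + n * x := by
  simp [psi]

lemma psi_uu (x n : R) (ι : A →+* R) (a : A) : psi x n ι (uu a) = x * n + n * x + ι a * x := by
  simp [psi]

lemma psi_ll (x n : R) (ι : A →+* R) (a : A) : psi x n ι (ll a) = x * n + n * x + ι a * n := by
  simp [psi]

lemma psi_extract {x n : R} (h : IsMatched x n) (ι : A →+* R) (hx : ∀ a, Commute x (ι a))
    (hn : ∀ a, Commute n (ι a)) (g : SL₂ A) :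
    (x * n) * psi x n ι g * x = ι (ent g 0 0) * x ∧ (n * x) * psi x n ι g * n = ι (ent g 1 1) * n ∧
    (x * n) * psi x n ι g * (n * x) = ι (ent g 0 1) * x ∧ (n * x) * psi x n ι g * (x * n) = ι (ent g 1 0) * n := by
  have key : ∀ (p : A) (s t u : R), Commute s (ι p) → s * (ι p * t) * u = ι p * (s * t * u) := by
    intro p s t u hs
    rw [← mul_assoc, hs.eq, mul_assoc, mul_assoc, mul_assoc]
  have he1 : ∀ a, Commute (x * n) (ι a) := fun a => (hx a).mul_left (hn a)
  have he2 : ∀ a, Commute (n * x) (ι a) := fun a => (hn a).mul_left (hx a)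
  unfold psi
  refine ⟨?_, ?_, ?_, ?_⟩
  · simp only [mul_add, add_mul]
    rw [key _ _ _ _ (he1 _), key _ _ _ _ (he1 _), key _ _ _ _ (he1 _), key _ _ _ _ (he1 _)]
    simp only [h.e1e1, h.e1e2, h.e1x, h.e1n, h.e2e1, h.e2e2, h.e2x, h.e2n, h.xx, h.nn, h.xe2, h.ne1, h.xe1, h.ne2,
      zero_mul, mul_zero, add_zero, zero_add]
  · simp only [mul_add, add_mul]
    rw [key _ _ _ _ (he2 _), key _ _ _ _ (he2 _), key _ _ _ _ (he2 _), key _ _ _ _ (he2 _)]
    simp only [h.e1e1, h.e1e2, h.e1x, h.e1n, h.e2e1, h.e2e2, h.e2x, h.e2n, h.xx, h.nn, h.xe2, h.ne1, h.xe1, h.ne2,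
      zero_mul, mul_zero, add_zero, zero_add]
  · simp only [mul_add, add_mul]
    rw [key _ _ _ _ (he1 _), key _ _ _ _ (he1 _), key _ _ _ _ (he1 _), key _ _ _ _ (he1 _)]
    simp only [h.e1e1, h.e1e2, h.e1x, h.e1n, h.e2e1, h.e2e2, h.e2x, h.e2n, h.xx, h.nn, h.xe2, h.ne1, h.xe1, h.ne2,
      zero_mul, mul_zero, add_zero, zero_add]
  · simp only [mul_add, add_mul]
    rw [key _ _ _ _ (he2 _), key _ _ _ _ (he2 _), key _ _ _ _ (he2 _), key _ _ _ _ (he2 _)]
    simp only [h.e1e1, h.e1e2, h.e1x, h.e1n, h.e2e1, h.e2e2, h.e2x, h.e2n, h.xx, h.nn, h.xe2, h.ne1, h.xe1, h.ne2,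
      zero_mul, mul_zero, add_zero, zero_add]

end Ring

end Cfsg.Agent.Lib.RootSubgroups.QuadMatched
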