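/-
A pair `x, y` of square-zero endomorphisms of `W` with `z = xy + yx` invertible: the algebra `A = k[z]`, the matched
partner `n = z⁻¹ y` and the representation of `SL₂(A)` on `W`.
-/
import Mathlib
import Cfsg.Agent.Lib.RootSubgroups.QuadMatched
import Cfsg.Agent.Lib.RootSubgroups.QuadBasic

set_option autoImplicit false
set_option linter.unusedSimpArgs false
set_option linter.unusedVariables false
set_option linter.unusedSectionVars false
set_option linter.style.haveILetI false

namespace Cfsg.Agent.Lib.RootSubgroups.QuadRep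

open Polynomial
open Cfsg.Agent.Lib.RootSubgroups.EuclidSL2
open Cfsg.Agent.Lib.RootSubgroups.QuadSL2
open Cfsg.Agent.Lib.RootSubgroups.QuadMatched
open Cfsg.Agent.Lib.RootSubgroups.QuadBasic

local notation "SL₂" => Matrix.SpecialLinearGroup (Fin 2)

universe u v

section Rank

variable {k : Type*} [Field k] {M : Type*} [AddCommGroup M] [Module k M] [FiniteDimensional k M]

lemma rk_mul_le_left (a b : M →ₗ[k] M) : rk (a * b) ≤ rk a := by
  apply Submodule.finrank_mono
  rintro _ ⟨v, rfl⟩
  exact ⟨b v, rfl⟩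

lemma rk_mul_le_right (a b : M →ₗ[k] M) : rk (a * b) ≤ rk b := by
  unfold rk
  rw [Module.End.mul_eq_comp, LinearMap.range_comp]
  exact Submodule.finrank_map_le _ _

lemma rk_matched {x n : M →ₗ[k] M} (h : IsMatched x n) : rk x = rk n := by
  have h1 : rk x ≤ rk n := by
    calc rk x = rk (x * n * x) := by rw [h.xnx]
      _ ≤ rk (x * n) := rk_mul_le_left _ _
      _ ≤ rk n := rk_mul_le_right _ _
  have h2 : rk n ≤ rk x := by
    calc rk n = rk (n * x * n) := by rw [h.nxn]
      _ ≤ rk (n * x) := rk_mul_le_left _ _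
      _ ≤ rk x := rk_mul_le_right _ _
  omega

end Rank

section Rep

variable {k : Type u} [Field k] {W : Type v} [AddCommGroup W] [Module k W] [FiniteDimensional k W]

/-- The algebra `k[z]`. -/
abbrev AA (z : W →ₗ[k] W) := AdjoinRoot (minpoly k z)

/-- Its action. -/
noncomputable def iot (z : W →ₗ[k] W) : AA z →ₐ[k] (W →ₗ[k] W) :=
  Ideal.Quotient.liftₐ _ (aeval z) (by
    intro a ha
    rw [Ideal.mem_span_singleton] at ha
    obtain ⟨c, rfl⟩ := ha
    simp [minpoly.aeval])

lemma iot_mk (z : W →ₗ[k] W) (p : k[X]) : iot z (AdjoinRoot.mk _ p) = aeval z p := rfl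

lemma iot_root (z : W →ₗ[k] W) : iot z (AdjoinRoot.root _) = z := by
  have : AdjoinRoot.root (minpoly k z) = AdjoinRoot.mk _ X := rfl
  rw [this, iot_mk]; simp

lemma iot_injective (z : W →ₗ[k] W) : Function.Injective (iot z) := by
  rw [injective_iff_map_eq_zero]
  intro a ha
  obtain ⟨p, rfl⟩ := AdjoinRoot.mk_surjective a
  rw [iot_mk] at ha
  rw [AdjoinRoot.mk_eq_zero]
  exact minpoly.dvd k z ha

lemma AA_finite (z : W →ₗ[k] W) : FiniteDimensional k (AA z) :=
  (minpoly.monic (Algebra.IsIntegral.isIntegral z)).finite_adjoinRoot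

lemma AA_nontrivial [Nontrivial W] (z : W →ₗ[k] W) : Nontrivial (AA z) := by
  apply AdjoinRoot.nontrivial
  exact (minpoly.degree_pos (Algebra.IsIntegral.isIntegral z)).ne'

lemma AA_adjoin (z : W →ₗ[k] W) : Algebra.adjoin k {AdjoinRoot.root (minpoly k z)} = ⊤ :=
  AdjoinRoot.adjoinRoot_eq_top

lemma comm_aeval {t z : W →ₗ[k] W} (h : Commute t z) (p : k[X]) : Commute t (aeval z p) := by
  induction p using Polynomial.induction_on' with
  | add p q hp hq => rw [map_add]; exact hp.add_right hq
  | monomial n c =>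
    rw [aeval_monomial]
    exact (show Commute t (algebraMap k _ c) from (Algebra.commutes c t).symm).mul_right (h.pow_right n)

lemma comm_iot {t z : W →ₗ[k] W} (h : Commute t z) (a : AA z) : Commute t (iot z a) := by
  obtain ⟨p, rfl⟩ := AdjoinRoot.mk_surjective a
  rw [iot_mk]
  exact comm_aeval h p

/-- The data: square-zero `x, y` and an inverse `ζ` of `z = xy + yx`. -/
structure IsPD (x y ζ : W →ₗ[k] W) : Prop where
  xx : x * x = 0
  yy : y * y = 0
  ζz : ζ * (x * y + y * x) = 1
  zζ : (x * y + y * x) * ζ = 1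

namespace IsPD

variable {x y ζ : W →ₗ[k] W} (h : IsPD x y ζ)
include h

lemma comm_zx : Commute (x * y + y * x) x := z_comm_x h.xx
lemma comm_zy : Commute (x * y + y * x) y := z_comm_u h.yy

lemma comm_of_z {t : W →ₗ[k] W} (ht : Commute (x * y + y * x) t) : Commute ζ t := by
  show ζ * t = t * ζ
  calc ζ * t = ζ * t * ((x * y + y * x) * ζ) := by rw [h.zζ, mul_one]
    _ = ζ * (t * (x * y + y * x)) * ζ := by simp only [mul_assoc]
    _ = ζ * ((x * y + y * x) * t) * ζ := by rw [ht.eq]
    _ = (ζ * (x * y + y * x)) * t * ζ := by simp only [mul_assoc]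
    _ = t * ζ := by rw [h.ζz, one_mul]

lemma comm_ζx : Commute ζ x := h.comm_of_z h.comm_zx
lemma comm_ζy : Commute ζ y := h.comm_of_z h.comm_zy

lemma matched : IsMatched x (ζ * y) where
  xx := h.xx
  nn := by
    calc ζ * y * (ζ * y) = ζ * (y * ζ) * y := by simp only [mul_assoc]
      _ = ζ * (ζ * y) * y := by rw [h.comm_ζy.eq]
      _ = 0 := by simp only [mul_assoc, h.yy, mul_zero]
  xnx := by
    calc x * (ζ * y) * x = (x * ζ) * y * x := by simp only [mul_assoc]
      _ = (ζ * x) * y * x := by rw [h.comm_ζx.eq]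
      _ = ζ * ((x * y + y * x) * x) := by rw [z_mul_x h.xx]; simp only [mul_assoc]
      _ = (ζ * (x * y + y * x)) * x := by simp only [mul_assoc]
      _ = x := by rw [h.ζz, one_mul]
  nxn := by
    calc ζ * y * x * (ζ * y) = ζ * y * (x * ζ) * y := by simp only [mul_assoc]
      _ = ζ * y * (ζ * x) * y := by rw [h.comm_ζx.eq]
      _ = ζ * (y * ζ) * x * y := by simp only [mul_assoc]
      _ = ζ * (ζ * y) * x * y := by rw [h.comm_ζy.eq]
      _ = ζ * (ζ * (y * x * y)) := by simp only [mul_assoc]
      _ = ζ * (ζ * ((x * y + y * x) * y)) := by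
          have := z_mul_x (x := y) (u := x) h.yy
          rw [add_comm] at this
          rw [this]
      _ = ζ * ((ζ * (x * y + y * x)) * y) := by simp only [mul_assoc]
      _ = ζ * y := by rw [h.ζz, one_mul]

lemma sum_eq_one : x * (ζ * y) + (ζ * y) * x = 1 := by
  calc x * (ζ * y) + (ζ * y) * x = (x * ζ) * y + ζ * (y * x) := by simp only [mul_assoc]
    _ = (ζ * x) * y + ζ * (y * x) := by rw [h.comm_ζx.eq]
    _ = ζ * (x * y + y * x) := by rw [mul_add, mul_assoc]
    _ = 1 := h.ζz

/-- The generator of `A` is a unit. -/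
lemma exists_unit : ∃ β : (AA (x * y + y * x))ˣ, (β : AA (x * y + y * x)) = AdjoinRoot.root _ := by
  haveI := AA_finite (x * y + y * x)
  set z := x * y + y * x with hz
  let L : AA z →ₗ[k] AA z := LinearMap.mulLeft k (AdjoinRoot.root (minpoly k z))
  have hinj : Function.Injective L := by
    rw [injective_iff_map_eq_zero]
    intro a ha
    have h1 : iot z (AdjoinRoot.root _ * a) = 0 := by
      have : AdjoinRoot.root (minpoly k z) * a = 0 := ha
      rw [this, map_zero]
    rw [map_mul, iot_root] at h1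
    apply iot_injective z
    rw [map_zero]
    calc iot z a = (ζ * z) * iot z a := by rw [h.ζz, one_mul]
      _ = ζ * (z * iot z a) := by rw [mul_assoc]
      _ = 0 := by rw [h1, mul_zero]
  obtain ⟨b, hb⟩ := (LinearMap.injective_iff_surjective.1 hinj) 1
  have hb' : AdjoinRoot.root (minpoly k z) * b = 1 := hb
  exact ⟨⟨AdjoinRoot.root _, b, hb', by rw [mul_comm]; exact hb'⟩, rfl⟩

/-- The action of `A` commutes with `x`. -/
lemma comm_iot_x (a : AA (x * y + y * x)) : Commute x (iot _ a) := comm_iot h.comm_zx.symm a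
lemma comm_iot_y (a : AA (x * y + y * x)) : Commute y (iot _ a) := comm_iot h.comm_zy.symm a
lemma comm_iot_n (a : AA (x * y + y * x)) : Commute (ζ * y) (iot _ a) := by
  refine Commute.mul_left (comm_iot ?_ a) (comm_iot_y h a)
  show ζ * (x * y + y * x) = (x * y + y * x) * ζ
  rw [h.ζz, h.zζ]

/-- The representation of `SL₂(A)` on `W`. -/
noncomputable def Psi (h : IsPD x y ζ) : SL₂ (AA (x * y + y * x)) →* (W →ₗ[k] W) where
  toFun g := psi x (ζ * y) (iot (x * y + y * x)).toRingHom g
  map_one' := by rw [psi_one, h.sum_eq_one]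
  map_mul' g g' := psi_mul' h.matched _ (fun a => h.comm_iot_x a) (fun a => h.comm_iot_n a) g g'

lemma Psi_apply (g : SL₂ (AA (x * y + y * x))) :
    h.Psi g = psi x (ζ * y) (iot (x * y + y * x)).toRingHom g := rfl

lemma Psi_uu (a : AA (x * y + y * x)) : h.Psi (uu a) = 1 + iot _ a * x := by
  rw [Psi_apply, psi_uu, h.sum_eq_one]; rfl

lemma Psi_ll (a : AA (x * y + y * x)) : h.Psi (ll a) = 1 + iot _ a * (ζ * y) := by
  rw [Psi_apply, psi_ll, h.sum_eq_one]; rfl

/-- `ι a x = 0` forces `a = 0`. -/
lemma iot_x_eq_zero {a : AA (x * y + y * x)} (ha : iot _ a * x = 0) : a = 0 := by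
  apply iot_injective (x * y + y * x)
  rw [map_zero]
  set b := iot (x * y + y * x) a with hb
  calc b = b * (x * (ζ * y) + (ζ * y) * x) := by rw [h.sum_eq_one, mul_one]
    _ = (b * x) * (ζ * y) + (ζ * y) * (b * x) := by
        have hc : (ζ * y) * b = b * (ζ * y) := (h.comm_iot_n a).eq
        rw [mul_add, ← mul_assoc b x, ← mul_assoc b (ζ * y) x, ← hc, mul_assoc (ζ * y) b x]
    _ = 0 := by rw [ha]; simp

lemma iot_n_eq_zero {a : AA (x * y + y * x)} (ha : iot _ a * (ζ * y) = 0) : a = 0 := by
  apply iot_injective (x * y + y * x)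
  rw [map_zero]
  set b := iot (x * y + y * x) a with hb
  calc b = b * (x * (ζ * y) + (ζ * y) * x) := by rw [h.sum_eq_one, mul_one]
    _ = x * (b * (ζ * y)) + (b * (ζ * y)) * x := by
        have hc : x * b = b * x := (h.comm_iot_x a).eq
        rw [mul_add, ← mul_assoc b x (ζ * y), ← hc, mul_assoc x b, mul_assoc b (ζ * y) x]
    _ = 0 := by rw [ha]; simp

lemma iot_x_inj {a b : AA (x * y + y * x)} (e : iot _ a * x = iot _ b * x) : a = b := by
  have : a - b = 0 := h.iot_x_eq_zero (by rw [map_sub, sub_mul, e, sub_self])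
  exact sub_eq_zero.1 this

lemma iot_n_inj {a b : AA (x * y + y * x)} (e : iot _ a * (ζ * y) = iot _ b * (ζ * y)) : a = b := by
  have : a - b = 0 := h.iot_n_eq_zero (by rw [map_sub, sub_mul, e, sub_self])
  exact sub_eq_zero.1 this

/-- The representation is faithful. -/
lemma Psi_injective : Function.Injective h.Psi := by
  intro g g' e
  have ex := psi_extract h.matched (iot (x * y + y * x)).toRingHom (fun a => h.comm_iot_x a)
    (fun a => h.comm_iot_n a)
  have e' : psi x (ζ * y) (iot (x * y + y * x)).toRingHom g =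
      psi x (ζ * y) (iot (x * y + y * x)).toRingHom g' := e
  obtain ⟨h1, h2, h3, h4⟩ := ex g
  obtain ⟨h1', h2', h3', h4'⟩ := ex g'
  rw [e'] at h1 h2 h3 h4
  apply sl_ext
  · exact h.iot_x_inj (h1.symm.trans h1')
  · exact h.iot_x_inj (h3.symm.trans h3')
  · exact h.iot_n_inj (h4.symm.trans h4')
  · exact h.iot_n_inj (h2.symm.trans h2')

/-- If `q` does not lower the rank of `x` then `q` is a unit. -/
lemma isUnit_of_rk {q : AA (x * y + y * x)} (hr : rk x ≤ rk (iot _ q * x)) : IsUnit q := by
  haveI := AA_finite (x * y + y * x)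
  set Q := iot (x * y + y * x) q with hQ
  -- injective on the range of `x`
  have hinjS : ∀ v ∈ LinearMap.range x, Q v = 0 → v = 0 := by
    let f : (LinearMap.range x) →ₗ[k] W := Q.domRestrict (LinearMap.range x)
    have hrange : LinearMap.range f = LinearMap.range (Q * x) := by
      show LinearMap.range (Q ∘ₗ (LinearMap.range x).subtype) = _
      rw [LinearMap.range_comp, Submodule.range_subtype, Module.End.mul_eq_comp, LinearMap.range_comp]
    have h1 := LinearMap.finrank_range_add_finrank_ker f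
    have h2 : Module.finrank k (LinearMap.range f) = rk (Q * x) := by rw [hrange]; rfl
    have h3 : Module.finrank k (LinearMap.range x) = rk x := rfl
    have h4 : rk (Q * x) ≤ rk x := rk_mul_le_right _ _
    have h5 : Module.finrank k (LinearMap.ker f) = 0 := by omega
    have h6 : LinearMap.ker f = ⊥ := Submodule.finrank_eq_zero.1 h5
    intro v hv hQv
    have h7 : (⟨v, hv⟩ : LinearMap.range x) ∈ LinearMap.ker f := by
      rw [LinearMap.mem_ker]
      exact hQv
    rw [h6, Submodule.mem_bot] at h7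
    exact congrArg Subtype.val h7
  -- injective on `W`
  have hinj : ∀ v, Q v = 0 → v = 0 := by
    intro v hv
    have h1 : x v = 0 := by
      apply hinjS _ ⟨v, rfl⟩
      have : Q (x v) = x (Q v) := LinearMap.congr_fun (h.comm_iot_x q).eq.symm v
      rw [this, hv, map_zero]
    have h2 : x ((ζ * y) v) = 0 := by
      apply hinjS _ ⟨_, rfl⟩
      have e1 : Q (x ((ζ * y) v)) = x (Q ((ζ * y) v)) := LinearMap.congr_fun (h.comm_iot_x q).eq.symm _
      have e2 : Q ((ζ * y) v) = (ζ * y) (Q v) := LinearMap.congr_fun (h.comm_iot_n q).eq.symm _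
      rw [e1, e2, hv, map_zero, map_zero]
    have h3 := LinearMap.congr_fun h.sum_eq_one v
    simp only [LinearMap.add_apply, Module.End.mul_apply, Module.End.one_apply] at h3
    rw [h1, map_zero, map_zero] at h3
    have h4 : x (ζ (y v)) = 0 := h2
    rw [h4, add_zero] at h3
    exact h3.symm
  -- injective multiplication
  let L : AA (x * y + y * x) →ₗ[k] AA (x * y + y * x) := LinearMap.mulLeft k q
  have hLinj : Function.Injective L := by
    rw [injective_iff_map_eq_zero]
    intro a ha
    have h1 : q * a = 0 := ha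
    apply iot_injective (x * y + y * x)
    rw [map_zero]
    ext v
    apply hinj
    have := congrArg (iot (x * y + y * x)) h1
    rw [map_mul, map_zero] at this
    exact LinearMap.congr_fun this v
  obtain ⟨b, hb⟩ := (LinearMap.injective_iff_surjective.1 hLinj) 1
  exact IsUnit.of_mul_eq_one _ hb

lemma Psi_uu_k (c : k) : h.Psi (uu (algebraMap k _ c)) = 1 + c • x := by
  rw [Psi_uu, AlgHom.commutes, ← Algebra.smul_def]

lemma Psi_ll_k (c : k) : h.Psi (ll (algebraMap k _ c * AdjoinRoot.root _)) = 1 + c • y := by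
  rw [Psi_ll, map_mul, AlgHom.commutes, iot_root, mul_assoc, ← mul_assoc (x * y + y * x), h.zζ, one_mul,
    ← Algebra.smul_def]

/-- The pure elements. -/
lemma Psi_uu_pure (c : k) (q : AA (x * y + y * x)) : h.Psi (uu (c • q)) = 1 + c • (iot _ q * x) := by
  rw [Psi_uu, map_smul, smul_mul_assoc]

lemma Psi_ll_pure (c : k) (q : AA (x * y + y * x)) :
    h.Psi (ll (c • (AdjoinRoot.root _ * q))) = 1 + c • (iot _ q * y) := by
  rw [Psi_ll, map_smul, map_mul, iot_root, smul_mul_assoc]
  congr 2
  have hc : (x * y + y * x) * iot (x * y + y * x) q = iot (x * y + y * x) q * (x * y + y * x) :=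
    (comm_iot (t := x * y + y * x) (Commute.refl _) q).eq
  rw [hc, mul_assoc, ← mul_assoc (x * y + y * x), h.zζ, one_mul]

end IsPD

end Rep

end Cfsg.Agent.Lib.RootSubgroups.QuadRep
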