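/-
A pair of square-zero endomorphisms: the Fitting decomposition of `z = xy + yx`, extension of endomorphisms of a
direct summand, and lifting elements of `X ≤ SL₂(A)` to `G`.
-/
import Mathlib
import Cfsg.Agent.Lib.RootSubgroups.QuadRep
import Cfsg.Agent.Lib.RootSubgroups.QuadPartner

set_option autoImplicit false
set_option linter.unusedSimpArgs false
set_option linter.unusedVariables false
set_option linter.unusedSectionVars false
set_option linter.style.haveILetI false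

namespace Cfsg.Agent.Lib.RootSubgroups.QuadFit

open Polynomial
open Cfsg
open Cfsg.Agent.Lib.RootSubgroups.Quadratic
open Cfsg.Agent.Lib.RootSubgroups.EuclidSL2
open Cfsg.Agent.Lib.RootSubgroups.EuclidFinite
open Cfsg.Agent.Lib.RootSubgroups.QuadSL2
open Cfsg.Agent.Lib.RootSubgroups.QuadSL2F
open Cfsg.Agent.Lib.RootSubgroups.QuadMatched
open Cfsg.Agent.Lib.RootSubgroups.QuadBasic
open Cfsg.Agent.Lib.RootSubgroups.QuadFilt
open Cfsg.Agent.Lib.RootSubgroups.QuadRep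
open Cfsg.Agent.Lib.RootSubgroups.QuadPartner

local notation "SL₂" => Matrix.SpecialLinearGroup (Fin 2)

universe u v

variable {k : Type u} [Field k] {M : Type v} [AddCommGroup M] [Module k M]

/-! ### Extension of endomorphisms of a summand -/

section Ext

variable {M₀ M₁ : Submodule k M}

/-- Extend an endomorphism of the summand `M₁` by zero on `M₀`. -/
noncomputable def ext (hc : IsCompl M₀ M₁) (t : ↥M₁ →ₗ[k] ↥M₁) : M →ₗ[k] M :=
  M₁.subtype ∘ₗ t ∘ₗ (Submodule.projectionOnto M₁ M₀ hc.symm)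

lemma ext_apply_mem (hc : IsCompl M₀ M₁) (t : ↥M₁ →ₗ[k] ↥M₁) (w : ↥M₁) : ext hc t (w : M) = t w := by
  simp only [ext, LinearMap.comp_apply, Submodule.projectionOnto_apply_left, Submodule.subtype_apply]

lemma ext_apply_zero (hc : IsCompl M₀ M₁) (t : ↥M₁ →ₗ[k] ↥M₁) {v : M} (hv : v ∈ M₀) : ext hc t v = 0 := by
  have : (Submodule.projectionOnto M₁ M₀ hc.symm) v = 0 :=
    Submodule.projectionOnto_apply_of_mem_right hc.symm hv
  simp [ext, this]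

lemma ext_mem (hc : IsCompl M₀ M₁) (t : ↥M₁ →ₗ[k] ↥M₁) (v : M) : ext hc t v ∈ M₁ := by
  simp [ext]

/-- Two endomorphisms agreeing on both summands are equal. -/
lemma ext_both (hc : IsCompl M₀ M₁) {f g : M →ₗ[k] M} (h0 : ∀ v ∈ M₀, f v = g v) (h1 : ∀ v ∈ M₁, f v = g v) :
    f = g := by
  ext v
  have hv : v ∈ M₀ ⊔ M₁ := by rw [hc.sup_eq_top]; trivial
  obtain ⟨a, ha, b, hb, rfl⟩ := Submodule.mem_sup.1 hv
  rw [map_add, map_add, h0 a ha, h1 b hb]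

lemma ext_mul (hc : IsCompl M₀ M₁) (s t : ↥M₁ →ₗ[k] ↥M₁) : ext hc (s * t) = ext hc s * ext hc t := by
  apply ext_both hc
  · intro v hv
    rw [ext_apply_zero hc _ hv, Module.End.mul_apply, ext_apply_zero hc _ hv, map_zero]
  · intro v hv
    have e : ext hc t v = t ⟨v, hv⟩ := ext_apply_mem hc t ⟨v, hv⟩
    have e1 : ext hc (s * t) v = (s * t) ⟨v, hv⟩ := ext_apply_mem hc (s * t) ⟨v, hv⟩
    have e2 := ext_apply_mem hc s (t ⟨v, hv⟩)
    rw [e1, Module.End.mul_apply (ext hc s), e, e2]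
    rfl

lemma ext_add (hc : IsCompl M₀ M₁) (s t : ↥M₁ →ₗ[k] ↥M₁) : ext hc (s + t) = ext hc s + ext hc t := by
  simp [ext, LinearMap.add_comp, LinearMap.comp_add]

lemma ext_sub (hc : IsCompl M₀ M₁) (s t : ↥M₁ →ₗ[k] ↥M₁) : ext hc (s - t) = ext hc s - ext hc t := by
  simp [ext, LinearMap.sub_comp, LinearMap.comp_sub]

lemma ext_smul (hc : IsCompl M₀ M₁) (c : k) (t : ↥M₁ →ₗ[k] ↥M₁) : ext hc (c • t) = c • ext hc t := by
  simp [ext, LinearMap.smul_comp, LinearMap.comp_smul]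

lemma ext_zero (hc : IsCompl M₀ M₁) : ext hc (0 : ↥M₁ →ₗ[k] ↥M₁) = 0 := by
  simp [ext]

lemma ext_injective (hc : IsCompl M₀ M₁) : Function.Injective (ext (M₀ := M₀) (M₁ := M₁) hc) := by
  intro s t e
  ext w
  have h1 := ext_apply_mem hc s w
  have h2 := ext_apply_mem hc t w
  rw [e] at h1
  rw [← h1, h2]

lemma rk_ext [FiniteDimensional k M] (hc : IsCompl M₀ M₁) (t : ↥M₁ →ₗ[k] ↥M₁) : rk (ext hc t) = rk t := by
  unfold rk
  have hsurj : Function.Surjective (Submodule.projectionOnto M₁ M₀ hc.symm) :=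
    Submodule.projectionOnto_surjective _
  have : LinearMap.range (ext hc t) = (LinearMap.range t).map M₁.subtype := by
    unfold ext
    rw [LinearMap.range_comp, LinearMap.range_comp, LinearMap.range_eq_top.2 hsurj, Submodule.map_top]
  rw [this]
  exact Submodule.finrank_map_subtype_eq _ _

end Ext

/-! ### The Fitting decomposition -/

section Fit

/-- The Fitting data of a pair. -/
structure IsFit (x y : M →ₗ[k] M) (M₀ M₁ : Submodule k M) (N : ℕ) (ζ : ↥M₁ →ₗ[k] ↥M₁) : Prop where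
  xx : x * x = 0
  yy : y * y = 0
  hc : IsCompl M₀ M₁
  x0 : ∀ v ∈ M₀, x v ∈ M₀
  x1 : ∀ v ∈ M₁, x v ∈ M₁
  y0 : ∀ v ∈ M₀, y v ∈ M₀
  y1 : ∀ v ∈ M₁, y v ∈ M₁
  nil : ∀ v ∈ M₀, ((x * y + y * x) ^ N) v = 0
  pd : IsPD (x.restrict x1) (y.restrict y1) ζ

variable [FiniteDimensional k M]

lemma exists_fit {x y : M →ₗ[k] M} (hxx : x * x = 0) (hyy : y * y = 0) :
    ∃ (M₀ M₁ : Submodule k M) (N : ℕ) (ζ : ↥M₁ →ₗ[k] ↥M₁), IsFit x y M₀ M₁ N ζ := by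
  set z := x * y + y * x with hz
  obtain ⟨N, hN, hN1⟩ := ((LinearMap.eventually_isCompl_ker_pow_range_pow z).and
    (Filter.eventually_ge_atTop 1)).exists
  have hzx : Commute z x := z_comm_x hxx
  have hzy : Commute z y := z_comm_u hyy
  have hker : ∀ {t : M →ₗ[k] M}, Commute z t → ∀ v ∈ LinearMap.ker (z ^ N), t v ∈ LinearMap.ker (z ^ N) := by
    intro t ht v hv
    rw [LinearMap.mem_ker] at hv ⊢
    have h1 : (z ^ N) (t v) = t ((z ^ N) v) := LinearMap.congr_fun (ht.pow_left N).eq v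
    rw [h1, hv, map_zero]
  have hran : ∀ {t : M →ₗ[k] M}, Commute z t → ∀ v ∈ LinearMap.range (z ^ N), t v ∈ LinearMap.range (z ^ N) := by
    rintro t ht _ ⟨w, rfl⟩
    exact ⟨t w, (LinearMap.congr_fun (ht.pow_left N).eq w)⟩
  have x1 := hran hzx
  have y1 := hran hzy
  -- `z` is bijective on the range
  set x₁ := x.restrict x1 with hx₁
  set y₁ := y.restrict y1 with hy₁
  set z₁ := x₁ * y₁ + y₁ * x₁ with hz₁
  have hz₁apply : ∀ w : ↥(LinearMap.range (z ^ N)), ((z₁ w : ↥(LinearMap.range (z ^ N))) : M) = z w := by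
    intro w
    simp [hz₁, hx₁, hy₁, hz, LinearMap.coe_restrict_apply]
  have hinj : Function.Injective z₁ := by
    rw [injective_iff_map_eq_zero]
    intro w hw
    apply Subtype.ext
    have h1 : z (w : M) = 0 := by
      rw [← hz₁apply, hw]; rfl
    have h2 : (z ^ N) (w : M) = 0 := by
      obtain ⟨m, hm⟩ : ∃ m, N = m + 1 := ⟨N - 1, by omega⟩
      have h4 : z ^ N = z ^ m * z := by rw [hm, pow_succ]
      refine (LinearMap.congr_fun h4 (w : M)).trans ?_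
      rw [Module.End.mul_apply, h1, map_zero]
    have h3 : (w : M) ∈ LinearMap.ker (z ^ N) ⊓ LinearMap.range (z ^ N) := ⟨h2, w.2⟩
    rw [hN.inf_eq_bot, Submodule.mem_bot] at h3
    exact h3
  have hunit : IsUnit z₁ := (Module.End.isUnit_iff z₁).2 ⟨hinj, LinearMap.injective_iff_surjective.1 hinj⟩
  obtain ⟨u, hu⟩ := hunit
  refine ⟨LinearMap.ker (z ^ N), LinearMap.range (z ^ N), N, ((u⁻¹ : (↥(LinearMap.range (z ^ N)) →ₗ[k] ↥(LinearMap.range (z ^ N)))ˣ) : _),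
    hxx, hyy, hN, hker hzx, x1, hker hzy, y1, fun v hv => hv, ?_⟩
  refine ⟨?_, ?_, ?_, ?_⟩
  · ext w
    simp only [hx₁, Module.End.mul_apply, LinearMap.coe_restrict_apply, LinearMap.zero_apply, ZeroMemClass.coe_zero]
    exact LinearMap.congr_fun hxx w
  · ext w
    simp only [hy₁, Module.End.mul_apply, LinearMap.coe_restrict_apply, LinearMap.zero_apply, ZeroMemClass.coe_zero]
    exact LinearMap.congr_fun hyy w
  · show ((u⁻¹ : (↥(LinearMap.range (z ^ N)) →ₗ[k] ↥(LinearMap.range (z ^ N)))ˣ) : _) * z₁ = 1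
    rw [← hu]; exact Units.inv_mul u
  · show z₁ * ((u⁻¹ : (↥(LinearMap.range (z ^ N)) →ₗ[k] ↥(LinearMap.range (z ^ N)))ˣ) : _) = 1
    rw [← hu]; exact Units.mul_inv u

variable {x y : M →ₗ[k] M} {M₀ M₁ : Submodule k M} {N : ℕ} {ζ : ↥M₁ →ₗ[k] ↥M₁}

namespace IsFit

variable (hf : IsFit x y M₀ M₁ N ζ)

/-- The nilpotent case. -/
lemma nontrivial_of_not_nil (hf : IsFit x y M₀ M₁ N ζ) (hz : ¬ IsNilpotent (x * y + y * x)) : Nontrivial ↥M₁ := by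
  by_contra hcon
  rw [not_nontrivial_iff_subsingleton] at hcon
  apply hz
  refine ⟨N, ?_⟩
  ext v
  have hv : v ∈ M₀ ⊔ M₁ := by rw [hf.hc.sup_eq_top]; trivial
  obtain ⟨a, ha, b, hb, rfl⟩ := Submodule.mem_sup.1 hv
  have hb0 : b = 0 := by
    have : (⟨b, hb⟩ : ↥M₁) = 0 := Subsingleton.elim _ _
    exact congrArg Subtype.val this
  rw [hb0, add_zero]
  simpa using hf.nil a ha

/-- The abbreviation for the first restriction. -/
abbrev X₁ (hf : IsFit x y M₀ M₁ N ζ) : ↥M₁ →ₗ[k] ↥M₁ := x.restrict hf.x1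
/-- The abbreviation for the second restriction. -/
abbrev Y₁ (hf : IsFit x y M₀ M₁ N ζ) : ↥M₁ →ₗ[k] ↥M₁ := y.restrict hf.y1
/-- The algebra. -/
abbrev Z₁ (hf : IsFit x y M₀ M₁ N ζ) : ↥M₁ →ₗ[k] ↥M₁ := hf.X₁ * hf.Y₁ + hf.Y₁ * hf.X₁

/-- The generators of the group of pairs `(g, τ)`. -/
noncomputable def Dset (hf : IsFit x y M₀ M₁ N ζ) :
    Set (SL₂ (AA hf.Z₁) × LinearMap.GeneralLinearGroup k M) :=
  {p | (∃ c : k, p.1 = uu (algebraMap k _ c) ∧ (p.2 : M →ₗ[k] M) = 1 + c • x) ∨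
    (∃ c : k, p.1 = ll (algebraMap k _ c * AdjoinRoot.root _) ∧ (p.2 : M →ₗ[k] M) = 1 + c • y)}

/-- The group of pairs `(g, τ)`. -/
noncomputable def DD (hf : IsFit x y M₀ M₁ N ζ) : Subgroup (SL₂ (AA hf.Z₁) × LinearMap.GeneralLinearGroup k M) :=
  Subgroup.closure hf.Dset

lemma coe_X₁ (hf : IsFit x y M₀ M₁ N ζ) (w : ↥M₁) : ((hf.X₁ w : ↥M₁) : M) = x w := rfl
lemma coe_Y₁ (hf : IsFit x y M₀ M₁ N ζ) (w : ↥M₁) : ((hf.Y₁ w : ↥M₁) : M) = y w := rfl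

/-- Elements of `DD` act through `Psi` on `M₁`. -/
lemma DD_act (hf : IsFit x y M₀ M₁ N ζ) {p : SL₂ (AA hf.Z₁) × LinearMap.GeneralLinearGroup k M} (hp : p ∈ hf.DD)
    (w : ↥M₁) : (p.2 : M →ₗ[k] M) (w : M) = (hf.pd.Psi p.1 w : ↥M₁) := by
  induction hp using Subgroup.closure_induction generalizing w with
  | mem p hp =>
    rcases hp with ⟨c, e1, e2⟩ | ⟨c, e1, e2⟩
    · rw [e1, e2, hf.pd.Psi_uu_k]
      simp [coe_X₁]
    · rw [e1, e2, hf.pd.Psi_ll_k]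
      simp [coe_Y₁]
  | one => simp
  | mul p q _ _ hp hq =>
    have e1 : ((p * q).2 : M →ₗ[k] M) (w : M) = (p.2 : M →ₗ[k] M) ((q.2 : M →ₗ[k] M) (w : M)) := rfl
    rw [e1, hq, hp]
    have e2 : (p * q).1 = p.1 * q.1 := rfl
    rw [e2, map_mul]
    rfl
  | inv p _ hp =>
    have e1 := hp (hf.pd.Psi p.1⁻¹ w)
    have e2 : hf.pd.Psi p.1 (hf.pd.Psi p.1⁻¹ w) = w := by
      have : hf.pd.Psi p.1 * hf.pd.Psi p.1⁻¹ = 1 := by
        rw [← map_mul, mul_inv_cancel, map_one]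
      exact LinearMap.congr_fun this w
    rw [e2] at e1
    have e3 : ((p⁻¹).2 : M →ₗ[k] M) (w : M) = ((p.2⁻¹ : LinearMap.GeneralLinearGroup k M) : M →ₗ[k] M) (w : M) := rfl
    rw [e3, ← e1]
    exact LinearMap.congr_fun (val_inv_mul p.2) _

lemma DD_fst (hf : IsFit x y M₀ M₁ N ζ) :
    hf.DD.map (MonoidHom.fst _ _) = gensG k (AdjoinRoot.root (minpoly k hf.Z₁)) := by
  unfold DD gensG
  rw [MonoidHom.map_closure]
  congr 1
  ext g
  constructor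
  · rintro ⟨p, (⟨c, e1, -⟩ | ⟨c, e1, -⟩), rfl⟩
    · exact Or.inl ⟨c, e1.symm⟩
    · exact Or.inr ⟨c, e1.symm⟩
  · rintro (⟨c, rfl⟩ | ⟨c, rfl⟩)
    · refine ⟨(_, unitOfSq (c • x) (smul_sq hf.xx c)), Or.inl ⟨c, rfl, rfl⟩, rfl⟩
    · refine ⟨(_, unitOfSq (c • y) (smul_sq hf.yy c)), Or.inr ⟨c, rfl, rfl⟩, rfl⟩

lemma DD_snd_closure (hf : IsFit x y M₀ M₁ N ζ) {p : SL₂ (AA hf.Z₁) × LinearMap.GeneralLinearGroup k M}
    (hp : p ∈ hf.DD) : p.2 ∈ Subgroup.closure (famSet x ∪ famSet y) := by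
  have : hf.DD.map (MonoidHom.snd _ _) ≤ Subgroup.closure (famSet x ∪ famSet y) := by
    unfold DD
    rw [MonoidHom.map_closure, Subgroup.closure_le]
    rintro _ ⟨p, (⟨c, -, e⟩ | ⟨c, -, e⟩), rfl⟩
    · exact Subgroup.subset_closure (Or.inl ⟨c, e⟩)
    · exact Subgroup.subset_closure (Or.inr ⟨c, e⟩)
  exact this ⟨p, hp, rfl⟩

lemma pair_inv (hf : IsFit x y M₀ M₁ N ζ) :
    ∀ t ∈ ({x, y} : Set (M →ₗ[k] M)), ∀ v ∈ M₀, t v ∈ M₀ := by
  rintro t (rfl | rfl) v hv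
  · exact hf.x0 v hv
  · exact hf.y0 v hv

lemma DD_filt (hf : IsFit x y M₀ M₁ N ζ) :
    hf.DD.map (MonoidHom.snd _ _) ≤ FiltSub (Fseq {x, y} M₀) (fseq_anti hf.pair_inv) 1 := by
  unfold DD
  rw [MonoidHom.map_closure, Subgroup.closure_le]
  rintro _ ⟨p, (⟨c, -, e⟩ | ⟨c, -, e⟩), rfl⟩
  · exact fseq_filt hf.pair_inv (Or.inl rfl) e
  · exact fseq_filt hf.pair_inv (Or.inr rfl) e

/-- Elements of the lower central series of `DD` act trivially on `M₀`. -/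
lemma gam_DD_trivial (hf : IsFit x y M₀ M₁ N ζ) {p : SL₂ (AA hf.Z₁) × LinearMap.GeneralLinearGroup k M}
    (hp : p ∈ gam hf.DD (2 * N)) {v : M} (hv : v ∈ M₀) : (p.2 : M →ₗ[k] M) v = v := by
  have h1 : p.2 ∈ (gam hf.DD (2 * N)).map (MonoidHom.snd _ _) := ⟨p, hp, rfl⟩
  rw [gam_map] at h1
  have h2 := gam_le_filtSub hf.DD_filt (2 * N) h1
  have h3 := h2 0 v hv
  have hbot := pair_fseq_bot hf.xx hf.yy hf.pair_inv hf.nil
  rw [zero_add, hbot, Submodule.mem_bot] at h3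
  exact sub_eq_zero.1 h3

/-- Lifting elements of the lower central series of `X`. -/
lemma lift_pure (hf : IsFit x y M₀ M₁ N ζ) {g : SL₂ (AA hf.Z₁)}
    (hg : g ∈ gam (gensG k (AdjoinRoot.root (minpoly k hf.Z₁))) (2 * N)) :
    ∃ τ ∈ Subgroup.closure (famSet x ∪ famSet y), (∀ w : ↥M₁, (τ : M →ₗ[k] M) (w : M) = (hf.pd.Psi g w : ↥M₁)) ∧
      ∀ v ∈ M₀, (τ : M →ₗ[k] M) v = v := by
  rw [← hf.DD_fst, ← gam_map] at hg
  obtain ⟨p, hp, rfl⟩ := hg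
  have hpD : p ∈ hf.DD := gam_le _ _ hp
  exact ⟨p.2, hf.DD_snd_closure hpD, hf.DD_act hpD, fun v hv => hf.gam_DD_trivial hp hv⟩

/-- The unit realizing an extension. -/
lemma G1_ext_of_act (hf : IsFit x y M₀ M₁ N ζ) {G : Subgroup (LinearMap.GeneralLinearGroup k M)}
    {τ : LinearMap.GeneralLinearGroup k M} (hτ : τ ∈ G) {t : ↥M₁ →ₗ[k] ↥M₁}
    (h1 : ∀ w : ↥M₁, (τ : M →ₗ[k] M) (w : M) = (((1 + t) w : ↥M₁) : M))
    (h0 : ∀ v ∈ M₀, (τ : M →ₗ[k] M) v = v) : G1 G (ext hf.hc t) := by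
  refine ⟨τ, hτ, ?_⟩
  apply ext_both hf.hc
  · intro v hv
    rw [h0 v hv]
    simp [ext_apply_zero hf.hc t hv]
  · intro v hv
    have := h1 ⟨v, hv⟩
    rw [this]
    have e := ext_apply_mem hf.hc t ⟨v, hv⟩
    simp only [] at e
    simp [e]

variable {G : Subgroup (LinearMap.GeneralLinearGroup k M)}

lemma closure_le_G (hxG : ∀ c : k, G1 G (c • x)) (hyG : ∀ c : k, G1 G (c • y)) :
    Subgroup.closure (famSet x ∪ famSet y) ≤ G :=
  (Subgroup.closure_le _).2 (Set.union_subset (famSet_subset hxG) (famSet_subset hyG))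

/-- **Pure elements of `G`.** -/
theorem exists_pure_ext (hf : IsFit x y M₀ M₁ N ζ) (h2 : (2 : k) ≠ 0) (hk3 : Nat.card k ≠ 3)
    (hxG : ∀ c : k, G1 G (c • x)) (hyG : ∀ c : k, G1 G (c • y)) [Nontrivial ↥M₁] :
    ∃ q : AA hf.Z₁, q ≠ 0 ∧ ∀ c : k, G1 G (ext hf.hc (c • (iot _ q * hf.X₁))) ∧
      G1 G (ext hf.hc (c • (iot _ q * hf.Y₁))) := by
  haveI := AA_finite hf.Z₁
  haveI := AA_nontrivial hf.Z₁
  obtain ⟨β, hβ⟩ := hf.pd.exists_unit
  have hgen : Algebra.adjoin k {(β : AA hf.Z₁)} = ⊤ := by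
    rw [hβ]; exact AA_adjoin _
  obtain ⟨q, hq, hpure⟩ := exists_pure (k := k) h2 hk3 β hgen (2 * N)
  refine ⟨q, hq, fun c => ?_⟩
  obtain ⟨h1, h3⟩ := hpure c
  rw [hβ] at h1 h3
  constructor
  · obtain ⟨τ, hτ, e1, e0⟩ := hf.lift_pure h1
    refine hf.G1_ext_of_act (closure_le_G hxG hyG hτ) (fun w => ?_) e0
    rw [e1, hf.pd.Psi_uu_pure]
  · obtain ⟨τ, hτ, e1, e0⟩ := hf.lift_pure h3
    refine hf.G1_ext_of_act (closure_le_G hxG hyG hτ) (fun w => ?_) e0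
    rw [e1, hf.pd.Psi_ll_pure]

end IsFit

/-! ### Ranks -/

omit [FiniteDimensional k M] in
lemma rk_split [FiniteDimensional k M] (hc : IsCompl M₀ M₁) (f : M →ₗ[k] M) (h0 : ∀ v ∈ M₀, f v ∈ M₀)
    (h1 : ∀ v ∈ M₁, f v ∈ M₁) :
    rk f = Module.finrank k (M₀.map f) + rk (f.restrict h1) := by
  have hr : LinearMap.range f = M₀.map f ⊔ M₁.map f := by
    rw [← Submodule.map_sup, hc.sup_eq_top, Submodule.map_top]
  have hinf : M₀.map f ⊓ M₁.map f = ⊥ := by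
    rw [eq_bot_iff, ← hc.inf_eq_bot]
    apply inf_le_inf
    · rintro _ ⟨v, hv, rfl⟩; exact h0 v hv
    · rintro _ ⟨v, hv, rfl⟩; exact h1 v hv
  have hre : rk (f.restrict h1) = Module.finrank k (M₁.map f) := by
    unfold rk
    have : M₁.map f = (LinearMap.range (f.restrict h1)).map M₁.subtype := by
      ext v
      constructor
      · rintro ⟨w, hw, rfl⟩
        exact ⟨⟨f w, h1 w hw⟩, ⟨⟨w, hw⟩, rfl⟩, rfl⟩
      · rintro ⟨_, ⟨w, rfl⟩, rfl⟩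
        exact ⟨w, w.2, rfl⟩
    rw [this]
    exact (Submodule.finrank_map_subtype_eq _ _).symm
  have h3 := Submodule.finrank_sup_add_finrank_inf_eq (M₀.map f) (M₁.map f)
  rw [hinf, finrank_bot, add_zero, ← hr] at h3
  rw [hre]
  exact h3

omit [FiniteDimensional k M] in
lemma vanish_of_rk [FiniteDimensional k M] (hc : IsCompl M₀ M₁) {f : M →ₗ[k] M} (h0 : ∀ v ∈ M₀, f v ∈ M₀)
    (h1 : ∀ v ∈ M₁, f v ∈ M₁) (hr : rk f ≤ rk (f.restrict h1)) : ∀ v ∈ M₀, f v = 0 := by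
  have := rk_split hc f h0 h1
  have h2 : Module.finrank k (M₀.map f) = 0 := by omega
  have h3 : M₀.map f = ⊥ := Submodule.finrank_eq_zero.1 h2
  intro v hv
  have : f v ∈ M₀.map f := ⟨v, hv, rfl⟩
  rw [h3] at this
  simpa using this

namespace IsFit

variable {G : Subgroup (LinearMap.GeneralLinearGroup k M)}

lemma ext_restrict (hf : IsFit x y M₀ M₁ N ζ) {f : M →ₗ[k] M} (h1 : ∀ v ∈ M₁, f v ∈ M₁)
    (h0 : ∀ v ∈ M₀, f v = 0) : ext hf.hc (f.restrict h1) = f := by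
  apply ext_both hf.hc
  · intro v hv
    rw [ext_apply_zero hf.hc _ hv, h0 v hv]
  · intro v hv
    exact ext_apply_mem hf.hc (f.restrict h1) ⟨v, hv⟩

lemma comm_ι_X₁ (hf : IsFit x y M₀ M₁ N ζ) (q : AA hf.Z₁) : Commute hf.X₁ (iot _ q) := hf.pd.comm_iot_x q
lemma comm_ι_Y₁ (hf : IsFit x y M₀ M₁ N ζ) (q : AA hf.Z₁) : Commute hf.Y₁ (iot _ q) := hf.pd.comm_iot_y q

lemma X₁_sq (hf : IsFit x y M₀ M₁ N ζ) : hf.X₁ * hf.X₁ = 0 := hf.pd.xx
lemma Y₁_sq (hf : IsFit x y M₀ M₁ N ζ) : hf.Y₁ * hf.Y₁ = 0 := hf.pd.yy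

lemma sq_ι_X₁ (hf : IsFit x y M₀ M₁ N ζ) (q : AA hf.Z₁) : (iot _ q * hf.X₁) * (iot _ q * hf.X₁) = 0 := by
  rw [mul_assoc, ← mul_assoc hf.X₁, (hf.comm_ι_X₁ q).eq, mul_assoc, hf.X₁_sq]; simp

lemma sq_ι_Y₁ (hf : IsFit x y M₀ M₁ N ζ) (q : AA hf.Z₁) : (iot _ q * hf.Y₁) * (iot _ q * hf.Y₁) = 0 := by
  rw [mul_assoc, ← mul_assoc hf.Y₁, (hf.comm_ι_Y₁ q).eq, mul_assoc, hf.Y₁_sq]; simp

lemma ι_X₁_ne (hf : IsFit x y M₀ M₁ N ζ) {q : AA hf.Z₁} (hq : q ≠ 0) : iot _ q * hf.X₁ ≠ 0 :=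
  fun h => hq (hf.pd.iot_x_eq_zero h)

lemma ι_Y₁_ne (hf : IsFit x y M₀ M₁ N ζ) {q : AA hf.Z₁} (hq : q ≠ 0) : iot _ q * hf.Y₁ ≠ 0 := by
  intro h
  apply hq
  apply hf.pd.iot_n_eq_zero
  have hc : ζ * iot hf.Z₁ q = iot hf.Z₁ q * ζ := by
    refine (comm_iot ?_ q).eq
    show ζ * hf.Z₁ = hf.Z₁ * ζ
    rw [hf.pd.ζz, hf.pd.zζ]
  rw [← mul_assoc, ← hc, mul_assoc, h, mul_zero]

lemma isQ_ext_of (hf : IsFit x y M₀ M₁ N ζ) {t : ↥M₁ →ₗ[k] ↥M₁} (h1 : t * t = 0) (h2 : t ≠ 0)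
    (h3 : ∀ c : k, G1 G (ext hf.hc (c • t))) : IsQ G (ext hf.hc t) where
  sq := by rw [← ext_mul, h1, ext_zero]
  ne := fun h => h2 (ext_injective hf.hc (by rw [h, ext_zero]))
  fam c := by rw [← ext_smul]; exact h3 c

/-- A minimal element vanishes on the nilpotent part, and pure elements are units. -/
theorem vanish_and_unit (hf : IsFit x y M₀ M₁ N ζ) {q : AA hf.Z₁} (hq : q ≠ 0) (hx : IsQD G x)
    (h : ∀ c : k, G1 G (ext hf.hc (c • (iot _ q * hf.X₁)))) : (∀ v ∈ M₀, x v = 0) ∧ IsUnit q := by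
  have hQ := hf.isQ_ext_of (hf.sq_ι_X₁ q) (hf.ι_X₁_ne hq) h
  have h1 : rk x ≤ rk (iot hf.Z₁ q * hf.X₁) := by
    rw [← rk_ext hf.hc]; exact hx.min _ hQ
  have h2 : rk (iot hf.Z₁ q * hf.X₁) ≤ rk hf.X₁ := rk_mul_le_right _ _
  refine ⟨vanish_of_rk hf.hc hf.x0 hf.x1 (h1.trans h2), hf.pd.isUnit_of_rk ?_⟩
  have h3 : rk hf.X₁ ≤ rk x := by
    rw [rk_split hf.hc x hf.x0 hf.x1]
    exact Nat.le_add_left _ _
  exact h3.trans h1

theorem vanish_y (hf : IsFit x y M₀ M₁ N ζ) {q : AA hf.Z₁} (hq : q ≠ 0) (hy : IsQD G y)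
    (h : ∀ c : k, G1 G (ext hf.hc (c • (iot _ q * hf.Y₁)))) : ∀ v ∈ M₀, y v = 0 := by
  have hQ := hf.isQ_ext_of (hf.sq_ι_Y₁ q) (hf.ι_Y₁_ne hq) h
  have h1 : rk y ≤ rk (iot hf.Z₁ q * hf.Y₁) := by
    rw [← rk_ext hf.hc]; exact hy.min _ hQ
  have h2 : rk (iot hf.Z₁ q * hf.Y₁) ≤ rk hf.Y₁ := rk_mul_le_right _ _
  exact vanish_of_rk hf.hc hf.y0 hf.y1 (h1.trans h2)

/-- Elements of `DD` act trivially on `M₀` if `x, y` vanish there. -/
lemma DD_trivial (hf : IsFit x y M₀ M₁ N ζ) (hx0 : ∀ v ∈ M₀, x v = 0) (hy0 : ∀ v ∈ M₀, y v = 0)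
    {p : SL₂ (AA hf.Z₁) × LinearMap.GeneralLinearGroup k M} (hp : p ∈ hf.DD) {v : M} (hv : v ∈ M₀) :
    (p.2 : M →ₗ[k] M) v = v := by
  induction hp using Subgroup.closure_induction generalizing v with
  | mem p hp =>
    rcases hp with ⟨c, -, e⟩ | ⟨c, -, e⟩
    · rw [e]; simp [hx0 v hv]
    · rw [e]; simp [hy0 v hv]
  | one => simp
  | mul p q _ _ hp hq =>
    have e1 : ((p * q).2 : M →ₗ[k] M) v = (p.2 : M →ₗ[k] M) ((q.2 : M →ₗ[k] M) v) := rfl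
    rw [e1, hq hv, hp hv]
  | inv p _ hp =>
    have e3 : ((p⁻¹).2 : M →ₗ[k] M) v = ((p.2⁻¹ : LinearMap.GeneralLinearGroup k M) : M →ₗ[k] M) v := rfl
    rw [e3]
    conv_lhs => rw [← hp hv]
    exact LinearMap.congr_fun (val_inv_mul p.2) _

/-- Lifting all elements of `X`. -/
lemma lift_all (hf : IsFit x y M₀ M₁ N ζ) (hx0 : ∀ v ∈ M₀, x v = 0) (hy0 : ∀ v ∈ M₀, y v = 0) {g : SL₂ (AA hf.Z₁)}
    (hg : g ∈ gensG k (AdjoinRoot.root (minpoly k hf.Z₁))) :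
    ∃ τ ∈ Subgroup.closure (famSet x ∪ famSet y), (∀ w : ↥M₁, (τ : M →ₗ[k] M) (w : M) = (hf.pd.Psi g w : ↥M₁)) ∧
      ∀ v ∈ M₀, (τ : M →ₗ[k] M) v = v := by
  rw [← hf.DD_fst] at hg
  obtain ⟨p, hp, rfl⟩ := hg
  exact ⟨p.2, hf.DD_snd_closure hp, hf.DD_act hp, fun v hv => hf.DD_trivial hx0 hy0 hp hv⟩

/-- **The algebra is a field and `X` contains all unitriangular matrices.** -/
theorem field_and_all (hf : IsFit x y M₀ M₁ N ζ) (h2 : (2 : k) ≠ 0) (hk3 : Nat.card k ≠ 3) [Nontrivial ↥M₁]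
    (hx : IsQD G x) (hx0 : ∀ v ∈ M₀, x v = 0) (hy0 : ∀ v ∈ M₀, y v = 0)
    (hyG : ∀ c : k, G1 G (c • y)) :
    (∀ a : AA hf.Z₁, a = 0 ∨ IsUnit a) ∧ ∀ a : AA hf.Z₁,
      uu a ∈ gensG k (AdjoinRoot.root (minpoly k hf.Z₁)) ∧ ll a ∈ gensG k (AdjoinRoot.root (minpoly k hf.Z₁)) := by
  haveI := AA_finite hf.Z₁
  haveI := AA_nontrivial hf.Z₁
  obtain ⟨β, hβ⟩ := hf.pd.exists_unit
  have hgen : Algebra.adjoin k {(β : AA hf.Z₁)} = ⊤ := by
    rw [hβ]; exact AA_adjoin _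
  have hxG := hx.q.fam
  have := field_criterion (k := k) h2 hk3 β hgen (by
    intro q hq
    by_cases hq0 : q = 0
    · exact Or.inl hq0
    · right
      rw [hβ] at hq
      refine ((hf.vanish_and_unit hq0 hx) fun c => ?_).2
      have h1 : uu (c • q) ∈ gensG k (AdjoinRoot.root (minpoly k hf.Z₁)) :=
        uu_smul_mem_gam (r := 0) _ hq c
      obtain ⟨τ, hτ, e1, e0⟩ := hf.lift_all hx0 hy0 h1
      refine hf.G1_ext_of_act (closure_le_G hxG hyG hτ) (fun w => ?_) e0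
      rw [e1, hf.pd.Psi_uu_pure])
  rwa [hβ] at this

end IsFit

namespace IsFit

/-- The function underlying the action on `M`: identity on `M₀`. -/
noncomputable def psiT (hf : IsFit x y M₀ M₁ N ζ) (g : SL₂ (AA hf.Z₁)) : M →ₗ[k] M :=
  (1 - ext hf.hc 1) + ext hf.hc (hf.pd.Psi g)

lemma psiT_M0 (hf : IsFit x y M₀ M₁ N ζ) (g : SL₂ (AA hf.Z₁)) {v : M} (hv : v ∈ M₀) : hf.psiT g v = v := by
  simp [psiT, ext_apply_zero hf.hc _ hv]

lemma psiT_M1 (hf : IsFit x y M₀ M₁ N ζ) (g : SL₂ (AA hf.Z₁)) (w : ↥M₁) :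
    hf.psiT g (w : M) = (hf.pd.Psi g w : ↥M₁) := by
  simp only [psiT, LinearMap.add_apply, LinearMap.sub_apply, Module.End.one_apply, ext_apply_mem]
  simp

/-- The action on `M`: identity on `M₀`. -/
noncomputable def PsiT (hf : IsFit x y M₀ M₁ N ζ) : SL₂ (AA hf.Z₁) →* (M →ₗ[k] M) where
  toFun := hf.psiT
  map_one' := by
    unfold psiT
    rw [map_one]; abel
  map_mul' g h := by
    apply ext_both hf.hc
    · intro v hv
      rw [Module.End.mul_apply, hf.psiT_M0 _ hv, hf.psiT_M0 _ hv, hf.psiT_M0 _ hv]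
    · intro v hv
      have e := hf.psiT_M1 h ⟨v, hv⟩
      have e2 := hf.psiT_M1 g (hf.pd.Psi h ⟨v, hv⟩)
      have e3 := hf.psiT_M1 (g * h) ⟨v, hv⟩
      simp only [] at e e3
      rw [Module.End.mul_apply, e, e2, e3, map_mul]
      rfl

lemma PsiT_apply (hf : IsFit x y M₀ M₁ N ζ) (g : SL₂ (AA hf.Z₁)) : hf.PsiT g = hf.psiT g := rfl

/-- The faithful action as a homomorphism to `GL(M)`. -/
noncomputable def rho (hf : IsFit x y M₀ M₁ N ζ) : SL₂ (AA hf.Z₁) →* LinearMap.GeneralLinearGroup k M :=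
  hf.PsiT.toHomUnits

lemma val_rho (hf : IsFit x y M₀ M₁ N ζ) (g : SL₂ (AA hf.Z₁)) :
    ((hf.rho g : LinearMap.GeneralLinearGroup k M) : M →ₗ[k] M) = hf.psiT g := rfl

lemma rho_injective (hf : IsFit x y M₀ M₁ N ζ) : Function.Injective hf.rho := by
  intro g h e
  apply hf.pd.Psi_injective
  ext w
  have e1 := hf.psiT_M1 g w
  have e2 := hf.psiT_M1 h w
  have e3 : hf.psiT g = hf.psiT h := by
    rw [← val_rho, ← val_rho, e]
  rw [e3, e2] at e1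
  exact e1.symm

lemma psiT_uu (hf : IsFit x y M₀ M₁ N ζ) (hx0 : ∀ v ∈ M₀, x v = 0) (c : k) :
    hf.psiT (uu (algebraMap k _ c)) = 1 + c • x := by
  apply ext_both hf.hc
  · intro v hv
    rw [hf.psiT_M0 _ hv]
    simp [hx0 v hv]
  · intro v hv
    have e := hf.psiT_M1 (uu (algebraMap k _ c)) ⟨v, hv⟩
    simp only [] at e
    rw [e, hf.pd.Psi_uu_k]
    simp [coe_X₁]

lemma psiT_ll (hf : IsFit x y M₀ M₁ N ζ) (hy0 : ∀ v ∈ M₀, y v = 0) (c : k) :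
    hf.psiT (ll (algebraMap k _ c * AdjoinRoot.root _)) = 1 + c • y := by
  apply ext_both hf.hc
  · intro v hv
    rw [hf.psiT_M0 _ hv]
    simp [hy0 v hv]
  · intro v hv
    have e := hf.psiT_M1 (ll (algebraMap k _ c * AdjoinRoot.root _)) ⟨v, hv⟩
    simp only [] at e
    rw [e, hf.pd.Psi_ll_k]
    simp [coe_Y₁]

/-- The image of `X`. -/
lemma map_rho_gens (hf : IsFit x y M₀ M₁ N ζ) (hx0 : ∀ v ∈ M₀, x v = 0) (hy0 : ∀ v ∈ M₀, y v = 0) :
    (gensG k (AdjoinRoot.root (minpoly k hf.Z₁))).map hf.rho = Subgroup.closure (famSet x ∪ famSet y) := by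
  unfold gensG
  rw [MonoidHom.map_closure, Set.image_union]
  congr 1
  congr 1
  · ext τ
    constructor
    · rintro ⟨_, ⟨c, rfl⟩, rfl⟩
      exact ⟨c, by rw [val_rho, hf.psiT_uu hx0]⟩
    · rintro ⟨c, e⟩
      refine ⟨_, ⟨c, rfl⟩, Units.ext ?_⟩
      rw [val_rho, hf.psiT_uu hx0, e]
  · ext τ
    constructor
    · rintro ⟨_, ⟨c, rfl⟩, rfl⟩
      exact ⟨c, by rw [val_rho, hf.psiT_ll hy0]⟩
    · rintro ⟨c, e⟩
      refine ⟨_, ⟨c, rfl⟩, Units.ext ?_⟩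
      rw [val_rho, hf.psiT_ll hy0, e]

/-- `X` is everything if `A` is a field. -/
lemma gens_top_of_field {A : Type*} [CommRing A] [Algebra k A] {α : A} (hA : ∀ a : A, a = 0 ∨ IsUnit a)
    (hall : ∀ a : A, uu a ∈ gensG k α ∧ ll a ∈ gensG k α) : gensG k α = ⊤ := by
  rw [eq_top_iff]
  rintro g -
  have hu := fun a => (hall a).1
  have hl := fun a => (hall a).2
  have key : ∀ g : SL₂ A, IsUnit (ent g 1 0) → g ∈ gensG k α := by
    intro g hc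
    obtain ⟨c', hc'⟩ := hc.exists_right_inv
    have hdet := ent_det g
    have : g = uu ((ent g 0 0 - 1) * c') * ll (ent g 1 0) * uu ((ent g 1 1 - 1) * c') := by
      apply sl_ext <;> simp [ent_mul]
      · linear_combination (-(ent g 0 0 - 1)) * hc'
      · linear_combination (-(ent g 0 1 + (ent g 0 0 - 1) * (ent g 1 1 - 1) * c')) * hc' - c' * hdet
      · linear_combination (-(ent g 1 1 - 1)) * hc'
    rw [this]
    exact mul_mem (mul_mem (hu _) (hl _)) (hu _)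
  by_cases hc : ent g 1 0 = 0
  · have hdet := ent_det g
    rw [hc, mul_zero, sub_zero] at hdet
    have h00 : IsUnit (ent g 0 0) := IsUnit.of_mul_eq_one _ hdet
    have h1 : ll 1 * g ∈ gensG k α := key _ (by simpa [ent_mul, hc] using h00)
    have : g = (ll 1)⁻¹ * (ll 1 * g) := by group
    rw [this]
    exact mul_mem (inv_mem (hl 1)) h1
  · exact key g ((hA _).resolve_left hc)

end IsFit

end Fit

end Cfsg.Agent.Lib.RootSubgroups.QuadFit
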