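/-
Quadratic pairs: the structure of a non-unipotent pair of minimal elements.
-/
import Mathlib
import Cfsg.Agent.Lib.RootSubgroups.QuadFit

set_option autoImplicit false
set_option linter.unusedSimpArgs false
set_option linter.unusedVariables false
set_option linter.unusedSectionVars false
set_option linter.style.haveILetI false

namespace Cfsg.Agent.Lib.RootSubgroups.QuadNU

open Polynomial
open Cfsg
open Cfsg.Agent.Lib.RootSubgroups.Quadratic
open Cfsg.Agent.Lib.RootSubgroups.EuclidSL2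
open Cfsg.Agent.Lib.RootSubgroups.EuclidFinite
open Cfsg.Agent.Lib.RootSubgroups.QuadSL2
open Cfsg.Agent.Lib.RootSubgroups.QuadSL2F
open Cfsg.Agent.Lib.RootSubgroups.QuadMatched
open Cfsg.Agent.Lib.RootSubgroups.QuadBasic
open Cfsg.Agent.Lib.RootSubgroups.QuadFilt
open Cfsg.Agent.Lib.RootSubgroups.QuadRep
open Cfsg.Agent.Lib.RootSubgroups.QuadPartner
open Cfsg.Agent.Lib.RootSubgroups.QuadFit

local notation "SL₂" => Matrix.SpecialLinearGroup (Fin 2)

universe u v

variable {k : Type u} [Field k] {M : Type v} [AddCommGroup M] [Module k M] [FiniteDimensional k M]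
variable {G : Subgroup (LinearMap.GeneralLinearGroup k M)}

/-- Vanishing of a non-unipotent pair of minimal elements on the nilpotent part. -/
theorem vanish_pair {x y : M →ₗ[k] M} {M₀ M₁ : Submodule k M} {N : ℕ} {ζ : ↥M₁ →ₗ[k] ↥M₁}
    (hf : IsFit x y M₀ M₁ N ζ) [Nontrivial ↥M₁] (h2 : (2 : k) ≠ 0) (hk3 : Nat.card k ≠ 3)
    (hx : IsQD G x) (hy : IsQD G y) : (∀ v ∈ M₀, x v = 0) ∧ (∀ v ∈ M₀, y v = 0) := by
  obtain ⟨q, hq, hpure⟩ := hf.exists_pure_ext h2 hk3 hx.q.fam hy.q.fam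
  exact ⟨(hf.vanish_and_unit hq hx (fun c => (hpure c).1)).1, hf.vanish_y hq hy (fun c => (hpure c).2)⟩

/-- **The `SL₂`-theorem.** -/
theorem nu_sl2 {k M : Type u} [Field k] [AddCommGroup M] [Module k M] [FiniteDimensional k M]
    {G : Subgroup (LinearMap.GeneralLinearGroup k M)}
    (h2 : (2 : k) ≠ 0) (hk3 : Nat.card k ≠ 3) {x y : M →ₗ[k] M} (hx : IsQD G x)
    (hy : IsQD G y) (hz : ¬ IsNilpotent (x * y + y * x)) :
    ∃ (K : Type u) (_ : Field K) (_ : Algebra k K) (lam : K), IsAlgebraic k lam ∧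
      IntermediateField.adjoin k ({lam} : Set K) = ⊤ ∧
      Nonempty (↥(Subgroup.closure (famSet x ∪ famSet y)) ≃* Matrix.SpecialLinearGroup (Fin 2) K) := by
  obtain ⟨M₀, M₁, N, ζ, hf⟩ := exists_fit hx.q.sq hy.q.sq
  haveI := hf.nontrivial_of_not_nil hz
  obtain ⟨hx0, hy0⟩ := vanish_pair hf h2 hk3 hx hy
  obtain ⟨hA, hall⟩ := hf.field_and_all h2 hk3 hx hx0 hy0 hy.q.fam
  haveI := AA_finite hf.Z₁
  haveI := AA_nontrivial hf.Z₁
  have htop := IsFit.gens_top_of_field hA hall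
  have hfield : IsField (AA hf.Z₁) := by
    refine ⟨exists_pair_ne _, fun a b => mul_comm a b, fun {a} ha => ?_⟩
    obtain ⟨b, hb⟩ := ((hA a).resolve_left ha).exists_right_inv
    exact ⟨b, hb⟩
  have hrange : hf.rho.range = Subgroup.closure (famSet x ∪ famSet y) := by
    rw [← hf.map_rho_gens hx0 hy0, htop, MonoidHom.range_eq_map]
  let e : ↥(Subgroup.closure (famSet x ∪ famSet y)) ≃* SL₂ (AA hf.Z₁) :=
    (MulEquiv.subgroupCongr hrange.symm).trans (MonoidHom.ofInjective hf.rho_injective).symm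
  letI F : Field (AA hf.Z₁) := hfield.toField
  refine ⟨AA hf.Z₁, F, inferInstance, AdjoinRoot.root _, ?_, ?_, ⟨e⟩⟩
  · exact (Algebra.IsIntegral.isIntegral _).isAlgebraic
  · rw [eq_top_iff]
    have h1 := IntermediateField.algebra_adjoin_le_adjoin k ({AdjoinRoot.root (minpoly k hf.Z₁)} : Set (AA hf.Z₁))
    rw [AA_adjoin] at h1
    intro a _
    exact h1 (Algebra.mem_top (x := a))

/-- **Matched partners.** -/
theorem exists_matched (h2 : (2 : k) ≠ 0) (hk3 : Nat.card k ≠ 3) {x y : M →ₗ[k] M} (hx : IsQD G x)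
    (hy : IsQD G y) (hz : ¬ IsNilpotent (x * y + y * x)) :
    ∃ ζ' : M →ₗ[k] M, Commute ζ' x ∧ Commute ζ' y ∧ IsQD G (ζ' * y) ∧ IsMatched x (ζ' * y) := by
  obtain ⟨M₀, M₁, N, ζ, hf⟩ := exists_fit hx.q.sq hy.q.sq
  haveI := hf.nontrivial_of_not_nil hz
  obtain ⟨hx0, hy0⟩ := vanish_pair hf h2 hk3 hx hy
  obtain ⟨hA, hall⟩ := hf.field_and_all h2 hk3 hx hx0 hy0 hy.q.fam
  haveI := AA_nontrivial hf.Z₁
  have ex : ext hf.hc hf.X₁ = x := hf.ext_restrict hf.x1 hx0
  have ey : ext hf.hc hf.Y₁ = y := hf.ext_restrict hf.y1 hy0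
  have hm := hf.pd.matched
  have hmE : IsMatched (ext hf.hc hf.X₁) (ext hf.hc (ζ * hf.Y₁)) := by
    refine ⟨?_, ?_, ?_, ?_⟩
    · rw [← ext_mul, hm.xx, ext_zero]
    · rw [← ext_mul, hm.nn, ext_zero]
    · rw [← ext_mul, ← ext_mul, hm.xnx]
    · rw [← ext_mul, ← ext_mul, hm.nxn]
  have hmM : IsMatched x (ext hf.hc ζ * y) := by
    rw [ext_mul, ex, ey] at hmE
    exact hmE
  refine ⟨ext hf.hc ζ, ?_, ?_, ?_, hmM⟩
  · show ext hf.hc ζ * x = x * ext hf.hc ζ
    have := congrArg (ext hf.hc) hf.pd.comm_ζx.eq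
    rw [ext_mul, ext_mul, ex] at this
    exact this
  · show ext hf.hc ζ * y = y * ext hf.hc ζ
    have := congrArg (ext hf.hc) hf.pd.comm_ζy.eq
    rw [ext_mul, ext_mul, ey] at this
    exact this
  · -- membership in `𝔔_d`
    have hfam : ∀ c : k, G1 G (c • (ext hf.hc ζ * y)) := by
      intro c
      obtain ⟨τ, hτ, e1, e0⟩ := hf.lift_all hx0 hy0 (hall (algebraMap k _ c)).2
      have := hf.G1_ext_of_act (t := c • (ζ * hf.Y₁)) (IsFit.closure_le_G hx.q.fam hy.q.fam hτ) (fun w => ?_) e0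
      · rw [ext_smul, ext_mul, ey] at this
        exact this
      · rw [e1, hf.pd.Psi_ll, AlgHom.commutes, ← Algebra.smul_def]
    have hne : ext hf.hc ζ * y ≠ 0 := by
      intro h
      have h1 : ζ * hf.Y₁ = 0 := ext_injective hf.hc (by rw [ext_mul, ey, h, ext_zero])
      have h3 : (1 : AA hf.Z₁) = 0 := hf.pd.iot_n_eq_zero (by rw [h1, mul_zero])
      exact one_ne_zero h3
    refine ⟨⟨hmM.nn, hne, hfam⟩, fun u hu => ?_⟩
    have e1 : rk (ext hf.hc ζ * y) = rk x := (rk_matched hmM).symm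
    rw [e1]
    exact hx.min u hu

/-- **Matched partners with the same kernel and range.** -/
theorem exists_matched_same (h2 : (2 : k) ≠ 0) (hk3 : Nat.card k ≠ 3) {x y : M →ₗ[k] M} (hx : IsQD G x)
    (hy : IsQD G y) (hz : ¬ IsNilpotent (x * y + y * x)) :
    ∃ n : M →ₗ[k] M, IsQD G n ∧ IsMatched x n ∧ LinearMap.ker n = LinearMap.ker y ∧
      LinearMap.range n = LinearMap.range y := by
  obtain ⟨ζ', h1, h3, hn, hm⟩ := exists_matched h2 hk3 hx hy hz
  refine ⟨ζ' * y, hn, hm, ?_, ?_⟩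
  all_goals
    have hrk : rk (ζ' * y) = rk y := le_antisymm (hn.min _ hy.q) (hy.min _ hn.q)
    have hr : LinearMap.range (ζ' * y) ≤ LinearMap.range y := by
      rw [h3.eq]
      rintro _ ⟨v, rfl⟩
      exact ⟨ζ' v, rfl⟩
    have hk : LinearMap.ker y ≤ LinearMap.ker (ζ' * y) := by
      intro v hv
      rw [LinearMap.mem_ker] at hv ⊢
      rw [Module.End.mul_apply, hv, map_zero]
  · symm
    apply Submodule.eq_of_le_of_finrank_eq hk
    have e1 := LinearMap.finrank_range_add_finrank_ker y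
    have e2 := LinearMap.finrank_range_add_finrank_ker (ζ' * y)
    have e3 : Module.finrank k (LinearMap.range (ζ' * y)) = Module.finrank k (LinearMap.range y) := hrk
    omega
  · exact Submodule.eq_of_le_of_finrank_eq hr hrk

end Cfsg.Agent.Lib.RootSubgroups.QuadNU
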