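/-
Quadratic pairs: the block structure attached to a matched pair of minimal elements; the special rank one
structure.
-/
import Mathlib
import Cfsg.Agent.Lib.RootSubgroups.QuadNU

set_option autoImplicit false
set_option linter.unusedSimpArgs false
set_option linter.unusedVariables false
set_option linter.unusedSectionVars false
set_option linter.style.haveILetI false

namespace Cfsg.Agent.Lib.RootSubgroups.QuadBlock

open Cfsg
open Cfsg.Agent.Lib.RootSubgroups.Quadratic
open Cfsg.Agent.Lib.RootSubgroups.QuadMatched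
open Cfsg.Agent.Lib.RootSubgroups.QuadBasic
open Cfsg.Agent.Lib.RootSubgroups.QuadFilt
open Cfsg.Agent.Lib.RootSubgroups.QuadRep
open Cfsg.Agent.Lib.RootSubgroups.QuadPartner
open Cfsg.Agent.Lib.RootSubgroups.QuadNU

universe u v

variable {k : Type u} [Field k] {M : Type v} [AddCommGroup M] [Module k M]
variable {G : Subgroup (LinearMap.GeneralLinearGroup k M)}

/-- Membership in the class of `x`. -/
structure InC (G : Subgroup (LinearMap.GeneralLinearGroup k M)) (x t : M →ₗ[k] M) : Prop where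
  qd : IsQD G t
  ker : LinearMap.ker t = LinearMap.ker x
  ran : LinearMap.range t = LinearMap.range x

lemma InC.refl {x : M →ₗ[k] M} (hx : IsQD G x) : InC G x x := ⟨hx, rfl, rfl⟩

lemma InC.symm {x t : M →ₗ[k] M} (hx : IsQD G x) (h : InC G x t) : InC G t x := ⟨hx, h.ker.symm, h.ran.symm⟩

lemma InC.trans {x t s : M →ₗ[k] M} (h : InC G x t) (h2 : InC G t s) : InC G x s :=
  ⟨h2.qd, h2.ker.trans h.ker, h2.ran.trans h.ran⟩

lemma InC.smul {x t : M →ₗ[k] M} (h : InC G x t) {c : k} (hc : c ≠ 0) : InC G x (c • t) :=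
  ⟨h.qd.smul hc, by rw [LinearMap.ker_smul _ _ hc, h.ker], by rw [LinearMap.range_smul _ _ hc, h.ran]⟩

lemma mul_zero_of_le {a b : M →ₗ[k] M} (h : LinearMap.range b ≤ LinearMap.ker a) : a * b = 0 := by
  ext v
  exact h ⟨v, rfl⟩

lemma range_le_ker_of_sq' {x : M →ₗ[k] M} (h : x * x = 0) : LinearMap.range x ≤ LinearMap.ker x :=
  range_le_ker_of_sq h

/-- Two elements of a class multiply to zero. -/
lemma InC.mul_eq_zero {x t s : M →ₗ[k] M} (hx : x * x = 0) (ht : InC G x t) (hs : InC G x s) : t * s = 0 := by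
  apply mul_zero_of_le
  rw [ht.ker, hs.ran]
  exact range_le_ker_of_sq' hx

lemma InC.mul_self_left {x t : M →ₗ[k] M} (hx : x * x = 0) (ht : InC G x t) : x * t = 0 := by
  apply mul_zero_of_le
  rw [ht.ran]
  exact range_le_ker_of_sq' hx

lemma InC.mul_self_right {x t : M →ₗ[k] M} (hx : x * x = 0) (ht : InC G x t) : t * x = 0 := by
  apply mul_zero_of_le
  rw [ht.ker]
  exact range_le_ker_of_sq' hx

section Idemp

variable {x n : M →ₗ[k] M}

lemma e1_left (hm : IsMatched x n) {t : M →ₗ[k] M} (hr : LinearMap.range t ≤ LinearMap.range x) :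
    (x * n) * t = t := by
  ext v
  obtain ⟨u, hu⟩ := hr ⟨v, rfl⟩
  have h := LinearMap.congr_fun hm.xnx u
  simp only [Module.End.mul_apply] at h ⊢
  rw [← hu, h]

lemma e2_right (hm : IsMatched x n) {t : M →ₗ[k] M} (hk : LinearMap.ker x ≤ LinearMap.ker t) :
    t * (n * x) = t := by
  ext v
  have h := LinearMap.congr_fun hm.xnx v
  simp only [Module.End.mul_apply] at h ⊢
  have h1 : n (x v) - v ∈ LinearMap.ker t := by
    apply hk
    rw [LinearMap.mem_ker, map_sub, h, sub_self]
  rw [LinearMap.mem_ker, map_sub, sub_eq_zero] at h1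
  exact h1

end Idemp

section SameOfLe

variable [FiniteDimensional k M]

/-- Inclusions between minimal elements are equalities. -/
lemma same_of_le {a b : M →ₗ[k] M} (ha : IsQD G a) (hb : IsQD G b) (hk : LinearMap.ker b ≤ LinearMap.ker a)
    (hr : LinearMap.range a ≤ LinearMap.range b) : InC G b a := by
  have hrk : rk a = rk b := le_antisymm (ha.min _ hb.q) (hb.min _ ha.q)
  refine ⟨ha, ?_, Submodule.eq_of_le_of_finrank_eq hr hrk⟩
  symm
  apply Submodule.eq_of_le_of_finrank_eq hk
  have e1 := LinearMap.finrank_range_add_finrank_ker a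
  have e2 := LinearMap.finrank_range_add_finrank_ker b
  have e3 : Module.finrank k (LinearMap.range a) = Module.finrank k (LinearMap.range b) := hrk
  omega

end SameOfLe

/-- A matched pair of minimal elements. -/
structure MP (G : Subgroup (LinearMap.GeneralLinearGroup k M)) (x n : M →ₗ[k] M) : Prop where
  hx : IsQD G x
  hn : IsQD G n
  m : IsMatched x n

namespace MP

variable {x n : M →ₗ[k] M}

lemma symm (h : MP G x n) : MP G n x := ⟨h.hn, h.hx, h.m.symm⟩

section Block

variable {t s : M →ₗ[k] M}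

lemma e1_t (h : MP G x n) (ht : InC G x t) : (x * n) * t = t := e1_left h.m ht.ran.le
lemma t_e2 (h : MP G x n) (ht : InC G x t) : t * (n * x) = t := e2_right h.m ht.ker.symm.le

lemma x_t (h : MP G x n) (ht : InC G x t) : x * t = 0 := ht.mul_self_left h.m.xx
lemma t_x (h : MP G x n) (ht : InC G x t) : t * x = 0 := ht.mul_self_right h.m.xx

lemma t_e1 (h : MP G x n) (ht : InC G x t) : t * (x * n) = 0 := by
  rw [← mul_assoc, h.t_x ht, zero_mul]

lemma e2_t (h : MP G x n) (ht : InC G x t) : (n * x) * t = 0 := by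
  rw [mul_assoc, h.x_t ht, mul_zero]

lemma pi_t (h : MP G x n) (ht : InC G x t) : (x * n + n * x) * t = t := by
  rw [add_mul, h.e1_t ht, h.e2_t ht, add_zero]

lemma t_pi (h : MP G x n) (ht : InC G x t) : t * (x * n + n * x) = t := by
  rw [mul_add, h.t_e1 ht, h.t_e2 ht, zero_add]

/-- The same relations for the other class: the idempotents in our fixed order. -/
lemma e2_s (h : MP G x n) (hs : InC G n s) : (n * x) * s = s := h.symm.e1_t hs
lemma s_e1 (h : MP G x n) (hs : InC G n s) : s * (x * n) = s := h.symm.t_e2 hs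
lemma s_e2 (h : MP G x n) (hs : InC G n s) : s * (n * x) = 0 := h.symm.t_e1 hs
lemma e1_s (h : MP G x n) (hs : InC G n s) : (x * n) * s = 0 := h.symm.e2_t hs
lemma n_s (h : MP G x n) (hs : InC G n s) : n * s = 0 := h.symm.x_t hs
lemma s_n (h : MP G x n) (hs : InC G n s) : s * n = 0 := h.symm.t_x hs

lemma pi_s (h : MP G x n) (hs : InC G n s) : (x * n + n * x) * s = s := by
  rw [add_mul, h.e1_s hs, h.e2_s hs, zero_add]

lemma s_pi (h : MP G x n) (hs : InC G n s) : s * (x * n + n * x) = s := by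
  rw [mul_add, h.s_e1 hs, h.s_e2 hs, add_zero]

/-- Non-nilpotence for all members of the two classes. -/
lemma nonnil (h : MP G x n) (ht : InC G x t) (hs : InC G n s) : ¬ IsNilpotent (t * s + s * t) := by
  -- The range of `x`
  have hU : ∀ u ∈ LinearMap.range x, t u = 0 := by
    intro u hu
    have : u ∈ LinearMap.ker t := by
      rw [ht.ker]; exact range_le_ker_of_sq' h.m.xx hu
    exact this
  have hn1 : ∀ u ∈ LinearMap.range x, u ≠ 0 → s u ≠ 0 := by
    intro u hu hne hsu
    apply hne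
    have h1 : n u = 0 := by
      have : u ∈ LinearMap.ker s := hsu
      rw [hs.ker] at this
      exact this
    obtain ⟨w, rfl⟩ := hu
    have h2 := LinearMap.congr_fun h.m.xnx w
    simp only [Module.End.mul_apply] at h2
    rw [← h2, h1, map_zero]
  have hn2 : ∀ v ∈ LinearMap.range n, v ≠ 0 → t v ≠ 0 := by
    intro v hv hne htv
    apply hne
    have h1 : x v = 0 := by
      have : v ∈ LinearMap.ker t := htv
      rw [ht.ker] at this
      exact this
    obtain ⟨w, rfl⟩ := hv
    have h2 := LinearMap.congr_fun h.m.nxn w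
    simp only [Module.End.mul_apply] at h2
    rw [← h2, h1, map_zero]
  have hstep : ∀ u ∈ LinearMap.range x, u ≠ 0 →
      (t * s + s * t) u ∈ LinearMap.range x ∧ (t * s + s * t) u ≠ 0 := by
    intro u hu hne
    have e : (t * s + s * t) u = t (s u) := by
      simp [hU u hu]
    rw [e]
    constructor
    · rw [← ht.ran]; exact ⟨_, rfl⟩
    · apply hn2
      · rw [← hs.ran]; exact ⟨_, rfl⟩
      · exact hn1 u hu hne
  rintro ⟨m, hm⟩
  obtain ⟨w, hw⟩ : ∃ w, x w ≠ 0 := by
    by_contra hc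
    push Not at hc
    exact h.hx.q.ne (LinearMap.ext hc)
  have key : ∀ j : ℕ, ((t * s + s * t) ^ j) (x w) ∈ LinearMap.range x ∧ ((t * s + s * t) ^ j) (x w) ≠ 0 := by
    intro j
    induction j with
    | zero => exact ⟨⟨w, rfl⟩, hw⟩
    | succ j ih =>
      rw [pow_succ', Module.End.mul_apply]
      exact hstep _ ih.1 ih.2
  apply (key m).2
  rw [hm]
  simp

/-- The Weyl element as an endomorphism. -/
lemma weyl_val (h : MP G x n) : (1 + x) * (1 + -n) * (1 + x) = 1 - (x * n + n * x) + x - n := by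
  have hxx := h.m.xx
  have hxnx := h.m.xnx
  have e : (1 + x) * (1 + -n) * (1 + x) = 1 + x + x - n - x * n - n * x + x * x - x * n * x := by
    noncomm_ring
  rw [e, hxx, hxnx]
  abel

lemma weyl_inv_mul (h : MP G x n) :
    (1 - (x * n + n * x) + x - n) * (1 - (x * n + n * x) - x + n) = 1 := by
  have hp := h.m.pi_sq
  have hpx := h.m.pi_x
  have hxp := h.m.x_pi
  have hpn := h.m.pi_n
  have hnp := h.m.n_pi
  have hxx := h.m.xx
  have hnn := h.m.nn
  set π := x * n + n * x with hπ
  have e : (1 - π + x - n) * (1 - π - x + n) =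
      1 - π - π + π * π - x + π * x + n - π * n + x - x * π - x * x + x * n - n + n * π + n * x - n * n := by
    noncomm_ring
  rw [e, hp, hpx, hxp, hpn, hnp, hxx, hnn]
  have e2 : x * n = π - n * x := by rw [hπ]; abel
  rw [e2]
  abel

lemma val_inv_eq_of {w : LinearMap.GeneralLinearGroup k M} {v v' : M →ₗ[k] M} (e : (w : M →ₗ[k] M) = v)
    (h : v * v' = 1) : ((w⁻¹ : LinearMap.GeneralLinearGroup k M) : M →ₗ[k] M) = v' := by
  have e2 := val_inv_mul w
  rw [e] at e2
  calc ((w⁻¹ : LinearMap.GeneralLinearGroup k M) : M →ₗ[k] M)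
      = ((w⁻¹ : LinearMap.GeneralLinearGroup k M) : M →ₗ[k] M) * (v * v') := by rw [h, mul_one]
    _ = (((w⁻¹ : LinearMap.GeneralLinearGroup k M) : M →ₗ[k] M) * v) * v' := (mul_assoc _ _ _).symm
    _ = v' := by rw [e2, one_mul]

/-- The Weyl element of a matched pair. -/
lemma exists_weyl (h : MP G x n) : ∃ w ∈ G, (w : M →ₗ[k] M) = 1 - (x * n + n * x) + x - n ∧
    ((w⁻¹ : LinearMap.GeneralLinearGroup k M) : M →ₗ[k] M) = 1 - (x * n + n * x) - x + n ∧
    ∃ a b : LinearMap.GeneralLinearGroup k M, (a : M →ₗ[k] M) = 1 + x ∧ (b : M →ₗ[k] M) = 1 + -n ∧ w = a * b * a := by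
  obtain ⟨a, ha, ea⟩ : G1 G x := by simpa using h.hx.q.fam 1
  obtain ⟨b, hb, eb⟩ : G1 G (-n) := by
    have := h.hn.q.fam (-1)
    simpa using this
  refine ⟨a * b * a, G.mul_mem (G.mul_mem ha hb) ha, ?_, ?_, a, b, ea, eb, rfl⟩
  · rw [Units.val_mul, Units.val_mul, ea, eb, weyl_val h]
  · have e1 : ((a * b * a : LinearMap.GeneralLinearGroup k M) : M →ₗ[k] M) = 1 - (x * n + n * x) + x - n := by
      rw [Units.val_mul, Units.val_mul, ea, eb, weyl_val h]
    exact val_inv_eq_of e1 (weyl_inv_mul h)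

/-- The Weyl element swaps the two classes. -/
lemma weyl_conj (h : MP G x n) {t w : M →ₗ[k] M} (ht : InC G x t)
    (e1 : w = 1 - (x * n + n * x) + x - n) {w' : M →ₗ[k] M} (e2 : w' = 1 - (x * n + n * x) - x + n) :
    w * t * w' = -(n * t * n) := by
  subst e1 e2
  have h1 := h.pi_t ht
  have h2 := h.t_pi ht
  have h3 := h.x_t ht
  have h4 := h.t_x ht
  set π := x * n + n * x with hπ
  have e : (1 - π + x - n) * t * (1 - π - x + n) =
      (t - π * t + x * t - n * t) * (1 - π - x + n) := by noncomm_ring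
  rw [e, h1, h3]
  have e' : (t - t + 0 - n * t) * (1 - π - x + n) = -(n * t) + n * (t * π) + n * (t * x) - n * t * n := by
    noncomm_ring
  rw [e', h2, h4]
  noncomm_ring

variable [FiniteDimensional k M]

/-- `n t n` is in the class of `n`. -/
lemma ntn_mem (h : MP G x n) {t : M →ₗ[k] M} (ht : InC G x t) : InC G n (n * t * n) := by
  obtain ⟨w, hw, e1, e2, -⟩ := h.exists_weyl
  have h1 : IsQD G (cj w t) := ht.qd.conj hw
  have h3 : cj w t = -(n * t * n) := h.weyl_conj ht e1 e2
  have h4 : IsQD G (n * t * n) := by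
    have := h1.smul (c := -1) (neg_ne_zero.2 one_ne_zero)
    rw [h3] at this
    simpa using this
  apply same_of_le h4 h.hn
  · intro v hv
    rw [LinearMap.mem_ker] at hv ⊢
    simp [hv]
  · rintro _ ⟨v, rfl⟩
    exact ⟨_, rfl⟩

/-- The partner of any member of the class. -/
lemma exists_partner' (h2 : (2 : k) ≠ 0) (hk3 : Nat.card k ≠ 3) (h : MP G x n) {t : M →ₗ[k] M} (ht : InC G x t) :
    ∃ n', InC G n n' ∧ MP G t n' := by
  obtain ⟨n', hq, hm, hk, hr⟩ := exists_matched_same h2 hk3 ht.qd h.hn (h.nonnil ht (InC.refl h.hn))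
  exact ⟨n', ⟨hq, hk, hr⟩, ⟨ht.qd, hq, hm⟩⟩

end Block

end MP

/-! ### The conjugation identity -/

section ConjId

variable {R : Type*} [Ring R]

/-- The conjugation identity. -/
lemma conj_identity {t n t' : R} (hm : IsMatched t n) (h1 : (t * n) * t' = t') (h2 : t' * (n * t) = t') :
    (1 - n) * (1 + t') * (1 + n) = (1 - t) * (1 + -(n * t' * n)) * (1 + t) := by
  have htt := hm.xx
  have hnn := hm.nn
  have e1 : (1 - n) * (1 + t') * (1 + n) = 1 + t' - n * t' + t' * n - n * t' * n - n * n := by noncomm_ring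
  have e2 : (1 - t) * (1 + -(n * t' * n)) * (1 + t) =
      1 - n * t' * n + (t * n) * t' * n - n * (t' * (n * t)) + (t * n) * (t' * (n * t)) - t * t := by
    noncomm_ring
  rw [e1, e2, h2, h1, hnn, htt]
  abel

/-- The sandwich identity used for the special relation. -/
lemma sandwich {t n s s' : R} (hm : IsMatched t n) (h1 : (t * n) * s = 0) (h2 : s * (t * n) = s)
    (h1' : (t * n) * s' = 0) (h2' : s' * (t * n) = s')
    (e : (1 - s) * (1 + t) * (1 + s) = (1 - t) * (1 + s') * (1 + t)) : t * s = - (t * s') := by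
  have hte : t * (t * n) = 0 := hm.xe1
  have het : (t * n) * t = t := hm.e1x
  have hee : (t * n) * (t * n) = t * n := hm.e1e1
  set f := t * n with hf
  have key : f * ((1 - s) * (1 + t) * (1 + s)) * f = f * ((1 - t) * (1 + s') * (1 + t)) * f := by rw [e]
  have l : f * ((1 - s) * (1 + t) * (1 + s)) * f =
      f * f + (f * t) * f - (f * s) * t * f - (f * s) * s * f + (f * t) * (s * f) - (f * s) * t * (s * f) := by
    noncomm_ring
  have r : f * ((1 - t) * (1 + s') * (1 + t)) * f =
      f * f + (f * s') * f + (f * s') * (t * f) - (f * t) * (t * f) - (f * t) * (s' * f) - (f * t) * s' * (t * f) := by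
    noncomm_ring
  rw [l, r, h1, h2, h1', h2', het, hte] at key
  simp only [zero_mul, mul_zero, sub_zero, add_zero, zero_add] at key
  have h3 : f * f + t * s = f * f - t * s' := by
    rw [← key]
  have h4 : t * s = - (t * s') := by
    have := add_left_cancel (a := f * f) (b := t * s) (c := - (t * s')) (by rw [h3]; abel)
    exact this
  exact h4

end ConjId

/-! ### Subgroups described by a class -/

section Groups

/-- `A` consists of `1` and the elements `1 + t`, `t` in the class of `x`. -/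
def HasClass (G A : Subgroup (LinearMap.GeneralLinearGroup k M)) (x : M →ₗ[k] M) : Prop :=
  ∀ g, g ∈ A ↔ g = 1 ∨ InC G x (tt g)

variable {A B : Subgroup (LinearMap.GeneralLinearGroup k M)} {x n : M →ₗ[k] M}

lemma HasClass.of_inC {x' : M →ₗ[k] M} (hA : HasClass G A x) (hx : IsQD G x) (h : InC G x x') : HasClass G A x' := by
  intro g
  rw [hA g]
  constructor
  · rintro (h1 | h1)
    · exact Or.inl h1
    · exact Or.inr ((h.symm hx).trans h1)
  · rintro (h1 | h1)
    · exact Or.inl h1
    · exact Or.inr (h.trans h1)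

lemma tt_eq_zero_iff {g : LinearMap.GeneralLinearGroup k M} : tt g = 0 ↔ g = 1 := by
  constructor
  · intro h
    apply Units.ext
    exact sub_eq_zero.1 h
  · rintro rfl
    simp [tt]

lemma val_of_tt (g : LinearMap.GeneralLinearGroup k M) : (g : M →ₗ[k] M) = 1 + tt g := by simp [tt]

lemma mem_of_inC (hA : HasClass G A x) {g : LinearMap.GeneralLinearGroup k M} {t : M →ₗ[k] M}
    (e : (g : M →ₗ[k] M) = 1 + t) (ht : InC G x t) : g ∈ A := by
  rw [hA g]
  right
  have : tt g = t := by simp [tt, e]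
  rwa [this]

lemma unit_mem_of_inC (hA : HasClass G A x) {t : M →ₗ[k] M} (hsq : t * t = 0) (ht : InC G x t) :
    unitOfSq t hsq ∈ A := mem_of_inC hA rfl ht

lemma sq_of_inC {t : M →ₗ[k] M} (ht : InC G x t) : t * t = 0 := ht.qd.q.sq

lemma tt_sq_of_class (hA : HasClass G A x) {g : LinearMap.GeneralLinearGroup k M} (hg : g ∈ A) : tt g * tt g = 0 := by
  rcases (hA g).1 hg with rfl | h
  · simp [tt]
  · exact h.qd.q.sq

lemma val_inv_of_class (hA : HasClass G A x) {g : LinearMap.GeneralLinearGroup k M} (hg : g ∈ A) :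
    ((g⁻¹ : LinearMap.GeneralLinearGroup k M) : M →ₗ[k] M) = 1 - tt g :=
  val_inv_of_sq (val_of_tt g) (tt_sq_of_class hA hg)

variable [FiniteDimensional k M]

lemma conj_eq {a b a' b' : LinearMap.GeneralLinearGroup k M} {t n t' : M →ₗ[k] M} (hm : IsMatched t n)
    (ha : (a : M →ₗ[k] M) = 1 + t) (hb : (b : M →ₗ[k] M) = 1 + n) (ha' : (a' : M →ₗ[k] M) = 1 + t')
    (hb' : (b' : M →ₗ[k] M) = 1 + -(n * t' * n)) (h1 : (t * n) * t' = t') (h2 : t' * (n * t) = t') :
    b⁻¹ * a' * b = a⁻¹ * b' * a := by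
  apply Units.ext
  simp only [Units.val_mul]
  rw [val_inv_of_sq ha hm.xx, val_inv_of_sq hb hm.nn, ha, hb, ha', hb']
  exact conj_identity hm h1 h2

/-- The rank one condition. -/
theorem rankOneCond (h2 : (2 : k) ≠ 0) (hk3 : Nat.card k ≠ 3) (h : MP G x n) (hA : HasClass G A x)
    (hB : HasClass G B n) : RankOneCondition A B := by
  intro a ha ha1
  have hat : InC G x (tt a) := ((hA a).1 ha).resolve_left ha1
  obtain ⟨n', hn', hmp⟩ := h.exists_partner' h2 hk3 hat
  have hnsq : n' * n' = 0 := hmp.m.nn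
  set b := unitOfSq n' hnsq with hb
  have hbB : b ∈ B := unit_mem_of_inC hB hnsq hn'
  have hb1 : b ≠ 1 := by
    intro e
    have : tt b = 0 := tt_eq_zero_iff.2 e
    rw [tt_unitOfSq] at this
    exact hn'.qd.q.ne this
  have hbval : (b : M →ₗ[k] M) = 1 + n' := rfl
  have haval := val_of_tt a
  refine ⟨b, hbB, hb1, ?_⟩
  have hAB : HasClass G A (tt a) := hA.of_inC h.hx hat
  have hBB : HasClass G B n' := hB.of_inC h.hn hn'
  ext g
  constructor
  · rintro ⟨a', ha', rfl⟩
    show b⁻¹ * a' * b⁻¹⁻¹ ∈ Subgroup.map _ B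
    rw [inv_inv]
    rcases (hAB a').1 ha' with rfl | hat'
    · refine ⟨1, B.one_mem, ?_⟩
      show a⁻¹ * 1 * a⁻¹⁻¹ = _
      simp
    · have hq := hmp.ntn_mem hat'
      have hq2 : InC G n' (-(n' * tt a' * n')) := by
        have := hq.smul (c := -1) (neg_ne_zero.2 one_ne_zero)
        simpa using this
      have hsq := hq2.qd.q.sq
      refine ⟨unitOfSq _ hsq, mem_of_inC hBB rfl hq2, ?_⟩
      show a⁻¹ * unitOfSq _ hsq * a⁻¹⁻¹ = _
      rw [inv_inv]
      exact (conj_eq hmp.m haval hbval (val_of_tt a') rfl (hmp.e1_t hat') (hmp.t_e2 hat')).symm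
  · rintro ⟨b', hb', rfl⟩
    show a⁻¹ * b' * a⁻¹⁻¹ ∈ Subgroup.map _ A
    rw [inv_inv]
    rcases (hBB b').1 hb' with rfl | hbs
    · refine ⟨1, A.one_mem, ?_⟩
      show b⁻¹ * 1 * b⁻¹⁻¹ = _
      simp
    · have hq := hmp.symm.ntn_mem hbs
      have hq2 : InC G (tt a) (-(tt a * tt b' * tt a)) := by
        have := hq.smul (c := -1) (neg_ne_zero.2 one_ne_zero)
        simpa using this
      have hsq := hq2.qd.q.sq
      refine ⟨unitOfSq _ hsq, mem_of_inC hAB rfl hq2, ?_⟩
      show b⁻¹ * unitOfSq _ hsq * b⁻¹⁻¹ = _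
      rw [inv_inv]
      refine conj_eq hmp.m haval hbval rfl ?_ (hmp.e1_t hq2) (hmp.t_e2 hq2)
      rw [val_of_tt b']
      congr 1
      have e1 := hmp.e2_s hbs
      have e2 := hmp.s_e1 hbs
      calc tt b' = (n' * tt a) * tt b' * (tt a * n') := by rw [e1, e2]
        _ = -(n' * -(tt a * tt b' * tt a) * n') := by noncomm_ring

/-- The special relation. -/
theorem specialRel (h2 : (2 : k) ≠ 0) (hk3 : Nat.card k ≠ 3) (h : MP G x n) (hA : HasClass G A x)
    (hB : HasClass G B n) {a b : LinearMap.GeneralLinearGroup k M} (ha : a ∈ A) (ha1 : a ≠ 1) (hb : b ∈ B)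
    (hb1 : b ≠ 1) (hc : conjBy A b⁻¹ = conjBy B a⁻¹) : b⁻¹ * a * b = a⁻¹ * b⁻¹ * a := by
  have hat : InC G x (tt a) := ((hA a).1 ha).resolve_left ha1
  obtain ⟨n', hn', hmp⟩ := h.exists_partner' h2 hk3 hat
  have hBB : HasClass G B n' := hB.of_inC h.hn hn'
  have hbs : InC G n' (tt b) := ((hBB b).1 hb).resolve_left hb1
  have hmem : b⁻¹ * a * b ∈ conjBy A b⁻¹ := ⟨a, ha, by
    show b⁻¹ * a * b⁻¹⁻¹ = _
    rw [inv_inv]⟩
  rw [hc] at hmem
  obtain ⟨b'', hb'', e⟩ := hmem
  have e' : a⁻¹ * b'' * a = b⁻¹ * a * b := by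
    rw [← e]
    show _ = a⁻¹ * b'' * a⁻¹⁻¹
    rw [inv_inv]
  have hsq := hmp.m.xx
  have hval : (1 - tt b) * (1 + tt a) * (1 + tt b) = (1 - tt a) * (1 + tt b'') * (1 + tt a) := by
    have := congrArg (Units.val) e'
    simp only [Units.val_mul] at this
    rw [val_inv_of_sq (val_of_tt a) hsq, val_inv_of_sq (val_of_tt b) hbs.qd.q.sq, val_of_tt b'', val_of_tt a,
      val_of_tt b] at this
    exact this.symm
  have hs1 : (tt a * n') * tt b'' = 0 ∧ tt b'' * (tt a * n') = tt b'' := by
    rcases (hBB b'').1 hb'' with rfl | hq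
    · simp [tt]
    · exact ⟨hmp.e1_s hq, hmp.s_e1 hq⟩
  have hs2 : (n' * tt a) * tt b'' = tt b'' := by
    rcases (hBB b'').1 hb'' with rfl | hq
    · simp [tt]
    · exact hmp.e2_s hq
  have h5 := sandwich hmp.m (hmp.e1_s hbs) (hmp.s_e1 hbs) hs1.1 hs1.2 hval
  have h6 : tt b = - tt b'' := by
    have := congrArg (fun r => n' * r) h5
    simp only [mul_neg] at this
    rw [← mul_assoc, ← mul_assoc, hmp.e2_s hbs, hs2] at this
    exact this
  have h7 : b'' = b⁻¹ := by
    apply Units.ext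
    rw [val_inv_of_sq (val_of_tt b) hbs.qd.q.sq, val_of_tt b'', h6]
    simp [sub_eq_add_neg]
  rw [← e', h7]

lemma comm_of_class (hA : HasClass G A x) (hxx : x * x = 0) {g g' : LinearMap.GeneralLinearGroup k M} (hg : g ∈ A)
    (hg' : g' ∈ A) : g * g' = g' * g := by
  rcases (hA g).1 hg with rfl | h1
  · simp
  rcases (hA g').1 hg' with rfl | h3
  · simp
  apply Units.ext
  simp only [Units.val_mul]
  rw [val_of_tt g, val_of_tt g']
  have e1 : tt g * tt g' = 0 := h1.mul_eq_zero hxx h3
  have e2 : tt g' * tt g = 0 := h3.mul_eq_zero hxx h1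
  have : (1 + tt g) * (1 + tt g') = 1 + tt g + tt g' + tt g * tt g' := by noncomm_ring
  rw [this]
  have : (1 + tt g') * (1 + tt g) = 1 + tt g' + tt g + tt g' * tt g := by noncomm_ring
  rw [this, e1, e2]
  abel

lemma nilp_of_class (hA : HasClass G A x) (hxx : x * x = 0) : Group.IsNilpotent ↥A := by
  letI : CommGroup ↥A :=
    { (inferInstance : Group ↥A) with
      mul_comm := fun a b => Subtype.ext (comm_of_class hA hxx a.2 b.2) }
  exact CommGroup.isNilpotent

/-- The pair `(A, B)` is a special rank one pair. -/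
theorem special_pair (h2 : (2 : k) ≠ 0) (hk3 : Nat.card k ≠ 3) (h : MP G x n) (hA : HasClass G A x)
    (hB : HasClass G B n) : IsSpecialRankOnePair A B := by
  refine ⟨⟨?_, nilp_of_class hA h.m.xx, nilp_of_class hB h.m.nn, rankOneCond h2 hk3 h hA hB,
    rankOneCond h2 hk3 h.symm hB hA⟩, fun a ha ha1 b hb hb1 hc => specialRel h2 hk3 h hA hB ha ha1 hb hb1 hc⟩
  intro e
  have hxsq := h.m.xx
  have h1 : unitOfSq x hxsq ∈ A := unit_mem_of_inC hA hxsq (InC.refl h.hx)
  rw [e] at h1
  rcases (hB _).1 h1 with h3 | h3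
  · have := tt_eq_zero_iff.2 h3
    rw [tt_unitOfSq] at this
    exact h.hx.q.ne this
  · rw [tt_unitOfSq] at h3
    apply h.hx.q.ne
    have h5 := h.m.xnx
    rw [← h5]
    have h6 : x * n = 0 := by
      apply mul_zero_of_le
      rw [h3.ker]
      exact range_le_ker_of_sq' h.m.nn
    rw [h6, zero_mul]

/-! ### The central involution -/

lemma tt_apply_unit {t : M →ₗ[k] M} (hsq : t * t = 0) (v : M) :
    (((unitOfSq t hsq : LinearMap.GeneralLinearGroup k M) : M →ₗ[k] M) - 1) v = t v :=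
  LinearMap.congr_fun (tt_unitOfSq t hsq) v

lemma ext_both' {M₀ M₁ : Submodule k M} (hc : IsCompl M₀ M₁) {f g : M →ₗ[k] M} (h0 : ∀ v ∈ M₀, f v = g v)
    (h1 : ∀ v ∈ M₁, f v = g v) : f = g := by
  ext v
  have hv : v ∈ M₀ ⊔ M₁ := by rw [hc.sup_eq_top]; trivial
  obtain ⟨a, ha, b, hb, rfl⟩ := Submodule.mem_sup.1 hv
  rw [map_add, map_add, h0 a ha, h1 b hb]

/-- Elements fixing a given endomorphism on both sides. -/
def CornerSub (p : M →ₗ[k] M) : Subgroup (LinearMap.GeneralLinearGroup k M) where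
  carrier := {g | (g : M →ₗ[k] M) * p = p ∧ p * (g : M →ₗ[k] M) = p}
  one_mem' := by simp
  mul_mem' := by
    rintro a b ⟨h1, h2⟩ ⟨h3, h4⟩
    refine ⟨?_, ?_⟩
    · rw [Units.val_mul, mul_assoc, h3, h1]
    · rw [Units.val_mul, ← mul_assoc, h2, h4]
  inv_mem' := by
    rintro a ⟨h1, h2⟩
    refine ⟨?_, ?_⟩
    · calc ((a⁻¹ : LinearMap.GeneralLinearGroup k M) : M →ₗ[k] M) * p
          = ((a⁻¹ : LinearMap.GeneralLinearGroup k M) : M →ₗ[k] M) * ((a : M →ₗ[k] M) * p) := by rw [h1]
        _ = p := by rw [← mul_assoc, val_inv_mul, one_mul]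
    · calc p * ((a⁻¹ : LinearMap.GeneralLinearGroup k M) : M →ₗ[k] M)
          = (p * (a : M →ₗ[k] M)) * ((a⁻¹ : LinearMap.GeneralLinearGroup k M) : M →ₗ[k] M) := by rw [h2]
        _ = p := by rw [mul_assoc, val_mul_inv, mul_one]

lemma one_add_mul_corner {t p : M →ₗ[k] M} (h : t * p = t) : (1 + t) * (1 - p) = 1 - p := by
  have : (1 + t) * (1 - p) = 1 - p + t - t * p := by noncomm_ring
  rw [this, h]; abel

lemma corner_mul_one_add {t p : M →ₗ[k] M} (h : p * t = t) : (1 - p) * (1 + t) = 1 - p := by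
  have : (1 - p) * (1 + t) = 1 - p + t - p * t := by noncomm_ring
  rw [this, h]; abel

lemma sup_le_corner (h : MP G x n) (hA : HasClass G A x) (hB : HasClass G B n) :
    A ⊔ B ≤ CornerSub (1 - (x * n + n * x)) := by
  apply sup_le
  · intro g hg
    rcases (hA g).1 hg with rfl | ht
    · exact Subgroup.one_mem _
    · refine ⟨?_, ?_⟩
      · rw [val_of_tt g]; exact one_add_mul_corner (h.t_pi ht)
      · rw [val_of_tt g]; exact corner_mul_one_add (h.pi_t ht)
  · intro g hg
    rcases (hB g).1 hg with rfl | ht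
    · exact Subgroup.one_mem _
    · refine ⟨?_, ?_⟩
      · rw [val_of_tt g]; exact one_add_mul_corner (h.s_pi ht)
      · rw [val_of_tt g]; exact corner_mul_one_add (h.pi_s ht)

/-- The fixed space of `⟨A, B⟩`. -/
lemma fixed_eq (h : MP G x n) (hA : HasClass G A x) (hB : HasClass G B n) :
    fixedSubmodule (A ⊔ B) = LinearMap.ker (x * n + n * x) := by
  apply le_antisymm
  · intro v hv
    simp only [fixedSubmodule, Submodule.mem_iInf, LinearMap.mem_ker] at hv
    have hxu : unitOfSq x h.m.xx ∈ A ⊔ B :=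
      (le_sup_left : A ≤ A ⊔ B) (unit_mem_of_inC hA h.m.xx (InC.refl h.hx))
    have hnu : unitOfSq n h.m.nn ∈ A ⊔ B :=
      (le_sup_right : B ≤ A ⊔ B) (unit_mem_of_inC hB h.m.nn (InC.refl h.hn))
    have h1 := hv _ hxu
    have h3 := hv _ hnu
    rw [tt_apply_unit] at h1 h3
    rw [LinearMap.mem_ker]
    simp [h1, h3]
  · intro v hv
    simp only [fixedSubmodule, Submodule.mem_iInf, LinearMap.mem_ker]
    intro g hg
    have h1 := (sup_le_corner h hA hB hg).1
    have h3 := LinearMap.congr_fun h1 v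
    rw [LinearMap.mem_ker] at hv
    simp only [Module.End.mul_apply, LinearMap.sub_apply, Module.End.one_apply, hv, sub_zero] at h3
    simp [h3]

/-- The commutator space of `⟨A, B⟩`. -/
lemma comm_eq (h : MP G x n) (hA : HasClass G A x) (hB : HasClass G B n) :
    commutatorSubmodule (A ⊔ B) = LinearMap.range (x * n + n * x) := by
  apply le_antisymm
  · apply iSup₂_le
    rintro g hg _ ⟨m, rfl⟩
    have h1 := (sup_le_corner h hA hB hg).2
    have h3 := LinearMap.congr_fun h1 m
    simp only [Module.End.mul_apply, LinearMap.sub_apply, Module.End.one_apply, map_sub] at h3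
    refine ⟨(g : M →ₗ[k] M) m - m, ?_⟩
    rw [map_sub]
    simp only [LinearMap.sub_apply, Module.End.one_apply]
    have e : (g : M →ₗ[k] M) m - m = (x * n + n * x) ((g : M →ₗ[k] M) m) - (x * n + n * x) m := by
      have := sub_eq_zero.2 h3
      rw [← sub_eq_zero]
      rw [← this]
      abel
    exact e.symm
  · rintro _ ⟨m, rfl⟩
    have hxu : unitOfSq x h.m.xx ∈ A ⊔ B :=
      (le_sup_left : A ≤ A ⊔ B) (unit_mem_of_inC hA h.m.xx (InC.refl h.hx))
    have hnu : unitOfSq n h.m.nn ∈ A ⊔ B :=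
      (le_sup_right : B ≤ A ⊔ B) (unit_mem_of_inC hB h.m.nn (InC.refl h.hn))
    have e : (x * n + n * x) m = x (n m) + n (x m) := rfl
    rw [e]
    refine Submodule.add_mem _ ?_ ?_
    · refine Submodule.mem_iSup_of_mem _ (Submodule.mem_iSup_of_mem hxu ⟨n m, ?_⟩)
      rw [tt_apply_unit]
    · refine Submodule.mem_iSup_of_mem _ (Submodule.mem_iSup_of_mem hnu ⟨x m, ?_⟩)
      rw [tt_apply_unit]

lemma isCompl_pi {p : M →ₗ[k] M} (hp : p * p = p) : IsCompl (LinearMap.ker p) (LinearMap.range p) := by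
  constructor
  · rw [Submodule.disjoint_def]
    rintro v hv ⟨u, rfl⟩
    rw [LinearMap.mem_ker] at hv
    have := LinearMap.congr_fun hp u
    simp only [Module.End.mul_apply] at this
    rw [← this, hv]
  · rw [codisjoint_iff, eq_top_iff]
    intro m _
    refine Submodule.mem_sup.2 ⟨m - p m, ?_, p m, ⟨m, rfl⟩, by abel⟩
    rw [LinearMap.mem_ker, map_sub]
    have := LinearMap.congr_fun hp m
    simp only [Module.End.mul_apply] at this
    rw [this, sub_self]

/-- **The central involution.** -/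
theorem central_involution (h2 : (2 : k) ≠ 0) (h : MP G x n) (hA : HasClass G A x) (hB : HasClass G B n) :
    (∃! i : LinearMap.GeneralLinearGroup k M, i ∈ A ⊔ B ∧ i ≠ 1 ∧ i * i = 1 ∧
        (∀ g ∈ A ⊔ B, i * g = g * i) ∧
        (∀ m ∈ commutatorSubmodule (A ⊔ B), (i : M →ₗ[k] M) m = -m) ∧
        (∀ m ∈ fixedSubmodule (A ⊔ B), (i : M →ₗ[k] M) m = m)) ∧
      IsCompl (fixedSubmodule (A ⊔ B)) (commutatorSubmodule (A ⊔ B)) := by
  have hpp := h.m.pi_sq
  have hcompl : IsCompl (fixedSubmodule (A ⊔ B)) (commutatorSubmodule (A ⊔ B)) := by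
    rw [fixed_eq h hA hB, comm_eq h hA hB]
    exact isCompl_pi hpp
  refine ⟨?_, hcompl⟩
  obtain ⟨w, hw, e1, e2, a, b, ea, eb, ew⟩ := h.exists_weyl
  set π := x * n + n * x with hπ
  have hsq : (w : M →ₗ[k] M) * (w : M →ₗ[k] M) = 1 - π - π := by
    rw [e1]
    have hpx := h.m.pi_x
    have hxp := h.m.x_pi
    have hpn := h.m.pi_n
    have hnp := h.m.n_pi
    have hxx := h.m.xx
    have hnn := h.m.nn
    have e : (1 - π + x - n) * (1 - π + x - n) = 1 - π - π + π * π + x - π * x - n + π * n + x - x * π + x * x - x * n - n + n * π - n * x + n * n := by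
      noncomm_ring
    rw [e, hpp, hpx, hxp, hpn, hnp, hxx, hnn]
    have e2' : x * n = π - n * x := by rw [hπ]; abel
    rw [e2']
    abel
  have hamem : a ∈ A := mem_of_inC hA ea (InC.refl h.hx)
  have hbmem : b ∈ B := by
    have hneg : InC G n (-n) := by
      have := (InC.refl h.hn).smul (c := -1) (neg_ne_zero.2 one_ne_zero)
      simpa using this
    exact mem_of_inC hB eb hneg
  have hwX : w ∈ A ⊔ B := by
    rw [ew]
    exact mul_mem (mul_mem (le_sup_left (a := A) hamem) (le_sup_right (a := A) hbmem)) (le_sup_left (a := A) hamem)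
  have hi1 : ∀ v ∈ LinearMap.range π, ((w * w : LinearMap.GeneralLinearGroup k M) : M →ₗ[k] M) v = -v := by
    rintro _ ⟨u, rfl⟩
    rw [Units.val_mul, hsq]
    have := LinearMap.congr_fun hpp u
    simp only [Module.End.mul_apply] at this
    simp only [LinearMap.sub_apply, Module.End.one_apply, this]
    abel
  have hi0 : ∀ v ∈ LinearMap.ker π, ((w * w : LinearMap.GeneralLinearGroup k M) : M →ₗ[k] M) v = v := by
    intro u hu
    rw [LinearMap.mem_ker] at hu
    rw [Units.val_mul, hsq]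
    simp [hu]
  have h2M : ∀ v : M, v = -v → v = 0 := by
    intro v hv
    have h3 : (2 : k) • v = 0 := by
      rw [two_smul]
      nth_rewrite 1 [hv]
      simp
    exact (smul_eq_zero.1 h3).resolve_left h2
  refine ⟨w * w, ⟨mul_mem hwX hwX, ?_, ?_, ?_, ?_, ?_⟩, ?_⟩
  · intro e
    apply h.hx.q.ne
    have hx1 : x = π * x := h.m.pi_x.symm
    ext v
    have h3 := hi1 (π (x v)) ⟨_, rfl⟩
    rw [e] at h3
    have h4 : π (x v) = 0 := h2M _ h3
    rw [hx1, Module.End.mul_apply, h4]
    simp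
  · apply Units.ext
    rw [Units.val_mul, Units.val_one]
    apply ext_both' hcompl
    · intro v hv
      rw [fixed_eq h hA hB] at hv
      rw [Module.End.mul_apply, hi0 v hv, hi0 v hv]
      rfl
    · intro v hv
      rw [comm_eq h hA hB] at hv
      rw [Module.End.mul_apply, hi1 v hv, map_neg, hi1 v hv, neg_neg]
      rfl
  · -- central
    have hcen : A ⊔ B ≤ Subgroup.centralizer {w * w} := by
      have hcomm : ∀ t : M →ₗ[k] M, π * t = t → t * π = t →
          ((w * w : LinearMap.GeneralLinearGroup k M) : M →ₗ[k] M) * (1 + t) =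
            (1 + t) * ((w * w : LinearMap.GeneralLinearGroup k M) : M →ₗ[k] M) := by
        intro t h3 h4
        rw [Units.val_mul, hsq]
        have e3 : (1 - π - π) * (1 + t) = 1 - π - π + t - π * t - π * t := by noncomm_ring
        have e4 : (1 + t) * (1 - π - π) = 1 - π - π + t - t * π - t * π := by noncomm_ring
        rw [e3, e4, h3, h4]
      apply sup_le
      · intro g hg
        rw [Subgroup.mem_centralizer_singleton_iff]
        rcases (hA g).1 hg with rfl | ht
        · simp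
        · apply Units.ext
          show (g : M →ₗ[k] M) * ((w * w : LinearMap.GeneralLinearGroup k M) : M →ₗ[k] M) =
            ((w * w : LinearMap.GeneralLinearGroup k M) : M →ₗ[k] M) * (g : M →ₗ[k] M)
          rw [val_of_tt g]
          exact (hcomm _ (h.pi_t ht) (h.t_pi ht)).symm
      · intro g hg
        rw [Subgroup.mem_centralizer_singleton_iff]
        rcases (hB g).1 hg with rfl | ht
        · simp
        · apply Units.ext
          show (g : M →ₗ[k] M) * ((w * w : LinearMap.GeneralLinearGroup k M) : M →ₗ[k] M) =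
            ((w * w : LinearMap.GeneralLinearGroup k M) : M →ₗ[k] M) * (g : M →ₗ[k] M)
          rw [val_of_tt g]
          exact (hcomm _ (h.pi_s ht) (h.s_pi ht)).symm
    intro g hg
    have := hcen hg
    rw [Subgroup.mem_centralizer_singleton_iff] at this
    exact this.symm
  · intro m hm
    rw [comm_eq h hA hB] at hm
    exact hi1 m hm
  · intro m hm
    rw [fixed_eq h hA hB] at hm
    exact hi0 m hm
  · rintro i' ⟨-, -, -, -, h3, h4⟩
    apply Units.ext
    apply ext_both' hcompl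
    · intro v hv
      rw [h4 v hv]
      rw [fixed_eq h hA hB] at hv
      exact (hi0 v hv).symm
    · intro v hv
      rw [h3 v hv]
      rw [comm_eq h hA hB] at hv
      exact (hi1 v hv).symm

end Groups

end Cfsg.Agent.Lib.RootSubgroups.QuadBlock
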