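/-
Quadratic pairs: the groups `E(σ)` as class groups; the dichotomy for pairs of elements of `Σ`.
-/
import Mathlib
import Cfsg.Agent.Lib.RootSubgroups.QuadBlock

set_option autoImplicit false
set_option linter.unusedSimpArgs false
set_option linter.unusedVariables false
set_option linter.unusedSectionVars false
set_option linter.style.haveILetI false

namespace Cfsg.Agent.Lib.RootSubgroups.QuadClass

open Cfsg
open Cfsg.Agent.Lib.RootSubgroups.Quadratic
open Cfsg.Agent.Lib.RootSubgroups.QuadMatched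
open Cfsg.Agent.Lib.RootSubgroups.QuadBasic
open Cfsg.Agent.Lib.RootSubgroups.QuadFilt
open Cfsg.Agent.Lib.RootSubgroups.QuadRep
open Cfsg.Agent.Lib.RootSubgroups.QuadPartner
open Cfsg.Agent.Lib.RootSubgroups.QuadNU
open Cfsg.Agent.Lib.RootSubgroups.QuadBlock

universe u v

variable {k : Type u} [Field k] {M : Type v} [AddCommGroup M] [Module k M]
variable {G : Subgroup (LinearMap.GeneralLinearGroup k M)}

lemma hasClass_same [FiniteDimensional k M] {σ : LinearMap.GeneralLinearGroup k M}
    (hσ : σ ∈ minimalQuadraticElements G) : HasClass G (sameActionSubgroup G σ) (tt σ) := by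
  intro g
  have e : g ∈ sameActionSubgroup G σ ↔ g ∈ (sameActionSubgroup G σ : Set (LinearMap.GeneralLinearGroup k M)) :=
    Iff.rfl
  rw [e, sameActionSubgroup_coe hσ]
  constructor
  · rintro (h | h)
    · exact Or.inr ⟨isQD_of_mem h.1, h.2.1, h.2.2⟩
    · exact Or.inl h
  · rintro (h | h)
    · exact Or.inr h
    · refine Or.inl ?_
      have h1 := mem_minimal_of_isQD h.qd
      have h2 : unitOfSq (tt g) h.qd.q.sq = g := by
        apply Units.ext
        simp [tt]
      rw [h2] at h1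
      exact ⟨h1, h.ker, h.ran⟩

lemma three_of_nil [FiniteDimensional k M] (h4 : (4 : k) ≠ 0) {x y a b c : M →ₗ[k] M}
    (hy : IsQD G y) (ha : InC G x a) (hb : InC G y b) (hc : InC G x c)
    (hall : IsNilpotent (a * b + b * a)) : a * b * c = 0 := by
  have h1 : a * b * a = 0 := xyx_of_nil h4 ha.qd hb.qd.q hall
  apply mul_zero_of_le
  rw [hc.ran, ← ha.ran]
  rintro _ ⟨v, rfl⟩
  have := congrArg (fun f => f v) h1
  simpa using this

/-- If all the pairs of the two classes have nilpotent anti-commutator, `A ⊔ B` is unipotent. -/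
theorem unipotent_of_all_nil [FiniteDimensional k M] (h4 : (4 : k) ≠ 0) {x y : M →ₗ[k] M} (hx : IsQD G x)
    (hy : IsQD G y) {A B : Subgroup (LinearMap.GeneralLinearGroup k M)} (hA : HasClass G A x)
    (hB : HasClass G B y)
    (hall : ∀ x' y', InC G x x' → InC G y y' → IsNilpotent (x' * y' + y' * x')) :
    IsUnipotentOn (A ⊔ B) := by
  have e : A ⊔ B = Subgroup.closure ((A : Set (LinearMap.GeneralLinearGroup k M)) ∪ (B : Set _)) := by
    rw [Subgroup.closure_union, Subgroup.closure_eq, Subgroup.closure_eq]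
  rw [e]
  have hxx := hx.q.sq
  have hyy := hy.q.sq
  apply unipotent_of_three (T := {t | InC G x t} ∪ {t | InC G y t})
  · rintro a (ha | ha) b (hb | hb) c (hc | hc)
    · rw [InC.mul_eq_zero hxx ha hb, zero_mul]
    · rw [InC.mul_eq_zero hxx ha hb, zero_mul]
    · exact three_of_nil h4 hy ha hb hc (hall a b ha hb)
    · rw [mul_assoc, InC.mul_eq_zero hyy hb hc, mul_zero]
    · rw [mul_assoc, InC.mul_eq_zero hxx hb hc, mul_zero]
    · refine three_of_nil h4 hx ha hb hc ?_
      have := hall b a hb ha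
      rwa [add_comm] at this
    · rw [InC.mul_eq_zero hyy ha hb, zero_mul]
    · rw [InC.mul_eq_zero hyy ha hb, zero_mul]
  · rintro g (hg | hg)
    · rcases (hA g).1 hg with h | h
      · exact ⟨0, x, Or.inl (InC.refl hx), by simp [h]⟩
      · exact ⟨1, tt g, Or.inl h, by simp [tt]⟩
    · rcases (hB g).1 hg with h | h
      · exact ⟨0, x, Or.inl (InC.refl hx), by simp [h]⟩
      · exact ⟨1, tt g, Or.inr h, by simp [tt]⟩

/-- The dichotomy for a pair of classes. -/
theorem dichotomy [FiniteDimensional k M] (h2 : (2 : k) ≠ 0) (hk3 : Nat.card k ≠ 3) {x y : M →ₗ[k] M}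
    (hx : IsQD G x) (hy : IsQD G y) {A B : Subgroup (LinearMap.GeneralLinearGroup k M)}
    (hA : HasClass G A x) (hB : HasClass G B y) :
    IsUnipotentOn (A ⊔ B) ∨
    (IsSpecialRankOnePair A B ∧
      (∃! i : LinearMap.GeneralLinearGroup k M, i ∈ A ⊔ B ∧ i ≠ 1 ∧ i * i = 1 ∧
        (∀ g ∈ A ⊔ B, i * g = g * i) ∧
        (∀ m ∈ commutatorSubmodule (A ⊔ B), (i : M →ₗ[k] M) m = -m) ∧
        (∀ m ∈ fixedSubmodule (A ⊔ B), (i : M →ₗ[k] M) m = m)) ∧
      IsCompl (fixedSubmodule (A ⊔ B)) (commutatorSubmodule (A ⊔ B))) := by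
  have h4 : (4 : k) ≠ 0 := by
    have : (4 : k) = 2 * 2 := by norm_num
    rw [this]
    exact mul_ne_zero h2 h2
  by_cases hall : ∀ x' y', InC G x x' → InC G y y' → IsNilpotent (x' * y' + y' * x')
  · exact Or.inl (unipotent_of_all_nil h4 hx hy hA hB hall)
  · push Not at hall
    obtain ⟨x', y', hx', hy', hz⟩ := hall
    obtain ⟨n, hn, hm, hk, hr⟩ := exists_matched_same h2 hk3 hx'.qd hy'.qd hz
    have hmp : MP G x' n := ⟨hx'.qd, hn, hm⟩
    have hyn : InC G y n := ⟨hn, hk.trans hy'.ker, hr.trans hy'.ran⟩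
    have hA' := hA.of_inC hx hx'
    have hB' := hB.of_inC hy hyn
    exact Or.inr ⟨special_pair h2 hk3 hmp hA' hB', central_involution h2 hmp hA' hB'⟩

end Cfsg.Agent.Lib.RootSubgroups.QuadClass
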