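/-
Quadratic pairs: pairs of minimal elements with `xyx = yxy = 0`: the commutator `xy - yx`.
-/
import Mathlib
import Cfsg.Agent.Lib.RootSubgroups.QuadClass

set_option autoImplicit false
set_option linter.unusedSimpArgs false
set_option linter.unusedVariables false
set_option linter.unusedSectionVars false
set_option linter.style.haveILetI false

namespace Cfsg.Agent.Lib.RootSubgroups.QuadCase

open Cfsg
open Cfsg.Agent.Lib.RootSubgroups.Quadratic
open Cfsg.Agent.Lib.RootSubgroups.QuadMatched
open Cfsg.Agent.Lib.RootSubgroups.QuadBasic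
open Cfsg.Agent.Lib.RootSubgroups.QuadFilt
open Cfsg.Agent.Lib.RootSubgroups.QuadRep
open Cfsg.Agent.Lib.RootSubgroups.QuadPartner
open Cfsg.Agent.Lib.RootSubgroups.QuadNU
open Cfsg.Agent.Lib.RootSubgroups.QuadBlock
open Cfsg.Agent.Lib.RootSubgroups.QuadClass

universe u v

variable {k : Type u} [Field k] {M : Type v} [AddCommGroup M] [Module k M]
variable {G : Subgroup (LinearMap.GeneralLinearGroup k M)}

/-- The ring commutator. -/
abbrev wc (x y : M →ₗ[k] M) : M →ₗ[k] M := x * y - y * x

lemma wc_swap (x y : M →ₗ[k] M) : wc y x = - wc x y := by simp [wc]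

section Rank

variable [FiniteDimensional k M]

lemma finrank_map_add_inf_ker (u : M →ₗ[k] M) (U : Submodule k M) :
    Module.finrank k (U.map u) + Module.finrank k ↥(U ⊓ LinearMap.ker u) = Module.finrank k U := by
  have h := LinearMap.finrank_range_add_finrank_ker (u.domRestrict U)
  rw [LinearMap.range_domRestrict, LinearMap.ker_domRestrict] at h
  have e : Module.finrank k ↥((LinearMap.ker u).comap U.subtype) = Module.finrank k ↥(U ⊓ LinearMap.ker u) := by
    have h1 : (LinearMap.ker u).comap U.subtype = (U ⊓ LinearMap.ker u).comap U.subtype := by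
      ext v
      simp
    rw [h1]
    exact (Submodule.comapSubtypeEquivOfLe inf_le_left).finrank_eq
  rw [← e]
  exact h

/-- The rank lemma. -/
lemma sum_le {x u : M →ₗ[k] M} (h : u * x * u = 0) :
    Module.finrank k (LinearMap.range (x * u)) + Module.finrank k (LinearMap.range (u * x)) ≤ rk x := by
  have h1 : LinearMap.range (x * u) ≤ LinearMap.range x ⊓ LinearMap.ker u := by
    rintro _ ⟨v, rfl⟩
    refine ⟨⟨u v, rfl⟩, ?_⟩
    have := congrArg (fun f => f v) h
    simpa using this
  have h2 : LinearMap.range (u * x) = (LinearMap.range x).map u := by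
    ext v
    simp [LinearMap.mem_range, Submodule.mem_map]
  have h3 := Submodule.finrank_mono h1
  have h4 := finrank_map_add_inf_ker u (LinearMap.range x)
  rw [← h2] at h4
  unfold rk
  omega

end Rank

/-- A pair of minimal elements with `xyx = yxy = 0`. -/
structure NP (G : Subgroup (LinearMap.GeneralLinearGroup k M)) (x y : M →ₗ[k] M) : Prop where
  hx : IsQD G x
  hy : IsQD G y
  xyx : x * y * x = 0
  yxy : y * x * y = 0

namespace NP

variable {x y : M →ₗ[k] M}

lemma symm (h : NP G x y) : NP G y x := ⟨h.hy, h.hx, h.yxy, h.xyx⟩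

lemma wc_sq (h : NP G x y) : wc x y * wc x y = 0 := by
  have hx := h.hx.q.sq
  have hy := h.hy.q.sq
  have h1 := h.xyx
  have h2 := h.yxy
  have e : wc x y * wc x y = (x * y * x) * y - x * (y * y) * x - y * (x * x) * y + (y * x * y) * x := by
    simp only [wc]; noncomm_ring
  rw [e, hx, hy, h1, h2]
  simp

lemma wc_fam (h : NP G x y) (c : k) : G1 G (c • wc x y) := by
  have hx := h.hx.q.sq
  have hy := h.hy.q.sq
  have e : c • wc x y = (c • x) * y - y * (c • x) := by
    simp [wc, smul_sub]
  rw [e]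
  refine G1.comm (h.hx.q.fam c) ?_ (by simp [smul_mul_smul_comm, hx]) hy ?_ ?_
  · simpa using h.hy.q.fam 1
  · have : x * (y * x) = 0 := by rw [← mul_assoc, h.xyx]
    simp [smul_mul_smul_comm, mul_assoc, this]
  · have : y * (x * y) = 0 := by rw [← mul_assoc, h.yxy]
    simp [this, mul_assoc]

lemma wc_isQ (h : NP G x y) (hw : wc x y ≠ 0) : IsQ G (wc x y) := ⟨h.wc_sq, hw, h.wc_fam⟩

variable [FiniteDimensional k M]

lemma rk_wc_le (h : NP G x y) : rk (wc x y) ≤ Module.finrank k (LinearMap.range (x * y) ⊔ LinearMap.range (y * x) : Submodule k M) := by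
  apply Submodule.finrank_mono
  rintro _ ⟨v, rfl⟩
  simp only [wc, LinearMap.sub_apply]
  exact Submodule.sub_mem _ (Submodule.mem_sup_left ⟨v, rfl⟩) (Submodule.mem_sup_right ⟨v, rfl⟩)

lemma wc_qd (h : NP G x y) (hw : wc x y ≠ 0) : IsQD G (wc x y) := by
  refine ⟨h.wc_isQ hw, fun z hz => ?_⟩
  refine (h.rk_wc_le).trans ?_
  refine (Submodule.finrank_add_le_finrank_add_finrank _ _).trans ?_
  exact (sum_le h.yxy).trans (h.hx.min z hz)

/-- All the inequalities are equalities. -/
lemma sum_eq (h : NP G x y) (hw : wc x y ≠ 0) :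
    Module.finrank k (LinearMap.range (x * y)) + Module.finrank k (LinearMap.range (y * x)) = rk x ∧
    Module.finrank k (LinearMap.range (x * y) ⊔ LinearMap.range (y * x) : Submodule k M) = rk x := by
  have h1 := h.rk_wc_le
  have h2 := Submodule.finrank_add_le_finrank_add_finrank (LinearMap.range (x * y)) (LinearMap.range (y * x))
  have h3 := sum_le h.yxy
  have h4 := h.hx.min _ (h.wc_isQ hw)
  omega

lemma P_eq (h : NP G x y) (hw : wc x y ≠ 0) :
    LinearMap.range (x * y) = LinearMap.range x ⊓ LinearMap.ker y := by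
  have h1 : LinearMap.range (x * y) ≤ LinearMap.range x ⊓ LinearMap.ker y := by
    rintro _ ⟨v, rfl⟩
    refine ⟨⟨y v, rfl⟩, ?_⟩
    have := congrArg (fun f => f v) h.yxy
    simpa using this
  refine Submodule.eq_of_le_of_finrank_le h1 ?_
  have h2 : LinearMap.range (y * x) = (LinearMap.range x).map y := by
    ext v
    simp [LinearMap.mem_range, Submodule.mem_map]
  have h3 := finrank_map_add_inf_ker y (LinearMap.range x)
  rw [← h2] at h3
  have h4 := (h.sum_eq hw).1
  unfold rk at h4
  omega

lemma wc_swap_ne (hw : wc x y ≠ 0) : wc y x ≠ 0 := by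
  rw [wc_swap]
  exact neg_ne_zero.2 hw

lemma R_eq (h : NP G x y) (hw : wc x y ≠ 0) :
    LinearMap.range (y * x) = LinearMap.range y ⊓ LinearMap.ker x :=
  h.symm.P_eq (wc_swap_ne hw)

lemma disj (h : NP G x y) (hw : wc x y ≠ 0) :
    LinearMap.range (x * y) ⊓ LinearMap.range (y * x) = ⊥ := by
  have h1 := Submodule.finrank_sup_add_finrank_inf_eq (LinearMap.range (x * y)) (LinearMap.range (y * x))
  have h2 := h.sum_eq hw
  have h3 : Module.finrank k ↥(LinearMap.range (x * y) ⊓ LinearMap.range (y * x) : Submodule k M) = 0 := by omega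
  exact Submodule.finrank_eq_zero.1 h3

lemma range_w (h : NP G x y) (hw : wc x y ≠ 0) :
    LinearMap.range (wc x y) = LinearMap.range (x * y) ⊔ LinearMap.range (y * x) := by
  have h1 : LinearMap.range (wc x y) ≤ LinearMap.range (x * y) ⊔ LinearMap.range (y * x) := by
    rintro _ ⟨v, rfl⟩
    simp only [wc, LinearMap.sub_apply]
    exact Submodule.sub_mem _ (Submodule.mem_sup_left ⟨v, rfl⟩) (Submodule.mem_sup_right ⟨v, rfl⟩)
  refine Submodule.eq_of_le_of_finrank_le h1 ?_
  rw [(h.sum_eq hw).2]
  exact h.hx.min _ (h.wc_isQ hw)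

lemma ker_w (h : NP G x y) (hw : wc x y ≠ 0) :
    LinearMap.ker (wc x y) = (LinearMap.ker y ⊔ LinearMap.range x) ⊓ (LinearMap.ker x ⊔ LinearMap.range y) := by
  apply le_antisymm
  · intro m hm
    have hm' : x (y m) = y (x m) := by
      have : (wc x y) m = 0 := hm
      simpa [wc, sub_eq_zero] using this
    have hd := h.disj hw
    have h0 : x (y m) ∈ LinearMap.range (x * y) ⊓ LinearMap.range (y * x) :=
      ⟨⟨m, rfl⟩, ⟨m, hm'.symm⟩⟩
    rw [hd, Submodule.mem_bot] at h0
    have h0' : y (x m) = 0 := by rw [← hm', h0]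
    constructor
    · -- `y m ∈ Uy ⊓ Cx = R`
      have h1 : y m ∈ LinearMap.range (y * x) := by
        rw [h.R_eq hw]
        exact ⟨⟨m, rfl⟩, h0⟩
      obtain ⟨a, ha⟩ := h1
      have : m = (m - x a) + x a := by abel
      rw [this]
      refine Submodule.add_mem_sup ?_ ⟨a, rfl⟩
      rw [LinearMap.mem_ker, map_sub, sub_eq_zero]
      exact ha.symm
    · have h1 : x m ∈ LinearMap.range (x * y) := by
        rw [h.P_eq hw]
        exact ⟨⟨m, rfl⟩, h0'⟩
      obtain ⟨a, ha⟩ := h1
      have : m = (m - y a) + y a := by abel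
      rw [this]
      refine Submodule.add_mem_sup ?_ ⟨a, rfl⟩
      rw [LinearMap.mem_ker, map_sub, sub_eq_zero]
      exact ha.symm
  · rintro m ⟨h1, h2⟩
    rw [LinearMap.mem_ker]
    simp only [wc, LinearMap.sub_apply, Module.End.mul_apply]
    have h3 : x (y m) = 0 := by
      obtain ⟨c, hc, _, ⟨a, rfl⟩, rfl⟩ := Submodule.mem_sup.1 h1
      rw [map_add, hc, zero_add]
      have := congrArg (fun f => f a) h.xyx
      simpa using this
    have h4 : y (x m) = 0 := by
      obtain ⟨c, hc, _, ⟨a, rfl⟩, rfl⟩ := Submodule.mem_sup.1 h2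
      rw [map_add, hc, zero_add]
      have := congrArg (fun f => f a) h.yxy
      simpa using this
    rw [h3, h4, sub_zero]

/-- Invariance of the commutator's class under a change of `y` in its class. -/
theorem inv_right {y' : M →ₗ[k] M} (h : NP G x y) (h' : NP G x y') (hy : InC G y y') (hw : wc x y ≠ 0) :
    wc x y' ≠ 0 ∧ InC G (wc x y) (wc x y') := by
  have hw' : wc x y' ≠ 0 := by
    intro h0
    have h1 : ∀ v, x (y' v) = y' (x v) := fun v => by
      have := congrArg (fun f => f v) h0
      simpa [wc, sub_eq_zero] using this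
    have hd := h.disj hw
    have h2 : ∀ v, x (y' v) = 0 := fun v => by
      have h3 : x (y' v) ∈ LinearMap.range (x * y) ⊓ LinearMap.range (y * x) := by
        constructor
        · rw [h.P_eq hw]
          refine ⟨⟨_, rfl⟩, ?_⟩
          rw [← hy.ker]
          have := congrArg (fun f => f v) h'.yxy
          simpa using this
        · rw [h.R_eq hw, h1]
          refine ⟨?_, ?_⟩
          · rw [← hy.ran]
            exact ⟨_, rfl⟩
          · show y' (x v) ∈ LinearMap.ker x
            rw [LinearMap.mem_ker, ← h1]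
            have := congrArg (fun f => f (y' v)) h.hx.q.sq
            simpa using this
      rw [hd, Submodule.mem_bot] at h3
      exact h3
    have h5 : x * y = 0 := by
      apply mul_zero_of_le
      rw [← hy.ran]
      rintro _ ⟨v, rfl⟩
      exact h2 v
    have h6 : y * x = 0 := by
      apply mul_zero_of_le
      rw [← hy.ker]
      rintro _ ⟨v, rfl⟩
      rw [LinearMap.mem_ker, ← h1]
      exact h2 v
    apply hw
    simp [wc, h5, h6]
  refine ⟨hw', h'.wc_qd hw', ?_, ?_⟩
  · rw [h'.ker_w hw', h.ker_w hw, hy.ker, hy.ran]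
  · rw [h'.range_w hw', h.range_w hw, h'.P_eq hw', h'.R_eq hw', h.P_eq hw, h.R_eq hw, hy.ker, hy.ran]

theorem inv_left {x' : M →ₗ[k] M} (h : NP G x y) (h' : NP G x' y) (hx : InC G x x') (hw : wc x y ≠ 0) :
    wc x' y ≠ 0 ∧ InC G (wc x y) (wc x' y) := by
  obtain ⟨h1, h2, h3, h4⟩ := inv_right h.symm h'.symm hx (wc_swap_ne hw)
  have hw' : wc x' y ≠ 0 := by
    intro h0
    apply h1
    rw [wc_swap, h0, neg_zero]
  refine ⟨hw', h'.wc_qd hw', ?_, ?_⟩
  · rw [wc_swap x' y, wc_swap x y, LinearMap.ker_neg, LinearMap.ker_neg] at h3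
    exact h3
  · rw [wc_swap x' y, wc_swap x y, LinearMap.range_neg, LinearMap.range_neg] at h4
    exact h4

end NP

/-- Class-level version of the vanishing. -/
def Nil (G : Subgroup (LinearMap.GeneralLinearGroup k M)) (x y : M →ₗ[k] M) : Prop :=
  ∀ x' y', InC G x x' → InC G y y' → x' * y' * x' = 0 ∧ y' * x' * y' = 0

namespace Nil

variable {x y x' y' : M →ₗ[k] M}

lemma np (h : Nil G x y) (hx : InC G x x') (hy : InC G y y') : NP G x' y' :=
  ⟨hx.qd, hy.qd, (h x' y' hx hy).1, (h x' y' hx hy).2⟩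

lemma symm (h : Nil G x y) : Nil G y x := fun a b ha hb => ⟨(h b a hb ha).2, (h b a hb ha).1⟩

variable [FiniteDimensional k M]

lemma of_inC (h : Nil G x y) (hx0 : IsQD G x) (hy0 : IsQD G y) (hx : InC G x x') (hy : InC G y y') :
    Nil G x' y' := fun a b ha hb => h a b (hx.trans ha) (hy.trans hb)

/-- The commutators of all the members of the two classes are in one class. -/
theorem wc_class (h : Nil G x y) (hx0 : IsQD G x) (hy0 : IsQD G y) (hw : wc x y ≠ 0)
    (hx : InC G x x') (hy : InC G y y') : wc x' y' ≠ 0 ∧ InC G (wc x y) (wc x' y') := by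
  have h00 : NP G x y := h.np (InC.refl hx0) (InC.refl hy0)
  have h10 : NP G x' y := h.np hx (InC.refl hy0)
  have h11 : NP G x' y' := h.np hx hy
  obtain ⟨a, b⟩ := h00.inv_left h10 hx hw
  obtain ⟨c, d⟩ := h10.inv_right h11 hy a
  exact ⟨c, b.trans d⟩

/-- If one commutator vanishes, all do. -/
theorem wc_zero (h : Nil G x y) (hx0 : IsQD G x) (hy0 : IsQD G y) (hx : InC G x x') (hy : InC G y y')
    (h0 : wc x' y' = 0) {a b : M →ₗ[k] M} (ha : InC G x a) (hb : InC G y b) : wc a b = 0 := by
  by_contra hne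
  have h1 : Nil G a b := h.of_inC hx0 hy0 ha hb
  have h2 : InC G a x' := (ha.symm hx0).trans hx
  have h3 : InC G b y' := (hb.symm hy0).trans hy
  exact (h1.wc_class ha.qd hb.qd hne h2 h3).1 h0

end Nil

/-- Non-unipotence from a matched pair. -/
lemma not_unipotent_of_matched {x n : M →ₗ[k] M} (hm : IsMatched x n) (hx0 : x ≠ 0)
    {H : Subgroup (LinearMap.GeneralLinearGroup k M)} {a b : LinearMap.GeneralLinearGroup k M}
    (ha : a ∈ H) (hb : b ∈ H) (ea : (a : M →ₗ[k] M) = 1 + x) (eb : (b : M →ₗ[k] M) = 1 + n) :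
    ¬ IsUnipotentOn H := by
  intro hu
  obtain ⟨N, hN⟩ := isUnipotentOn_iff.1 hu
  obtain ⟨w₀, hw₀⟩ : ∃ w₀ : M, x w₀ ≠ 0 := by
    by_contra hc
    push Not at hc
    apply hx0
    ext v
    simpa using hc v
  have hex : ∀ N : ℕ, ∃ l : List (LinearMap.GeneralLinearGroup k M), (∀ g ∈ l, g ∈ H) ∧ l.length = N ∧
      ((l.map (fun g : LinearMap.GeneralLinearGroup k M => (g : M →ₗ[k] M) - 1)).prod (x w₀) = x w₀ ∨
       (l.map (fun g : LinearMap.GeneralLinearGroup k M => (g : M →ₗ[k] M) - 1)).prod (x w₀) = n (x w₀)) := by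
    intro N
    induction N with
    | zero => exact ⟨[], by simp, rfl, Or.inl (by simp)⟩
    | succ N ih =>
      obtain ⟨l, hl, hlen, h1 | h1⟩ := ih
      · refine ⟨b :: l, ?_, by simp [hlen], Or.inr ?_⟩
        · intro g hg
          rcases List.mem_cons.1 hg with rfl | hg
          · exact hb
          · exact hl g hg
        · simp only [List.map_cons, List.prod_cons, Module.End.mul_apply, h1, eb]
          simp
      · refine ⟨a :: l, ?_, by simp [hlen], Or.inl ?_⟩
        · intro g hg
          rcases List.mem_cons.1 hg with rfl | hg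
          · exact ha
          · exact hl g hg
        · simp only [List.map_cons, List.prod_cons, Module.End.mul_apply, h1, ea]
          have := congrArg (fun f => f w₀) hm.xnx
          simpa using this
  obtain ⟨l, hl, hlen, h1⟩ := hex N
  have h2 := hN l hl hlen
  rw [h2] at h1
  have hnx : n (x w₀) ≠ 0 := by
    intro h0
    apply hw₀
    have := congrArg (fun f => f w₀) hm.xnx
    simp only [Module.End.mul_apply] at this
    rw [h0] at this
    simpa using this.symm
  rcases h1 with h1 | h1
  · exact hw₀ (by simpa using h1.symm)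
  · exact hnx (by simpa using h1.symm)

/-- A unipotent pair of classes has the vanishing property. -/
theorem nil_of_unipotent [FiniteDimensional k M] (h2 : (2 : k) ≠ 0) (hk3 : Nat.card k ≠ 3) {x y : M →ₗ[k] M}
    {A B : Subgroup (LinearMap.GeneralLinearGroup k M)} (hA : HasClass G A x) (hB : HasClass G B y)
    (hu : IsUnipotentOn (A ⊔ B)) : Nil G x y := by
  have h4 : (4 : k) ≠ 0 := by
    have : (4 : k) = 2 * 2 := by norm_num
    rw [this]
    exact mul_ne_zero h2 h2
  intro x' y' hx' hy'
  by_cases hz : IsNilpotent (x' * y' + y' * x')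
  · refine ⟨xyx_of_nil h4 hx'.qd hy'.qd.q hz, xyx_of_nil h4 hy'.qd hx'.qd.q ?_⟩
    rwa [add_comm]
  · exfalso
    obtain ⟨n, hn, hm, hk, hr⟩ := exists_matched_same h2 hk3 hx'.qd hy'.qd hz
    have hyn : InC G y n := ⟨hn, hk.trans hy'.ker, hr.trans hy'.ran⟩
    have h3 := unit_mem_of_inC hA hx'.qd.q.sq hx'
    have h5 := unit_mem_of_inC hB hn.q.sq hyn
    exact not_unipotent_of_matched hm hx'.qd.q.ne (Subgroup.mem_sup_left h3) (Subgroup.mem_sup_right h5)
      (by simp) (by simp) hu

end Cfsg.Agent.Lib.RootSubgroups.QuadCase
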