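/-
Quadratic pairs: the class of an element as a subspace; the bijectivity of `y ↦ xy - yx` on a pair of
classes with non-trivial commutator.
-/
import Mathlib
import Cfsg.Agent.Lib.RootSubgroups.QuadCase

set_option autoImplicit false
set_option linter.unusedSimpArgs false
set_option linter.unusedVariables false
set_option linter.unusedSectionVars false
set_option linter.style.haveILetI false

namespace Cfsg.Agent.Lib.RootSubgroups.QuadSurj

open Cfsg
open Cfsg.Agent.Lib.RootSubgroups.Quadratic
open Cfsg.Agent.Lib.RootSubgroups.QuadMatched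
open Cfsg.Agent.Lib.RootSubgroups.QuadBasic
open Cfsg.Agent.Lib.RootSubgroups.QuadFilt
open Cfsg.Agent.Lib.RootSubgroups.QuadRep
open Cfsg.Agent.Lib.RootSubgroups.QuadPartner
open Cfsg.Agent.Lib.RootSubgroups.QuadNU
open Cfsg.Agent.Lib.RootSubgroups.QuadBlock
open Cfsg.Agent.Lib.RootSubgroups.QuadClass
open Cfsg.Agent.Lib.RootSubgroups.QuadCase

universe u v

variable {k : Type u} [Field k] {M : Type v} [AddCommGroup M] [Module k M]
variable {G : Subgroup (LinearMap.GeneralLinearGroup k M)}

section Block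

variable {R : Type*} [Ring R] {w n y : R}

lemma p_w (hm : IsMatched w n) : (1 - (w * n + n * w)) * w = 0 := by
  rw [sub_mul, one_mul, hm.pi_x, sub_self]

lemma w_p (hm : IsMatched w n) : w * (1 - (w * n + n * w)) = 0 := by
  rw [mul_sub, mul_one, hm.x_pi, sub_self]

lemma p_n (hm : IsMatched w n) : (1 - (w * n + n * w)) * n = 0 := by
  rw [sub_mul, one_mul, hm.pi_n, sub_self]

lemma n_p (hm : IsMatched w n) : n * (1 - (w * n + n * w)) = 0 := by
  rw [mul_sub, mul_one, hm.n_pi, sub_self]

lemma p_p (hm : IsMatched w n) : (1 - (w * n + n * w)) * (1 - (w * n + n * w)) = 1 - (w * n + n * w) := by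
  have e : (1 - (w * n + n * w)) * (1 - (w * n + n * w)) =
      1 - (w * n + n * w) - (w * n + n * w) + (w * n + n * w) * (w * n + n * w) := by noncomm_ring
  rw [e, hm.pi_sq]
  abel

lemma block_v (hm : IsMatched w n) (hyw : y * w = 0) (hwy : w * y = 0)
    (h00 : (1 - (w * n + n * w)) * y * (1 - (w * n + n * w)) = 0) (hnyn : n * y * n = 0) :
    (1 - (w * n + n * w) + w - n) * y * (1 - (w * n + n * w) - w + n) =
      (1 - (w * n + n * w)) * y * n - n * y * (1 - (w * n + n * w)) := by
  set p := 1 - (w * n + n * w) with hp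
  have e : (p + w - n) * y * (p - w + n) =
      p * y * p - p * (y * w) + p * y * n + (w * y) * p - (w * y) * w + (w * y) * n - n * y * p + n * (y * w)
        - n * y * n := by noncomm_ring
  rw [e, hyw, hwy, h00, hnyn]
  simp

lemma y_decomp (hm : IsMatched w n) (hyw : y * w = 0) (hwy : w * y = 0)
    (h00 : (1 - (w * n + n * w)) * y * (1 - (w * n + n * w)) = 0) (hnyn : n * y * n = 0) :
    y = (1 - (w * n + n * w)) * y * (n * w) + (w * n) * y * (1 - (w * n + n * w)) := by
  set p := 1 - (w * n + n * w) with hp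
  have e1 : w * n + n * w = 1 - p := by rw [hp]; abel
  have e : y = (p + w * n + n * w) * y * (p + w * n + n * w) := by
    rw [add_assoc, e1]
    simp
  have e2 : (p + w * n + n * w) * y * (p + w * n + n * w) =
      p * y * p + p * (y * w) * n + p * y * (n * w) + w * n * y * p + w * n * (y * w) * n + w * (n * y * n) * w
        + n * (w * y) * p + n * (w * y) * (w * n) + n * (w * y) * (n * w) := by noncomm_ring
  rw [e2, h00, hyw, hwy, hnyn] at e
  simpa using e

lemma v_comm (hm : IsMatched w n) (hyw : y * w = 0) (hwy : w * y = 0)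
    (h00 : (1 - (w * n + n * w)) * y * (1 - (w * n + n * w)) = 0) (hnyn : n * y * n = 0) :
    ((1 - (w * n + n * w)) * y * n - n * y * (1 - (w * n + n * w))) * w -
      w * ((1 - (w * n + n * w)) * y * n - n * y * (1 - (w * n + n * w))) = y := by
  have hd := y_decomp hm hyw hwy h00 hnyn
  have h1 := p_w hm
  have h2 := w_p hm
  set p := 1 - (w * n + n * w) with hp
  have e : (p * y * n - n * y * p) * w - w * (p * y * n - n * y * p) =
      p * y * (n * w) - n * y * (p * w) - (w * p) * y * n + (w * n) * y * p := by noncomm_ring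
  rw [e, h1, h2]
  conv_rhs => rw [hd]
  simp

lemma nypyn (hm : IsMatched w n) (hyw : y * w = 0) (hwy : w * y = 0)
    (h00 : (1 - (w * n + n * w)) * y * (1 - (w * n + n * w)) = 0) (hnyn : n * y * n = 0) (hyy : y * y = 0) :
    n * y * (1 - (w * n + n * w)) * y * n = 0 := by
  have hd := y_decomp hm hyw hwy h00 hnyn
  have h1 := p_w hm
  have h2 := w_p hm
  have h3 := p_p hm
  have h5 := hm.xx
  have h6 := hm.nxn
  set p := 1 - (w * n + n * w) with hp
  have e1 : (p * y * (n * w) + (w * n) * y * p) * (p * y * (n * w) + (w * n) * y * p) = 0 := by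
    rw [← hd, hyy]
  have e2 : (p * y * (n * w) + (w * n) * y * p) * (p * y * (n * w) + (w * n) * y * p) =
      p * y * n * (w * p) * y * (n * w) + p * y * n * (w * w) * n * y * p + w * n * y * (p * p) * y * (n * w)
        + w * n * y * (p * w) * n * y * p := by noncomm_ring
  rw [e2, h1, h2, h3, h5] at e1
  have e3 : n * (w * n * y * p * y * (n * w)) * n = (n * w * n) * y * p * y * (n * w * n) := by noncomm_ring
  have e4 : w * n * y * p * y * (n * w) = 0 := by simpa using e1
  rw [e4, h6] at e3
  simpa using e3.symm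

lemma z_sq (hm : IsMatched w n) (hyw : y * w = 0) (hwy : w * y = 0)
    (h00 : (1 - (w * n + n * w)) * y * (1 - (w * n + n * w)) = 0) (hnyn : n * y * n = 0) (hyy : y * y = 0)
    {l : R} (hpl : (1 - (w * n + n * w)) * l = 0) (hlp : l * (1 - (w * n + n * w)) = 0) (hll : l * l = 0) :
    (((1 - (w * n + n * w)) * y * n - n * y * (1 - (w * n + n * w))) * l +
      l * ((1 - (w * n + n * w)) * y * n - n * y * (1 - (w * n + n * w)))) ^ 2 = 0 := by
  have h3 := p_p hm
  have h4 := nypyn hm hyw hwy h00 hnyn hyy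
  set p := 1 - (w * n + n * w) with hp
  have e1 : (p * y * n - n * y * p) * l + l * (p * y * n - n * y * p) =
      p * y * n * l - n * y * (p * l) + (l * p) * y * n - l * n * y * p := by noncomm_ring
  rw [e1, hpl, hlp]
  have e2 : p * y * n * l - n * y * 0 + 0 * y * n - l * n * y * p = p * y * n * l - l * n * y * p := by
    simp
  rw [e2, sq]
  have e3 : (p * y * n * l - l * n * y * p) * (p * y * n * l - l * n * y * p) =
      p * y * n * (l * p) * y * n * l - p * y * n * (l * l) * n * y * p - l * (n * y * (p * p) * y * n) * l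
        + l * n * y * (p * l) * n * y * p := by noncomm_ring
  rw [e3, hlp, hpl, hll, h3, h4]
  simp

end Block

section Cls

variable [FiniteDimensional k M] {x y : M →ₗ[k] M}

lemma exists_hasClass (hx : IsQD G x) : HasClass G (sameActionSubgroup G (unitOfSq x hx.q.sq)) x := by
  have := hasClass_same (mem_minimal_of_isQD hx)
  rwa [tt_unitOfSq] at this

lemma add_mem_class (hx : IsQD G x) {t s : M →ₗ[k] M} (ht : InC G x t) (hs : InC G x s) :
    t + s = 0 ∨ InC G x (t + s) := by
  have hA := exists_hasClass hx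
  have h1 := unit_mem_of_inC hA ht.qd.q.sq ht
  have h2 := unit_mem_of_inC hA hs.qd.q.sq hs
  have h3 := Subgroup.mul_mem _ h1 h2
  have h0 : t * s = 0 := InC.mul_eq_zero hx.q.sq ht hs
  have e : ((unitOfSq t ht.qd.q.sq * unitOfSq s hs.qd.q.sq : LinearMap.GeneralLinearGroup k M) : M →ₗ[k] M) =
      1 + (t + s) := by
    rw [Units.val_mul, unitOfSq_val, unitOfSq_val]
    have : (1 + t) * (1 + s) = 1 + (t + s) + t * s := by noncomm_ring
    rw [this, h0, add_zero]
  rcases (hA _).1 h3 with h | h
  · left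
    rw [h] at e
    have h5 : (1 : M →ₗ[k] M) = 1 + (t + s) := by simpa using e
    simpa using h5.symm
  · right
    have : tt (unitOfSq t ht.qd.q.sq * unitOfSq s hs.qd.q.sq) = t + s := by
      simp only [tt]
      rw [e]
      simp
    rwa [this] at h

/-- The class of `x` together with `0`, as a subspace. -/
def Cls (hx : IsQD G x) : Submodule k (M →ₗ[k] M) where
  carrier := {t | t = 0 ∨ InC G x t}
  add_mem' := by
    rintro t s (rfl | ht) (rfl | hs)
    · left; simp
    · right; simpa using hs
    · right; simpa using ht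
    · exact add_mem_class hx ht hs
  zero_mem' := Or.inl rfl
  smul_mem' := by
    rintro c t (rfl | ht)
    · left; simp
    · by_cases hc : c = 0
      · left; simp [hc]
      · exact Or.inr (ht.smul hc)

lemma mem_Cls (hx : IsQD G x) {t : M →ₗ[k] M} : t ∈ Cls hx ↔ t = 0 ∨ InC G x t := Iff.rfl

lemma finrank_le_of_map {E : Type*} [AddCommGroup E] [Module k E] [FiniteDimensional k E] (f : E →ₗ[k] E)
    (p q : Submodule k E) (hf : ∀ t ∈ p, f t ∈ q) (hinj : ∀ t ∈ p, f t = 0 → t = 0) :
    Module.finrank k p ≤ Module.finrank k q := by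
  apply LinearMap.finrank_le_finrank_of_injective (f := f.restrict hf)
  rw [← LinearMap.ker_eq_bot, LinearMap.ker_eq_bot']
  rintro ⟨t, ht⟩ h0
  have : f t = 0 := congrArg Subtype.val h0
  exact Subtype.ext (hinj t ht this)

lemma surj_of_map {E : Type*} [AddCommGroup E] [Module k E] [FiniteDimensional k E] (f : E →ₗ[k] E)
    (p q : Submodule k E) (hf : ∀ t ∈ p, f t ∈ q) (hinj : ∀ t ∈ p, f t = 0 → t = 0)
    (hd : Module.finrank k q ≤ Module.finrank k p) : ∀ s ∈ q, ∃ t ∈ p, f t = s := by
  have h1 := finrank_le_of_map f p q hf hinj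
  have hinj' : Function.Injective (f.restrict hf) := by
    rw [← LinearMap.ker_eq_bot, LinearMap.ker_eq_bot']
    rintro ⟨t, ht⟩ h0
    have : f t = 0 := congrArg Subtype.val h0
    exact Subtype.ext (hinj t ht this)
  have hs := (LinearMap.injective_iff_surjective_of_finrank_eq_finrank (le_antisymm h1 hd)).1 hinj'
  intro s hsq
  obtain ⟨⟨t, ht⟩, e⟩ := hs ⟨s, hsq⟩
  exact ⟨t, ht, congrArg Subtype.val e⟩

/-- `ad x` as a linear map. -/
noncomputable def adL (x : M →ₗ[k] M) : (M →ₗ[k] M) →ₗ[k] (M →ₗ[k] M) :=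
  LinearMap.mulLeft k x - LinearMap.mulRight k x

@[simp] lemma adL_apply (x t : M →ₗ[k] M) : adL x t = wc x t := by
  simp [adL, wc]

variable (h2 : (2 : k) ≠ 0) (hk3 : Nat.card k ≠ 3)

include h2 in
lemma four_ne : (4 : k) ≠ 0 := by
  have : (4 : k) = 2 * 2 := by norm_num
  rw [this]
  exact mul_ne_zero h2 h2

lemma wc_y (h : NP G x y) : wc x y * y = 0 := by
  have e : wc x y * y = x * (y * y) - y * x * y := by simp only [wc]; noncomm_ring
  rw [e, h.hy.q.sq, h.yxy]
  simp

lemma y_wc (h : NP G x y) : y * wc x y = 0 := by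
  have e : y * wc x y = y * x * y - (y * y) * x := by simp only [wc]; noncomm_ring
  rw [e, h.hy.q.sq, h.yxy]
  simp

/-- `p y p = 0` for the complement of the block of a partner of the commutator. -/
lemma pyp (h : NP G x y) (hw : wc x y ≠ 0) {n : M →ₗ[k] M} (hm : IsMatched (wc x y) n) :
    (1 - (wc x y * n + n * wc x y)) * y * (1 - (wc x y * n + n * wc x y)) = 0 := by
  have h1 := w_p hm
  have h3 := p_w hm
  set p := 1 - (wc x y * n + n * wc x y) with hp
  ext m
  have hm1 : p m ∈ LinearMap.ker (wc x y) := by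
    have := congrArg (fun f => f m) h1
    simpa using this
  rw [h.ker_w hw] at hm1
  obtain ⟨c, hc, _, ⟨a, rfl⟩, e⟩ := Submodule.mem_sup.1 hm1.1
  have h4 : y (p m) ∈ LinearMap.range (wc x y) := by
    rw [h.range_w hw]
    rw [← e, map_add, hc, zero_add]
    exact Submodule.mem_sup_right ⟨a, rfl⟩
  obtain ⟨b, hb⟩ := h4
  have h5 := congrArg (fun f => f b) h3
  simp only [Module.End.mul_apply, LinearMap.zero_apply] at h5
  simp only [Module.End.mul_apply, LinearMap.zero_apply]
  rw [← hb, h5]

include h2 hk3 in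
/-- The dimension inequality. -/
theorem dim_le (hG : IsQuadraticPair G) (h : NP G x y) (hw : wc x y ≠ 0) :
    Module.finrank k (Cls (h.wc_qd hw)) ≤ Module.finrank k (Cls h.hy) := by
  have h4 := four_ne (k := k) h2
  have hwq := h.wc_qd hw
  have hy := h.hy
  obtain ⟨t, ht, hz⟩ := exists_partner h4 hG hwq
  obtain ⟨n, hn, hm, -, -⟩ := exists_matched_same h2 hk3 hwq ht hz
  have mp : MP G (wc x y) n := ⟨hwq, hn, hm⟩
  by_cases hnyn : n * y * n = 0
  · -- Case A
    obtain ⟨s, hs, e1, e2, -⟩ := mp.exists_weyl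
    have hyw := y_wc h
    have hwy := wc_y h
    have h00 := pyp h hw hm
    have hv : IsQD G (cj s y) := hy.conj hs
    have ev : cj s y = (1 - (wc x y * n + n * wc x y)) * y * n - n * y * (1 - (wc x y * n + n * wc x y)) := by
      show (s : M →ₗ[k] M) * y * ((s⁻¹ : LinearMap.GeneralLinearGroup k M) : M →ₗ[k] M) = _
      rw [e1, e2]
      exact block_v hm hyw hwy h00 hnyn
    have hcomm : wc (cj s y) (wc x y) = y := by
      rw [ev]
      exact v_comm hm hyw hwy h00 hnyn
    have hnp : ∀ l, InC G (wc x y) l → NP G (cj s y) l := by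
      intro l hl
      have hpl : (1 - (wc x y * n + n * wc x y)) * l = 0 := by
        rw [sub_mul, one_mul, mp.pi_t hl, sub_self]
      have hlp : l * (1 - (wc x y * n + n * wc x y)) = 0 := by
        rw [mul_sub, mul_one, mp.t_pi hl, sub_self]
      have hzz := z_sq hm hyw hwy h00 hnyn hy.q.sq hpl hlp hl.qd.q.sq
      rw [← ev] at hzz
      have hnil : IsNilpotent (cj s y * l + l * cj s y) := ⟨2, hzz⟩
      refine ⟨hv, hl.qd, xyx_of_nil h4 hv hl.qd.q hnil, xyx_of_nil h4 hl.qd hv.q ?_⟩
      rwa [add_comm]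
    have h0 : wc (cj s y) (wc x y) ≠ 0 := by
      rw [hcomm]
      exact hy.q.ne
    have hmain : ∀ l, InC G (wc x y) l → wc (cj s y) l ≠ 0 ∧ InC G y (wc (cj s y) l) := by
      intro l hl
      have := (hnp _ (InC.refl hwq)).inv_right (hnp l hl) hl h0
      rwa [hcomm] at this
    apply finrank_le_of_map (adL (cj s y))
    · rintro l (rfl | hl)
      · left; simp [wc]
      · right
        rw [adL_apply]
        exact (hmain l hl).2
    · rintro l (rfl | hl) h1
      · rfl
      · rw [adL_apply] at h1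
        exact absurd h1 (hmain l hl).1
  · -- Case B
    have hz2 : ¬ IsNilpotent (n * y + y * n) := fun hc => hnyn (xyx_of_nil h4 hn hy.q hc)
    obtain ⟨y₁, hy₁, hm₁, hk₁, hr₁⟩ := exists_matched_same h2 hk3 hn hy hz2
    have mp₁ : MP G n y₁ := ⟨hn, hy₁, hm₁⟩
    have hy1 : InC G y y₁ := ⟨hy₁, hk₁, hr₁⟩
    have hf : ∀ l, InC G (wc x y) l → InC G y (y₁ * (n * l * n) * y₁) := fun l hl =>
      hy1.trans (mp₁.ntn_mem (mp.ntn_mem hl))
    have hinj : ∀ l, InC G (wc x y) l → y₁ * (n * l * n) * y₁ = 0 → l = 0 := by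
      intro l hl h0
      have h3 : InC G n (n * l * n) := mp.ntn_mem hl
      have h5 := mp₁.e1_t h3
      have h6 := mp₁.t_e2 h3
      have h7 : n * (y₁ * (n * l * n) * y₁) * n = n * l * n := by
        calc n * (y₁ * (n * l * n) * y₁) * n = ((n * y₁) * (n * l * n)) * (y₁ * n) := by noncomm_ring
          _ = n * l * n := by rw [h5, h6]
      rw [h0] at h7
      have h8 : n * l * n = 0 := by simpa using h7.symm
      have h9 := mp.e1_t hl
      have h10 := mp.t_e2 hl
      calc l = (wc x y * n) * l * (n * wc x y) := by rw [h9, h10]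
        _ = wc x y * (n * l * n) * wc x y := by noncomm_ring
        _ = 0 := by rw [h8]; simp
    apply finrank_le_of_map (LinearMap.mulLeft k (y₁ * n) ∘ₗ LinearMap.mulRight k (n * y₁))
    · rintro l (rfl | hl)
      · left; simp
      · right
        have e : (LinearMap.mulLeft k (y₁ * n) ∘ₗ LinearMap.mulRight k (n * y₁)) l = y₁ * (n * l * n) * y₁ := by
          simp only [LinearMap.comp_apply, LinearMap.mulLeft_apply, LinearMap.mulRight_apply]
          noncomm_ring
        rw [e]
        exact hf l hl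
    · rintro l (rfl | hl) h1
      · rfl
      · have e : (LinearMap.mulLeft k (y₁ * n) ∘ₗ LinearMap.mulRight k (n * y₁)) l = y₁ * (n * l * n) * y₁ := by
          simp only [LinearMap.comp_apply, LinearMap.mulLeft_apply, LinearMap.mulRight_apply]
          noncomm_ring
        rw [e] at h1
        exact hinj l hl h1

include h2 hk3 in
/-- Surjectivity of `y' ↦ wc x y'`. -/
theorem surj_right (hG : IsQuadraticPair G) (h : Nil G x y) (hx : IsQD G x) (hy : IsQD G y) (hw : wc x y ≠ 0)
    {l : M →ₗ[k] M} (hl : InC G (wc x y) l) : ∃ y', InC G y y' ∧ wc x y' = l := by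
  have h00 : NP G x y := h.np (InC.refl hx) (InC.refl hy)
  have hwq := h00.wc_qd hw
  obtain ⟨t, ht, e⟩ := surj_of_map (adL x) (Cls hy) (Cls hwq)
    (by
      rintro t (rfl | ht)
      · left; simp [wc]
      · right
        rw [adL_apply]
        exact (h.wc_class hx hy hw (InC.refl hx) ht).2)
    (by
      rintro t (rfl | ht) h1
      · rfl
      · rw [adL_apply] at h1
        exact absurd h1 (h.wc_class hx hy hw (InC.refl hx) ht).1)
    (dim_le h2 hk3 hG h00 hw) l (Or.inr hl)
  rw [adL_apply] at e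
  rcases ht with rfl | ht
  · exfalso
    apply hl.qd.q.ne
    rw [← e]
    simp [wc]
  · exact ⟨t, ht, e⟩

end Cls

end Cfsg.Agent.Lib.RootSubgroups.QuadSurj
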