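/-
Quadratic pairs: the commutator group of a pair of classes with vanishing `xyx`, `yxy` and non-trivial
commutator.
-/
import Mathlib
import Cfsg.Agent.Lib.RootSubgroups.QuadSurj

set_option autoImplicit false
set_option linter.unusedSimpArgs false
set_option linter.unusedVariables false
set_option linter.unusedSectionVars false
set_option linter.style.haveILetI false

namespace Cfsg.Agent.Lib.RootSubgroups.QuadUnip

open Cfsg
open Cfsg.Agent.Lib.RootSubgroups.Quadratic
open Cfsg.Agent.Lib.RootSubgroups.QuadMatched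
open Cfsg.Agent.Lib.RootSubgroups.QuadBasic
open Cfsg.Agent.Lib.RootSubgroups.QuadFilt
open Cfsg.Agent.Lib.RootSubgroups.QuadRep
open Cfsg.Agent.Lib.RootSubgroups.QuadPartner
open Cfsg.Agent.Lib.RootSubgroups.QuadNU
open Cfsg.Agent.Lib.RootSubgroups.QuadBlock
open Cfsg.Agent.Lib.RootSubgroups.QuadClass
open Cfsg.Agent.Lib.RootSubgroups.QuadCase
open Cfsg.Agent.Lib.RootSubgroups.QuadSurj

open scoped commutatorElement

universe u v

variable {k : Type u} [Field k] {M : Type v} [AddCommGroup M] [Module k M]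
variable {G : Subgroup (LinearMap.GeneralLinearGroup k M)}

/-- The `t`-action in the filtration of `w`. -/
structure Adapt (t w : M →ₗ[k] M) : Prop where
  a : LinearMap.range t ≤ LinearMap.ker w
  b : ∀ m ∈ LinearMap.ker w, t m ∈ LinearMap.range w
  c : LinearMap.range w ≤ LinearMap.ker t

/-- The filtration `M ≥ ker w ≥ range w ≥ 0`. -/
def FW (w : M →ₗ[k] M) : ℕ → Submodule k M
  | 0 => ⊤
  | 1 => LinearMap.ker w
  | 2 => LinearMap.range w
  | _ => ⊥

lemma FW_anti {w : M →ₗ[k] M} (hw : w * w = 0) : ∀ i, FW w (i + 1) ≤ FW w i := by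
  intro i
  match i with
  | 0 => exact le_top
  | 1 => exact range_le_ker_of_sq' hw
  | 2 => exact bot_le
  | n + 3 => exact bot_le

section Main

variable [FiniteDimensional k M] {x y : M →ₗ[k] M}

lemma mem_filt {w t : M →ₗ[k] M} (hw : w * w = 0) (ht : Adapt t w) {g : LinearMap.GeneralLinearGroup k M}
    (e : (g : M →ₗ[k] M) = 1 + t) : g ∈ FiltSub (FW w) (FW_anti hw) 1 := by
  intro i v hv
  have e2 : (g : M →ₗ[k] M) v - v = t v := by
    rw [e]
    simp
  rw [e2]
  match i, hv with
  | 0, hv => exact ht.a ⟨v, rfl⟩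
  | 1, hv => exact ht.b v hv
  | 2, hv =>
    have := ht.c hv
    rw [LinearMap.mem_ker] at this
    rw [this]
    exact Submodule.zero_mem _
  | n + 3, hv =>
    have : v = 0 := hv
    rw [this, map_zero]
    exact Submodule.zero_mem _

lemma adapt_of (h : Nil G x y) (hx : IsQD G x) (hy : IsQD G y) (hw : wc x y ≠ 0) {t : M →ₗ[k] M}
    (ht : InC G x t) : Adapt t (wc x y) := by
  have h0 : NP G x y := h.np (InC.refl hx) (InC.refl hy)
  have h1 : NP G t y := h.np ht (InC.refl hy)
  refine ⟨?_, ?_, ?_⟩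
  · rw [ht.ran]
    rintro _ ⟨v, rfl⟩
    rw [LinearMap.mem_ker]
    have := congrArg (fun f => f v) h0.xyx
    have h5 := congrArg (fun f => f v) hx.q.sq
    simp only [Module.End.mul_apply, LinearMap.zero_apply] at this h5
    simp [wc, this, h5]
  · intro m hm
    rw [h0.ker_w hw] at hm
    obtain ⟨c, hc, _, ⟨b, rfl⟩, rfl⟩ := Submodule.mem_sup.1 hm.2
    have hc' : t c = 0 := by
      have : c ∈ LinearMap.ker t := by rw [ht.ker]; exact hc
      exact this
    rw [map_add, hc', zero_add]
    rw [h0.range_w hw]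
    apply Submodule.mem_sup_left
    rw [h0.P_eq hw]
    refine ⟨?_, ?_⟩
    · rw [← ht.ran]
      exact ⟨_, rfl⟩
    · have := congrArg (fun f => f b) h1.yxy
      simpa using this
  · rw [h0.range_w hw, ht.ker]
    apply sup_le
    · rintro _ ⟨v, rfl⟩
      have := congrArg (fun f => f (y v)) hx.q.sq
      simpa using this
    · rw [h0.R_eq hw]
      exact inf_le_right

lemma adapt_of' (h : Nil G x y) (hx : IsQD G x) (hy : IsQD G y) (hw : wc x y ≠ 0) {t : M →ₗ[k] M}
    (ht : InC G y t) : Adapt t (wc x y) := by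
  have h1 := adapt_of h.symm hy hx (NP.wc_swap_ne hw) ht
  rw [wc_swap] at h1
  refine ⟨?_, ?_, ?_⟩
  · have := h1.a
    rwa [LinearMap.ker_neg] at this
  · intro m hm
    have := h1.b m (by rwa [LinearMap.ker_neg])
    rwa [LinearMap.range_neg] at this
  · have := h1.c
    rwa [LinearMap.range_neg] at this

lemma mul_zero_of_adapt {t w l : M →ₗ[k] M} (ht : Adapt t w) (hl : InC G w l) : t * l = 0 ∧ l * t = 0 := by
  constructor
  · apply mul_zero_of_le
    rw [hl.ran]
    exact ht.c
  · apply mul_zero_of_le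
    rw [hl.ker]
    exact ht.a

variable {A B L : Subgroup (LinearMap.GeneralLinearGroup k M)}

lemma le_of_hasClass (hA : HasClass G A x) : A ≤ G := by
  intro g hg
  rcases (hA g).1 hg with rfl | h
  · exact G.one_mem
  · obtain ⟨τ, hτ, e⟩ := h.qd.q.fam 1
    have : τ = g := by
      apply Units.ext
      rw [e]
      simp [tt]
    rwa [this] at hτ

/-- Elementary facts for the commutator of elements of the two groups. -/
lemma tt_eq_zero_or {g : LinearMap.GeneralLinearGroup k M} (hA : HasClass G A x) (hg : g ∈ A) :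
    (g = 1 ∧ tt g = 0) ∨ InC G x (tt g) := by
  rcases (hA g).1 hg with rfl | h
  · left
    simp [tt]
  · exact Or.inr h

lemma comm_val (h : Nil G x y) (hA : HasClass G A x) (hB : HasClass G B y)
    {e f : LinearMap.GeneralLinearGroup k M} (he : e ∈ A) (hf : f ∈ B) :
    ((e * f * e⁻¹ * f⁻¹ : LinearMap.GeneralLinearGroup k M) : M →ₗ[k] M) = 1 + wc (tt e) (tt f) := by
  have h1 := tt_sq_of_class hA he
  have h3 := tt_sq_of_class hB hf
  rcases (hA e).1 he with rfl | h5
  · have : (1 * f * 1⁻¹ * f⁻¹ : LinearMap.GeneralLinearGroup k M) = 1 := by group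
    rw [this]
    simp [tt, wc]
  rcases (hB f).1 hf with rfl | h6
  · have : (e * 1 * e⁻¹ * 1⁻¹ : LinearMap.GeneralLinearGroup k M) = 1 := by group
    rw [this]
    simp [tt, wc]
  have h7 := h _ _ h5 h6
  have h8 := comm_formula h1 h3 h7.1 h7.2
  rw [← val_of_tt e, ← val_of_tt f, ← val_inv_of_class hA he, ← val_inv_of_class hB hf] at h8
  simp only [Units.val_mul]
  exact h8

lemma comm_mem (h : Nil G x y) (hx : IsQD G x) (hy : IsQD G y) (hw : wc x y ≠ 0) (hA : HasClass G A x)
    (hB : HasClass G B y) (hL : HasClass G L (wc x y)) {e f : LinearMap.GeneralLinearGroup k M} (he : e ∈ A)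
    (hf : f ∈ B) : e * f * e⁻¹ * f⁻¹ ∈ L := by
  rcases (hA e).1 he with rfl | h5
  · simp
  rcases (hB f).1 hf with rfl | h6
  · simp
  exact mem_of_inC hL (comm_val h hA hB he hf) (h.wc_class hx hy hw h5 h6).2

variable (h2 : (2 : k) ≠ 0) (hk3 : Nat.card k ≠ 3)

include h2 hk3 in
lemma surj_left (hG : IsQuadraticPair G) (h : Nil G x y) (hx : IsQD G x) (hy : IsQD G y) (hw : wc x y ≠ 0)
    {l : M →ₗ[k] M} (hl : InC G (wc x y) l) : ∃ x', InC G x x' ∧ wc x' y = l := by
  have h0 : InC G (wc y x) (-l) := by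
    rw [wc_swap]
    refine ⟨?_, ?_, ?_⟩
    · have := hl.qd.smul (c := -1) (neg_ne_zero.2 one_ne_zero)
      simpa using this
    · rw [LinearMap.ker_neg, LinearMap.ker_neg]
      exact hl.ker
    · rw [LinearMap.range_neg, LinearMap.range_neg]
      exact hl.ran
  obtain ⟨x', h1, h3⟩ := surj_right h2 hk3 hG h.symm hy hx (NP.wc_swap_ne hw) h0
  refine ⟨x', h1, ?_⟩
  rw [wc_swap] at h3
  exact neg_injective h3

include h2 hk3 in
theorem closure_left (hG : IsQuadraticPair G) (h : Nil G x y) (hx : IsQD G x) (hy : IsQD G y) (hw : wc x y ≠ 0)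
    (hA : HasClass G A x) (hB : HasClass G B y) (hL : HasClass G L (wc x y))
    {e : LinearMap.GeneralLinearGroup k M} (he : e ∈ A) (he1 : e ≠ 1) :
    Subgroup.closure ((fun f : LinearMap.GeneralLinearGroup k M => e * f * e⁻¹ * f⁻¹) '' (B : Set _)) = L := by
  apply le_antisymm
  · rw [Subgroup.closure_le]
    rintro _ ⟨f, hf, rfl⟩
    exact comm_mem h hx hy hw hA hB hL he hf
  · intro g hg
    rcases (hL g).1 hg with rfl | h5
    · exact Subgroup.one_mem _
    · apply Subgroup.subset_closure
      have hte : InC G x (tt e) := by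
        rcases (hA e).1 he with h6 | h6
        · exact absurd h6 he1
        · exact h6
      have h7 := h.wc_class hx hy hw hte (InC.refl hy)
      have h8 : InC G (wc (tt e) y) (tt g) := (h7.2.symm ((h.np (InC.refl hx) (InC.refl hy)).wc_qd hw)).trans h5
      obtain ⟨y', hy', e9⟩ := surj_right h2 hk3 hG (h.of_inC hx hy hte (InC.refl hy)) hte.qd hy h7.1 h8
      refine ⟨unitOfSq y' hy'.qd.q.sq, mem_of_inC hB rfl hy', ?_⟩
      apply Units.ext
      rw [comm_val h hA hB he (mem_of_inC hB rfl hy'), tt_unitOfSq, e9, val_of_tt g]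

include h2 hk3 in
theorem closure_right (hG : IsQuadraticPair G) (h : Nil G x y) (hx : IsQD G x) (hy : IsQD G y) (hw : wc x y ≠ 0)
    (hA : HasClass G A x) (hB : HasClass G B y) (hL : HasClass G L (wc x y))
    {f : LinearMap.GeneralLinearGroup k M} (hf : f ∈ B) (hf1 : f ≠ 1) :
    Subgroup.closure ((fun e : LinearMap.GeneralLinearGroup k M => e * f * e⁻¹ * f⁻¹) '' (A : Set _)) = L := by
  apply le_antisymm
  · rw [Subgroup.closure_le]
    rintro _ ⟨e, he, rfl⟩
    exact comm_mem h hx hy hw hA hB hL he hf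
  · intro g hg
    rcases (hL g).1 hg with rfl | h5
    · exact Subgroup.one_mem _
    · apply Subgroup.subset_closure
      have hte : InC G y (tt f) := by
        rcases (hB f).1 hf with h6 | h6
        · exact absurd h6 hf1
        · exact h6
      have h7 := h.wc_class hx hy hw (InC.refl hx) hte
      have h8 : InC G (wc x (tt f)) (tt g) := (h7.2.symm ((h.np (InC.refl hx) (InC.refl hy)).wc_qd hw)).trans h5
      obtain ⟨x', hx', e9⟩ := surj_left h2 hk3 hG (h.of_inC hx hy (InC.refl hx) hte) hx hte.qd h7.1 h8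
      refine ⟨unitOfSq x' hx'.qd.q.sq, mem_of_inC hA rfl hx', ?_⟩
      apply Units.ext
      rw [comm_val h hA hB (mem_of_inC hA rfl hx') hf, tt_unitOfSq, e9, val_of_tt g]

include h2 hk3 in
theorem commutator_eq (hG : IsQuadraticPair G) (h : Nil G x y) (hx : IsQD G x) (hy : IsQD G y) (hw : wc x y ≠ 0)
    (hA : HasClass G A x) (hB : HasClass G B y) (hL : HasClass G L (wc x y)) : ⁅A, B⁆ = L := by
  apply le_antisymm
  · rw [Subgroup.commutator_le]
    intro e he f hf
    rw [commutatorElement_def]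
    exact comm_mem h hx hy hw hA hB hL he hf
  · have he : unitOfSq x hx.q.sq ∈ A := unit_mem_of_inC hA hx.q.sq (InC.refl hx)
    have he1 : unitOfSq x hx.q.sq ≠ 1 := by
      intro h0
      apply hx.q.ne
      have := tt_unitOfSq (k := k) (M := M) x hx.q.sq
      rw [h0] at this
      simpa [tt] using this.symm
    rw [← closure_left h2 hk3 hG h hx hy hw hA hB hL he he1, Subgroup.closure_le]
    rintro _ ⟨f, hf, rfl⟩
    have := Subgroup.commutator_mem_commutator he hf
    rwa [commutatorElement_def] at this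

/-- The two classes lie in the filtration group. -/
lemma sup_le_filt (h : Nil G x y) (hx : IsQD G x) (hy : IsQD G y) (hw : wc x y ≠ 0)
    (hA : HasClass G A x) (hB : HasClass G B y) (hww : wc x y * wc x y = 0) :
    A ⊔ B ≤ FiltSub (FW (wc x y)) (FW_anti hww) 1 := by
  apply sup_le
  · intro e he
    rcases (hA e).1 he with rfl | h5
    · exact Subgroup.one_mem _
    · exact mem_filt hww (adapt_of h hx hy hw h5) (val_of_tt e)
  · intro e he
    rcases (hB e).1 he with rfl | h5
    · exact Subgroup.one_mem _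
    · exact mem_filt hww (adapt_of' h hx hy hw h5) (val_of_tt e)

theorem class_two (h : Nil G x y) (hx : IsQD G x) (hy : IsQD G y) (hw : wc x y ≠ 0)
    (hA : HasClass G A x) (hB : HasClass G B y) : ⁅⁅A ⊔ B, A ⊔ B⁆, A ⊔ B⁆ = ⊥ := by
  have hww := (h.np (InC.refl hx) (InC.refl hy)).wc_sq
  have h1 := gam_le_filtSub (sup_le_filt h hx hy hw hA hB hww) 2
  have e : gam (A ⊔ B) 2 = ⁅⁅A ⊔ B, A ⊔ B⁆, A ⊔ B⁆ := rfl
  rw [e] at h1
  rw [eq_bot_iff]
  intro g hg
  have h3 := h1 hg
  rw [Subgroup.mem_bot]
  apply Units.ext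
  ext v
  have h4 := h3 0 v (by trivial)
  have h5 : (g : M →ₗ[k] M) v - v = 0 := h4
  simpa [sub_eq_zero] using h5

lemma fixed_eq_ker (hL : HasClass G L (wc x y)) (h0 : IsQD G (wc x y)) :
    fixedSubmodule L = LinearMap.ker (wc x y) := by
  apply le_antisymm
  · intro m hm
    have hg : unitOfSq (wc x y) h0.q.sq ∈ L := unit_mem_of_inC hL h0.q.sq (InC.refl h0)
    unfold fixedSubmodule at hm
    simp only [Submodule.mem_iInf] at hm
    have := hm _ hg
    simpa using this
  · intro m hm
    unfold fixedSubmodule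
    simp only [Submodule.mem_iInf]
    intro g hg
    rcases (hL g).1 hg with rfl | h5
    · simp
    · rw [← h5.ker] at hm
      exact hm

lemma comm_eq_range (hL : HasClass G L (wc x y)) (h0 : IsQD G (wc x y)) :
    commutatorSubmodule L = LinearMap.range (wc x y) := by
  apply le_antisymm
  · unfold commutatorSubmodule
    apply iSup₂_le
    intro g hg
    rcases (hL g).1 hg with rfl | h5
    · simp
    · exact h5.ran.le
  · have hg : unitOfSq (wc x y) h0.q.sq ∈ L := unit_mem_of_inC hL h0.q.sq (InC.refl h0)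
    have : LinearMap.range ((unitOfSq (wc x y) h0.q.sq : LinearMap.GeneralLinearGroup k M) - 1 : M →ₗ[k] M) ≤
      commutatorSubmodule L := le_iSup₂_of_le _ hg le_rfl
    simpa using this

/-- Centrality of the commutator group. -/
lemma central_L (h : Nil G x y) (hx : IsQD G x) (hy : IsQD G y) (hw : wc x y ≠ 0)
    (hA : HasClass G A x) (hB : HasClass G B y) (hL : HasClass G L (wc x y)) :
    ∀ c ∈ L, ∀ g ∈ A ⊔ B, c * g = g * c := by
  have h1 : A ⊔ B ≤ Subgroup.centralizer (L : Set (LinearMap.GeneralLinearGroup k M)) := by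
    have key : ∀ (t l : M →ₗ[k] M), Adapt t (wc x y) → InC G (wc x y) l → ∀ a b : LinearMap.GeneralLinearGroup k M,
        (a : M →ₗ[k] M) = 1 + t → (b : M →ₗ[k] M) = 1 + l → b * a = a * b := by
      intro t l ht hl a b ea eb
      obtain ⟨h3, h4⟩ := mul_zero_of_adapt ht hl
      apply Units.ext
      rw [Units.val_mul, Units.val_mul, ea, eb]
      have e1 : (1 + l) * (1 + t) = 1 + l + t + l * t := by noncomm_ring
      have e2 : (1 + t) * (1 + l) = 1 + t + l + t * l := by noncomm_ring
      rw [e1, e2, h3, h4]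
      abel
    apply sup_le
    · intro e he
      rw [Subgroup.mem_centralizer_iff]
      intro c hc
      rcases (hA e).1 he with rfl | h5
      · simp
      rcases (hL c).1 hc with rfl | h6
      · simp
      exact key _ _ (adapt_of h hx hy hw h5) h6 e c (val_of_tt e) (val_of_tt c)
    · intro e he
      rw [Subgroup.mem_centralizer_iff]
      intro c hc
      rcases (hB e).1 he with rfl | h5
      · simp
      rcases (hL c).1 hc with rfl | h6
      · simp
      exact key _ _ (adapt_of' h hx hy hw h5) h6 e c (val_of_tt e) (val_of_tt c)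
  intro c hc g hg
  have := Subgroup.mem_centralizer_iff.1 (h1 hg) c hc
  exact this

theorem sup_le_core (h : Nil G x y) (hx : IsQD G x) (hy : IsQD G y) (hw : wc x y ≠ 0)
    (hA : HasClass G A x) (hB : HasClass G B y) (hL : HasClass G L (wc x y)) :
    ((A ⊔ B : Subgroup (LinearMap.GeneralLinearGroup k M)) : Set (LinearMap.GeneralLinearGroup k M)) ⊆
      quadraticUnipotentCore G L := by
  intro g hg
  have hg' : g ∈ A ⊔ B := hg
  have hww := (h.np (InC.refl hx) (InC.refl hy)).wc_sq
  have h0 := (h.np (InC.refl hx) (InC.refl hy)).wc_qd hw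
  have h1 := sup_le_filt h hx hy hw hA hB hww hg'
  refine ⟨sup_le (le_of_hasClass hA) (le_of_hasClass hB) hg', ?_, ?_, ?_, ?_⟩
  · rw [Subgroup.mem_normalizer_iff]
    intro c
    have := central_L h hx hy hw hA hB hL
    constructor
    · intro hc
      have e := this c hc g hg'
      have e2 : g * c * g⁻¹ = c := by
        rw [← e]
        simp
      show g * c * g⁻¹ ∈ L
      rwa [e2]
    · intro hc
      have hc' : g * c * g⁻¹ ∈ L := hc
      have e := this _ hc' g hg'
      have e3 : c = g * c * g⁻¹ := by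
        calc c = g⁻¹ * ((g * c * g⁻¹) * g) := by group
          _ = g⁻¹ * (g * (g * c * g⁻¹)) := by rw [e]
          _ = g * c * g⁻¹ := by group
      rw [e3]
      exact hc'
  · intro m
    rw [fixed_eq_ker hL h0]
    exact h1 0 m (by trivial)
  · intro m hm
    rw [fixed_eq_ker hL h0] at hm
    rw [comm_eq_range hL h0]
    exact h1 1 m hm
  · intro m hm
    rw [comm_eq_range hL h0] at hm
    have h5 : (g : M →ₗ[k] M) m - m = 0 := h1 2 m hm
    simpa [sub_eq_zero] using h5

end Main

end Cfsg.Agent.Lib.RootSubgroups.QuadUnip
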