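/-
Quadratic pairs: commuting and normalizing pairs in `Σ`, pairs generating a unipotent group or a class two
group.
-/
import Mathlib
import Cfsg.Agent.Lib.RootSubgroups.QuadUnip

set_option autoImplicit false
set_option linter.unusedSimpArgs false
set_option linter.unusedVariables false
set_option linter.unusedSectionVars false
set_option linter.style.haveILetI false

namespace Cfsg.Agent.Lib.RootSubgroups.QuadPairs

open Cfsg
open Cfsg.Agent.Lib.RootSubgroups.Quadratic
open Cfsg.Agent.Lib.RootSubgroups.QuadMatched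
open Cfsg.Agent.Lib.RootSubgroups.QuadBasic
open Cfsg.Agent.Lib.RootSubgroups.QuadFilt
open Cfsg.Agent.Lib.RootSubgroups.QuadRep
open Cfsg.Agent.Lib.RootSubgroups.QuadPartner
open Cfsg.Agent.Lib.RootSubgroups.QuadNU
open Cfsg.Agent.Lib.RootSubgroups.QuadBlock
open Cfsg.Agent.Lib.RootSubgroups.QuadClass
open Cfsg.Agent.Lib.RootSubgroups.QuadCase
open Cfsg.Agent.Lib.RootSubgroups.QuadSurj
open Cfsg.Agent.Lib.RootSubgroups.QuadUnip

open scoped commutatorElement

universe u v

variable {k : Type u} [Field k] {M : Type v} [AddCommGroup M] [Module k M]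
variable {G : Subgroup (LinearMap.GeneralLinearGroup k M)}

section Main

variable [FiniteDimensional k M] {x y : M →ₗ[k] M} {A B : Subgroup (LinearMap.GeneralLinearGroup k M)}

lemma mem_sigma {E : Subgroup (LinearMap.GeneralLinearGroup k M)} (hE : E ∈ quadraticRootSubgroups G) :
    ∃ x, IsQD G x ∧ HasClass G E x := by
  obtain ⟨σ, hσ, rfl⟩ := hE
  exact ⟨tt σ, isQD_of_mem hσ, hasClass_same hσ⟩

lemma sigma_of_qd {w : M →ₗ[k] M} (h0 : IsQD G w) :
    sameActionSubgroup G (unitOfSq w h0.q.sq) ∈ quadraticRootSubgroups G :=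
  ⟨_, mem_minimal_of_isQD h0, rfl⟩

/-- Vanishing of all the ring commutators gives commuting groups. -/
lemma commutator_bot_of (hA : HasClass G A x) (hB : HasClass G B y)
    (h : ∀ a b, InC G x a → InC G y b → wc a b = 0) : ⁅A, B⁆ = ⊥ := by
  rw [eq_bot_iff, Subgroup.commutator_le]
  intro e he f hf
  rw [Subgroup.mem_bot, commutatorElement_eq_one_iff_mul_comm]
  rcases (hA e).1 he with rfl | h5
  · simp
  rcases (hB f).1 hf with rfl | h6
  · simp
  have h7 := h _ _ h5 h6
  have h8 : tt e * tt f = tt f * tt e := by simpa [wc, sub_eq_zero] using h7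
  apply Units.ext
  rw [Units.val_mul, Units.val_mul, val_of_tt e, val_of_tt f]
  simp only [tt] at h8 ⊢
  have h9 : ∀ a b : M →ₗ[k] M, (1 + (a - 1)) * (1 + (b - 1)) = 1 + (a - 1) + (b - 1) + (a - 1) * (b - 1) := by
    intro a b; noncomm_ring
  rw [h9, h9, h8]
  abel

variable (h2 : (2 : k) ≠ 0) (hk3 : Nat.card k ≠ 3)

include h2 hk3 in
/-- Either all pairs have vanishing `xyx, yxy`, or there is a matched pair in the two classes. -/
lemma nil_or_mp (hx : IsQD G x) (hy : IsQD G y) :
    Nil G x y ∨ ∃ x' n, InC G x x' ∧ InC G y n ∧ MP G x' n := by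
  have h4 := four_ne (k := k) h2
  by_cases hall : ∀ x' y', InC G x x' → InC G y y' → IsNilpotent (x' * y' + y' * x')
  · left
    intro x' y' hx' hy'
    refine ⟨xyx_of_nil h4 hx'.qd hy'.qd.q (hall _ _ hx' hy'), xyx_of_nil h4 hy'.qd hx'.qd.q ?_⟩
    rw [add_comm]
    exact hall _ _ hx' hy'
  · right
    push Not at hall
    obtain ⟨x', y', hx', hy', hz⟩ := hall
    obtain ⟨n, hn, hm, hk, hr⟩ := exists_matched_same h2 hk3 hx'.qd hy'.qd hz
    exact ⟨x', n, hx', ⟨hn, hk.trans hy'.ker, hr.trans hy'.ran⟩, ⟨hx'.qd, hn, hm⟩⟩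

lemma conj_tt {e f : LinearMap.GeneralLinearGroup k M} (he : tt e * tt e = 0) :
    ((e * f * e⁻¹ : LinearMap.GeneralLinearGroup k M) : M →ₗ[k] M) = 1 + (1 + tt e) * tt f * (1 - tt e) := by
  have h1 : ((e⁻¹ : LinearMap.GeneralLinearGroup k M) : M →ₗ[k] M) = 1 - tt e :=
    val_inv_of_sq (val_of_tt e) he
  rw [Units.val_mul, Units.val_mul, h1]
  have h3 : (f : M →ₗ[k] M) = 1 + tt f := val_of_tt f
  rw [h3]
  have h5 : (e : M →ₗ[k] M) = 1 + tt e := val_of_tt e
  rw [h5]
  have e1 : (1 + tt e) * (1 + tt f) * (1 - tt e) = (1 + tt e) * (1 - tt e) + (1 + tt e) * tt f * (1 - tt e) := by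
    noncomm_ring
  have e2 : (1 + tt e) * (1 - tt e) = 1 - tt e * tt e := by noncomm_ring
  rw [e1, e2, he, sub_zero]

lemma tt_conj {e f : LinearMap.GeneralLinearGroup k M} (he : tt e * tt e = 0) :
    tt (e * f * e⁻¹) = (1 + tt e) * tt f * (1 - tt e) := by
  have := conj_tt (e := e) (f := f) he
  show ((e * f * e⁻¹ : LinearMap.GeneralLinearGroup k M) : M →ₗ[k] M) - 1 = _
  rw [this]
  simp

lemma conj_ne_one {e f : LinearMap.GeneralLinearGroup k M} (hf : f ≠ 1) : e * f * e⁻¹ ≠ 1 := by
  intro h
  apply hf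
  have : f = e⁻¹ * (e * f * e⁻¹) * e := by group
  rw [this, h]
  group

lemma unit_ne_one {t : M →ₗ[k] M} (hsq : t * t = 0) (hne : t ≠ 0) :
    (unitOfSq t hsq : LinearMap.GeneralLinearGroup k M) ≠ 1 := by
  intro h
  apply hne
  have := tt_unitOfSq (k := k) (M := M) t hsq
  rw [h] at this
  simpa [tt] using this.symm

include h2 hk3 in
theorem comm_or_norm (hx : IsQD G x) (hy : IsQD G y) (hA : HasClass G A x) (hB : HasClass G B y)
    (hcond : (∃ e ∈ A, e ≠ 1 ∧ ∃ f ∈ B, f ≠ 1 ∧ e * f = f * e) ∨
      A ⊓ Subgroup.normalizer (B : Set (LinearMap.GeneralLinearGroup k M)) ≠ ⊥) : ⁅A, B⁆ = ⊥ := by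
  rcases nil_or_mp h2 hk3 hx hy with hnil | ⟨x', n, hx', hyn, hmp⟩
  · -- the nil case
    have main : ∃ a b, InC G x a ∧ InC G y b ∧ wc a b = 0 := by
      rcases hcond with ⟨e, he, he1, f, hf, hf1, hc⟩ | hn
      · have h5 : InC G x (tt e) := by
          rcases (hA e).1 he with h5 | h5
          · exact absurd h5 he1
          · exact h5
        have h6 : InC G y (tt f) := by
          rcases (hB f).1 hf with h6 | h6
          · exact absurd h6 hf1
          · exact h6
        refine ⟨_, _, h5, h6, ?_⟩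
        have h7 := congrArg (fun g : LinearMap.GeneralLinearGroup k M => (g : M →ₗ[k] M)) hc
        simp only [Units.val_mul] at h7
        simp only [wc, tt, sub_eq_zero]
        have e1 : ∀ a b : M →ₗ[k] M, (a - 1) * (b - 1) = a * b - a - b + 1 := by
          intro a b; noncomm_ring
        rw [e1, e1, h7]
        abel
      · obtain ⟨e, ⟨he, hen⟩, he1⟩ := (Subgroup.bot_or_exists_ne_one _).resolve_left hn
        have h5 : InC G x (tt e) := by
          rcases (hA e).1 he with h5 | h5
          · exact absurd h5 he1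
          · exact h5
        refine ⟨tt e, y, h5, InC.refl hy, ?_⟩
        have hf := unit_mem_of_inC hB hy.q.sq (InC.refl hy)
        have hf1 := unit_ne_one hy.q.sq hy.q.ne
        have hg : e * unitOfSq y hy.q.sq * e⁻¹ ∈ B := (Subgroup.mem_normalizer_iff.1 hen _).1 hf
        have hg1 := conj_ne_one (e := e) hf1
        have hcl : InC G y (tt (e * unitOfSq y hy.q.sq * e⁻¹)) := by
          rcases (hB _).1 hg with h6 | h6
          · exact absurd h6 hg1
          · exact h6
        rw [tt_conj h5.qd.q.sq, tt_unitOfSq] at hcl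
        set a := tt e with ha
        have hnp : NP G a y := hnil.np h5 (InC.refl hy)
        have e1 : (1 + a) * y * (1 - a) = y + wc a y := by
          have : (1 + a) * y * (1 - a) = y + (a * y - y * a) - a * y * a := by noncomm_ring
          rw [this, hnp.xyx, sub_zero]
        rw [e1] at hcl
        have hneg : InC G y (-y) := by
          refine ⟨?_, LinearMap.ker_neg _, LinearMap.range_neg _⟩
          have := hy.smul (c := -1) (neg_ne_zero.2 one_ne_zero)
          simpa using this
        have e2 : y + wc a y + -y = wc a y := by abel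
        rcases add_mem_class hy hcl hneg with h0 | hl
        · rwa [e2] at h0
        · rw [e2] at hl
          by_contra hne
          -- the contradiction
          have h6 : wc a y * a = 0 := by
            have : wc a y * a = a * y * a - y * (a * a) := by simp only [wc]; noncomm_ring
            rw [this, hnp.xyx, hnp.hx.q.sq]
            simp
          have h7 : y * a = 0 := by
            apply mul_zero_of_le
            rw [← hl.ker]
            rintro _ ⟨v, rfl⟩
            have := congrArg (fun f => f v) h6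
            simpa using this
          have h8 : wc a y = a * y := by simp [wc, h7]
          have h9 : LinearMap.range (a * y) = LinearMap.range a := by
            have h10 : LinearMap.range (a * y) ≤ LinearMap.range a := by
              rintro _ ⟨v, rfl⟩
              exact ⟨y v, rfl⟩
            refine Submodule.eq_of_le_of_finrank_le h10 ?_
            have h11 := hnp.hx.min _ hl.qd.q
            rw [h8] at h11
            exact h11
          have h12 : a * y = 0 := by
            apply mul_zero_of_le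
            rw [← hl.ran, h8, h9]
            exact range_le_ker_of_sq' hnp.hx.q.sq
          apply hne
          rw [h8, h12]
    obtain ⟨a, b, ha, hb, h0⟩ := main
    exact commutator_bot_of hA hB (fun a' b' ha' hb' => hnil.wc_zero hx hy ha hb h0 ha' hb')
  · -- the matched case: contradiction
    exfalso
    have hA' := hA.of_inC hx hx'
    have hB' := hB.of_inC hy hyn
    have h4 := four_ne (k := k) h2
    rcases hcond with ⟨e, he, he1, f, hf, hf1, hc⟩ | hn
    · have h5 : InC G x' (tt e) := by
        rcases (hA' e).1 he with h5 | h5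
        · exact absurd h5 he1
        · exact h5
      have h6 : InC G n (tt f) := by
        rcases (hB' f).1 hf with h6 | h6
        · exact absurd h6 hf1
        · exact h6
      apply hmp.nonnil h5 h6
      have h7 := congrArg (fun g : LinearMap.GeneralLinearGroup k M => (g : M →ₗ[k] M)) hc
      simp only [Units.val_mul] at h7
      have h8 : tt e * tt f = tt f * tt e := by
        simp only [tt]
        have e1 : ∀ a b : M →ₗ[k] M, (a - 1) * (b - 1) = a * b - a - b + 1 := by
          intro a b; noncomm_ring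
        rw [e1, e1, h7]
        abel
      refine ⟨2, ?_⟩
      rw [← h8, sq]
      have h9 := h5.qd.q.sq
      have h10 := h6.qd.q.sq
      have e2 : (tt e * tt f + tt e * tt f) * (tt e * tt f + tt e * tt f) =
          4 • (tt e * (tt f * tt e) * tt f) := by
        noncomm_ring
      rw [e2, ← h8]
      have e3 : tt e * (tt e * tt f) * tt f = (tt e * tt e) * (tt f * tt f) := by noncomm_ring
      rw [e3, h9]
      simp
    · obtain ⟨e, ⟨he, hen⟩, he1⟩ := (Subgroup.bot_or_exists_ne_one _).resolve_left hn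
      have h5 : InC G x' (tt e) := by
        rcases (hA' e).1 he with h5 | h5
        · exact absurd h5 he1
        · exact h5
      obtain ⟨n', hn', hmp'⟩ := hmp.exists_partner' h2 hk3 h5
      have hBn := hB'.of_inC hmp.hn hn'
      have hf := unit_mem_of_inC hBn hn'.qd.q.sq (InC.refl hn'.qd)
      have hf1 := unit_ne_one hn'.qd.q.sq hn'.qd.q.ne
      have hg : e * unitOfSq n' hn'.qd.q.sq * e⁻¹ ∈ B := (Subgroup.mem_normalizer_iff.1 hen _).1 hf
      have hg1 := conj_ne_one (e := e) hf1
      have hcl : InC G n' (tt (e * unitOfSq n' hn'.qd.q.sq * e⁻¹)) := by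
        rcases (hBn _).1 hg with h6 | h6
        · exact absurd h6 hg1
        · exact h6
      rw [tt_conj h5.qd.q.sq, tt_unitOfSq] at hcl
      have h6 := hcl.mul_self_right hn'.qd.q.sq
      set t := tt e with ht
      have hm := hmp'.m
      have e1 : n' * ((1 + t) * n' * (1 - t)) * n' = (n' * n' + n' * t * n') * (1 - t) * n' := by
        noncomm_ring
      have e2 : n' * ((1 + t) * n' * (1 - t)) * n' = 0 := by
        rw [mul_assoc n' _ n', h6, mul_zero]
      rw [e2, hm.nn, hm.nxn] at e1
      have e3 : (0 + n') * (1 - t) * n' = n' * n' - n' * t * n' := by noncomm_ring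
      rw [e3, hm.nn, hm.nxn] at e1
      apply hn'.qd.q.ne
      simpa using e1.symm
  
include h2 hk3 in
/-- The main theorem for `Nil` pairs. -/
theorem main_nil (hG : IsQuadraticPair G) (hx : IsQD G x) (hy : IsQD G y) (hA : HasClass G A x) (hB : HasClass G B y)
    (h : Nil G x y) :
    ⁅A, B⁆ = ⊥ ∨
    (⁅A, B⁆ ∈ quadraticRootSubgroups G ∧
      (∀ c ∈ ⁅A, B⁆, ∀ g ∈ A ⊔ B, c * g = g * c) ∧
      (∀ e ∈ A, e ≠ 1 → Subgroup.closure ((fun f : LinearMap.GeneralLinearGroup k M => e * f * e⁻¹ * f⁻¹) ''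
        (B : Set (LinearMap.GeneralLinearGroup k M))) = ⁅A, B⁆) ∧
      (∀ f ∈ B, f ≠ 1 → Subgroup.closure ((fun e : LinearMap.GeneralLinearGroup k M => e * f * e⁻¹ * f⁻¹) ''
        (A : Set (LinearMap.GeneralLinearGroup k M))) = ⁅A, B⁆) ∧
      ⁅A ⊔ B, A ⊔ B⁆ ≠ ⊥ ∧ ⁅⁅A ⊔ B, A ⊔ B⁆, A ⊔ B⁆ = ⊥ ∧
      ((A ⊔ B : Subgroup (LinearMap.GeneralLinearGroup k M)) : Set (LinearMap.GeneralLinearGroup k M)) ⊆
        quadraticUnipotentCore G ⁅A, B⁆) := by
  by_cases hw : wc x y = 0
  · left
    exact commutator_bot_of hA hB (fun a' b' ha' hb' => h.wc_zero hx hy (InC.refl hx) (InC.refl hy) hw ha' hb')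
  · right
    have h0 := (h.np (InC.refl hx) (InC.refl hy)).wc_qd hw
    have hL := exists_hasClass h0
    have hc := commutator_eq h2 hk3 hG h hx hy hw hA hB hL
    rw [hc]
    refine ⟨sigma_of_qd h0, central_L h hx hy hw hA hB hL, fun e he he1 => closure_left h2 hk3 hG h hx hy hw hA hB hL he he1,
      fun f hf hf1 => closure_right h2 hk3 hG h hx hy hw hA hB hL hf hf1, ?_, class_two h hx hy hw hA hB,
      sup_le_core h hx hy hw hA hB hL⟩
    intro h3
    have h5 : ⁅A, B⁆ ≤ ⁅A ⊔ B, A ⊔ B⁆ := Subgroup.commutator_mono le_sup_left le_sup_right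
    rw [h3, hc] at h5
    have h6 := unit_mem_of_inC hL h0.q.sq (InC.refl h0)
    have h7 := h5 h6
    rw [Subgroup.mem_bot] at h7
    exact unit_ne_one h0.q.sq h0.q.ne h7

/-- Commuting groups generate an abelian group. -/
lemma comm_sup_of_bot (hA : HasClass G A x) (hB : HasClass G B y) (hx : IsQD G x) (hy : IsQD G y) (h : ⁅A, B⁆ = ⊥) :
    ⁅A ⊔ B, A ⊔ B⁆ = ⊥ := by
  have hAB : ∀ a ∈ A, ∀ b ∈ B, a * b = b * a := by
    intro a ha b hb
    have : ⁅a, b⁆ ∈ ⁅A, B⁆ := Subgroup.commutator_mem_commutator ha hb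
    rw [h, Subgroup.mem_bot, commutatorElement_eq_one_iff_mul_comm] at this
    exact this
  have h1 : A ⊔ B ≤ Subgroup.centralizer ((A : Set (LinearMap.GeneralLinearGroup k M)) ∪ (B : Set _)) := by
    apply sup_le
    · intro a ha
      rw [Subgroup.mem_centralizer_iff]
      rintro b (hb | hb)
      · exact comm_of_class hA hx.q.sq hb ha
      · exact (hAB a ha b hb).symm
    · intro a ha
      rw [Subgroup.mem_centralizer_iff]
      rintro b (hb | hb)
      · exact hAB b hb a ha
      · exact comm_of_class hB hy.q.sq hb ha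
  have h3 : A ⊔ B ≤ Subgroup.centralizer ((A ⊔ B : Subgroup (LinearMap.GeneralLinearGroup k M)) : Set (LinearMap.GeneralLinearGroup k M)) := by
    apply sup_le
    · intro a ha
      rw [Subgroup.mem_centralizer_iff]
      intro b hb
      have := Subgroup.mem_centralizer_iff.1 (h1 hb) a (Or.inl ha)
      exact this.symm
    · intro a ha
      rw [Subgroup.mem_centralizer_iff]
      intro b hb
      have := Subgroup.mem_centralizer_iff.1 (h1 hb) a (Or.inr ha)
      exact this.symm
  rw [eq_bot_iff, Subgroup.commutator_le]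
  intro a ha b hb
  rw [Subgroup.mem_bot, commutatorElement_eq_one_iff_mul_comm]
  exact (Subgroup.mem_centralizer_iff.1 (h3 hb) a ha)

lemma xCx {R : Type*} [Ring R] {a n : R} (h : IsMatched a n) : a * ((1 + a) * (1 + n) * (1 - a) * (1 - n)) * a = a := by
  have e : a * ((1 + a) * (1 + n) * (1 - a) * (1 - n)) * a =
      (a + a * a) * ((1 + n) * ((1 - a) * (a - n * a))) := by noncomm_ring
  rw [e, h.xx, add_zero]
  have e3 : (1 - a) * (a - n * a) = a + a - n * a := by
    have : (1 - a) * (a - n * a) = a - n * a - a * a + a * n * a := by noncomm_ring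
    rw [this, h.xx, h.xnx]
    abel
  have e4 : (1 + n) * (a + a - n * a) = a + a + n * a := by
    have : (1 + n) * (a + a - n * a) = a + a - n * a + n * a + n * a - n * n * a := by noncomm_ring
    rw [this, h.nn]
    simp
  rw [e3, e4]
  have e5 : a * (a + a + n * a) = a * a + a * a + a * n * a := by noncomm_ring
  rw [e5, h.xx, h.xnx]
  simp

include h2 hk3 in
theorem nil_of_class_two (hx : IsQD G x) (hy : IsQD G y) (hA : HasClass G A x) (hB : HasClass G B y)
    (hc : ⁅⁅A ⊔ B, A ⊔ B⁆, A ⊔ B⁆ = ⊥) : Nil G x y := by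
  rcases nil_or_mp h2 hk3 hx hy with hnil | ⟨x', n, hx', hyn, hmp⟩
  · exact hnil
  · exfalso
    have ha := unit_mem_of_inC hA hx'.qd.q.sq hx'
    have hb := unit_mem_of_inC hB hmp.hn.q.sq hyn
    set a := unitOfSq x' hx'.qd.q.sq with hadef
    set b := unitOfSq n hmp.hn.q.sq with hbdef
    have h1 : ⁅a, b⁆ ∈ ⁅A ⊔ B, A ⊔ B⁆ :=
      Subgroup.commutator_mem_commutator (Subgroup.mem_sup_left ha) (Subgroup.mem_sup_right hb)
    have h3 : ⁅⁅a, b⁆, a⁆ ∈ ⁅⁅A ⊔ B, A ⊔ B⁆, A ⊔ B⁆ :=
      Subgroup.commutator_mem_commutator h1 (Subgroup.mem_sup_left ha)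
    rw [hc, Subgroup.mem_bot, commutatorElement_eq_one_iff_mul_comm, commutatorElement_def] at h3
    have h5 := congrArg (fun g : LinearMap.GeneralLinearGroup k M => (g : M →ₗ[k] M)) h3
    simp only [Units.val_mul] at h5
    have hinv1 : ((a⁻¹ : LinearMap.GeneralLinearGroup k M) : M →ₗ[k] M) = 1 - x' :=
      val_inv_of_sq (a := x') rfl hx'.qd.q.sq
    have hinv2 : ((b⁻¹ : LinearMap.GeneralLinearGroup k M) : M →ₗ[k] M) = 1 - n :=
      val_inv_of_sq (a := n) rfl hmp.hn.q.sq
    have hva : (a : M →ₗ[k] M) = 1 + x' := rfl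
    have hvb : (b : M →ₗ[k] M) = 1 + n := rfl
    rw [hinv1, hinv2, hva, hvb] at h5
    set C := (1 + x') * (1 + n) * (1 - x') * (1 - n) with hC
    have h6 : C * x' = x' * C := by
      have e1 : C * (1 + x') = C + C * x' := by noncomm_ring
      have e2 : (1 + x') * C = C + x' * C := by noncomm_ring
      rw [e1, e2] at h5
      exact add_left_cancel h5
    have h7 : x' * C * x' = 0 := by
      rw [mul_assoc, h6, ← mul_assoc, hx'.qd.q.sq, zero_mul]
    rw [hC, xCx hmp.m] at h7
    exact hx'.qd.q.ne h7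

end Main

end Cfsg.Agent.Lib.RootSubgroups.QuadPairs
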