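/-
Quadratic pairs: conjugation of classes; transfer of root subgroup sets to the generated subgroup; images of
`SL₂(k)` attached to a matched pair; the set `Σ` as a set of abstract root subgroups.
-/
import Mathlib
import Cfsg.Agent.Lib.RootSubgroups.QuadPairs
import Cfsg.Agent.Lib.RootSubgroups.Transfer

set_option autoImplicit false
set_option linter.unusedSimpArgs false
set_option linter.unusedVariables false
set_option linter.unusedSectionVars false
set_option linter.style.haveILetI false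

namespace Cfsg.Agent.Lib.RootSubgroups.QuadRootSet

open Cfsg
open Cfsg.Agent.Lib.RootSubgroups.Quadratic
open Cfsg.Agent.Lib.RootSubgroups.QuadMatched
open Cfsg.Agent.Lib.RootSubgroups.QuadBasic
open Cfsg.Agent.Lib.RootSubgroups.QuadFilt
open Cfsg.Agent.Lib.RootSubgroups.QuadRep
open Cfsg.Agent.Lib.RootSubgroups.QuadPartner
open Cfsg.Agent.Lib.RootSubgroups.QuadNU
open Cfsg.Agent.Lib.RootSubgroups.QuadBlock
open Cfsg.Agent.Lib.RootSubgroups.QuadClass
open Cfsg.Agent.Lib.RootSubgroups.QuadCase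
open Cfsg.Agent.Lib.RootSubgroups.QuadSurj
open Cfsg.Agent.Lib.RootSubgroups.QuadUnip
open Cfsg.Agent.Lib.RootSubgroups.QuadPairs
open Cfsg.Agent.Lib.RootSubgroups.Transfer
open Cfsg.Agent.Lib.RootSubgroups.EuclidSL2

open scoped commutatorElement

local notation "SL₂" => Matrix.SpecialLinearGroup (Fin 2)

universe u v w

/-! ### Transfer to the generated subgroup -/

section Transfer

variable {X : Type*} [Group X]

lemma comm_le {H A B : Subgroup X} (hA : A ≤ H) (hB : B ≤ H) : ⁅A, B⁆ ≤ H := by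
  rw [Subgroup.commutator_le]
  intro a ha b hb
  rw [commutatorElement_def]
  exact H.mul_mem (H.mul_mem (H.mul_mem (hA ha) (hB hb)) (H.inv_mem (hA ha))) (H.inv_mem (hB hb))

lemma comm_subgroupOf {H A B : Subgroup X} (hA : A ≤ H) (hB : B ≤ H) :
    ⁅A.subgroupOf H, B.subgroupOf H⁆ = (⁅A, B⁆).subgroupOf H := by
  apply Subgroup.map_injective H.subtype_injective
  rw [Subgroup.map_commutator, map_subgroupOf hA, map_subgroupOf hB, map_subgroupOf (comm_le hA hB)]

lemma sup_subgroupOf' {H A B : Subgroup X} (hA : A ≤ H) (hB : B ≤ H) :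
    A.subgroupOf H ⊔ B.subgroupOf H = (A ⊔ B).subgroupOf H := by
  apply Subgroup.map_injective H.subtype_injective
  rw [Subgroup.map_sup, map_subgroupOf hA, map_subgroupOf hB, map_subgroupOf (sup_le hA hB)]

lemma case_subgroupOf {S : Set (Subgroup X)} {H A B : Subgroup X} (hA : A ≤ H) (hB : B ≤ H)
    (h : RootCommutatorCase S A B) :
    RootCommutatorCase ((fun C : Subgroup X => C.subgroupOf H) '' S) (A.subgroupOf H) (B.subgroupOf H) := by
  refine ⟨?_, ?_, ?_, ?_⟩
  · rw [comm_subgroupOf hA hB]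
    exact ⟨_, h.1, rfl⟩
  · intro c hc x hx
    rw [comm_subgroupOf hA hB] at hc
    rw [sup_subgroupOf' hA hB] at hx
    exact Subtype.ext (h.2.1 c hc x hx)
  · intro a ha ha1
    rw [comm_subgroupOf hA hB]
    apply Subgroup.map_injective H.subtype_injective
    rw [MonoidHom.map_closure, map_subgroupOf (comm_le hA hB),
      ← h.2.2.1 (a : X) ha (fun h0 => ha1 (Subtype.ext h0))]
    congr 1
    ext y
    constructor
    · rintro ⟨_, ⟨b, hb, rfl⟩, rfl⟩
      exact ⟨(b : X), hb, by simp⟩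
    · rintro ⟨b, hb, rfl⟩
      exact ⟨_, ⟨⟨b, hB hb⟩, hb, rfl⟩, by simp⟩
  · intro b hb hb1
    rw [comm_subgroupOf hA hB]
    apply Subgroup.map_injective H.subtype_injective
    rw [MonoidHom.map_closure, map_subgroupOf (comm_le hA hB),
      ← h.2.2.2 (b : X) hb (fun h0 => hb1 (Subtype.ext h0))]
    congr 1
    ext y
    constructor
    · rintro ⟨_, ⟨a, ha, rfl⟩, rfl⟩
      exact ⟨(a : X), ha, by simp⟩
    · rintro ⟨a, ha, rfl⟩
      exact ⟨_, ⟨⟨a, hA ha⟩, ha, rfl⟩, by simp⟩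

/-- The transfer of a set of abstract root subgroups to the subgroup it generates. -/
theorem rootSet_subgroupOf {S : Set (Subgroup X)} {H : Subgroup X} (hH : H = ⨆ B ∈ S, B)
    (hcomm : ∀ A ∈ S, IsMulCommutative A) (hne : ∀ A ∈ S, A ≠ ⊥)
    (hconj : ∀ A ∈ S, ∀ g ∈ H, conjBy A g ∈ S)
    (hpair : ∀ A ∈ S, ∀ B ∈ S, ⁅A, B⁆ = ⊥ ∨ IsRankOnePair A B ∨ RootCommutatorCase S A B) :
    IsRootSubgroupSet ((fun A : Subgroup X => A.subgroupOf H) '' S) := by
  have hle : ∀ A ∈ S, A ≤ H := fun A hA => by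
    rw [hH]
    exact le_iSup₂_of_le A hA le_rfl
  refine ⟨?_, ?_, ?_, ?_, ?_⟩
  · rintro _ ⟨A, hA, rfl⟩
    have := (hcomm A hA).is_comm.comm
    refine ⟨⟨fun a b => Subtype.ext (Subtype.ext ?_)⟩⟩
    have h1 := this ⟨(a : H), a.2⟩ ⟨(b : H), b.2⟩
    have h2 : ((a : H) : X) * ((b : H) : X) = ((b : H) : X) * ((a : H) : X) := congrArg Subtype.val h1
    exact h2
  · rintro _ ⟨A, hA, rfl⟩ h0
    apply hne A hA
    have := congrArg (Subgroup.map H.subtype) h0
    rwa [map_subgroupOf (hle A hA), Subgroup.map_bot] at this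
  · rw [eq_top_iff]
    rintro h -
    set T : Subgroup H := ⨆ A' ∈ (fun A : Subgroup X => A.subgroupOf H) '' S, A' with hT
    have h1 : H ≤ T.map H.subtype := by
      conv_lhs => rw [hH]
      apply iSup₂_le
      intro A hA a ha
      refine ⟨⟨a, hle A hA ha⟩, ?_, rfl⟩
      have : A.subgroupOf H ≤ T := le_iSup₂_of_le (A.subgroupOf H) ⟨A, hA, rfl⟩ le_rfl
      exact this ha
    obtain ⟨t, ht, e⟩ := h1 h.2
    have : t = h := Subtype.ext e
    rwa [← this]
  · rintro _ ⟨A, hA, rfl⟩ g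
    refine ⟨conjBy A (g : X), hconj A hA g g.2, ?_⟩
    apply Subgroup.map_injective H.subtype_injective
    have hc : conjBy A (g : X) ≤ H := by
      rintro _ ⟨a, ha, rfl⟩
      exact H.mul_mem (H.mul_mem g.2 (hle A hA ha)) (H.inv_mem g.2)
    show ((conjBy A (g : X)).subgroupOf H).map H.subtype = (conjBy (A.subgroupOf H) g).map H.subtype
    rw [map_subgroupOf hc, map_conjBy_subtype, map_subgroupOf (hle A hA)]
  · rintro _ ⟨A, hA, rfl⟩ _ ⟨B, hB, rfl⟩
    rcases hpair A hA B hB with h | h | h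
    · left
      rw [comm_subgroupOf (hle A hA) (hle B hB), h]
      simp [Subgroup.bot_subgroupOf]
    · exact Or.inr (Or.inl (isRankOnePair_subgroupOf (hle A hA) (hle B hB) h))
    · exact Or.inr (Or.inr (case_subgroupOf (hle A hA) (hle B hB) h))

end Transfer

/-! ### Conjugation of classes -/

section Conj

variable {k : Type u} [Field k] {M : Type v} [AddCommGroup M] [Module k M]
variable {G : Subgroup (LinearMap.GeneralLinearGroup k M)}

lemma cj_inv_cj (g : LinearMap.GeneralLinearGroup k M) (t : M →ₗ[k] M) : cj g⁻¹ (cj g t) = t := by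
  unfold cj
  rw [inv_inv]
  calc ((g⁻¹ : LinearMap.GeneralLinearGroup k M) : M →ₗ[k] M) * ((g : M →ₗ[k] M) * t *
        ((g⁻¹ : LinearMap.GeneralLinearGroup k M) : M →ₗ[k] M)) * (g : M →ₗ[k] M)
      = (((g⁻¹ : LinearMap.GeneralLinearGroup k M) : M →ₗ[k] M) * (g : M →ₗ[k] M)) * t *
        (((g⁻¹ : LinearMap.GeneralLinearGroup k M) : M →ₗ[k] M) * (g : M →ₗ[k] M)) := by
          simp only [mul_assoc]
    _ = t := by rw [val_inv_mul, one_mul, mul_one]

lemma cj_cj_inv (g : LinearMap.GeneralLinearGroup k M) (t : M →ₗ[k] M) : cj g (cj g⁻¹ t) = t := by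
  have := cj_inv_cj g⁻¹ t
  rwa [inv_inv] at this

lemma ker_cj (g : LinearMap.GeneralLinearGroup k M) (t : M →ₗ[k] M) :
    LinearMap.ker (cj g t) = (LinearMap.ker t).comap ((g⁻¹ : LinearMap.GeneralLinearGroup k M) : M →ₗ[k] M) := by
  ext m
  simp only [LinearMap.mem_ker, Submodule.mem_comap]
  constructor
  · intro h
    have h1 : (g : M →ₗ[k] M) (t (((g⁻¹ : LinearMap.GeneralLinearGroup k M) : M →ₗ[k] M) m)) = 0 := h
    have h2 := LinearMap.congr_fun (val_inv_mul g) (t (((g⁻¹ : LinearMap.GeneralLinearGroup k M) : M →ₗ[k] M) m))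
    simp only [Module.End.mul_apply, Module.End.one_apply] at h2
    rw [h1, map_zero] at h2
    exact h2.symm
  · intro h
    show (g : M →ₗ[k] M) (t (((g⁻¹ : LinearMap.GeneralLinearGroup k M) : M →ₗ[k] M) m)) = 0
    rw [h, map_zero]

lemma range_cj (g : LinearMap.GeneralLinearGroup k M) (t : M →ₗ[k] M) :
    LinearMap.range (cj g t) = (LinearMap.range t).map (g : M →ₗ[k] M) := by
  ext m
  simp only [LinearMap.mem_range, Submodule.mem_map]
  constructor
  · rintro ⟨v, rfl⟩
    exact ⟨_, ⟨_, rfl⟩, rfl⟩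
  · rintro ⟨_, ⟨v, rfl⟩, rfl⟩
    refine ⟨(g : M →ₗ[k] M) v, ?_⟩
    show (g : M →ₗ[k] M) (t (((g⁻¹ : LinearMap.GeneralLinearGroup k M) : M →ₗ[k] M) ((g : M →ₗ[k] M) v))) = _
    have := LinearMap.congr_fun (val_inv_mul g) v
    simp only [Module.End.mul_apply, Module.End.one_apply] at this
    rw [this]

variable [FiniteDimensional k M]

lemma inC_conj {x t : M →ₗ[k] M} (h : InC G x t) {g : LinearMap.GeneralLinearGroup k M} (hg : g ∈ G) :
    InC G (cj g x) (cj g t) :=
  ⟨h.qd.conj hg, by rw [ker_cj, ker_cj, h.ker], by rw [range_cj, range_cj, h.ran]⟩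

omit [FiniteDimensional k M] in
lemma tt_conj' (g a : LinearMap.GeneralLinearGroup k M) : tt (g * a * g⁻¹) = cj g (tt a) := by
  unfold cj
  simp only [tt, Units.val_mul]
  rw [mul_sub, sub_mul, mul_one, val_mul_inv]

variable {A B : Subgroup (LinearMap.GeneralLinearGroup k M)} {x y : M →ₗ[k] M}

omit [FiniteDimensional k M] in
lemma hasClass_eq_of (hA : HasClass G A x) (hB : HasClass G B x) : A = B := by
  ext g
  rw [hA g, hB g]

lemma hasClass_conjBy (hA : HasClass G A x) (hx : IsQD G x) {g : LinearMap.GeneralLinearGroup k M} (hg : g ∈ G) :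
    HasClass G (conjBy A g) (cj g x) := by
  intro c
  constructor
  · rintro ⟨a, ha, rfl⟩
    rcases (hA a).1 ha with rfl | h5
    · left
      simp
    · right
      have : (MulAut.conj g).toMonoidHom a = g * a * g⁻¹ := rfl
      rw [this, tt_conj']
      exact inC_conj h5 hg
  · rintro (rfl | h5)
    · exact Subgroup.one_mem _
    · refine ⟨g⁻¹ * c * g, ?_, by simp [MulAut.conj_apply]; group⟩
      rw [SetLike.mem_coe, hA]
      right
      have e := tt_conj' g⁻¹ c
      rw [inv_inv] at e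
      rw [e]
      have h6 := inC_conj h5 (G.inv_mem hg)
      rwa [cj_inv_cj] at h6

/-- `Σ` is invariant under conjugation. -/
lemma conjBy_mem_sigma (hA : A ∈ quadraticRootSubgroups G) {g : LinearMap.GeneralLinearGroup k M} (hg : g ∈ G) :
    conjBy A g ∈ quadraticRootSubgroups G := by
  obtain ⟨x, hx, hA'⟩ := mem_sigma hA
  have h1 := hasClass_conjBy hA' hx hg
  have h2 := hx.conj hg
  have h3 := exists_hasClass h2
  rw [hasClass_eq_of h1 h3]
  exact sigma_of_qd h2

lemma le_G_of_sigma (hA : A ∈ quadraticRootSubgroups G) : A ≤ G := by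
  obtain ⟨x, hx, hA'⟩ := mem_sigma hA
  exact le_of_hasClass hA'

lemma comm_of_sigma (hA : A ∈ quadraticRootSubgroups G) : IsMulCommutative A := by
  obtain ⟨x, hx, hA'⟩ := mem_sigma hA
  exact ⟨⟨fun a b => Subtype.ext (comm_of_class hA' hx.q.sq a.2 b.2)⟩⟩

lemma ne_bot_of_sigma (hA : A ∈ quadraticRootSubgroups G) : A ≠ ⊥ := by
  obtain ⟨x, hx, hA'⟩ := mem_sigma hA
  intro h0
  have h1 := unit_mem_of_inC hA' hx.q.sq (InC.refl hx)
  rw [h0, Subgroup.mem_bot] at h1
  exact unit_ne_one hx.q.sq hx.q.ne h1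

/-- In a nil pair of classes there is no rank one pair. -/
theorem no_rank_one (h : Nil G x y) (hx : IsQD G x) (hy : IsQD G y) (hA : HasClass G A x) (hB : HasClass G B y)
    (hr : IsRankOnePair A B) : False := by
  have ha := unit_mem_of_inC hA hx.q.sq (InC.refl hx)
  have ha1 := unit_ne_one hx.q.sq hx.q.ne
  set a := unitOfSq x hx.q.sq with hadef
  obtain ⟨b, hb, hb1, he⟩ := hr.cond_left a ha ha1
  have ht : InC G y (tt b) := by
    rcases (hB b).1 hb with h6 | h6
    · exact absurd h6 hb1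
    · exact h6
  set t := tt b with htdef
  have hbinv : b⁻¹ ∈ G := G.inv_mem (le_of_hasClass hB hb)
  have hainv : a⁻¹ ∈ G := G.inv_mem (le_of_hasClass hA ha)
  have h1 := hasClass_conjBy hA hx hbinv
  have h3 := hasClass_conjBy hB hy hainv
  rw [he] at h1
  have hq : IsQD G (cj a⁻¹ y) := hy.conj hainv
  have hp : IsQD G (cj b⁻¹ x) := hx.conj hbinv
  have hu := unit_mem_of_inC h3 hq.q.sq (InC.refl hq)
  have hpq : InC G (cj b⁻¹ x) (cj a⁻¹ y) := by
    rcases (h1 _).1 hu with h6 | h6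
    · exact absurd h6 (unit_ne_one hq.q.sq hq.q.ne)
    · rwa [tt_unitOfSq] at h6
  have e1 := hpq.mul_self_left hp.q.sq
  have e2 := hpq.mul_self_right hp.q.sq
  have hvb : (b : M →ₗ[k] M) = 1 + t := val_of_tt b
  have hvbi : ((b⁻¹ : LinearMap.GeneralLinearGroup k M) : M →ₗ[k] M) = 1 - t := val_inv_of_sq hvb ht.qd.q.sq
  have hva : (a : M →ₗ[k] M) = 1 + x := rfl
  have hvai : ((a⁻¹ : LinearMap.GeneralLinearGroup k M) : M →ₗ[k] M) = 1 - x := val_inv_of_sq hva hx.q.sq
  have hp1 : cj b⁻¹ x = (1 - t) * x * (1 + t) := by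
    unfold cj
    rw [inv_inv, hvb, hvbi]
  have hq1 : cj a⁻¹ y = (1 - x) * y * (1 + x) := by
    unfold cj
    rw [inv_inv, hva, hvai]
  have hxtx := (h x t (InC.refl hx) ht).1
  have htxt := (h x t (InC.refl hx) ht).2
  have hty := ht.mul_self_right hy.q.sq
  have hyt := ht.mul_self_left hy.q.sq
  have hxx := hx.q.sq
  have hyy := hy.q.sq
  have hxyx := (h x y (InC.refl hx) (InC.refl hy)).1
  have hinv1 : (1 + t) * (1 - t) = 1 := by
    have : (1 + t) * (1 - t) = 1 - t * t := by noncomm_ring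
    rw [this, ht.qd.q.sq, sub_zero]
  have hinv2 : (1 + x) * (1 - x) = 1 := by
    have : (1 + x) * (1 - x) = 1 - x * x := by noncomm_ring
    rw [this, hxx, sub_zero]
  have hinv3 : (1 - t) * (1 + t) = 1 := by
    have : (1 - t) * (1 + t) = 1 - t * t := by noncomm_ring
    rw [this, ht.qd.q.sq, sub_zero]
  have hinv4 : (1 - x) * (1 + x) = 1 := by
    have : (1 - x) * (1 + x) = 1 - x * x := by noncomm_ring
    rw [this, hxx, sub_zero]
  rw [hp1, hq1] at e1 e2
  have hxy : x * y = 0 := by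
    have e3 : x * (1 + t) * (1 - x) * y =
        (1 + t) * ((1 - t) * x * (1 + t) * ((1 - x) * y * (1 + x))) * (1 - x) := by
      calc x * (1 + t) * (1 - x) * y
          = ((1 + t) * (1 - t)) * x * (1 + t) * (1 - x) * y * ((1 + x) * (1 - x)) := by rw [hinv1, hinv2]; simp
        _ = _ := by noncomm_ring
    rw [e1] at e3
    have e4 : x * (1 + t) * (1 - x) * y = x * y + x * (t * y) - (x * x) * y - (x * t * x) * y := by noncomm_ring
    rw [e4, hty, hxx, hxtx] at e3
    simpa using e3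
  have hyx : y * x = 0 := by
    have e3 : y * (1 + x) * (1 - t) * x =
        (1 + x) * ((1 - x) * y * (1 + x) * ((1 - t) * x * (1 + t))) * (1 - t) := by
      calc y * (1 + x) * (1 - t) * x
          = ((1 + x) * (1 - x)) * y * (1 + x) * (1 - t) * x * ((1 + t) * (1 - t)) := by rw [hinv1, hinv2]; simp
        _ = _ := by noncomm_ring
    rw [e2] at e3
    have e4 : y * (1 + x) * (1 - t) * x = y * x + y * (x * x) - (y * t) * x - y * (x * t * x) := by noncomm_ring
    rw [e4, hxx, hyt, hxtx] at e3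
    simpa using e3
  have h0 : wc x y = 0 := by simp [wc, hxy, hyx]
  have h5 := h.wc_zero hx hy (InC.refl hx) (InC.refl hy) h0 (InC.refl hx) ht
  have hpx : (1 - t) * x * (1 + t) = x := by
    have : (1 - t) * x * (1 + t) = x + wc x t - t * x * t := by simp only [wc]; noncomm_ring
    rw [this, h5, htxt]
    simp
  have hqy : (1 - x) * y * (1 + x) = y := by
    have : (1 - x) * y * (1 + x) = y + y * x - x * y - x * y * x := by noncomm_ring
    rw [this, hxy, hyx]
    simp
  rw [hp1, hq1, hpx, hqy] at hpq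
  exact hr.ne (hasClass_eq_of hA (hB.of_inC hy (hpq.symm hx)))

end Conj

/-! ### The image of `SL₂(k)` -/

section PSL2

variable {k : Type u} [Field k] {M : Type v} [AddCommGroup M] [Module k M]

/-- The endomorphism attached to a matrix by a matched pair. -/
noncomputable def phiVal (x n : M →ₗ[k] M) (g : SL₂ k) : M →ₗ[k] M :=
  (1 - (x * n + n * x)) + psi x n (algebraMap k (M →ₗ[k] M)) g

lemma psi_eq (x n : M →ₗ[k] M) (g : SL₂ k) :
    psi x n (algebraMap k (M →ₗ[k] M)) g = ent g 0 0 • (x * n) + ent g 1 1 • (n * x) + ent g 0 1 • x + ent g 1 0 • n := by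
  simp only [psi, Algebra.smul_def]

lemma p_psi {x n : M →ₗ[k] M} (h : IsMatched x n) (g : SL₂ k) :
    (1 - (x * n + n * x)) * psi x n (algebraMap k (M →ₗ[k] M)) g = 0 := by
  have h1 : (1 - (x * n + n * x)) * (x * n) = 0 := by
    rw [← mul_assoc, p_w h, zero_mul]
  have h3 : (1 - (x * n + n * x)) * (n * x) = 0 := by
    rw [← mul_assoc, p_n h, zero_mul]
  rw [psi_eq]
  simp only [mul_add, mul_smul_comm, h1, h3, p_w h, p_n h, smul_zero, add_zero]

lemma psi_p {x n : M →ₗ[k] M} (h : IsMatched x n) (g : SL₂ k) :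
    psi x n (algebraMap k (M →ₗ[k] M)) g * (1 - (x * n + n * x)) = 0 := by
  have h1 : (x * n) * (1 - (x * n + n * x)) = 0 := by
    rw [mul_assoc, n_p h, mul_zero]
  have h3 : (n * x) * (1 - (x * n + n * x)) = 0 := by
    rw [mul_assoc, w_p h, mul_zero]
  rw [psi_eq]
  simp only [add_mul, smul_mul_assoc, h1, h3, w_p h, n_p h, smul_zero, add_zero]

/-- The monoid homomorphism to endomorphisms. -/
noncomputable def phiHom {x n : M →ₗ[k] M} (h : IsMatched x n) : SL₂ k →* (M →ₗ[k] M) where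
  toFun := phiVal x n
  map_one' := by
    simp only [phiVal, psi_one]
    abel
  map_mul' g g' := by
    simp only [phiVal]
    rw [psi_mul' h _ (fun a => (Algebra.commutes a x).symm) (fun a => (Algebra.commutes a n).symm) g g']
    have h1 := p_psi h g'
    have h3 := psi_p h g
    have h5 := p_p h
    rw [add_mul, mul_add, mul_add, h1, h3, h5]
    simp

/-- The homomorphism from `SL₂(k)`. -/
noncomputable def phiSL {x n : M →ₗ[k] M} (h : IsMatched x n) : SL₂ k →* LinearMap.GeneralLinearGroup k M :=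
  (phiHom h).toHomUnits

lemma val_phiSL {x n : M →ₗ[k] M} (h : IsMatched x n) (g : SL₂ k) :
    ((phiSL h g : LinearMap.GeneralLinearGroup k M) : M →ₗ[k] M) = phiVal x n g := rfl

lemma val_phiSL_uu {x n : M →ₗ[k] M} (h : IsMatched x n) (c : k) :
    ((phiSL h (uu c) : LinearMap.GeneralLinearGroup k M) : M →ₗ[k] M) = 1 + c • x := by
  rw [val_phiSL, phiVal, psi_uu, Algebra.smul_def]
  abel

lemma val_phiSL_ll {x n : M →ₗ[k] M} (h : IsMatched x n) (c : k) :
    ((phiSL h (ll c) : LinearMap.GeneralLinearGroup k M) : M →ₗ[k] M) = 1 + c • n := by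
  rw [val_phiSL, phiVal, psi_ll, Algebra.smul_def]
  abel

lemma phiSL_ker {x n : M →ₗ[k] M} (h : IsMatched x n) (hx : x ≠ 0) :
    (phiSL h).ker ≤ Subgroup.center (SL₂ k) := by
  intro g hg
  have hn : n ≠ 0 := by
    rintro rfl
    apply hx
    have := h.xnx
    simpa using this.symm
  have h1 : phiVal x n g = 1 := by
    have := congrArg (fun u : LinearMap.GeneralLinearGroup k M => (u : M →ₗ[k] M)) (MonoidHom.mem_ker.1 hg)
    simpa [val_phiSL] using this
  have h3 : psi x n (algebraMap k (M →ₗ[k] M)) g = x * n + n * x := by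
    simp only [phiVal] at h1
    have : psi x n (algebraMap k (M →ₗ[k] M)) g = 1 - (1 - (x * n + n * x)) := eq_sub_of_add_eq' h1
    rw [this]
    abel
  obtain ⟨e1, e2, e3, e4⟩ := psi_extract h (algebraMap k (M →ₗ[k] M)) (fun a => (Algebra.commutes a x).symm)
    (fun a => (Algebra.commutes a n).symm) g
  rw [h3] at e1 e2 e3 e4
  have key : ∀ (c : k) (t : M →ₗ[k] M), t ≠ 0 → algebraMap k (M →ₗ[k] M) c * t = t → c = 1 := by
    intro c t ht he
    rw [← Algebra.smul_def] at he
    have : (c - 1) • t = 0 := by rw [sub_smul, he, one_smul, sub_self]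
    rcases smul_eq_zero.1 this with h5 | h5
    · exact sub_eq_zero.1 h5
    · exact absurd h5 ht
  have key0 : ∀ (c : k) (t : M →ₗ[k] M), t ≠ 0 → algebraMap k (M →ₗ[k] M) c * t = 0 → c = 0 := by
    intro c t ht he
    rw [← Algebra.smul_def] at he
    rcases smul_eq_zero.1 he with h5 | h5
    · exact h5
    · exact absurd h5 ht
  have hg1 : g = 1 := by
    apply sl_ext
    · rw [ent_one_00]
      apply key _ x hx
      rw [← e1, mul_assoc, h.pi_x, h.xnx]
    · rw [ent_one_01]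
      apply key0 _ x hx
      rw [← e3, mul_assoc, ← mul_assoc _ n x, h.pi_n, h.e1e2]
    · rw [ent_one_10]
      apply key0 _ n hn
      rw [← e4, mul_assoc, ← mul_assoc _ x n, h.pi_x, h.e2e1]
    · rw [ent_one_11]
      apply key _ n hn
      rw [← e2, mul_assoc, h.pi_n, h.nxn]
  rw [hg1]
  exact Subgroup.one_mem _

lemma upper_gen {g : SL₂ k} (h : (g : Matrix (Fin 2) (Fin 2) k) 1 0 = 0 ∧ (g : Matrix (Fin 2) (Fin 2) k) 0 0 = 1 ∧
    (g : Matrix (Fin 2) (Fin 2) k) 1 1 = 1) : g = uu ((g : Matrix (Fin 2) (Fin 2) k) 0 1) := by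
  apply sl_ext
  · rw [ent_uu_00]; exact h.2.1
  · rw [ent_uu_01]; rfl
  · rw [ent_uu_10]; exact h.1
  · rw [ent_uu_11]; exact h.2.2

lemma lower_gen {g : SL₂ k} (h : (g : Matrix (Fin 2) (Fin 2) k) 0 1 = 0 ∧ (g : Matrix (Fin 2) (Fin 2) k) 0 0 = 1 ∧
    (g : Matrix (Fin 2) (Fin 2) k) 1 1 = 1) : g = ll ((g : Matrix (Fin 2) (Fin 2) k) 1 0) := by
  apply sl_ext
  · rw [ent_ll_00]; exact h.2.1
  · rw [ent_ll_01]; exact h.1
  · rw [ent_ll_10]; rfl
  · rw [ent_ll_11]; exact h.2.2

lemma uu_mem_upper (c : k) : uu c ∈ upperUnipotentSL2 k :=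
  Subgroup.subset_closure ⟨ent_uu_10 c, ent_uu_00 c, ent_uu_11 c⟩

lemma ll_mem_lower (c : k) : ll c ∈ lowerUnipotentSL2 k :=
  Subgroup.subset_closure ⟨ent_ll_01 c, ent_ll_00 c, ent_ll_11 c⟩

lemma upper_sup_lower : upperUnipotentSL2 k ⊔ lowerUnipotentSL2 k = ⊤ := by
  have h1 : gensG k (1 : k) = ⊤ := by
    apply QuadFit.IsFit.gens_top_of_field (k := k)
    · intro a
      by_cases ha : a = 0
      · exact Or.inl ha
      · exact Or.inr (isUnit_iff_ne_zero.2 ha)
    · intro a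
      constructor
      · have := QuadSL2.gens_uu (k := k) (1 : k) a
        simpa using this
      · have := QuadSL2.gens_ll (k := k) (1 : k) a
        simpa using this
  rw [eq_top_iff, ← h1]
  unfold gensG
  rw [Subgroup.closure_le]
  rintro _ (⟨c, rfl⟩ | ⟨c, rfl⟩)
  · exact Subgroup.mem_sup_left (uu_mem_upper _)
  · exact Subgroup.mem_sup_right (ll_mem_lower _)

lemma three_lt_card (h2 : (2 : k) ≠ 0) (hk3 : Nat.card k ≠ 3) : 3 < ENat.card k := by
  by_cases hf : Finite k
  · have h1 : 4 ≤ Nat.card k := QuadSL2.card_ge_four (k := k) (F := k) h2 hk3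
    rw [ENat.card_eq_coe_natCard]
    exact_mod_cast h1
  · rw [not_finite_iff_infinite] at hf
    rw [ENat.card_eq_top_of_infinite]
    exact ENat.natCast_lt_top 3

variable [FiniteDimensional k M] {G : Subgroup (LinearMap.GeneralLinearGroup k M)}
  {A B : Subgroup (LinearMap.GeneralLinearGroup k M)} {x n : M →ₗ[k] M}

lemma phi_uu_mem (hm : MP G x n) (hA : HasClass G A x) (c : k) : phiSL hm.m (uu c) ∈ A := by
  by_cases hc : c = 0
  · subst hc
    have : phiSL hm.m (uu (0 : k)) = 1 := by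
      apply Units.ext
      rw [val_phiSL_uu]
      simp
    rw [this]
    exact Subgroup.one_mem _
  · exact mem_of_inC hA (val_phiSL_uu hm.m c) ((InC.refl hm.hx).smul hc)

lemma phi_ll_mem (hm : MP G x n) (hB : HasClass G B n) (c : k) : phiSL hm.m (ll c) ∈ B := by
  by_cases hc : c = 0
  · subst hc
    have : phiSL hm.m (ll (0 : k)) = 1 := by
      apply Units.ext
      rw [val_phiSL_ll]
      simp
    rw [this]
    exact Subgroup.one_mem _
  · exact mem_of_inC hB (val_phiSL_ll hm.m c) ((InC.refl hm.hn).smul hc)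

theorem psl2_of_matched (h2 : (2 : k) ≠ 0) (hk3 : Nat.card k ≠ 3) (hm : MP G x n) (hA : HasClass G A x)
    (hB : HasClass G B n) :
    ∃ A₀ B₀ : Subgroup (LinearMap.GeneralLinearGroup k M), A₀ ≤ A ∧ B₀ ≤ B ∧
      ∃ (k₁ : Type u) (_ : Field k₁), 3 < ENat.card k₁ ∧ IsPSL2PairOver k₁ A₀ B₀ := by
  refine ⟨(upperUnipotentSL2 k).map (phiSL hm.m), (lowerUnipotentSL2 k).map (phiSL hm.m), ?_, ?_, k, inferInstance,
    three_lt_card h2 hk3, phiSL hm.m, ?_, phiSL_ker hm.m hm.hx.q.ne, rfl, rfl⟩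
  · rw [Subgroup.map_le_iff_le_comap]
    unfold upperUnipotentSL2
    rw [Subgroup.closure_le]
    intro g hg
    rw [upper_gen hg]
    exact phi_uu_mem hm hA _
  · rw [Subgroup.map_le_iff_le_comap]
    unfold lowerUnipotentSL2
    rw [Subgroup.closure_le]
    intro g hg
    rw [lower_gen hg]
    exact phi_ll_mem hm hB _
  · rw [← Subgroup.map_sup, upper_sup_lower, MonoidHom.range_eq_map]

end PSL2

/-! ### The set `Σ` -/

section Sigma

variable {k : Type u} [Field k] {M : Type v} [AddCommGroup M] [Module k M] [FiniteDimensional k M]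
  {G : Subgroup (LinearMap.GeneralLinearGroup k M)} {A B : Subgroup (LinearMap.GeneralLinearGroup k M)}

variable (h2 : (2 : k) ≠ 0) (hk3 : Nat.card k ≠ 3)

include h2 hk3 in
theorem exists_mp_of_rank_one (hA : A ∈ quadraticRootSubgroups G) (hB : B ∈ quadraticRootSubgroups G)
    (hr : IsRankOnePair A B) : ∃ x n, MP G x n ∧ HasClass G A x ∧ HasClass G B n := by
  obtain ⟨x, hx, hA'⟩ := mem_sigma hA
  obtain ⟨y, hy, hB'⟩ := mem_sigma hB
  rcases nil_or_mp h2 hk3 hx hy with hnil | ⟨x', n, hx', hyn, hmp⟩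
  · exact (no_rank_one hnil hx hy hA' hB' hr).elim
  · exact ⟨x', n, hmp, hA'.of_inC hx hx', hB'.of_inC hy hyn⟩

include h2 hk3 in
theorem pair_sigma (hG : IsQuadraticPair G) (hA : A ∈ quadraticRootSubgroups G) (hB : B ∈ quadraticRootSubgroups G) :
    ⁅A, B⁆ = ⊥ ∨ IsRankOnePair A B ∨ RootCommutatorCase (quadraticRootSubgroups G) A B := by
  obtain ⟨x, hx, hA'⟩ := mem_sigma hA
  obtain ⟨y, hy, hB'⟩ := mem_sigma hB
  rcases nil_or_mp h2 hk3 hx hy with hnil | ⟨x', n, hx', hyn, hmp⟩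
  · rcases main_nil h2 hk3 hG hx hy hA' hB' hnil with h | ⟨h1, h3, h4, h5, -⟩
    · exact Or.inl h
    · exact Or.inr (Or.inr ⟨h1, h3, h4, h5⟩)
  · exact Or.inr (Or.inl (special_pair h2 hk3 hmp (hA'.of_inC hx hx') (hB'.of_inC hy hyn)).1)

include h2 hk3 in
theorem exists_rank_one_partner (hG : IsQuadraticPair G) (hA : A ∈ quadraticRootSubgroups G) :
    ∃ B ∈ quadraticRootSubgroups G, IsRankOnePair A B := by
  obtain ⟨x, hx, hA'⟩ := mem_sigma hA
  obtain ⟨y, hy, hz⟩ := exists_partner (four_ne h2) hG hx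
  obtain ⟨n, hn, hm, -, -⟩ := exists_matched_same h2 hk3 hx hy hz
  refine ⟨_, sigma_of_qd hn, (special_pair h2 hk3 ⟨hx, hn, hm⟩ hA' (exists_hasClass hn)).1⟩

include h2 hk3 in
theorem sigma_rootSet (hG : IsQuadraticPair G) :
    IsRootSubgroupSet ((fun A : Subgroup (LinearMap.GeneralLinearGroup k M) =>
      A.subgroupOf (⨆ B ∈ quadraticRootSubgroups G, B)) '' quadraticRootSubgroups G) := by
  have h1 : ∀ A ∈ quadraticRootSubgroups G, ∀ g ∈ (⨆ B ∈ quadraticRootSubgroups G, B), conjBy A g ∈ quadraticRootSubgroups G := by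
    intro A hA g hg
    have h3 : (⨆ B ∈ quadraticRootSubgroups G, B) ≤ G := iSup₂_le (fun B hB => le_G_of_sigma hB)
    exact conjBy_mem_sigma hA (h3 hg)
  exact rootSet_subgroupOf (S := quadraticRootSubgroups G) (H := ⨆ B ∈ quadraticRootSubgroups G, B) rfl
    (fun A hA => comm_of_sigma hA) (fun A hA => ne_bot_of_sigma hA) h1
    (fun A hA B hB => pair_sigma h2 hk3 hG hA hB)

end Sigma

end Cfsg.Agent.Lib.RootSubgroups.QuadRootSet
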