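/-
Quadratic pairs: elements of `𝔔` whose anti-commutators with all minimal elements are nilpotent centralize the
minimal elements.
-/
import Mathlib
import Cfsg.Agent.Lib.RootSubgroups.QuadRootSet

set_option autoImplicit false
set_option linter.unusedSimpArgs false
set_option linter.unusedVariables false
set_option linter.unusedSectionVars false
set_option linter.style.haveILetI false

namespace Cfsg.Agent.Lib.RootSubgroups.QuadCentral

open Cfsg
open Cfsg.Agent.Lib.RootSubgroups.Quadratic
open Cfsg.Agent.Lib.RootSubgroups.QuadMatched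
open Cfsg.Agent.Lib.RootSubgroups.QuadBasic
open Cfsg.Agent.Lib.RootSubgroups.QuadFilt
open Cfsg.Agent.Lib.RootSubgroups.QuadRep
open Cfsg.Agent.Lib.RootSubgroups.QuadPartner
open Cfsg.Agent.Lib.RootSubgroups.QuadNU
open Cfsg.Agent.Lib.RootSubgroups.QuadBlock
open Cfsg.Agent.Lib.RootSubgroups.QuadClass
open Cfsg.Agent.Lib.RootSubgroups.QuadCase
open Cfsg.Agent.Lib.RootSubgroups.QuadSurj
open Cfsg.Agent.Lib.RootSubgroups.QuadRootSet

universe u v

variable {k : Type u} [Field k] {M : Type v} [AddCommGroup M] [Module k M]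
variable {G : Subgroup (LinearMap.GeneralLinearGroup k M)}

section Ring

variable {R : Type*} [Ring R] {y u : R}

/-- The right-normed word lemmas for a pair with `yuy = 0`. -/
lemma ww_zero (hy : y * y = 0) (hu : u * u = 0) (hyuy : y * u * y = 0) :
    (y * u - u * y) * (y * u - u * y) = 0 := by
  have e : (y * u - u * y) * (y * u - u * y) = (y * u * y) * u - y * (u * u) * y - u * (y * y) * u + u * (y * u * y) := by
    noncomm_ring
  rw [e, hy, hu, hyuy]
  simp

lemma w_y3 (hu : u * u = 0) (hyuy : y * u * y = 0) : (y * u - u * y) * (u * y * u) = 0 := by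
  have e : (y * u - u * y) * (u * y * u) = y * (u * u) * y * u - u * (y * u * y) * u := by noncomm_ring
  rw [e, hu, hyuy]
  simp

lemma y3_w (hu : u * u = 0) (hyuy : y * u * y = 0) : (u * y * u) * (y * u - u * y) = 0 := by
  have e : (u * y * u) * (y * u - u * y) = u * (y * u * y) * u - u * y * (u * u) * y := by noncomm_ring
  rw [e, hu, hyuy]
  simp

lemma y3_y3 (hu : u * u = 0) : (u * y * u) * (u * y * u) = 0 := by
  have e : (u * y * u) * (u * y * u) = u * y * (u * u) * y * u := by noncomm_ring
  rw [e, hu]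
  simp

lemma conj_plus (hy : y * y = 0) (hyuy : y * u * y = 0) :
    ((1 + u) * y * (1 - u)) + -y + ((1 + u) * y * (1 - u)) * (-y) = -(y * u - u * y) - u * y * u := by
  have h1 : ((1 + u) * y * (1 - u)) * y = (1 + u) * (y * y) - (1 + u) * (y * u * y) := by noncomm_ring
  rw [mul_neg, h1, hy, hyuy]
  noncomm_ring

lemma conj_minus (hy : y * y = 0) (hyuy : y * u * y = 0) :
    ((1 + -u) * y * (1 - -u)) + -y + ((1 + -u) * y * (1 - -u)) * (-y) = (y * u - u * y) - u * y * u := by
  have h0 : y * -u * y = 0 := by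
    rw [mul_neg, neg_mul, hyuy, neg_zero]
  rw [conj_plus hy h0]
  noncomm_ring

lemma four_products {W X : R} (h1 : W * W = 0) (h3 : W * X = 0) (h4 : X * W = 0) (h5 : X * X = 0) :
    (-W - X) + (W - X) + (-W - X) * (W - X) = -X - X := by
  have e : (-W - X) + (W - X) + (-W - X) * (W - X) = -X - X - W * W + W * X - X * W + X * X := by noncomm_ring
  rw [e, h1, h3, h4, h5]
  simp

lemma conj_id (hu : u * u = 0) (hyuy : y * u * y = 0) :
    (1 + u) * y * (1 - u) = y - (y * u - u * y) - u * y * u := by noncomm_ring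

end Ring

section Main

variable [FiniteDimensional k M]

theorem central_of_all_nil (h2 : (2 : k) ≠ 0) (hk3 : Nat.card k ≠ 3) (hG : IsQuadraticPair G) {u : M →ₗ[k] M}
    (hu : IsQ G u) (hall : ∀ x, IsQD G x → IsNilpotent (x * u + u * x)) {x : M →ₗ[k] M} (hx : IsQD G x) :
    x * u = u * x := by
  have h4 := four_ne (k := k) h2
  have htut : ∀ t, IsQD G t → t * u * t = 0 := fun t ht => xyx_of_nil h4 ht hu (hall t ht)
  have huu := hu.sq
  have hu1 : G1 G u := by simpa using hu.fam 1
  have hum : G1 G (-u) := by simpa using hu.fam (-1)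
  have hG1 : ∀ y, IsQD G y → G1 G (-(y * u - u * y) - u * y * u) ∧ G1 G ((y * u - u * y) - u * y * u) := by
    intro y hy
    have hyy := hy.q.sq
    have hyuy := htut y hy
    have hym : G1 G (-y) := by simpa using hy.q.fam (-1)
    constructor
    · have h3 : G1 G ((1 + u) * y * (1 - u)) := by simpa using (hy.conj_sq hu1 huu).q.fam 1
      have h5 := G1.mul h3 hym
      rwa [conj_plus hyy hyuy] at h5
    · have h3 : G1 G ((1 + -u) * y * (1 - -u)) := by
        simpa using (hy.conj_sq hum (by rw [neg_mul_neg, huu])).q.fam 1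
      have h5 := G1.mul h3 hym
      rwa [conj_minus hyy hyuy] at h5
  set w := x * u - u * x with hw
  set x₃ := u * x * u with hx₃
  have hxx := hx.q.sq
  have hxux := htut x hx
  have hww : w * w = 0 := ww_zero hxx huu hxux
  have hwx : w * x₃ = 0 := w_y3 huu hxux
  have hxw : x₃ * w = 0 := y3_w huu hxux
  have hx33 : x₃ * x₃ = 0 := y3_y3 huu
  have hsc1 : ∀ l : k, (l • x) * u - u * (l • x) = l • w := by
    intro l
    simp [hw, smul_sub, smul_mul_assoc, mul_smul_comm]
  have hsc2 : ∀ l : k, u * (l • x) * u = l • x₃ := by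
    intro l
    simp [hx₃, smul_mul_assoc, mul_smul_comm]
  have hfam3 : ∀ c : k, G1 G (c • x₃) := by
    intro c
    by_cases hc : c = 0
    · subst hc
      simpa using G1.zero G
    · have hl : -c / 2 ≠ 0 := div_ne_zero (neg_ne_zero.2 hc) h2
      obtain ⟨h5, h6⟩ := hG1 _ (hx.smul hl)
      have h7 := G1.mul h5 h6
      rw [hsc1, hsc2] at h7
      rw [four_products (by simp [smul_mul_smul_comm, hww]) (by simp [smul_mul_smul_comm, hwx])
        (by simp [smul_mul_smul_comm, hxw]) (by simp [smul_mul_smul_comm, hx33])] at h7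
      have e : -((-c / 2) • x₃) - (-c / 2) • x₃ = c • x₃ := by
        rw [← neg_smul, ← sub_smul]
        congr 1
        field_simp
        ring
      rwa [e] at h7
  have hfamw : ∀ c : k, G1 G (c • w) := by
    intro c
    by_cases hc : c = 0
    · subst hc
      simpa using G1.zero G
    · have hl : -c ≠ 0 := neg_ne_zero.2 hc
      obtain ⟨h5, -⟩ := hG1 _ (hx.smul hl)
      rw [hsc1, hsc2] at h5
      have h7 := G1.mul h5 (hfam3 (-c))
      have e : -((-c) • w) - (-c) • x₃ + (-c) • x₃ + (-((-c) • w) - (-c) • x₃) * ((-c) • x₃) = c • w := by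
        have e2 : (-((-c) • w) - (-c) • x₃) * ((-c) • x₃) = 0 := by
          rw [sub_mul, neg_mul, smul_mul_smul_comm, smul_mul_smul_comm, hwx, hx33]
          simp
        rw [e2]
        simp
      rwa [e] at h7
  -- Step 1: `u x u = 0`.
  have hx30 : x₃ = 0 := by
    by_contra hne
    have hQ : IsQ G x₃ := ⟨hx33, hne, hfam3⟩
    have hD : IsQD G x₃ := ⟨hQ, fun z hz =>
      ((rk_mul_le_left (u * x) u).trans (rk_mul_le_right u x)).trans (hx.min z hz)⟩
    obtain ⟨t, ht, hz⟩ := exists_partner h4 hG hD
    obtain ⟨n, hn, hm, -, -⟩ := exists_matched_same h2 hk3 hD ht hz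
    have hw1 : G1 G w := by simpa using hfamw 1
    have hn4 := hn.conj_sq hw1 hww
    have h5 := htut _ hn4
    have huw : u * w = x₃ := by
      have : u * w = u * x * u - (u * u) * x := by rw [hw]; noncomm_ring
      rw [this, huu]
      simp [hx₃]
    have hwu : w * u = -x₃ := by
      have : w * u = x * (u * u) - u * x * u := by rw [hw]; noncomm_ring
      rw [this, huu]
      simp [hx₃]
    have hinv : (1 - w) * (1 + w) = 1 := by
      have : (1 - w) * (1 + w) = 1 - w * w := by noncomm_ring
      rw [this, hww, sub_zero]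
    have h6 : n * ((1 - w) * u * (1 + w)) * n = 0 := by
      have e : n * ((1 - w) * u * (1 + w)) * n =
          ((1 - w) * (1 + w)) * n * ((1 - w) * u * (1 + w)) * n * ((1 - w) * (1 + w)) := by
        rw [hinv]
        simp
      have e2 : ((1 - w) * (1 + w)) * n * ((1 - w) * u * (1 + w)) * n * ((1 - w) * (1 + w)) =
          (1 - w) * ((1 + w) * n * (1 - w) * u * ((1 + w) * n * (1 - w))) * (1 + w) := by noncomm_ring
      rw [e, e2, h5]
      simp
    have h7 : (1 - w) * u * (1 + w) = u + x₃ + x₃ := by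
      have e : (1 - w) * u * (1 + w) = u + u * w - w * u - (w * u) * w := by noncomm_ring
      rw [e, huw, hwu]
      simp [hxw]
    rw [h7] at h6
    have h8 : n * (u + x₃ + x₃) * n = n * u * n + n * x₃ * n + n * x₃ * n := by noncomm_ring
    rw [h8, htut n hn, hm.nxn, zero_add] at h6
    apply hn.q.ne
    have h9 : (2 : k) • n = 0 := by rw [two_smul]; exact h6
    rcases smul_eq_zero.1 h9 with h10 | h10
    · exact absurd h10 h2
    · exact h10
  -- Step 2: `xu - ux = 0`.
  have hw0 : w = 0 := by
    by_contra hne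
    have hQ : IsQ G w := ⟨hww, hne, hfamw⟩
    have hD : IsQD G w := by
      refine ⟨hQ, fun z hz => ?_⟩
      have h5 : rk w ≤ Module.finrank k (LinearMap.range (x * u) ⊔ LinearMap.range (u * x) : Submodule k M) := by
        apply Submodule.finrank_mono
        rintro _ ⟨v, rfl⟩
        simp only [hw, LinearMap.sub_apply]
        exact Submodule.sub_mem _ (Submodule.mem_sup_left ⟨v, rfl⟩) (Submodule.mem_sup_right ⟨v, rfl⟩)
      have h6 := Submodule.finrank_add_le_finrank_add_finrank (LinearMap.range (x * u)) (LinearMap.range (u * x))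
      have h7 := sum_le (x := x) (u := u) hx30
      have h8 := hx.min z hz
      omega
    obtain ⟨t, ht, hz⟩ := exists_partner h4 hG hD
    obtain ⟨n, hn, hm, -, -⟩ := exists_matched_same h2 hk3 hD ht hz
    have hxm : G1 G (-x) := by simpa using hx.q.fam (-1)
    have hn4 := hn.conj_sq hxm (by rw [neg_mul_neg, hxx])
    have h5 := htut _ hn4
    have hinv : (1 - -x) * (1 + -x) = 1 := by
      have : (1 - -x) * (1 + -x) = 1 - x * x := by noncomm_ring
      rw [this, hxx, sub_zero]
    have h6 : n * ((1 - -x) * u * (1 + -x)) * n = 0 := by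
      have e : n * ((1 - -x) * u * (1 + -x)) * n =
          ((1 - -x) * (1 + -x)) * n * ((1 - -x) * u * (1 + -x)) * n * ((1 - -x) * (1 + -x)) := by
        rw [hinv]
        simp
      have e2 : ((1 - -x) * (1 + -x)) * n * ((1 - -x) * u * (1 + -x)) * n * ((1 - -x) * (1 + -x)) =
          (1 - -x) * ((1 + -x) * n * (1 - -x) * u * ((1 + -x) * n * (1 - -x))) * (1 + -x) := by noncomm_ring
      rw [e, e2, h5]
      simp
    have h7 : (1 - -x) * u * (1 + -x) = u + w := by
      have e : (1 - -x) * u * (1 + -x) = u + (x * u - u * x) - x * u * x := by noncomm_ring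
      rw [e, hxux]
      simp [hw]
    rw [h7] at h6
    have h8 : n * (u + w) * n = n * u * n + n * w * n := by noncomm_ring
    rw [h8, htut n hn, hm.nxn, zero_add] at h6
    exact hn.q.ne h6
  have := hw0
  rw [hw, sub_eq_zero] at this
  exact this

end Main

end Cfsg.Agent.Lib.RootSubgroups.QuadCentral
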