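/-
Quadratic pairs: splitting an element of `𝔔` off along a minimal element; `G = G₀ C_G(G₀)`.
-/
import Mathlib
import Cfsg.Agent.Lib.RootSubgroups.QuadCentral

set_option autoImplicit false
set_option linter.unusedSimpArgs false
set_option linter.unusedVariables false
set_option linter.unusedSectionVars false
set_option linter.style.haveILetI false

namespace Cfsg.Agent.Lib.RootSubgroups.QuadSplit

open Cfsg
open Cfsg.Agent.Lib.RootSubgroups.Quadratic
open Cfsg.Agent.Lib.RootSubgroups.QuadMatched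
open Cfsg.Agent.Lib.RootSubgroups.QuadBasic
open Cfsg.Agent.Lib.RootSubgroups.QuadFilt
open Cfsg.Agent.Lib.RootSubgroups.QuadRep
open Cfsg.Agent.Lib.RootSubgroups.QuadPartner
open Cfsg.Agent.Lib.RootSubgroups.QuadNU
open Cfsg.Agent.Lib.RootSubgroups.QuadBlock
open Cfsg.Agent.Lib.RootSubgroups.QuadClass
open Cfsg.Agent.Lib.RootSubgroups.QuadCase
open Cfsg.Agent.Lib.RootSubgroups.QuadSurj
open Cfsg.Agent.Lib.RootSubgroups.QuadUnip
open Cfsg.Agent.Lib.RootSubgroups.QuadPairs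
open Cfsg.Agent.Lib.RootSubgroups.QuadRootSet
open Cfsg.Agent.Lib.RootSubgroups.QuadCentral
open Cfsg.Agent.Lib.RootSubgroups.QuadFit
open Cfsg.Agent.Lib.RootSubgroups.EuclidSL2
open Cfsg.Agent.Lib.RootSubgroups.QuadSL2

local notation "SL₂" => Matrix.SpecialLinearGroup (Fin 2)

universe u v

variable {k : Type u} [Field k] {M : Type v} [AddCommGroup M] [Module k M]
variable {G : Subgroup (LinearMap.GeneralLinearGroup k M)}

section Torus

variable [FiniteDimensional k M] {x n : M →ₗ[k] M}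

lemma phiSL_mem (hm : MP G x n) (g : SL₂ k) : phiSL hm.m g ∈ G := by
  have hA := exists_hasClass hm.hx
  have hB := exists_hasClass hm.hn
  have h0 : g ∈ upperUnipotentSL2 k ⊔ lowerUnipotentSL2 k := by
    rw [upper_sup_lower]
    trivial
  have h1 : (upperUnipotentSL2 k ⊔ lowerUnipotentSL2 k).map (phiSL hm.m) ≤ G := by
    rw [Subgroup.map_sup]
    apply sup_le
    · rw [Subgroup.map_le_iff_le_comap]
      unfold upperUnipotentSL2
      rw [Subgroup.closure_le]
      intro g hg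
      rw [upper_gen hg]
      exact le_of_hasClass hA (phi_uu_mem hm hA _)
    · rw [Subgroup.map_le_iff_le_comap]
      unfold lowerUnipotentSL2
      rw [Subgroup.closure_le]
      intro g hg
      rw [lower_gen hg]
      exact le_of_hasClass hB (phi_ll_mem hm hB _)
  exact h1 ⟨g, h0, rfl⟩

/-- The torus element of a matched pair. -/
lemma exists_torus (hm : MP G x n) {t : k} (ht : t ≠ 0) : ∃ h ∈ G,
    (h : M →ₗ[k] M) = (1 - (x * n + n * x)) + t • (x * n) + t⁻¹ • (n * x) ∧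
    ((h⁻¹ : LinearMap.GeneralLinearGroup k M) : M →ₗ[k] M) = (1 - (x * n + n * x)) + t⁻¹ • (x * n) + t • (n * x) := by
  have hp := hm.m
  set e := x * n with he
  set f := n * x with hf
  have hee : e * e = e := hp.e1e1
  have hef : e * f = 0 := hp.e1e2
  have hfe : f * e = 0 := hp.e2e1
  have hff : f * f = f := hp.e2e2
  have ev : ((phiSL hm.m (hh (Units.mk0 t ht)) : LinearMap.GeneralLinearGroup k M) : M →ₗ[k] M) =
      (1 - (e + f)) + t • e + t⁻¹ • f := by
    rw [val_phiSL, phiVal, psi_eq]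
    simp only [ent_hh_00, ent_hh_01, ent_hh_10, ent_hh_11, zero_smul, add_zero, Units.val_mk0, Units.val_inv_eq_inv_val]
    rw [add_assoc]
  refine ⟨_, phiSL_mem hm _, ev, ?_⟩
  apply MP.val_inv_eq_of ev
  have e1 : (1 - (e + f)) * (1 - (e + f)) = 1 - (e + f) := p_p hm.m
  have e2 : (1 - (e + f)) * e = 0 := by simp [sub_mul, add_mul, hee, hfe]
  have e3 : (1 - (e + f)) * f = 0 := by simp [sub_mul, add_mul, hef, hff]
  have e4 : e * (1 - (e + f)) = 0 := by simp [mul_sub, mul_add, hee, hef]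
  have e5 : f * (1 - (e + f)) = 0 := by simp [mul_sub, mul_add, hfe, hff]
  simp only [add_mul, mul_add, smul_mul_assoc, mul_smul_comm, e1, e2, e3, e4, e5, hee, hef, hfe, hff, smul_zero,
    add_zero, zero_add, smul_smul]
  rw [mul_inv_cancel₀ ht, inv_mul_cancel₀ ht, one_smul, one_smul]
  abel

end Torus

section Split

variable [FiniteDimensional k M] {x u : M →ₗ[k] M}

lemma ext_pow {M₀ M₁ : Submodule k M} (hc : IsCompl M₀ M₁) (A : ↥M₁ →ₗ[k] ↥M₁) (m : ℕ) :
    ext hc (A ^ (m + 1)) = (ext hc A) ^ (m + 1) := by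
  induction m with
  | zero => simp
  | succ m ih => rw [pow_succ, ext_mul, ih, ← pow_succ]

lemma mul_aux (D u : M →ₗ[k] M) (s : k) : (1 + s • D) * (1 - s • u) = 1 + s • D - s • u - s • s • (D * u) := by
  rw [add_mul, one_mul, mul_sub, mul_one, smul_mul_assoc, mul_smul_comm]
  abel

theorem split_of_nonnil (h2 : (2 : k) ≠ 0) (hk3 : Nat.card k ≠ 3) (hx : IsQD G x) (hu : IsQ G u)
    (hz : ¬ IsNilpotent (x * u + u * x)) :
    ∃ u₁, IsQD G u₁ ∧ u₁ * (u - u₁) = 0 ∧ (u - u₁) * u₁ = 0 ∧ (∀ c : k, G1 G (c • (u - u₁))) ∧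
      (u - u₁ = 0 ∨ rk (u - u₁) < rk u) := by
  obtain ⟨M₀, M₁, N, ζ, hf⟩ := exists_fit hx.q.sq hu.sq
  haveI := hf.nontrivial_of_not_nil hz
  haveI := AA_finite hf.Z₁
  haveI := AA_nontrivial hf.Z₁
  obtain ⟨q, hq, hpure⟩ := hf.exists_pure_ext h2 hk3 hx.q.fam hu.fam
  obtain ⟨hx0, hunit⟩ := hf.vanish_and_unit hq hx (fun c => (hpure c).1)
  have ex : ext hf.hc hf.X₁ = x := hf.ext_restrict hf.x1 hx0
  obtain ⟨q', hq'⟩ := hunit.exists_right_inv
  have hiq : iot hf.Z₁ q * iot hf.Z₁ q' = 1 := by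
    rw [← map_mul, hq', map_one]
  have hiq2 : iot hf.Z₁ q' * iot hf.Z₁ q = 1 := by
    rw [← map_mul, mul_comm, hq', map_one]
  set iq := iot hf.Z₁ q with hiqdef
  set iq' := iot hf.Z₁ q' with hiq'def
  have hcY : Commute hf.Y₁ iq := hf.comm_ι_Y₁ q
  have hcX : Commute hf.X₁ iq := hf.comm_ι_X₁ q
  have hzζ : hf.Z₁ * ζ = 1 := hf.pd.zζ
  have hζz : ζ * hf.Z₁ = 1 := hf.pd.ζz
  have hcZ : Commute hf.Z₁ iq := comm_iot (Commute.refl _) q
  have hcZ' : Commute hf.Z₁ iq' := comm_iot (Commute.refl _) q'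
  -- ranks
  have rk1 : rk (iq * hf.Y₁) = rk hf.Y₁ := by
    apply le_antisymm (rk_mul_le_right _ _)
    calc rk hf.Y₁ = rk (iq' * (iq * hf.Y₁)) := by rw [← mul_assoc, hiq2, one_mul]
      _ ≤ rk (iq * hf.Y₁) := rk_mul_le_right _ _
  have rk2 : rk hf.Y₁ = rk hf.X₁ := by
    have h1 : rk hf.X₁ = rk (ζ * hf.Y₁) := rk_matched hf.pd.matched
    have h3 : rk (ζ * hf.Y₁) ≤ rk hf.Y₁ := rk_mul_le_right _ _
    have h5 : rk hf.Y₁ ≤ rk (ζ * hf.Y₁) := by
      calc rk hf.Y₁ = rk (hf.Z₁ * (ζ * hf.Y₁)) := by rw [← mul_assoc, hzζ, one_mul]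
        _ ≤ rk (ζ * hf.Y₁) := rk_mul_le_right _ _
    omega
  have rk3 : rk x = rk hf.X₁ := by
    have := rk_ext hf.hc hf.X₁
    rwa [ex] at this
  have rk4 : rk hf.Y₁ = rk x := by rw [rk2, rk3]
  -- the minimal element `Y'`
  have hY'q : IsQ G (ext hf.hc (iq * hf.Y₁)) :=
    hf.isQ_ext_of (hf.sq_ι_Y₁ q) (hf.ι_Y₁_ne hq) (fun c => (hpure c).2)
  have rk5 : rk (ext hf.hc (iq * hf.Y₁)) = rk x := by
    rw [rk_ext, rk1, rk4]
  have hY'D : IsQD G (ext hf.hc (iq * hf.Y₁)) := ⟨hY'q, fun z hz => by rw [rk5]; exact hx.min z hz⟩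
  set Y' := ext hf.hc (iq * hf.Y₁) with hY'
  -- its anticommutator with `x`
  have hz'e : x * Y' + Y' * x = ext hf.hc (iq * hf.Z₁) := by
    have e1 : ext hf.hc hf.X₁ * Y' + Y' * ext hf.hc hf.X₁ =
        ext hf.hc (hf.X₁ * (iq * hf.Y₁) + (iq * hf.Y₁) * hf.X₁) := by
      rw [ext_add, ext_mul hf.hc hf.X₁ (iq * hf.Y₁), ext_mul hf.hc (iq * hf.Y₁) hf.X₁]
    rw [ex] at e1
    rw [e1]
    congr 1
    rw [← mul_assoc, hcX.eq]
    noncomm_ring
  set A := iq * hf.Z₁ with hA
  set B := ζ * iq' with hB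
  have hAB : A * B = 1 := by
    calc A * B = iq * (hf.Z₁ * ζ) * iq' := by rw [hA, hB]; noncomm_ring
      _ = 1 := by rw [hzζ, mul_one, hiq]
  have hBA : B * A = 1 := by
    calc B * A = ζ * (iq' * iq) * hf.Z₁ := by rw [hA, hB]; noncomm_ring
      _ = 1 := by rw [hiq2, mul_one, hζz]
  have hnn : ¬ IsNilpotent (x * Y' + Y' * x) := by
    rw [hz'e]
    rintro ⟨m, hm⟩
    have h1 : ext hf.hc (A ^ (m + 1)) = 0 := by
      rw [ext_pow, pow_succ, hm, zero_mul]
    have h3 : A ^ (m + 1) = 0 := ext_injective hf.hc (by rw [h1, ext_zero])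
    have hU : IsUnit A := ⟨⟨A, B, hAB, hBA⟩, rfl⟩
    have h5 := hU.pow (m + 1)
    rw [h3, isUnit_zero_iff] at h5
    obtain ⟨v, hv⟩ := exists_ne (0 : ↥M₁)
    apply hv
    have := LinearMap.congr_fun h5 v
    simpa using this.symm
  obtain ⟨n₁, hn₁, hm, hk, hr⟩ := exists_matched_same h2 hk3 hx hY'D hnn
  have mp : MP G x n₁ := ⟨hx, hn₁, hm⟩
  have hYn : InC G n₁ Y' := ⟨hY'D, hk.symm, hr.symm⟩
  -- the projection
  have hn0 : ∀ v ∈ M₀, n₁ v = 0 := by
    intro v hv
    have : v ∈ LinearMap.ker n₁ := by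
      rw [hk, LinearMap.mem_ker]
      exact ext_apply_zero hf.hc _ hv
    exact this
  have hnM₁ : ∀ v, n₁ v ∈ M₁ := by
    intro v
    have : n₁ v ∈ LinearMap.range Y' := by
      rw [← hr]
      exact ⟨v, rfl⟩
    obtain ⟨a, ha⟩ := this
    rw [← ha]
    exact ext_mem hf.hc _ a
  have hp0 : ∀ v ∈ M₀, (x * n₁ + n₁ * x) v = 0 := by
    intro v hv
    simp only [LinearMap.add_apply, Module.End.mul_apply]
    rw [hn0 v hv, hx0 v hv]
    simp
  have hp1 : ∀ v ∈ M₁, (x * n₁ + n₁ * x) v = v := by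
    intro v hv
    have hzp : (x * Y' + Y' * x) * (x * n₁ + n₁ * x) = x * Y' + Y' * x := by
      have a1 : Y' * (x * n₁ + n₁ * x) = Y' := mp.s_pi hYn
      have a2 : x * (x * n₁ + n₁ * x) = x := hm.x_pi
      calc (x * Y' + Y' * x) * (x * n₁ + n₁ * x)
          = x * (Y' * (x * n₁ + n₁ * x)) + Y' * (x * (x * n₁ + n₁ * x)) := by noncomm_ring
        _ = x * Y' + Y' * x := by rw [a1, a2]
    have hw : v - (x * n₁ + n₁ * x) v ∈ M₁ := by
      apply M₁.sub_mem hv
      simp only [LinearMap.add_apply, Module.End.mul_apply]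
      exact M₁.add_mem (hf.x1 _ (hnM₁ v)) (hnM₁ _)
    have h0 : (x * Y' + Y' * x) (v - (x * n₁ + n₁ * x) v) = 0 := by
      rw [map_sub, ← Module.End.mul_apply, hzp, sub_self]
    rw [hz'e] at h0
    have h3 := ext_apply_mem hf.hc A ⟨_, hw⟩
    simp only at h3
    rw [h0] at h3
    have h5 : A ⟨_, hw⟩ = 0 := Subtype.ext h3.symm
    have h6 : (⟨_, hw⟩ : ↥M₁) = 0 := by
      have := LinearMap.congr_fun hBA ⟨_, hw⟩
      simp only [Module.End.mul_apply, Module.End.one_apply] at this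
      rw [h5, map_zero] at this
      exact this.symm
    have h7 := congrArg Subtype.val h6
    simp only [ZeroMemClass.coe_zero] at h7
    exact (sub_eq_zero.1 h7).symm
  set p := x * n₁ + n₁ * x with hp
  -- the piece of `u`
  have hu1L : ext hf.hc hf.Y₁ = p * u := by
    apply ext_both hf.hc
    · intro v hv
      rw [ext_apply_zero hf.hc _ hv, Module.End.mul_apply, hp0 _ (hf.y0 v hv)]
    · intro v hv
      have := ext_apply_mem hf.hc hf.Y₁ ⟨v, hv⟩
      simp only at this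
      rw [this, Module.End.mul_apply, hp1 _ (hf.y1 v hv)]
      rfl
  have hu1R : ext hf.hc hf.Y₁ = u * p := by
    apply ext_both hf.hc
    · intro v hv
      rw [ext_apply_zero hf.hc _ hv, Module.End.mul_apply, hp0 _ hv, map_zero]
    · intro v hv
      have := ext_apply_mem hf.hc hf.Y₁ ⟨v, hv⟩
      simp only at this
      rw [this, Module.End.mul_apply, hp1 _ hv]
      rfl
  set u₁ := ext hf.hc hf.Y₁ with hu₁
  have h1 : u₁ = ext hf.hc iq' * Y' := by
    rw [hY', ← ext_mul, ← mul_assoc, hiq2, one_mul]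
  have hcY' : Commute hf.Y₁ iq' := hf.comm_ι_Y₁ q'
  have h3 : u₁ = Y' * ext hf.hc iq' := by
    rw [hY', ← ext_mul, mul_assoc, hcY'.eq, ← mul_assoc, hiq, one_mul]
  have hran : LinearMap.range u₁ ≤ LinearMap.range n₁ := by
    rw [hr]
    rintro _ ⟨v, rfl⟩
    rw [h3]
    exact ⟨_, rfl⟩
  have hker : LinearMap.ker n₁ ≤ LinearMap.ker u₁ := by
    rw [hk]
    intro v hv
    rw [LinearMap.mem_ker] at hv ⊢
    rw [h1, Module.End.mul_apply, hv, map_zero]
  have e2u : (n₁ * x) * u₁ = u₁ := e1_left hm.symm hran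
  have ue1 : u₁ * (x * n₁) = u₁ := e2_right hm.symm hker
  have huu := hu.sq
  have huu₁ : u * u₁ = 0 := by rw [hu1R, ← mul_assoc, huu, zero_mul]
  have hu₁u : u₁ * u = 0 := by rw [hu1L, mul_assoc, huu, mul_zero]
  have hu₁u₁ : u₁ * u₁ = 0 := by
    calc u₁ * u₁ = (p * u) * u₁ := by rw [← hu1L]
      _ = p * (u * u₁) := mul_assoc _ _ _
      _ = 0 := by rw [huu₁, mul_zero]
  -- the torus
  obtain ⟨t, ht0, ht1⟩ := exists_good_t h2 hk3
  obtain ⟨h, hhG, ev, evi⟩ := exists_torus mp ht0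
  have hee : (x * n₁) * (x * n₁) = x * n₁ := hm.e1e1
  have hef : (x * n₁) * (n₁ * x) = 0 := hm.e1e2
  have hfe : (n₁ * x) * (x * n₁) = 0 := hm.e2e1
  have hff : (n₁ * x) * (n₁ * x) = n₁ * x := hm.e2e2
  have hp1' : (1 - p) * (1 - p) = 1 - p := p_p hm
  have hep : (x * n₁) * (1 - p) = 0 := by
    rw [hp, mul_sub, mul_add, hee, hef]; simp
  have hfp : (n₁ * x) * (1 - p) = 0 := by
    rw [hp, mul_sub, mul_add, hfe, hff]; simp
  have hpe : (1 - p) * (x * n₁) = 0 := by
    rw [hp, sub_mul, add_mul, hee, hfe]; simp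
  have hpf : (1 - p) * (n₁ * x) = 0 := by
    rw [hp, sub_mul, add_mul, hef, hff]; simp
  rw [← hp] at ev evi
  set V := (1 - p) + t • (x * n₁) + t⁻¹ • (n₁ * x) with hV
  set V' := (1 - p) + t⁻¹ • (x * n₁) + t • (n₁ * x) with hV'
  have V1 : V * (1 - p) = 1 - p := by
    rw [hV, add_mul, add_mul, smul_mul_assoc, smul_mul_assoc, hep, hfp, hp1']
    simp
  have V2 : (1 - p) * V' = 1 - p := by
    rw [hV', mul_add, mul_add, mul_smul_comm, mul_smul_comm, hpe, hpf, hp1']
    simp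
  have V3 : V * (n₁ * x) = t⁻¹ • (n₁ * x) := by
    rw [hV, add_mul, add_mul, smul_mul_assoc, smul_mul_assoc, hpf, hef, hff]
    simp
  have V4 : (x * n₁) * V' = t⁻¹ • (x * n₁) := by
    rw [hV', mul_add, mul_add, mul_smul_comm, mul_smul_comm, hep, hee, hef]
    simp
  have V5 : V * V' = 1 := by
    have := val_mul_inv h
    rwa [ev, evi] at this
  have hu0L : u - u₁ = (1 - p) * u := by
    rw [hu1L]; noncomm_ring
  have hu0R : u - u₁ = u * (1 - p) := by
    rw [hu1R]; noncomm_ring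
  have D1 : V * (u - u₁) * V' = u - u₁ := by
    calc V * (u - u₁) * V' = (V * (1 - p)) * u * V' := by rw [hu0L]; noncomm_ring
      _ = (u - u₁) * V' := by rw [V1, hu0L]
      _ = u * ((1 - p) * V') := by rw [hu0R]; noncomm_ring
      _ = u - u₁ := by rw [V2, hu0R]
  have D2 : V * u₁ * V' = (t⁻¹ * t⁻¹) • u₁ := by
    have e0 : u₁ = (n₁ * x) * u₁ * (x * n₁) := by rw [e2u, ue1]
    calc V * u₁ * V' = V * ((n₁ * x) * u₁ * (x * n₁)) * V' := by rw [← e0]
      _ = (V * (n₁ * x)) * u₁ * ((x * n₁) * V') := by noncomm_ring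
      _ = (t⁻¹ • (n₁ * x)) * u₁ * (t⁻¹ • (x * n₁)) := by rw [V3, V4]
      _ = (t⁻¹ * t⁻¹) • ((n₁ * x) * u₁ * (x * n₁)) := by
          simp only [smul_mul_assoc, mul_smul_comm, smul_smul]
      _ = (t⁻¹ * t⁻¹) • u₁ := by rw [← e0]
  have D3 : V * u * V' = (u - u₁) + (t⁻¹ * t⁻¹) • u₁ := by
    rw [← D1, ← D2]
    noncomm_ring
  have hDu : ((u - u₁) + (t⁻¹ * t⁻¹) • u₁) * u = 0 := by
    rw [add_mul, sub_mul, smul_mul_assoc, huu, hu₁u]
    simp
  have hr1 : t⁻¹ * t⁻¹ - 1 ≠ 0 := by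
    intro h0
    apply ht1
    have e1 : (t * t) * (t⁻¹ * t⁻¹) = 1 := by field_simp
    rw [sub_eq_zero.1 h0, mul_one] at e1
    exact e1
  set r := t⁻¹ * t⁻¹ with hrdef
  have hfam1 : ∀ s : k, G1 G ((s * (r - 1)) • u₁) := by
    intro s
    obtain ⟨τ, hτ, eτ⟩ := hu.fam s
    have hsq : (s • u) * (s • u) = 0 := by
      rw [smul_mul_smul_comm, huu, smul_zero]
    have eτi := val_inv_of_sq eτ hsq
    refine ⟨h * τ * h⁻¹ * τ⁻¹, G.mul_mem (G.mul_mem (G.mul_mem hhG hτ) (G.inv_mem hhG)) (G.inv_mem hτ), ?_⟩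
    simp only [Units.val_mul]
    rw [ev, evi, eτ, eτi]
    have e1 : V * (1 + s • u) * V' = 1 + s • ((u - u₁) + r • u₁) := by
      have e0 : V * (1 + s • u) * V' = V * V' + s • (V * u * V') := by
        simp only [mul_add, add_mul, mul_one, smul_mul_assoc, mul_smul_comm]
      rw [e0, V5, D3]
    rw [e1, mul_aux, hDu]
    simp only [smul_zero, sub_zero, smul_add, smul_sub, smul_smul, add_smul, sub_smul, mul_sub, mul_one, one_smul]
    abel
  have hfam2 : ∀ c : k, G1 G (c • u₁) := by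
    intro c
    have := hfam1 (c / (r - 1))
    rwa [div_mul_cancel₀ _ hr1] at this
  have hne1 : u₁ ≠ 0 := by
    intro h0
    have h5 : hf.Y₁ = 0 := ext_injective hf.hc (by rw [← hu₁, h0, ext_zero])
    apply hf.ι_Y₁_ne hq
    rw [h5, mul_zero]
  have hrk1 : rk u₁ = rk x := by
    rw [hu₁, rk_ext, rk4]
  refine ⟨u₁, ⟨⟨hu₁u₁, hne1, hfam2⟩, fun z hz => by rw [hrk1]; exact hx.min z hz⟩, ?_, ?_, ?_, ?_⟩
  · rw [mul_sub, hu₁u, hu₁u₁, sub_self]
  · rw [sub_mul, huu₁, hu₁u₁, sub_self]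
  · intro c
    have h5 := G1.mul (hu.fam c) (hfam2 (-c))
    have e : c • u + (-c) • u₁ + (c • u) * ((-c) • u₁) = c • (u - u₁) := by
      rw [smul_mul_smul_comm, huu₁, smul_zero, add_zero, smul_sub, neg_smul]
      abel
    rwa [e] at h5
  · by_cases h0 : u - u₁ = 0
    · exact Or.inl h0
    · right
      have hsplit := rk_split hf.hc u hf.y0 hf.y1
      have hY : rk (u.restrict hf.y1) = rk x := rk4
      rw [hY] at hsplit
      have hpos : 0 < rk x := by
        rw [Nat.pos_iff_ne_zero]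
        intro h5
        have h6 : LinearMap.range x = ⊥ := Submodule.finrank_eq_zero.1 h5
        exact hx.q.ne (LinearMap.range_eq_bot.1 h6)
      have hle : rk (u - u₁) ≤ Module.finrank k (M₀.map u) := by
        apply Submodule.finrank_mono
        rintro _ ⟨v, rfl⟩
        have hv : v ∈ M₀ ⊔ M₁ := by
          rw [hf.hc.sup_eq_top]
          trivial
        obtain ⟨a, ha, b, hb, rfl⟩ := Submodule.mem_sup.1 hv
        have e1 : (u - u₁) a = u a := by
          have := ext_apply_zero hf.hc hf.Y₁ ha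
          simp only [LinearMap.sub_apply]
          rw [this, sub_zero]
        have e2 : (u - u₁) b = 0 := by
          have := ext_apply_mem hf.hc hf.Y₁ ⟨b, hb⟩
          simp only [LinearMap.sub_apply]
          simp only at this
          rw [this]
          simp [IsFit.Y₁]
        rw [map_add, e1, e2, add_zero]
        exact ⟨a, ha, rfl⟩
      omega

end Split

section Sup

variable [FiniteDimensional k M]

/-- Elements commuting on the level of endomorphisms commute. -/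
lemma unit_comm {a b : LinearMap.GeneralLinearGroup k M} {s t : M →ₗ[k] M} (ea : (a : M →ₗ[k] M) = 1 + s)
    (eb : (b : M →ₗ[k] M) = 1 + t) (h : s * t = t * s) : a * b = b * a := by
  apply Units.ext
  rw [Units.val_mul, Units.val_mul, ea, eb]
  have e1 : (1 + s) * (1 + t) = 1 + s + t + s * t := by noncomm_ring
  have e2 : (1 + t) * (1 + s) = 1 + t + s + t * s := by noncomm_ring
  rw [e1, e2, h]
  abel

/-- `1 + u` is in `G₀ C_G(G₀)`. -/
theorem mem_sup_of_isQ (h2 : (2 : k) ≠ 0) (hk3 : Nat.card k ≠ 3) (hG : IsQuadraticPair G) (r : ℕ) :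
    ∀ u : M →ₗ[k] M, IsQ G u → rk u ≤ r → ∀ τ : LinearMap.GeneralLinearGroup k M, (τ : M →ₗ[k] M) = 1 + u →
      τ ∈ (⨆ A ∈ quadraticRootSubgroups G, A) ⊔ (G ⊓ Subgroup.centralizer
        ((⨆ A ∈ quadraticRootSubgroups G, A : Subgroup (LinearMap.GeneralLinearGroup k M)) :
          Set (LinearMap.GeneralLinearGroup k M))) := by
  induction r with
  | zero =>
    intro u hu hr
    exfalso
    have h6 : LinearMap.range u = ⊥ := Submodule.finrank_eq_zero.1 (Nat.le_zero.1 hr)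
    exact hu.ne (LinearMap.range_eq_bot.1 h6)
  | succ r ih =>
    intro u hu hr τ eτ
    by_cases hex : ∃ x, IsQD G x ∧ ¬ IsNilpotent (x * u + u * x)
    · obtain ⟨x, hx, hz⟩ := hex
      obtain ⟨u₁, hu₁, e1, e2, hfam, hrk⟩ := split_of_nonnil h2 hk3 hx hu hz
      have hτ₁ : unitOfSq u₁ hu₁.q.sq ∈ (⨆ A ∈ quadraticRootSubgroups G, A) := by
        have h5 := unit_mem_of_inC (exists_hasClass hu₁) hu₁.q.sq (InC.refl hu₁)
        have h6 : sameActionSubgroup G (unitOfSq u₁ hu₁.q.sq) ≤ (⨆ A ∈ quadraticRootSubgroups G, A) :=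
          le_iSup₂_of_le _ (sigma_of_qd hu₁) le_rfl
        exact h6 h5
      rcases hrk with h0 | hlt
      · have : τ = unitOfSq u₁ hu₁.q.sq := by
          apply Units.ext
          rw [eτ, unitOfSq_val, sub_eq_zero.1 h0]
        rw [this]
        exact Subgroup.mem_sup_left hτ₁
      · by_cases h0 : u - u₁ = 0
        · have : τ = unitOfSq u₁ hu₁.q.sq := by
            apply Units.ext
            rw [eτ, unitOfSq_val, sub_eq_zero.1 h0]
          rw [this]
          exact Subgroup.mem_sup_left hτ₁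
        · have hsq : (u - u₁) * (u - u₁) = 0 := by
            have e3 : (u - u₁) * (u - u₁) = u * u - u₁ * u - (u - u₁) * u₁ := by noncomm_ring
            have e4 : u₁ * u = u₁ * u₁ := by
              have := e1
              rwa [mul_sub, sub_eq_zero] at this
            have e5 : u₁ * u₁ = 0 := hu₁.q.sq
            rw [e3, hu.sq, e2, e4, e5]
            simp
          have hQ : IsQ G (u - u₁) := ⟨hsq, h0, hfam⟩
          have h5 := ih (u - u₁) hQ (by omega) (unitOfSq (u - u₁) hsq) rfl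
          have e3 : τ = unitOfSq u₁ hu₁.q.sq * unitOfSq (u - u₁) hsq := by
            apply Units.ext
            rw [eτ, Units.val_mul, unitOfSq_val, unitOfSq_val]
            have : (1 + u₁) * (1 + (u - u₁)) = 1 + u₁ + (u - u₁) + u₁ * (u - u₁) := by noncomm_ring
            rw [this, e1]
            abel
          rw [e3]
          exact Subgroup.mul_mem _ (Subgroup.mem_sup_left hτ₁) h5
    · push Not at hex
      apply Subgroup.mem_sup_right
      refine ⟨?_, ?_⟩
      · obtain ⟨ρ, hρ, e⟩ := hu.fam 1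
        have : ρ = τ := by
          apply Units.ext
          rw [e, eτ, one_smul]
        rwa [this] at hρ
      · show τ ∈ Subgroup.centralizer _
        rw [Subgroup.mem_centralizer_iff]
        intro a ha
        have hle : (⨆ A ∈ quadraticRootSubgroups G, A) ≤ Subgroup.centralizer ({τ} : Set (LinearMap.GeneralLinearGroup k M)) := by
          apply iSup₂_le
          intro A hA a ha
          obtain ⟨x, hx, hA'⟩ := mem_sigma hA
          rw [Subgroup.mem_centralizer_iff]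
          rintro _ rfl
          rcases (hA' a).1 ha with rfl | h5
          · simp
          · exact unit_comm eτ (val_of_tt a) (central_of_all_nil h2 hk3 hG hu hex h5.qd).symm
        have h6 := Subgroup.mem_centralizer_iff.1 (hle ha) τ rfl
        exact h6.symm

theorem sup_centralizer_eq (h2 : (2 : k) ≠ 0) (hk3 : Nat.card k ≠ 3) (hG : IsQuadraticPair G) :
    (⨆ A ∈ quadraticRootSubgroups G, A) ⊔ (G ⊓ Subgroup.centralizer
        ((⨆ A ∈ quadraticRootSubgroups G, A : Subgroup (LinearMap.GeneralLinearGroup k M)) :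
          Set (LinearMap.GeneralLinearGroup k M))) = G := by
  apply le_antisymm
  · exact sup_le (iSup₂_le (fun A hA => le_G_of_sigma hA)) inf_le_left
  · intro g hg
    have h1 : g ∈ Subgroup.closure (quadraticElements G) := by
      rw [hG.2]
      exact hg
    have h3 : Subgroup.closure (quadraticElements G) ≤ (⨆ A ∈ quadraticRootSubgroups G, A) ⊔ (G ⊓ Subgroup.centralizer
        ((⨆ A ∈ quadraticRootSubgroups G, A : Subgroup (LinearMap.GeneralLinearGroup k M)) :
          Set (LinearMap.GeneralLinearGroup k M))) := by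
      rw [Subgroup.closure_le]
      intro σ hσ
      exact mem_sup_of_isQ h2 hk3 hG _ _ (isQ_of_mem hσ) le_rfl σ (val_of_tt σ)
    exact h3 h1

end Sup

end Cfsg.Agent.Lib.RootSubgroups.QuadSplit
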