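/-
Quadratic pairs: ring identities for a commuting conjugate of a member of a matched pair.
-/
import Mathlib
import Cfsg.Agent.Lib.RootSubgroups.QuadSplit

set_option autoImplicit false
set_option linter.unusedSimpArgs false
set_option linter.unusedVariables false
set_option linter.unusedSectionVars false

namespace Cfsg.Agent.Lib.RootSubgroups.QuadHeis

open Cfsg.Agent.Lib.RootSubgroups.QuadMatched

section Ring

variable {R : Type*} [Ring R]

/-- The rewriting rules of the first claim. -/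
structure C1 (x n y : R) : Prop where
  xx : x * x = 0
  nn : n * n = 0
  yy : y * y = 0
  yx : y * x = x * y
  xnx : x * (n * x) = x
  nxn : n * (x * n) = n

namespace C1

variable {x n y : R} (h : C1 x n y)
include h

lemma xx' (z : R) : x * (x * z) = 0 := by rw [← mul_assoc, h.xx, zero_mul]
lemma nn' (z : R) : n * (n * z) = 0 := by rw [← mul_assoc, h.nn, zero_mul]
lemma yy' (z : R) : y * (y * z) = 0 := by rw [← mul_assoc, h.yy, zero_mul]
lemma yx' (z : R) : y * (x * z) = x * (y * z) := by rw [← mul_assoc, h.yx, mul_assoc]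
lemma xnx' (z : R) : x * (n * (x * z)) = x * z := by
  calc x * (n * (x * z)) = (x * (n * x)) * z := by simp only [mul_assoc]
    _ = x * z := by rw [h.xnx]
lemma nxn' (z : R) : n * (x * (n * z)) = n * z := by
  calc n * (x * (n * z)) = (n * (x * n)) * z := by simp only [mul_assoc]
    _ = n * z := by rw [h.nxn]
lemma xynx : x * (y * (n * x)) = x * y := by
  rw [← mul_assoc x y, ← h.yx, mul_assoc y x, h.xnx]
lemma xynx' (z : R) : x * (y * (n * (x * z))) = x * (y * z) := by
  rw [← mul_assoc x y, ← h.yx, mul_assoc y x, h.xnx', ← h.yx', h.yx']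

/-- The identity in the first claim. -/
lemma key (hc : ((1 + x) * (1 - y) * n * ((1 + y) * (1 - x))) * n = n * ((1 + x) * (1 - y) * n * ((1 + y) * (1 - x)))) :
    (x * (n * (y * (n * x)))) - x - x * (y * (n * (y * (n * x)))) =
      x - x * (n * (y * (n * x))) - x * (n * (y * (n * (x * y)))) := by
  have h1 := congrArg (fun z => x * (z * x)) hc
  simp only [mul_add, add_mul, mul_sub, sub_mul, mul_neg, neg_mul, mul_one, one_mul, mul_zero, zero_mul, add_zero, zero_add, sub_zero, zero_sub, neg_zero, neg_neg, mul_assoc, h.xx, h.xx', h.nn, h.nn', h.yy, h.yy', h.yx, h.yx', h.xnx, h.xnx', h.nxn, h.nxn', h.xynx, h.xynx'] at h1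
  have e1 := h1
  abel_nf at e1 ⊢
  exact e1

theorem main (h2 : ∀ z : R, z + z = 0 → z = 0)
    (hc : ((1 + x) * (1 - y) * n * ((1 + y) * (1 - x))) * n = n * ((1 + x) * (1 - y) * n * ((1 + y) * (1 - x)))) :
    n * (y * n) = n := by
  set τ := x - x * (n * (y * (n * x))) with hτ
  set A₁ := x * (y * n) with hA₁
  set A₃ := n * (x * y) with hA₃
  have h11 : A₁ * A₁ = 0 := by
    simp only [hA₁, mul_add, add_mul, mul_sub, sub_mul, mul_neg, neg_mul, mul_one, one_mul, mul_zero, zero_mul, add_zero, zero_add, sub_zero, zero_sub, neg_zero, neg_neg, mul_assoc, h.xx, h.xx', h.nn, h.nn', h.yy, h.yy', h.yx, h.yx', h.xnx, h.xnx', h.nxn, h.nxn', h.xynx, h.xynx']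
  have h33 : A₃ * A₃ = 0 := by
    simp only [hA₃, mul_add, add_mul, mul_sub, sub_mul, mul_neg, neg_mul, mul_one, one_mul, mul_zero, zero_mul, add_zero, zero_add, sub_zero, zero_sub, neg_zero, neg_neg, mul_assoc, h.xx, h.xx', h.nn, h.nn', h.yy, h.yy', h.yx, h.yx', h.xnx, h.xnx', h.nxn, h.nxn', h.xynx, h.xynx']
  have hk := h.key hc
  have he : τ + τ = A₁ * τ - τ * A₃ := by
    have a1 : A₁ * τ = x * y - x * (y * (n * (y * (n * x)))) := by
      simp only [hτ, hA₁, mul_add, add_mul, mul_sub, sub_mul, mul_neg, neg_mul, mul_one, one_mul, mul_zero, zero_mul, add_zero, zero_add, sub_zero, zero_sub, neg_zero, neg_neg, mul_assoc, h.xx, h.xx', h.nn, h.nn', h.yy, h.yy', h.yx, h.yx', h.xnx, h.xnx', h.nxn, h.nxn', h.xynx, h.xynx']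
    have a2 : τ * A₃ = x * y - x * (n * (y * (n * (x * y)))) := by
      simp only [hτ, hA₃, mul_add, add_mul, mul_sub, sub_mul, mul_neg, neg_mul, mul_one, one_mul, mul_zero, zero_mul, add_zero, zero_add, sub_zero, zero_sub, neg_zero, neg_neg, mul_assoc, h.xx, h.xx', h.nn, h.nn', h.yy, h.yy', h.yx, h.yx', h.xnx, h.xnx', h.nxn, h.nxn', h.xynx, h.xynx']
    rw [a1, a2]
    have e3 : x * (y * (n * (y * (n * x)))) = (x * (n * (y * (n * x)))) - x - ((x - x * (n * (y * (n * x)))) - x * (n * (y * (n * (x * y))))) := by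
      rw [← hk]; abel
    rw [e3, hτ]
    abel
  set t := A₁ * τ * A₃ with ht
  have hu : A₁ * τ + A₁ * τ = -t := by
    have := congrArg (fun z => A₁ * z) he
    simp only [mul_add, mul_sub, ← mul_assoc, h11, zero_mul, zero_sub] at this
    rw [this, ht]
  have hv : τ * A₃ + τ * A₃ = t := by
    have := congrArg (fun z => z * A₃) he
    simp only [add_mul, sub_mul, mul_assoc, h33, mul_zero, sub_zero] at this
    rw [this, ht]; exact (mul_assoc _ _ _).symm
  have hd : τ + τ = -t := by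
    apply sub_eq_zero.1
    apply h2
    calc τ + τ - -t + (τ + τ - -t) = (τ + τ) + (τ + τ) + (t + t) := by abel
      _ = ((A₁ * τ - τ * A₃) + (A₁ * τ - τ * A₃)) + (t + t) := by rw [he]
      _ = ((A₁ * τ + A₁ * τ) - (τ * A₃ + τ * A₃)) + (t + t) := by abel
      _ = 0 := by rw [hu, hv]; abel
  have hu0 : A₁ * τ = 0 := by
    apply h2
    rw [hu, ← neg_eq_zero, neg_neg]
    have := congrArg (fun z => A₁ * z) hd
    simp only [mul_add, mul_neg, ht, ← mul_assoc, h11, zero_mul, neg_zero] at this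
    rw [hu] at *
    rwa [neg_eq_zero] at this
  have hv0 : τ * A₃ = 0 := by
    apply h2
    rw [hv]
    have := congrArg (fun z => z * A₃) hd
    simp only [add_mul, neg_mul, ht, mul_assoc, h33, mul_zero, neg_zero] at this
    rw [hv] at this
    exact this
  have hτ0 : τ = 0 := by
    apply h2
    rw [he, hu0, hv0, sub_self]
  have hf : x * (n * (y * (n * x))) = x := by
    rw [hτ] at hτ0
    exact (sub_eq_zero.1 hτ0).symm
  have := congrArg (fun z => n * (z * n)) hf
  simpa only [mul_add, add_mul, mul_sub, sub_mul, mul_neg, neg_mul, mul_one, one_mul, mul_zero, zero_mul, add_zero, zero_add, sub_zero, zero_sub, neg_zero, neg_neg, mul_assoc, h.xx, h.xx', h.nn, h.nn', h.yy, h.yy', h.yx, h.yx', h.xnx, h.xnx', h.nxn, h.nxn', h.xynx, h.xynx'] using this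

end C1

/-- The rewriting rules of the second part. -/
structure C2 (x n y p : R) : Prop where
  xx : x * x = 0
  nn : n * n = 0
  yy : y * y = 0
  yx : y * x = x * y
  xnx : x * (n * x) = x
  nxn : n * (x * n) = n
  yny : y * (n * y) = y
  nyn : n * (y * n) = n
  hp : p = 1 - (x * n + n * x)

namespace C2

variable {x n y p : R} (h : C2 x n y p)
include h

lemma xx' (z : R) : x * (x * z) = 0 := by rw [← mul_assoc, h.xx, zero_mul]
lemma nn' (z : R) : n * (n * z) = 0 := by rw [← mul_assoc, h.nn, zero_mul]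
lemma yy' (z : R) : y * (y * z) = 0 := by rw [← mul_assoc, h.yy, zero_mul]
lemma yx' (z : R) : y * (x * z) = x * (y * z) := by rw [← mul_assoc, h.yx, mul_assoc]
lemma xnx' (z : R) : x * (n * (x * z)) = x * z := by
  calc x * (n * (x * z)) = (x * (n * x)) * z := by simp only [mul_assoc]
    _ = x * z := by rw [h.xnx]
lemma nxn' (z : R) : n * (x * (n * z)) = n * z := by
  calc n * (x * (n * z)) = (n * (x * n)) * z := by simp only [mul_assoc]
    _ = n * z := by rw [h.nxn]
lemma yny' (z : R) : y * (n * (y * z)) = y * z := by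
  calc y * (n * (y * z)) = (y * (n * y)) * z := by simp only [mul_assoc]
    _ = y * z := by rw [h.yny]
lemma nyn' (z : R) : n * (y * (n * z)) = n * z := by
  calc n * (y * (n * z)) = (n * (y * n)) * z := by simp only [mul_assoc]
    _ = n * z := by rw [h.nyn]
lemma xynx : x * (y * (n * x)) = x * y := by
  rw [← mul_assoc x y, ← h.yx, mul_assoc y x, h.xnx]
lemma xynx' (z : R) : x * (y * (n * (x * z))) = x * (y * z) := by
  rw [← mul_assoc x y, ← h.yx, mul_assoc y x, h.xnx', ← h.yx', h.yx']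
lemma xp : x * p = 0 := by
  rw [h.hp, mul_sub, mul_one, mul_add, ← mul_assoc, h.xx, zero_mul, zero_add, h.xnx, sub_self]
lemma px : p * x = 0 := by
  rw [h.hp, sub_mul, one_mul, add_mul, mul_assoc, mul_assoc, h.xx, mul_zero, add_zero, h.xnx, sub_self]
lemma np : n * p = 0 := by
  rw [h.hp, mul_sub, mul_one, mul_add, ← mul_assoc n n, h.nn, zero_mul, add_zero, h.nxn, sub_self]
lemma pn : p * n = 0 := by
  rw [h.hp, sub_mul, one_mul, add_mul, mul_assoc, mul_assoc, h.nn, mul_zero, zero_add, h.nxn, sub_self]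
lemma pp : p * p = p := by
  calc p * p = (1 - (x * n + n * x)) * p := by rw [← h.hp]
    _ = p - (x * (n * p) + n * (x * p)) := by noncomm_ring
    _ = p := by rw [h.np, h.xp]; simp
lemma xp' (z : R) : x * (p * z) = 0 := by rw [← mul_assoc, h.xp, zero_mul]
lemma px' (z : R) : p * (x * z) = 0 := by rw [← mul_assoc, h.px, zero_mul]
lemma np' (z : R) : n * (p * z) = 0 := by rw [← mul_assoc, h.np, zero_mul]
lemma pn' (z : R) : p * (n * z) = 0 := by rw [← mul_assoc, h.pn, zero_mul]
lemma pp' (z : R) : p * (p * z) = p * z := by rw [← mul_assoc, h.pp]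
lemma xyp : x * (y * p) = 0 := by
  rw [← mul_assoc, ← h.yx, mul_assoc, h.xp, mul_zero]
lemma xyp' (z : R) : x * (y * (p * z)) = 0 := by
  calc x * (y * (p * z)) = (x * (y * p)) * z := by simp only [mul_assoc]
    _ = 0 := by rw [h.xyp, zero_mul]
lemma r12 : p * (y * (n * (x * y))) = 0 := by
  have e1 : p * (y * (n * (y * (x * n)))) = 0 := by
    rw [h.yny' (x * n), h.yx', h.px', ]
  rw [h.yx'] at e1
  have e2 := congrArg (fun z => z * x) e1
  simp only [mul_assoc, zero_mul] at e2
  rw [h.xynx] at e2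
  exact e2
lemma r12' (z : R) : p * (y * (n * (x * (y * z)))) = 0 := by
  have := congrArg (fun t => t * z) h.r12
  simpa only [mul_assoc, zero_mul] using this
lemma one_eq : 1 = x * n + n * x + p := by
  rw [h.hp]; abel
lemma ypy : y * (p * y) = -(x * y) - y * (n * (x * y)) := by
  have e1 : y * (1 * y) = 0 := by rw [one_mul, h.yy]
  rw [h.one_eq] at e1
  simp only [mul_add, add_mul, mul_sub, sub_mul, mul_neg, neg_mul, mul_one, one_mul, mul_zero, zero_mul, add_zero, zero_add, sub_zero, zero_sub, neg_zero, neg_neg, mul_assoc, h.yx', h.yny] at e1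
  have e2 : y * (p * y) = (x * y + y * (n * (x * y)) + y * (p * y)) - x * y - y * (n * (x * y)) := by abel
  rw [e2, e1]
  abel
lemma ypy' (z : R) : y * (p * (y * z)) = -(x * (y * z)) - y * (n * (x * (y * z))) := by
  have := congrArg (fun t => t * z) h.ypy
  simpa only [mul_add, add_mul, mul_sub, sub_mul, mul_neg, neg_mul, mul_one, one_mul, mul_zero, zero_mul, add_zero, zero_add, sub_zero, zero_sub, neg_zero, neg_neg, mul_assoc] using this

/-- `α` -/
def al (x n y p : R) : R := x * (y * n) + n * (x * y) + p * (y * p)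

/-- `β` -/
def be (x n y p : R) : R := x * (n * (y * p)) + p * (y * (n * x))

lemma decomp : y = x + al x n y p + be x n y p := by
  have e1 : y = (x * n + n * x + p) * (y * (x * n + n * x + p)) := by rw [← h.one_eq]; simp
  have e2 : (x * n + n * x + p) * (y * (x * n + n * x + p)) = x + al x n y p + be x n y p := by
    simp only [al, be, mul_add, add_mul, mul_sub, sub_mul, mul_neg, neg_mul, mul_one, one_mul, mul_zero, zero_mul, add_zero, zero_add, sub_zero, zero_sub, neg_zero, neg_neg, mul_assoc, h.xx, h.xx', h.nn, h.nn', h.yy, h.yy', h.yx, h.yx', h.xnx, h.xnx', h.nxn, h.nxn', h.xynx, h.xynx', h.yny, h.yny', h.nyn, h.nyn', h.xp, h.xp', h.px, h.px', h.np, h.np', h.pn, h.pn', h.pp, h.pp', h.xyp, h.xyp', h.r12, h.r12', h.ypy, h.ypy']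
    abel
  rw [← e2]
  exact e1

lemma x_al : x * al x n y p = x * y := by
  simp only [al, be, mul_add, add_mul, mul_sub, sub_mul, mul_neg, neg_mul, mul_one, one_mul, mul_zero, zero_mul, add_zero, zero_add, sub_zero, zero_sub, neg_zero, neg_neg, mul_assoc, h.xx, h.xx', h.nn, h.nn', h.yy, h.yy', h.yx, h.yx', h.xnx, h.xnx', h.nxn, h.nxn', h.xynx, h.xynx', h.yny, h.yny', h.nyn, h.nyn', h.xp, h.xp', h.px, h.px', h.np, h.np', h.pn, h.pn', h.pp, h.pp', h.xyp, h.xyp', h.r12, h.r12', h.ypy, h.ypy']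

lemma al_x : al x n y p * x = x * y := by
  simp only [al, be, mul_add, add_mul, mul_sub, sub_mul, mul_neg, neg_mul, mul_one, one_mul, mul_zero, zero_mul, add_zero, zero_add, sub_zero, zero_sub, neg_zero, neg_neg, mul_assoc, h.xx, h.xx', h.nn, h.nn', h.yy, h.yy', h.yx, h.yx', h.xnx, h.xnx', h.nxn, h.nxn', h.xynx, h.xynx', h.yny, h.yny', h.nyn, h.nyn', h.xp, h.xp', h.px, h.px', h.np, h.np', h.pn, h.pn', h.pp, h.pp', h.xyp, h.xyp', h.r12, h.r12', h.ypy, h.ypy']

lemma x_be : x * be x n y p = 0 := by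
  simp only [al, be, mul_add, add_mul, mul_sub, sub_mul, mul_neg, neg_mul, mul_one, one_mul, mul_zero, zero_mul, add_zero, zero_add, sub_zero, zero_sub, neg_zero, neg_neg, mul_assoc, h.xx, h.xx', h.nn, h.nn', h.yy, h.yy', h.yx, h.yx', h.xnx, h.xnx', h.nxn, h.nxn', h.xynx, h.xynx', h.yny, h.yny', h.nyn, h.nyn', h.xp, h.xp', h.px, h.px', h.np, h.np', h.pn, h.pn', h.pp, h.pp', h.xyp, h.xyp', h.r12, h.r12', h.ypy, h.ypy']

lemma be_x : be x n y p * x = 0 := by
  simp only [al, be, mul_add, add_mul, mul_sub, sub_mul, mul_neg, neg_mul, mul_one, one_mul, mul_zero, zero_mul, add_zero, zero_add, sub_zero, zero_sub, neg_zero, neg_neg, mul_assoc, h.xx, h.xx', h.nn, h.nn', h.yy, h.yy', h.yx, h.yx', h.xnx, h.xnx', h.nxn, h.nxn', h.xynx, h.xynx', h.yny, h.yny', h.nyn, h.nyn', h.xp, h.xp', h.px, h.px', h.np, h.np', h.pn, h.pn', h.pp, h.pp', h.xyp, h.xyp', h.r12, h.r12', h.ypy, h.ypy']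

lemma al_al : al x n y p * al x n y p = 0 := by
  simp only [al, be, mul_add, add_mul, mul_sub, sub_mul, mul_neg, neg_mul, mul_one, one_mul, mul_zero, zero_mul, add_zero, zero_add, sub_zero, zero_sub, neg_zero, neg_neg, mul_assoc, h.xx, h.xx', h.nn, h.nn', h.yy, h.yy', h.yx, h.yx', h.xnx, h.xnx', h.nxn, h.nxn', h.xynx, h.xynx', h.yny, h.yny', h.nyn, h.nyn', h.xp, h.xp', h.px, h.px', h.np, h.np', h.pn, h.pn', h.pp, h.pp', h.xyp, h.xyp', h.r12, h.r12', h.ypy, h.ypy']

lemma al_be : al x n y p * be x n y p = 0 := by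
  simp only [al, be, mul_add, add_mul, mul_sub, sub_mul, mul_neg, neg_mul, mul_one, one_mul, mul_zero, zero_mul, add_zero, zero_add, sub_zero, zero_sub, neg_zero, neg_neg, mul_assoc, h.xx, h.xx', h.nn, h.nn', h.yy, h.yy', h.yx, h.yx', h.xnx, h.xnx', h.nxn, h.nxn', h.xynx, h.xynx', h.yny, h.yny', h.nyn, h.nyn', h.xp, h.xp', h.px, h.px', h.np, h.np', h.pn, h.pn', h.pp, h.pp', h.xyp, h.xyp', h.r12, h.r12', h.ypy, h.ypy']

lemma be_al : be x n y p * al x n y p = 0 := by
  simp only [al, be, mul_add, add_mul, mul_sub, sub_mul, mul_neg, neg_mul, mul_one, one_mul, mul_zero, zero_mul, add_zero, zero_add, sub_zero, zero_sub, neg_zero, neg_neg, mul_assoc, h.xx, h.xx', h.nn, h.nn', h.yy, h.yy', h.yx, h.yx', h.xnx, h.xnx', h.nxn, h.nxn', h.xynx, h.xynx', h.yny, h.yny', h.nyn, h.nyn', h.xp, h.xp', h.px, h.px', h.np, h.np', h.pn, h.pn', h.pp, h.pp', h.xyp, h.xyp', h.r12, h.r12', h.ypy, h.ypy']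

lemma be_be : be x n y p * be x n y p = -(x * y) - x * y := by
  simp only [al, be, mul_add, add_mul, mul_sub, sub_mul, mul_neg, neg_mul, mul_one, one_mul, mul_zero, zero_mul, add_zero, zero_add, sub_zero, zero_sub, neg_zero, neg_neg, mul_assoc, h.xx, h.xx', h.nn, h.nn', h.yy, h.yy', h.yx, h.yx', h.xnx, h.xnx', h.nxn, h.nxn', h.xynx, h.xynx', h.yny, h.yny', h.nyn, h.nyn', h.xp, h.xp', h.px, h.px', h.np, h.np', h.pn, h.pn', h.pp, h.pp', h.xyp, h.xyp', h.r12, h.r12', h.ypy, h.ypy']

/-- `1 - 2π` -/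
lemma ss_sq : (p - (x * n + n * x)) * (p - (x * n + n * x)) = 1 := by
  have e1 := h.one_eq
  have e2 : (p - (x * n + n * x)) * (p - (x * n + n * x)) = x * n + n * x + p := by
    simp only [mul_add, add_mul, mul_sub, sub_mul, mul_neg, neg_mul, mul_one, one_mul, mul_zero, zero_mul, add_zero, zero_add, sub_zero, zero_sub, neg_zero, neg_neg, mul_assoc, h.xx, h.xx', h.nn, h.nn', h.yy, h.yy', h.yx, h.yx', h.xnx, h.xnx', h.nxn, h.nxn', h.xynx, h.xynx', h.yny, h.yny', h.nyn, h.nyn', h.xp, h.xp', h.px, h.px', h.np, h.np', h.pn, h.pn', h.pp, h.pp', h.xyp, h.xyp', h.r12, h.r12', h.ypy, h.ypy']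
    abel
  rw [e2, ← e1]

lemma ss_x : (p - (x * n + n * x)) * (x * (p - (x * n + n * x))) = x := by
  simp only [mul_add, add_mul, mul_sub, sub_mul, mul_neg, neg_mul, mul_one, one_mul, mul_zero, zero_mul, add_zero, zero_add, sub_zero, zero_sub, neg_zero, neg_neg, mul_assoc, h.xx, h.xx', h.nn, h.nn', h.yy, h.yy', h.yx, h.yx', h.xnx, h.xnx', h.nxn, h.nxn', h.xynx, h.xynx', h.yny, h.yny', h.nyn, h.nyn', h.xp, h.xp', h.px, h.px', h.np, h.np', h.pn, h.pn', h.pp, h.pp', h.xyp, h.xyp', h.r12, h.r12', h.ypy, h.ypy']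

lemma ss_al : (p - (x * n + n * x)) * (al x n y p * (p - (x * n + n * x))) = al x n y p := by
  simp only [al, mul_add, add_mul, mul_sub, sub_mul, mul_neg, neg_mul, mul_one, one_mul, mul_zero, zero_mul, add_zero, zero_add, sub_zero, zero_sub, neg_zero, neg_neg, mul_assoc, h.xx, h.xx', h.nn, h.nn', h.yy, h.yy', h.yx, h.yx', h.xnx, h.xnx', h.nxn, h.nxn', h.xynx, h.xynx', h.yny, h.yny', h.nyn, h.nyn', h.xp, h.xp', h.px, h.px', h.np, h.np', h.pn, h.pn', h.pp, h.pp', h.xyp, h.xyp', h.r12, h.r12', h.ypy, h.ypy']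
  abel

lemma ss_be : (p - (x * n + n * x)) * (be x n y p * (p - (x * n + n * x))) = - be x n y p := by
  simp only [be, mul_add, add_mul, mul_sub, sub_mul, mul_neg, neg_mul, mul_one, one_mul, mul_zero, zero_mul, add_zero, zero_add, sub_zero, zero_sub, neg_zero, neg_neg, mul_assoc, h.xx, h.xx', h.nn, h.nn', h.yy, h.yy', h.yx, h.yx', h.xnx, h.xnx', h.nxn, h.nxn', h.xynx, h.xynx', h.yny, h.yny', h.nyn, h.nyn', h.xp, h.xp', h.px, h.px', h.np, h.np', h.pn, h.pn', h.pp, h.pp', h.xyp, h.xyp', h.r12, h.r12', h.ypy, h.ypy']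
  abel

lemma w_al : (x * y) * al x n y p = 0 := by
  rw [← h.x_al, mul_assoc, h.al_al, mul_zero]

lemma al_w : al x n y p * (x * y) = 0 := by
  rw [← h.al_x, ← mul_assoc, h.al_al, zero_mul]

lemma w_be : (x * y) * be x n y p = 0 := by
  rw [← h.al_x, mul_assoc, h.x_be, mul_zero]

lemma be_w : be x n y p * (x * y) = 0 := by
  rw [← h.x_al, ← mul_assoc, h.be_x, zero_mul]

lemma w_w : (x * y) * (x * y) = 0 := by
  simp only [mul_add, add_mul, mul_sub, sub_mul, mul_neg, neg_mul, mul_one, one_mul, mul_zero, zero_mul, add_zero, zero_add, sub_zero, zero_sub, neg_zero, neg_neg, mul_assoc, h.xx, h.xx', h.nn, h.nn', h.yy, h.yy', h.yx, h.yx', h.xnx, h.xnx', h.nxn, h.nxn', h.xynx, h.xynx', h.yny, h.yny', h.nyn, h.nyn', h.xp, h.xp', h.px, h.px', h.np, h.np', h.pn, h.pn', h.pp, h.pp', h.xyp, h.xyp', h.r12, h.r12', h.ypy, h.ypy']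

/-- The scaled identity. -/
theorem identity {k : Type*} [Field k] [Algebra k R] (c : k) :
    ((1 + c • x) * (1 - c • y)) * ((1 + c • x) * (1 - c • (x + al x n y p - be x n y p))) =
      1 - (c + c) • al x n y p := by
  set a := al x n y p with ha
  set b := be x n y p with hb
  set w := x * y with hw
  have hy : y = x + a + b := h.decomp
  have hxa : x * a = w := h.x_al
  have hax : a * x = w := h.al_x
  have hxb : x * b = 0 := h.x_be
  have hbx : b * x = 0 := h.be_x
  have haa : a * a = 0 := h.al_al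
  have hab : a * b = 0 := h.al_be
  have hba : b * a = 0 := h.be_al
  have hbb : b * b = -w - w := h.be_be
  have hwa : w * a = 0 := h.w_al
  have haw : a * w = 0 := h.al_w
  have hwb : w * b = 0 := h.w_be
  have hbw : b * w = 0 := h.be_w
  have hww : w * w = 0 := h.w_w
  have hxx : x * x = 0 := h.xx
  have e1 : (1 + c • x) * (1 - c • y) = 1 - (c • a + (c * c) • w) - c • b := by
    rw [hy]
    simp only [mul_add, add_mul, mul_sub, sub_mul, mul_one, one_mul, smul_mul_assoc, mul_smul_comm, smul_add, smul_sub, smul_smul,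
      hxx, hxa, hxb, smul_zero, add_zero, zero_add]
    abel
  have e2 : (1 + c • x) * (1 - c • (x + a - b)) = 1 - (c • a + (c * c) • w) + c • b := by
    simp only [mul_add, add_mul, mul_sub, sub_mul, mul_one, one_mul, smul_mul_assoc, mul_smul_comm, smul_add, smul_sub, smul_smul,
      hxx, hxa, hxb, smul_zero, add_zero, zero_add, sub_zero]
    abel
  rw [e1, e2]
  simp only [mul_add, add_mul, mul_sub, sub_mul, mul_one, one_mul, smul_mul_assoc, mul_smul_comm, smul_add, smul_sub, smul_smul,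
    haa, hab, hba, hbb, hwa, haw, hwb, hbw, hww, smul_zero, add_zero, zero_add, sub_zero, add_smul, sub_smul, zero_sub, mul_neg, neg_mul]
  simp only [smul_neg, smul_sub, neg_add_rev, neg_neg]
  abel

lemma of_al_zero (ha : al x n y p = 0) {k : Type*} [Field k] [Algebra k R] (c : k) :
    (1 + c • x) * (1 - c • y) = 1 + c • (x - y) := by
  have hw : x * y = 0 := by rw [← h.x_al, ha, mul_zero]
  simp only [mul_add, add_mul, mul_sub, sub_mul, mul_one, one_mul, smul_mul_assoc, mul_smul_comm, smul_add, smul_sub, smul_smul, hw,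
    smul_zero, sub_zero]
  abel

lemma sq_of_al_zero (ha : al x n y p = 0) : (x - y) * (x - y) = 0 := by
  have hw : x * y = 0 := by rw [← h.x_al, ha, mul_zero]
  have hw' : y * x = 0 := by rw [h.yx, hw]
  simp only [mul_sub, sub_mul, hw, hw', h.xx, h.yy, sub_zero, sub_self]

end C2

end Ring

section Lin

variable {k : Type*} [Field k] {M : Type*} [AddCommGroup M] [Module k M] [FiniteDimensional k M]

open Cfsg.Agent.Lib.RootSubgroups.QuadBasic Cfsg.Agent.Lib.RootSubgroups.QuadRep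

lemma yny_of_nyn {y n : M →ₗ[k] M} (hyn : n * (y * n) = n) (hr : rk y ≤ rk n) : y * (n * y) = y := by
  have h1 : rk y ≤ rk (y * n) := by
    calc rk y ≤ rk n := hr
      _ = rk (n * (y * n)) := by rw [hyn]
      _ ≤ rk (y * n) := rk_mul_le_right _ _
  have h3 : LinearMap.range (y * n) = LinearMap.range y := by
    apply Submodule.eq_of_le_of_finrank_le
    · rintro _ ⟨v, rfl⟩
      exact ⟨n v, rfl⟩
    · exact h1
  ext v
  have h5 : y v ∈ LinearMap.range (y * n) := by
    rw [h3]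
    exact ⟨v, rfl⟩
  obtain ⟨w, hw⟩ := h5
  have h6 : (y * (n * y)) v = (y * (n * (y * n))) w := by
    simp only [Module.End.mul_apply] at hw ⊢
    rw [← hw]
  rw [h6, hyn, ← hw]

end Lin

end Cfsg.Agent.Lib.RootSubgroups.QuadHeis
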