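/-
Quadratic pairs: normal subgroups of the groups generated by a component of `Σ`.
-/
import Mathlib
import Cfsg.Agent.Lib.RootSubgroups.QuadHeis

set_option autoImplicit false
set_option linter.unusedSimpArgs false
set_option linter.unusedVariables false
set_option linter.unusedSectionVars false
set_option linter.style.haveILetI false

namespace Cfsg.Agent.Lib.RootSubgroups.QuadSimple

open Cfsg
open Cfsg.Agent.Lib.RootSubgroups.Quadratic
open Cfsg.Agent.Lib.RootSubgroups.QuadMatched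
open Cfsg.Agent.Lib.RootSubgroups.QuadBasic
open Cfsg.Agent.Lib.RootSubgroups.QuadFilt
open Cfsg.Agent.Lib.RootSubgroups.QuadRep
open Cfsg.Agent.Lib.RootSubgroups.QuadPartner
open Cfsg.Agent.Lib.RootSubgroups.QuadNU
open Cfsg.Agent.Lib.RootSubgroups.QuadBlock
open Cfsg.Agent.Lib.RootSubgroups.QuadClass
open Cfsg.Agent.Lib.RootSubgroups.QuadCase
open Cfsg.Agent.Lib.RootSubgroups.QuadSurj
open Cfsg.Agent.Lib.RootSubgroups.QuadUnip
open Cfsg.Agent.Lib.RootSubgroups.QuadPairs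
open Cfsg.Agent.Lib.RootSubgroups.QuadRootSet
open Cfsg.Agent.Lib.RootSubgroups.QuadCentral
open Cfsg.Agent.Lib.RootSubgroups.QuadFit
open Cfsg.Agent.Lib.RootSubgroups.QuadSplit
open Cfsg.Agent.Lib.RootSubgroups.QuadHeis
open Cfsg.Agent.Lib.RootSubgroups.EuclidSL2
open Cfsg.Agent.Lib.RootSubgroups.QuadSL2

local notation "SL₂" => Matrix.SpecialLinearGroup (Fin 2)

universe u v

variable {k : Type u} [Field k] {M : Type v} [AddCommGroup M] [Module k M]
variable {G : Subgroup (LinearMap.GeneralLinearGroup k M)}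
variable [FiniteDimensional k M] {x n u : M →ₗ[k] M}
  {A B : Subgroup (LinearMap.GeneralLinearGroup k M)}

lemma phiSL_mem_sup (hm : MP G x n) (hA : HasClass G A x) (hB : HasClass G B n) (g : SL₂ k) :
    phiSL hm.m g ∈ A ⊔ B := by
  have h0 : g ∈ upperUnipotentSL2 k ⊔ lowerUnipotentSL2 k := by
    rw [upper_sup_lower]
    trivial
  have h1 : (upperUnipotentSL2 k ⊔ lowerUnipotentSL2 k).map (phiSL hm.m) ≤ A ⊔ B := by
    rw [Subgroup.map_sup]
    apply sup_le
    · refine le_trans ?_ le_sup_left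
      rw [Subgroup.map_le_iff_le_comap]
      unfold upperUnipotentSL2
      rw [Subgroup.closure_le]
      intro g hg
      rw [upper_gen hg]
      exact phi_uu_mem hm hA _
    · refine le_trans ?_ le_sup_right
      rw [Subgroup.map_le_iff_le_comap]
      unfold lowerUnipotentSL2
      rw [Subgroup.closure_le]
      intro g hg
      rw [lower_gen hg]
      exact phi_ll_mem hm hB _
  exact h1 ⟨g, h0, rfl⟩

/-- The torus element of a matched pair, in the group generated by the two classes. -/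
lemma exists_torus_sup (hm : MP G x n) {t : k} (ht : t ≠ 0) : ∃ h : LinearMap.GeneralLinearGroup k M,
    (∀ A B : Subgroup (LinearMap.GeneralLinearGroup k M), HasClass G A x → HasClass G B n → h ∈ A ⊔ B) ∧ h ∈ G ∧
    (h : M →ₗ[k] M) = (1 - (x * n + n * x)) + t • (x * n) + t⁻¹ • (n * x) ∧
    ((h⁻¹ : LinearMap.GeneralLinearGroup k M) : M →ₗ[k] M) = (1 - (x * n + n * x)) + t⁻¹ • (x * n) + t • (n * x) := by
  have hp := hm.m
  set e := x * n with he
  set f := n * x with hf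
  have hee : e * e = e := hp.e1e1
  have hef : e * f = 0 := hp.e1e2
  have hfe : f * e = 0 := hp.e2e1
  have hff : f * f = f := hp.e2e2
  have ev : ((phiSL hm.m (hh (Units.mk0 t ht)) : LinearMap.GeneralLinearGroup k M) : M →ₗ[k] M) =
      (1 - (e + f)) + t • e + t⁻¹ • f := by
    rw [val_phiSL, phiVal, psi_eq]
    simp only [ent_hh_00, ent_hh_01, ent_hh_10, ent_hh_11, zero_smul, add_zero, Units.val_mk0, Units.val_inv_eq_inv_val]
    rw [add_assoc]
  refine ⟨_, fun A B hA hB => phiSL_mem_sup hm hA hB _, phiSL_mem hm _, ev, ?_⟩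
  apply MP.val_inv_eq_of ev
  have e1 : (1 - (e + f)) * (1 - (e + f)) = 1 - (e + f) := p_p hm.m
  have e2 : (1 - (e + f)) * e = 0 := by simp [sub_mul, add_mul, hee, hfe]
  have e3 : (1 - (e + f)) * f = 0 := by simp [sub_mul, add_mul, hef, hff]
  have e4 : e * (1 - (e + f)) = 0 := by simp [mul_sub, mul_add, hee, hef]
  have e5 : f * (1 - (e + f)) = 0 := by simp [mul_sub, mul_add, hfe, hff]
  simp only [add_mul, mul_add, smul_mul_assoc, mul_smul_comm, e1, e2, e3, e4, e5, hee, hef, hfe, hff, smul_zero,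
    add_zero, zero_add, smul_smul]
  rw [mul_inv_cancel₀ ht, inv_mul_cancel₀ ht, one_smul, one_smul]
  abel

theorem split_detail (h2 : (2 : k) ≠ 0) (hk3 : Nat.card k ≠ 3) (hx : IsQD G x) (hu : IsQ G u)
    (hz : ¬ IsNilpotent (x * u + u * x)) :
    ∃ (n₁ u₁ : M →ₗ[k] M) (c₀ : k) (h : LinearMap.GeneralLinearGroup k M), MP G x n₁ ∧ InC G n₁ u₁ ∧ c₀ ≠ 0 ∧
      (∀ A B : Subgroup (LinearMap.GeneralLinearGroup k M), HasClass G A x → HasClass G B n₁ → h ∈ A ⊔ B) ∧
      ∀ (s : k) (τ : LinearMap.GeneralLinearGroup k M), (τ : M →ₗ[k] M) = 1 + s • u →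
        ((h * τ * h⁻¹ * τ⁻¹ : LinearMap.GeneralLinearGroup k M) : M →ₗ[k] M) = 1 + (s * c₀) • u₁ := by
  obtain ⟨M₀, M₁, N, ζ, hf⟩ := exists_fit hx.q.sq hu.sq
  haveI := hf.nontrivial_of_not_nil hz
  haveI := AA_finite hf.Z₁
  haveI := AA_nontrivial hf.Z₁
  obtain ⟨q, hq, hpure⟩ := hf.exists_pure_ext h2 hk3 hx.q.fam hu.fam
  obtain ⟨hx0, hunit⟩ := hf.vanish_and_unit hq hx (fun c => (hpure c).1)
  have ex : ext hf.hc hf.X₁ = x := hf.ext_restrict hf.x1 hx0
  obtain ⟨q', hq'⟩ := hunit.exists_right_inv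
  have hiq : iot hf.Z₁ q * iot hf.Z₁ q' = 1 := by
    rw [← map_mul, hq', map_one]
  have hiq2 : iot hf.Z₁ q' * iot hf.Z₁ q = 1 := by
    rw [← map_mul, mul_comm, hq', map_one]
  set iq := iot hf.Z₁ q with hiqdef
  set iq' := iot hf.Z₁ q' with hiq'def
  have hcY : Commute hf.Y₁ iq := hf.comm_ι_Y₁ q
  have hcX : Commute hf.X₁ iq := hf.comm_ι_X₁ q
  have hzζ : hf.Z₁ * ζ = 1 := hf.pd.zζ
  have hζz : ζ * hf.Z₁ = 1 := hf.pd.ζz
  have hcZ : Commute hf.Z₁ iq := comm_iot (Commute.refl _) q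
  have hcZ' : Commute hf.Z₁ iq' := comm_iot (Commute.refl _) q'
  -- ranks
  have rk1 : rk (iq * hf.Y₁) = rk hf.Y₁ := by
    apply le_antisymm (rk_mul_le_right _ _)
    calc rk hf.Y₁ = rk (iq' * (iq * hf.Y₁)) := by rw [← mul_assoc, hiq2, one_mul]
      _ ≤ rk (iq * hf.Y₁) := rk_mul_le_right _ _
  have rk2 : rk hf.Y₁ = rk hf.X₁ := by
    have h1 : rk hf.X₁ = rk (ζ * hf.Y₁) := rk_matched hf.pd.matched
    have h3 : rk (ζ * hf.Y₁) ≤ rk hf.Y₁ := rk_mul_le_right _ _
    have h5 : rk hf.Y₁ ≤ rk (ζ * hf.Y₁) := by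
      calc rk hf.Y₁ = rk (hf.Z₁ * (ζ * hf.Y₁)) := by rw [← mul_assoc, hzζ, one_mul]
        _ ≤ rk (ζ * hf.Y₁) := rk_mul_le_right _ _
    omega
  have rk3 : rk x = rk hf.X₁ := by
    have := rk_ext hf.hc hf.X₁
    rwa [ex] at this
  have rk4 : rk hf.Y₁ = rk x := by rw [rk2, rk3]
  -- the minimal element `Y'`
  have hY'q : IsQ G (ext hf.hc (iq * hf.Y₁)) :=
    hf.isQ_ext_of (hf.sq_ι_Y₁ q) (hf.ι_Y₁_ne hq) (fun c => (hpure c).2)
  have rk5 : rk (ext hf.hc (iq * hf.Y₁)) = rk x := by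
    rw [rk_ext, rk1, rk4]
  have hY'D : IsQD G (ext hf.hc (iq * hf.Y₁)) := ⟨hY'q, fun z hz => by rw [rk5]; exact hx.min z hz⟩
  set Y' := ext hf.hc (iq * hf.Y₁) with hY'
  -- its anticommutator with `x`
  have hz'e : x * Y' + Y' * x = ext hf.hc (iq * hf.Z₁) := by
    have e1 : ext hf.hc hf.X₁ * Y' + Y' * ext hf.hc hf.X₁ =
        ext hf.hc (hf.X₁ * (iq * hf.Y₁) + (iq * hf.Y₁) * hf.X₁) := by
      rw [ext_add, ext_mul hf.hc hf.X₁ (iq * hf.Y₁), ext_mul hf.hc (iq * hf.Y₁) hf.X₁]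
    rw [ex] at e1
    rw [e1]
    congr 1
    rw [← mul_assoc, hcX.eq]
    noncomm_ring
  set A := iq * hf.Z₁ with hA
  set B := ζ * iq' with hB
  have hAB : A * B = 1 := by
    calc A * B = iq * (hf.Z₁ * ζ) * iq' := by rw [hA, hB]; noncomm_ring
      _ = 1 := by rw [hzζ, mul_one, hiq]
  have hBA : B * A = 1 := by
    calc B * A = ζ * (iq' * iq) * hf.Z₁ := by rw [hA, hB]; noncomm_ring
      _ = 1 := by rw [hiq2, mul_one, hζz]
  have hnn : ¬ IsNilpotent (x * Y' + Y' * x) := by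
    rw [hz'e]
    rintro ⟨m, hm⟩
    have h1 : ext hf.hc (A ^ (m + 1)) = 0 := by
      rw [ext_pow, pow_succ, hm, zero_mul]
    have h3 : A ^ (m + 1) = 0 := ext_injective hf.hc (by rw [h1, ext_zero])
    have hU : IsUnit A := ⟨⟨A, B, hAB, hBA⟩, rfl⟩
    have h5 := hU.pow (m + 1)
    rw [h3, isUnit_zero_iff] at h5
    obtain ⟨v, hv⟩ := exists_ne (0 : ↥M₁)
    apply hv
    have := LinearMap.congr_fun h5 v
    simpa using this.symm
  obtain ⟨n₁, hn₁, hm, hk, hr⟩ := exists_matched_same h2 hk3 hx hY'D hnn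
  have mp : MP G x n₁ := ⟨hx, hn₁, hm⟩
  have hYn : InC G n₁ Y' := ⟨hY'D, hk.symm, hr.symm⟩
  -- the projection
  have hn0 : ∀ v ∈ M₀, n₁ v = 0 := by
    intro v hv
    have : v ∈ LinearMap.ker n₁ := by
      rw [hk, LinearMap.mem_ker]
      exact ext_apply_zero hf.hc _ hv
    exact this
  have hnM₁ : ∀ v, n₁ v ∈ M₁ := by
    intro v
    have : n₁ v ∈ LinearMap.range Y' := by
      rw [← hr]
      exact ⟨v, rfl⟩
    obtain ⟨a, ha⟩ := this
    rw [← ha]
    exact ext_mem hf.hc _ a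
  have hp0 : ∀ v ∈ M₀, (x * n₁ + n₁ * x) v = 0 := by
    intro v hv
    simp only [LinearMap.add_apply, Module.End.mul_apply]
    rw [hn0 v hv, hx0 v hv]
    simp
  have hp1 : ∀ v ∈ M₁, (x * n₁ + n₁ * x) v = v := by
    intro v hv
    have hzp : (x * Y' + Y' * x) * (x * n₁ + n₁ * x) = x * Y' + Y' * x := by
      have a1 : Y' * (x * n₁ + n₁ * x) = Y' := mp.s_pi hYn
      have a2 : x * (x * n₁ + n₁ * x) = x := hm.x_pi
      calc (x * Y' + Y' * x) * (x * n₁ + n₁ * x)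
          = x * (Y' * (x * n₁ + n₁ * x)) + Y' * (x * (x * n₁ + n₁ * x)) := by noncomm_ring
        _ = x * Y' + Y' * x := by rw [a1, a2]
    have hw : v - (x * n₁ + n₁ * x) v ∈ M₁ := by
      apply M₁.sub_mem hv
      simp only [LinearMap.add_apply, Module.End.mul_apply]
      exact M₁.add_mem (hf.x1 _ (hnM₁ v)) (hnM₁ _)
    have h0 : (x * Y' + Y' * x) (v - (x * n₁ + n₁ * x) v) = 0 := by
      rw [map_sub, ← Module.End.mul_apply, hzp, sub_self]
    rw [hz'e] at h0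
    have h3 := ext_apply_mem hf.hc A ⟨_, hw⟩
    simp only at h3
    rw [h0] at h3
    have h5 : A ⟨_, hw⟩ = 0 := Subtype.ext h3.symm
    have h6 : (⟨_, hw⟩ : ↥M₁) = 0 := by
      have := LinearMap.congr_fun hBA ⟨_, hw⟩
      simp only [Module.End.mul_apply, Module.End.one_apply] at this
      rw [h5, map_zero] at this
      exact this.symm
    have h7 := congrArg Subtype.val h6
    simp only [ZeroMemClass.coe_zero] at h7
    exact (sub_eq_zero.1 h7).symm
  set p := x * n₁ + n₁ * x with hp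
  -- the piece of `u`
  have hu1L : ext hf.hc hf.Y₁ = p * u := by
    apply ext_both hf.hc
    · intro v hv
      rw [ext_apply_zero hf.hc _ hv, Module.End.mul_apply, hp0 _ (hf.y0 v hv)]
    · intro v hv
      have := ext_apply_mem hf.hc hf.Y₁ ⟨v, hv⟩
      simp only at this
      rw [this, Module.End.mul_apply, hp1 _ (hf.y1 v hv)]
      rfl
  have hu1R : ext hf.hc hf.Y₁ = u * p := by
    apply ext_both hf.hc
    · intro v hv
      rw [ext_apply_zero hf.hc _ hv, Module.End.mul_apply, hp0 _ hv, map_zero]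
    · intro v hv
      have := ext_apply_mem hf.hc hf.Y₁ ⟨v, hv⟩
      simp only at this
      rw [this, Module.End.mul_apply, hp1 _ hv]
      rfl
  set u₁ := ext hf.hc hf.Y₁ with hu₁
  have h1 : u₁ = ext hf.hc iq' * Y' := by
    rw [hY', ← ext_mul, ← mul_assoc, hiq2, one_mul]
  have hcY' : Commute hf.Y₁ iq' := hf.comm_ι_Y₁ q'
  have h3 : u₁ = Y' * ext hf.hc iq' := by
    rw [hY', ← ext_mul, mul_assoc, hcY'.eq, ← mul_assoc, hiq, one_mul]
  have hran : LinearMap.range u₁ ≤ LinearMap.range n₁ := by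
    rw [hr]
    rintro _ ⟨v, rfl⟩
    rw [h3]
    exact ⟨_, rfl⟩
  have hker : LinearMap.ker n₁ ≤ LinearMap.ker u₁ := by
    rw [hk]
    intro v hv
    rw [LinearMap.mem_ker] at hv ⊢
    rw [h1, Module.End.mul_apply, hv, map_zero]
  have e2u : (n₁ * x) * u₁ = u₁ := e1_left hm.symm hran
  have ue1 : u₁ * (x * n₁) = u₁ := e2_right hm.symm hker
  have huu := hu.sq
  have huu₁ : u * u₁ = 0 := by rw [hu1R, ← mul_assoc, huu, zero_mul]
  have hu₁u : u₁ * u = 0 := by rw [hu1L, mul_assoc, huu, mul_zero]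
  have hu₁u₁ : u₁ * u₁ = 0 := by
    calc u₁ * u₁ = (p * u) * u₁ := by rw [← hu1L]
      _ = p * (u * u₁) := mul_assoc _ _ _
      _ = 0 := by rw [huu₁, mul_zero]
  -- the torus
  obtain ⟨t, ht0, ht1⟩ := exists_good_t h2 hk3
  obtain ⟨h, hhS, hhG, ev, evi⟩ := exists_torus_sup mp ht0
  have hee : (x * n₁) * (x * n₁) = x * n₁ := hm.e1e1
  have hef : (x * n₁) * (n₁ * x) = 0 := hm.e1e2
  have hfe : (n₁ * x) * (x * n₁) = 0 := hm.e2e1
  have hff : (n₁ * x) * (n₁ * x) = n₁ * x := hm.e2e2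
  have hp1' : (1 - p) * (1 - p) = 1 - p := p_p hm
  have hep : (x * n₁) * (1 - p) = 0 := by
    rw [hp, mul_sub, mul_add, hee, hef]; simp
  have hfp : (n₁ * x) * (1 - p) = 0 := by
    rw [hp, mul_sub, mul_add, hfe, hff]; simp
  have hpe : (1 - p) * (x * n₁) = 0 := by
    rw [hp, sub_mul, add_mul, hee, hfe]; simp
  have hpf : (1 - p) * (n₁ * x) = 0 := by
    rw [hp, sub_mul, add_mul, hef, hff]; simp
  rw [← hp] at ev evi
  set V := (1 - p) + t • (x * n₁) + t⁻¹ • (n₁ * x) with hV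
  set V' := (1 - p) + t⁻¹ • (x * n₁) + t • (n₁ * x) with hV'
  have V1 : V * (1 - p) = 1 - p := by
    rw [hV, add_mul, add_mul, smul_mul_assoc, smul_mul_assoc, hep, hfp, hp1']
    simp
  have V2 : (1 - p) * V' = 1 - p := by
    rw [hV', mul_add, mul_add, mul_smul_comm, mul_smul_comm, hpe, hpf, hp1']
    simp
  have V3 : V * (n₁ * x) = t⁻¹ • (n₁ * x) := by
    rw [hV, add_mul, add_mul, smul_mul_assoc, smul_mul_assoc, hpf, hef, hff]
    simp
  have V4 : (x * n₁) * V' = t⁻¹ • (x * n₁) := by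
    rw [hV', mul_add, mul_add, mul_smul_comm, mul_smul_comm, hep, hee, hef]
    simp
  have V5 : V * V' = 1 := by
    have := val_mul_inv h
    rwa [ev, evi] at this
  have hu0L : u - u₁ = (1 - p) * u := by
    rw [hu1L]; noncomm_ring
  have hu0R : u - u₁ = u * (1 - p) := by
    rw [hu1R]; noncomm_ring
  have D1 : V * (u - u₁) * V' = u - u₁ := by
    calc V * (u - u₁) * V' = (V * (1 - p)) * u * V' := by rw [hu0L]; noncomm_ring
      _ = (u - u₁) * V' := by rw [V1, hu0L]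
      _ = u * ((1 - p) * V') := by rw [hu0R]; noncomm_ring
      _ = u - u₁ := by rw [V2, hu0R]
  have D2 : V * u₁ * V' = (t⁻¹ * t⁻¹) • u₁ := by
    have e0 : u₁ = (n₁ * x) * u₁ * (x * n₁) := by rw [e2u, ue1]
    calc V * u₁ * V' = V * ((n₁ * x) * u₁ * (x * n₁)) * V' := by rw [← e0]
      _ = (V * (n₁ * x)) * u₁ * ((x * n₁) * V') := by noncomm_ring
      _ = (t⁻¹ • (n₁ * x)) * u₁ * (t⁻¹ • (x * n₁)) := by rw [V3, V4]
      _ = (t⁻¹ * t⁻¹) • ((n₁ * x) * u₁ * (x * n₁)) := by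
          simp only [smul_mul_assoc, mul_smul_comm, smul_smul]
      _ = (t⁻¹ * t⁻¹) • u₁ := by rw [← e0]
  have D3 : V * u * V' = (u - u₁) + (t⁻¹ * t⁻¹) • u₁ := by
    rw [← D1, ← D2]
    noncomm_ring
  have hDu : ((u - u₁) + (t⁻¹ * t⁻¹) • u₁) * u = 0 := by
    rw [add_mul, sub_mul, smul_mul_assoc, huu, hu₁u]
    simp
  have hr1 : t⁻¹ * t⁻¹ - 1 ≠ 0 := by
    intro h0
    apply ht1
    have e1 : (t * t) * (t⁻¹ * t⁻¹) = 1 := by field_simp
    rw [sub_eq_zero.1 h0, mul_one] at e1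
    exact e1
  set r := t⁻¹ * t⁻¹ with hrdef
  have hval : ∀ (s : k) (τ : LinearMap.GeneralLinearGroup k M), (τ : M →ₗ[k] M) = 1 + s • u →
      ((h * τ * h⁻¹ * τ⁻¹ : LinearMap.GeneralLinearGroup k M) : M →ₗ[k] M) = 1 + (s * (r - 1)) • u₁ := by
    intro s τ eτ
    have hsq : (s • u) * (s • u) = 0 := by
      rw [smul_mul_smul_comm, huu, smul_zero]
    have eτi := val_inv_of_sq eτ hsq
    simp only [Units.val_mul]
    rw [ev, evi, eτ, eτi]
    have e1 : V * (1 + s • u) * V' = 1 + s • ((u - u₁) + r • u₁) := by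
      have e0 : V * (1 + s • u) * V' = V * V' + s • (V * u * V') := by
        simp only [mul_add, add_mul, mul_one, smul_mul_assoc, mul_smul_comm]
      rw [e0, V5, D3]
    rw [e1, mul_aux, hDu]
    simp only [smul_zero, sub_zero, smul_add, smul_sub, smul_smul, add_smul, sub_smul, mul_sub, mul_one, one_smul]
    abel
  have hfam1 : ∀ s : k, G1 G ((s * (r - 1)) • u₁) := by
    intro s
    obtain ⟨τ, hτ, eτ⟩ := hu.fam s
    exact ⟨h * τ * h⁻¹ * τ⁻¹, G.mul_mem (G.mul_mem (G.mul_mem hhG hτ) (G.inv_mem hhG)) (G.inv_mem hτ), hval s τ eτ⟩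
  have hfam2 : ∀ c : k, G1 G (c • u₁) := by
    intro c
    have := hfam1 (c / (r - 1))
    rwa [div_mul_cancel₀ _ hr1] at this
  have hne1 : u₁ ≠ 0 := by
    intro h0
    have h5 : hf.Y₁ = 0 := ext_injective hf.hc (by rw [← hu₁, h0, ext_zero])
    apply hf.ι_Y₁_ne hq
    rw [h5, mul_zero]
  have hrk1 : rk u₁ = rk x := by
    rw [hu₁, rk_ext, rk4]
  have hu₁D : IsQD G u₁ := ⟨⟨hu₁u₁, hne1, hfam2⟩, fun z hz => by rw [hrk1]; exact hx.min z hz⟩
  exact ⟨n₁, u₁, r - 1, h, mp, same_of_le hu₁D hn₁ hker hran, hr1, hhS, hval⟩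

/-- A part of `Σ` closed under adjacency whose complement commutes with it. -/
structure Comp (G : Subgroup (LinearMap.GeneralLinearGroup k M))
    (P : Set (Subgroup (LinearMap.GeneralLinearGroup k M))) (H : Subgroup (LinearMap.GeneralLinearGroup k M)) : Prop where
  sub : P ⊆ quadraticRootSubgroups G
  adj : ∀ A ∈ P, ∀ B ∈ quadraticRootSubgroups G, IsRankOnePair A B → B ∈ P
  other : ∀ A ∈ P, ∀ B ∈ quadraticRootSubgroups G, B ∉ P → ∀ a ∈ A, ∀ b ∈ B, a * b = b * a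
  hH : H = ⨆ A ∈ P, A

variable {P : Set (Subgroup (LinearMap.GeneralLinearGroup k M))} {H N : Subgroup (LinearMap.GeneralLinearGroup k M)}

namespace Comp

variable (hC : Comp G P H)
include hC

lemma le_of_mem {A : Subgroup (LinearMap.GeneralLinearGroup k M)} (hA : A ∈ P) : A ≤ H := by
  rw [hC.hH]
  exact le_iSup₂_of_le A hA le_rfl

lemma le_sigma : H ≤ ⨆ A ∈ quadraticRootSubgroups G, A := by
  rw [hC.hH]
  exact iSup₂_le fun A hA => le_iSup₂_of_le A (hC.sub hA) le_rfl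

lemma le_G : H ≤ G := by
  rw [hC.hH]
  exact iSup₂_le fun A hA => le_G_of_sigma (hC.sub hA)

lemma comm_H {E : Subgroup (LinearMap.GeneralLinearGroup k M)} (hE : E ∈ quadraticRootSubgroups G) (hE' : E ∉ P)
    {e h : LinearMap.GeneralLinearGroup k M} (he : e ∈ E) (hh : h ∈ H) : e * h = h * e := by
  have h1 : H ≤ Subgroup.centralizer ({e} : Set (LinearMap.GeneralLinearGroup k M)) := by
    rw [hC.hH]
    refine iSup₂_le fun A hA a ha => ?_
    rw [Subgroup.mem_centralizer_singleton_iff]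
    exact hC.other A hA E hE hE' a ha e he
  have := Subgroup.mem_centralizer_singleton_iff.1 (h1 hh)
  exact this.symm

end Comp

/-- The key: a family in a normal subgroup meeting no member vanishes. -/
theorem Qprime (h2 : (2 : k) ≠ 0) (hk3 : Nat.card k ≠ 3) (hG : IsQuadraticPair G) (hC : Comp G P H)
    (hNH : N ≤ H) (hNn : ∀ h ∈ H, ∀ g ∈ N, h * g * h⁻¹ ∈ N) (hno : ∀ E ∈ P, ∀ e ∈ E, e ∈ N → e = 1)
    (hsq : u * u = 0) (hfam : ∀ c : k, ∃ τ ∈ N, (τ : M →ₗ[k] M) = 1 + c • u) : u = 0 := by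
  by_contra hne
  have hHG := hC.le_G
  have hu : IsQ G u := ⟨hsq, hne, fun c => by
    obtain ⟨τ, hτ, e⟩ := hfam c
    exact ⟨τ, hHG (hNH hτ), e⟩⟩
  obtain ⟨τ₁, hτ₁, e₁⟩ := hfam 1
  rw [one_smul] at e₁
  by_cases hex : ∃ t, IsQD G t ∧ ¬ IsNilpotent (t * u + u * t)
  · obtain ⟨t, ht, hz⟩ := hex
    have hEt := exists_hasClass ht
    have hEtS := sigma_of_qd ht
    set Et := sameActionSubgroup G (unitOfSq t ht.q.sq) with hEtd
    have hEtP : Et ∈ P := by
      by_contra hn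
      have hc := hC.comm_H hEtS hn (unit_mem_of_inC hEt ht.q.sq (InC.refl ht)) (hNH hτ₁)
      have hc' : t * u = u * t := by
        have h5 := congrArg (fun g : LinearMap.GeneralLinearGroup k M => (g : M →ₗ[k] M)) hc
        simp only [Units.val_mul, unitOfSq_val] at h5
        rw [e₁] at h5
        have e1 : (1 + t) * (1 + u) = 1 + t + u + t * u := by noncomm_ring
        have e2 : (1 + u) * (1 + t) = 1 + t + u + u * t := by noncomm_ring
        rw [e1, e2] at h5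
        exact add_left_cancel h5
      apply hz
      refine ⟨2, ?_⟩
      rw [← hc', sq]
      have e3 : (t * u + t * u) * (t * u + t * u) = 4 • (t * (u * t) * u) := by noncomm_ring
      rw [e3, ← hc']
      have e4 : t * (t * u) * u = (t * t) * (u * u) := by noncomm_ring
      rw [e4, ht.q.sq]
      simp
    obtain ⟨n₁, u₁, c₀, h, hmp, hin, hc₀, hh, hval⟩ := split_detail h2 hk3 ht hu hz
    have hEn := exists_hasClass hmp.hn
    have hEnS := sigma_of_qd hmp.hn
    have hr := (special_pair h2 hk3 hmp hEt hEn).1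
    have hEnP := hC.adj _ hEtP _ hEnS hr
    have hhH : h ∈ H := (sup_le (hC.le_of_mem hEtP) (hC.le_of_mem hEnP)) (hh _ _ hEt hEn)
    have hm : h * τ₁ * h⁻¹ * τ₁⁻¹ ∈ N := N.mul_mem (hNn h hhH τ₁ hτ₁) (N.inv_mem hτ₁)
    have ev := hval 1 τ₁ (by rw [one_smul, e₁])
    have hin' : InC G n₁ ((1 * c₀) • u₁) := hin.smul (by simpa using hc₀)
    have hmemE := mem_of_inC hEn ev hin'
    have h1 := hno _ hEnP _ hmemE hm
    apply hin'.qd.q.ne
    have h5 : ((h * τ₁ * h⁻¹ * τ₁⁻¹ : LinearMap.GeneralLinearGroup k M) : M →ₗ[k] M) = 1 := by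
      rw [h1]; rfl
    rw [ev] at h5
    have h6 : (1 : M →ₗ[k] M) + (1 * c₀) • u₁ = 1 + 0 := by
      rw [add_zero]
      exact h5
    exact add_left_cancel h6
  · push Not at hex
    have hcen : ∀ x, IsQD G x → x * u = u * x := fun x hx => central_of_all_nil h2 hk3 hG hu hex hx
    have hG₀ : (⨆ A ∈ quadraticRootSubgroups G, A) ≤ Subgroup.centralizer ({τ₁} : Set (LinearMap.GeneralLinearGroup k M)) := by
      apply iSup₂_le
      intro A hA a ha
      obtain ⟨x, hx, hA'⟩ := mem_sigma hA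
      rw [Subgroup.mem_centralizer_singleton_iff]
      rcases (hA' a).1 ha with rfl | h5
      · simp
      · exact unit_comm (val_of_tt a) e₁ (hcen _ h5.qd)
    have hτG₀ := hC.le_sigma (hNH hτ₁)
    have hall : G ≤ Subgroup.centralizer ({τ₁} : Set (LinearMap.GeneralLinearGroup k M)) := by
      rw [← sup_centralizer_eq h2 hk3 hG]
      apply sup_le hG₀
      intro z hz
      rw [Subgroup.mem_centralizer_singleton_iff]
      exact (Subgroup.mem_centralizer_iff.1 hz.2 τ₁ hτG₀).symm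
    have hcomm : ∀ g ∈ G, (g : M →ₗ[k] M) * u = u * (g : M →ₗ[k] M) := by
      intro g hg
      have h5 := Subgroup.mem_centralizer_singleton_iff.1 (hall hg)
      have h6 := congrArg (fun g : LinearMap.GeneralLinearGroup k M => (g : M →ₗ[k] M)) h5
      simp only [Units.val_mul] at h6
      rw [e₁] at h6
      have e1 : (g : M →ₗ[k] M) * (1 + u) = (g : M →ₗ[k] M) + (g : M →ₗ[k] M) * u := by noncomm_ring
      have e2 : (1 + u) * (g : M →ₗ[k] M) = (g : M →ₗ[k] M) + u * (g : M →ₗ[k] M) := by noncomm_ring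
      rw [e1, e2] at h6
      exact add_left_cancel h6
    have hinv : ∀ g ∈ G, ∀ w ∈ LinearMap.ker u, (g : M →ₗ[k] M) w ∈ LinearMap.ker u := by
      intro g hg w hw
      rw [LinearMap.mem_ker] at hw ⊢
      have := LinearMap.congr_fun (hcomm g hg) w
      simp only [Module.End.mul_apply] at this
      rw [← this, hw, map_zero]
    rcases hG.1.2 _ hinv with h5 | h5
    · apply hne
      ext v
      have : u v ∈ LinearMap.ker u := by
        rw [LinearMap.mem_ker]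
        have := LinearMap.congr_fun hsq v
        simpa using this
      rw [h5, Submodule.mem_bot] at this
      simpa using this
    · apply hne
      exact LinearMap.ker_eq_top.1 h5

/-- Value of a conjugate. -/
lemma val_conj {g a : LinearMap.GeneralLinearGroup k M} {t : M →ₗ[k] M} (e : (a : M →ₗ[k] M) = 1 + t) :
    ((g * a * g⁻¹ : LinearMap.GeneralLinearGroup k M) : M →ₗ[k] M) = 1 + cj g t := by
  rw [Units.val_mul, Units.val_mul, e, mul_add, add_mul, mul_one, val_mul_inv]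
  rfl

lemma val_comm_elt {g a : LinearMap.GeneralLinearGroup k M} {t : M →ₗ[k] M} (e : (a : M →ₗ[k] M) = 1 + t)
    (hsq : t * t = 0) :
    ((a * g * a⁻¹ * g⁻¹ : LinearMap.GeneralLinearGroup k M) : M →ₗ[k] M) = (1 + t) * (1 - cj g t) := by
  have h1 : a * g * a⁻¹ * g⁻¹ = a * (g * a⁻¹ * g⁻¹) := by group
  have h3 := val_inv_of_sq e hsq
  have h5 : ((g * a⁻¹ * g⁻¹ : LinearMap.GeneralLinearGroup k M) : M →ₗ[k] M) = 1 + cj g (-t) :=
    val_conj (by rw [h3, sub_eq_add_neg])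
  rw [h1, Units.val_mul, h5, e, cj_neg, sub_eq_add_neg]

lemma val_comm_elt_inv {g a : LinearMap.GeneralLinearGroup k M} {t : M →ₗ[k] M} (e : (a : M →ₗ[k] M) = 1 + t)
    (hsq : t * t = 0) :
    (((a * g * a⁻¹ * g⁻¹)⁻¹ : LinearMap.GeneralLinearGroup k M) : M →ₗ[k] M) = (1 + cj g t) * (1 - t) := by
  have h1 : (a * g * a⁻¹ * g⁻¹)⁻¹ = (g * a * g⁻¹) * a⁻¹ := by group
  rw [h1, Units.val_mul, val_conj e, val_inv_of_sq e hsq]

lemma comm_mem_N (hNn : ∀ h ∈ H, ∀ g ∈ N, h * g * h⁻¹ ∈ N) {a g : LinearMap.GeneralLinearGroup k M} (ha : a ∈ H)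
    (hg : g ∈ N) : a * g * a⁻¹ * g⁻¹ ∈ N :=
  N.mul_mem (hNn a ha g hg) (N.inv_mem hg)

lemma two_reg (h2 : (2 : k) ≠ 0) (z : M →ₗ[k] M) (hz : z + z = 0) : z = 0 := by
  have : (2 : k) • z = 0 := by rw [two_smul, hz]
  exact (smul_eq_zero.1 this).resolve_left h2

lemma unit_smul_mem (hA : HasClass G A x) (hx : IsQD G x) (c : k) :
    ∃ a ∈ A, (a : M →ₗ[k] M) = 1 + c • x := by
  by_cases hc : c = 0
  · subst hc
    exact ⟨1, A.one_mem, by simp⟩
  · have hsq : (c • x) * (c • x) = 0 := by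
      rw [smul_mul_smul_comm, hx.q.sq, smul_zero]
    exact ⟨unitOfSq (c • x) hsq, unit_mem_of_inC hA hsq ((InC.refl hx).smul hc), rfl⟩

/-- Elements of a normal subgroup meeting no member, whose conjugates of members commute with the members, are central. -/
theorem central_of_no_meet (h2 : (2 : k) ≠ 0) (hk3 : Nat.card k ≠ 3) (hG : IsQuadraticPair G) (hC : Comp G P H)
    (hNH : N ≤ H) (hNn : ∀ h ∈ H, ∀ g ∈ N, h * g * h⁻¹ ∈ N) (hno : ∀ E ∈ P, ∀ e ∈ E, e ∈ N → e = 1)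
    (hcomm : ∀ C ∈ P, ∀ g ∈ N, ∀ a ∈ C, ∀ b ∈ C, a * (g * b * g⁻¹) = (g * b * g⁻¹) * a) :
    ∀ g ∈ N, ∀ h ∈ H, g * h = h * g := by
  intro g hg
  suffices hs : ∀ C ∈ P, ∀ c ∈ C, g * c = c * g by
    have h1 : H ≤ Subgroup.centralizer ({g} : Set (LinearMap.GeneralLinearGroup k M)) := by
      rw [hC.hH]
      refine iSup₂_le fun A hA a ha => ?_
      rw [Subgroup.mem_centralizer_singleton_iff]
      exact (hs A hA a ha).symm
    intro h hh
    exact (Subgroup.mem_centralizer_singleton_iff.1 (h1 hh)).symm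
  intro C hCP c hc
  by_cases hc1 : c = 1
  · rw [hc1]; simp
  obtain ⟨x₀, hx₀, hA₀⟩ := mem_sigma (hC.sub hCP)
  have hin : InC G x₀ (tt c) := ((hA₀ c).1 hc).resolve_left hc1
  set x := tt c with hxd
  have hx : IsQD G x := hin.qd
  have hA : HasClass G C x := hA₀.of_inC hx₀ hin
  have evc : (c : M →ₗ[k] M) = 1 + x := val_of_tt c
  obtain ⟨y₁, hy₁, hz⟩ := exists_partner (four_ne h2) hG hx
  obtain ⟨n, hn, hm, -, -⟩ := exists_matched_same h2 hk3 hx hy₁ hz
  have hmp : MP G x n := ⟨hx, hn, hm⟩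
  have hB := exists_hasClass hn
  have hBS := sigma_of_qd hn
  set B := sameActionSubgroup G (unitOfSq n hn.q.sq) with hBd
  have hr := (special_pair h2 hk3 hmp hA hB).1
  have hBP : B ∈ P := hC.adj _ hCP _ hBS hr
  have hgG : g ∈ G := hC.le_G (hNH hg)
  have hcH : c ∈ H := hC.le_of_mem hCP hc
  set y := cj g x with hyd
  have hxx : x * x = 0 := hx.q.sq
  have hyy : y * y = 0 := by rw [hyd, ← cj_mul, hxx, cj_zero]
  -- `x` and `y` commute
  have hxy : x * y = y * x := by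
    have h1 := hcomm C hCP g hg c hc c hc
    have h3 := congrArg (fun g : LinearMap.GeneralLinearGroup k M => (g : M →ₗ[k] M)) h1
    simp only [Units.val_mul (c) (g * c * g⁻¹), Units.val_mul (g * c * g⁻¹) c] at h3
    rw [val_conj evc, evc] at h3
    have e1 : (1 + x) * (1 + y) = 1 + x + y + x * y := by noncomm_ring
    have e2 : (1 + y) * (1 + x) = 1 + x + y + y * x := by noncomm_ring
    rw [e1, e2] at h3
    exact add_left_cancel h3
  -- the first claim
  have hb1 : unitOfSq n hn.q.sq ∈ B := unit_mem_of_inC hB hn.q.sq (InC.refl hn)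
  have hg₁ := comm_mem_N hNn hcH hg
  have hnyn : n * (y * n) = n := by
    have h1 := hcomm B hBP _ hg₁ _ hb1 _ hb1
    set g₁ := c * g * c⁻¹ * g⁻¹ with hg₁d
    have ev1 : (g₁ : M →ₗ[k] M) = (1 + x) * (1 - y) := val_comm_elt evc hxx
    have ev2 : ((g₁⁻¹ : LinearMap.GeneralLinearGroup k M) : M →ₗ[k] M) = (1 + y) * (1 - x) := val_comm_elt_inv evc hxx
    have evb : ((unitOfSq n hn.q.sq : LinearMap.GeneralLinearGroup k M) : M →ₗ[k] M) = 1 + n := unitOfSq_val n hn.q.sq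
    have h3 := congrArg (fun g : LinearMap.GeneralLinearGroup k M => (g : M →ₗ[k] M)) h1
    simp only [Units.val_mul (unitOfSq n hn.q.sq) (g₁ * unitOfSq n hn.q.sq * g₁⁻¹),
      Units.val_mul (g₁ * unitOfSq n hn.q.sq * g₁⁻¹) (unitOfSq n hn.q.sq)] at h3
    rw [val_conj evb, evb] at h3
    have h5 : cj g₁ n = (1 + x) * (1 - y) * n * ((1 + y) * (1 - x)) := by
      unfold cj
      rw [ev1, ev2]
    rw [h5] at h3
    set n₁ := (1 + x) * (1 - y) * n * ((1 + y) * (1 - x)) with hn₁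
    have e1 : (1 + n) * (1 + n₁) = 1 + n + n₁ + n * n₁ := by noncomm_ring
    have e2 : (1 + n₁) * (1 + n) = 1 + n + n₁ + n₁ * n := by noncomm_ring
    rw [e1, e2] at h3
    have h6 : n * n₁ = n₁ * n := add_left_cancel h3
    have hc1 : C1 x n y := ⟨hxx, hn.q.sq, hyy, hxy.symm, by rw [← mul_assoc, hm.xnx], by rw [← mul_assoc, hm.nxn]⟩
    exact hc1.main (two_reg h2) h6.symm
  have hyny : y * (n * y) = y := by
    apply yny_of_nyn hnyn
    rw [hyd, rk_cj, rk_matched hm]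
  -- the second part
  set p := 1 - (x * n + n * x) with hp
  have hc2 : C2 x n y p := ⟨hxx, hn.q.sq, hyy, hxy.symm, by rw [← mul_assoc, hm.xnx], by rw [← mul_assoc, hm.nxn],
    hyny, hnyn, rfl⟩
  obtain ⟨h₀, hh₀, -, ev₀, evi₀⟩ := exists_torus_sup hmp (t := -1) (neg_ne_zero.2 one_ne_zero)
  have hh₀H : h₀ ∈ H := (sup_le (hC.le_of_mem hCP) (hC.le_of_mem hBP)) (hh₀ _ _ hA hB)
  set s := p - (x * n + n * x) with hs
  have ev₀' : (h₀ : M →ₗ[k] M) = s := by
    rw [ev₀, hs, hp]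
    simp only [inv_neg, inv_one, neg_smul, one_smul]
    abel
  have evi₀' : ((h₀⁻¹ : LinearMap.GeneralLinearGroup k M) : M →ₗ[k] M) = s := by
    rw [evi₀, hs, hp]
    simp only [inv_neg, inv_one, neg_smul, one_smul]
    abel
  have hss : s * s = 1 := hc2.ss_sq
  have hsx : s * (x * s) = x := hc2.ss_x
  have hsa : s * (C2.al x n y p * s) = C2.al x n y p := hc2.ss_al
  have hsb : s * (C2.be x n y p * s) = - C2.be x n y p := hc2.ss_be
  have hsy : s * (y * s) = x + C2.al x n y p - C2.be x n y p := by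
    have e1 : y = x + C2.al x n y p + C2.be x n y p := hc2.decomp
    calc s * (y * s) = s * ((x + C2.al x n y p + C2.be x n y p) * s) := by rw [← e1]
      _ = s * (x * s) + s * (C2.al x n y p * s) + s * (C2.be x n y p * s) := by noncomm_ring
      _ = _ := by rw [hsx, hsa, hsb]; abel
  -- the scaled commutators
  have hgc : ∀ c₁ : k, ∃ τ ∈ N, (τ : M →ₗ[k] M) = (1 + c₁ • x) * (1 - c₁ • y) := by
    intro c₁
    obtain ⟨a, ha, ea⟩ := unit_smul_mem hA hx c₁
    refine ⟨a * g * a⁻¹ * g⁻¹, comm_mem_N hNn (hC.le_of_mem hCP ha) hg, ?_⟩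
    rw [val_comm_elt ea (by rw [smul_mul_smul_comm, hxx, smul_zero]), cj_smul]
  have halpha : C2.al x n y p = 0 := by
    apply Qprime h2 hk3 hG hC hNH hNn hno hc2.al_al
    intro c
    obtain ⟨τ, hτ, eτ⟩ := hgc (-(c / 2))
    refine ⟨τ * (h₀ * τ * h₀⁻¹), N.mul_mem hτ (hNn h₀ hh₀H τ hτ), ?_⟩
    set c₁ := -(c / 2) with hc₁
    have e1 : ((h₀ * τ * h₀⁻¹ : LinearMap.GeneralLinearGroup k M) : M →ₗ[k] M) =
        (1 + c₁ • x) * (1 - c₁ • (x + C2.al x n y p - C2.be x n y p)) := by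
      rw [Units.val_mul, Units.val_mul, ev₀', evi₀', eτ]
      have e3 : s * ((1 + c₁ • x) * (1 - c₁ • y)) * s = (s * (1 + c₁ • x) * s) * (s * (1 - c₁ • y) * s) := by
        calc s * ((1 + c₁ • x) * (1 - c₁ • y)) * s = s * (1 + c₁ • x) * 1 * (1 - c₁ • y) * s := by noncomm_ring
          _ = s * (1 + c₁ • x) * (s * s) * (1 - c₁ • y) * s := by rw [hss]
          _ = _ := by noncomm_ring
      have e5 : s * (1 + c₁ • x) * s = 1 + c₁ • x := by
        calc s * (1 + c₁ • x) * s = s * s + c₁ • (s * (x * s)) := by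
              simp only [mul_add, add_mul, mul_one, smul_mul_assoc, mul_smul_comm, mul_assoc]
          _ = _ := by rw [hss, hsx]
      have e6 : s * (1 - c₁ • y) * s = 1 - c₁ • (x + C2.al x n y p - C2.be x n y p) := by
        calc s * (1 - c₁ • y) * s = s * s - c₁ • (s * (y * s)) := by
              simp only [mul_sub, sub_mul, mul_one, smul_mul_assoc, mul_smul_comm, mul_assoc]
          _ = _ := by rw [hss, hsy]
      rw [e3, e5, e6]
    rw [Units.val_mul, eτ, e1, hc2.identity c₁]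
    have e7 : c₁ + c₁ = -c := by
      rw [hc₁]
      field_simp
      ring
    rw [e7, neg_smul, sub_neg_eq_add]
  have hxy' : x - y = 0 := by
    apply Qprime h2 hk3 hG hC hNH hNn hno (hc2.sq_of_al_zero halpha)
    intro c'
    obtain ⟨τ, hτ, eτ⟩ := hgc c'
    refine ⟨τ, hτ, ?_⟩
    rw [eτ, hc2.of_al_zero halpha c']
  have hfin : g * c * g⁻¹ = c := by
    apply Units.ext
    rw [val_conj evc, evc, ← hyd, ← sub_eq_zero.1 hxy']
  calc g * c = (g * c * g⁻¹) * g := by group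
    _ = c * g := by rw [hfin]

end Cfsg.Agent.Lib.RootSubgroups.QuadSimple
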