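/-
The quasisimplicity criterion for groups generated by abstract root subgroups (S5033).
-/
import Mathlib
import Cfsg.Prelude.Def_RootSubgroups
import Cfsg.Agent.Lib.RootSubgroups.SpecialCalc
import Cfsg.Agent.Lib.RootSubgroups.BlockPair
import Cfsg.Agent.Lib.Components.Basic

set_option autoImplicit false

namespace Cfsg.Agent.Lib.RootSubgroups.Quasi

open Cfsg Cfsg.Agent.Lib.RootSubgroups.RankOne Cfsg.Agent.Lib.RootSubgroups.Abstract
  Cfsg.Agent.Lib.RootSubgroups.LineConn Cfsg.Agent.Lib.RootSubgroups.Nondeg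
  Cfsg.Agent.Lib.RootSubgroups.SpecialCalc Cfsg.Agent.Lib.RootSubgroups.Incomparable
open scoped commutatorElement

variable {G : Type*} [Group G] {S : Set (Subgroup G)} {P Q C : Subgroup G}

lemma commutator_le_of_sup {N P : Subgroup G} (hN : N.Normal) (hP : ∀ x ∈ P, ∀ y ∈ P, x * y = y * x) :
    ⁅N ⊔ P, N ⊔ P⁆ ≤ N := by
  rw [Subgroup.commutator_le]
  intro g hg h hh
  obtain ⟨n₁, hn₁, p₁, hp₁, rfl⟩ := Subgroup.mem_sup_of_normal_left.1 hg
  obtain ⟨n₂, hn₂, p₂, hp₂, rfl⟩ := Subgroup.mem_sup_of_normal_left.1 hh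
  have hone : ∀ n ∈ N, QuotientGroup.mk' N n = 1 := fun n hn =>
    (QuotientGroup.eq_one_iff n).2 hn
  have hc : QuotientGroup.mk' N p₁ * QuotientGroup.mk' N p₂ =
      QuotientGroup.mk' N p₂ * QuotientGroup.mk' N p₁ := by
    rw [← map_mul, ← map_mul, hP p₁ hp₁ p₂ hp₂]
  rw [← QuotientGroup.eq_one_iff]
  change QuotientGroup.mk' N ⁅n₁ * p₁, n₂ * p₂⁆ = 1
  rw [commutatorElement_def]
  simp only [map_mul, map_inv, hone n₁ hn₁, hone n₂ hn₂, one_mul]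
  rw [hc]
  group

/-- Non-identity elements of a rank one pair never commute. -/
lemma not_commute_elts (h : IsRankOnePair P Q) {a b : G} (ha : a ∈ P) (ha1 : a ≠ 1) (hb : b ∈ Q)
    (hb1 : b ≠ 1) : a * b ≠ b * a := by
  intro hc
  have hne : conjBy P b ≠ P := fun h1 => hb1 (eq_one_of_conjBy_eq' h hb h1)
  have hC : conjBy P b ∈ unipotentSubgroups P Q :=
    conjBy_mem_unipotent left_mem_unipotent (Subgroup.mem_sup_right hb)
  have hr := isRankOnePair_of_unipotent h hC left_mem_unipotent hne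
  have hm : a ∈ conjBy P b ⊓ P := by
    refine ⟨?_, ha⟩
    have := conj_mem_conjBy ha b
    have e : b * a * b⁻¹ = a := by rw [← hc]; group
    rwa [e] at this
  rw [inf_eq_bot hr] at hm
  exact ha1 hm

/-- Degenerate step: a normal subgroup containing `q q'⁻¹` contains `q`. -/
lemma deg_step {N : Subgroup G} (hN : N.Normal) (hP : SP P Q) (hc : 3 < ENat.card P) {q q' : G}
    (hq : q ∈ P) (hq' : q' ∈ Q) (hq'1 : q' ≠ 1) (hz : q * q'⁻¹ ∈ N) : q ∈ N := by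
  have hz' : q'⁻¹ * q ∈ N := by
    have := hN.conj_mem _ hz q⁻¹
    have e : q⁻¹ * (q * q'⁻¹) * q⁻¹⁻¹ = q'⁻¹ * q := by group
    rwa [e] at this
  set z := q'⁻¹ * q with hzd
  have h1 : conjBy P z = conjBy P q'⁻¹ := by
    rw [hzd, ← conjBy_conjBy, conjBy_of_mem hq]
  have hne : conjBy P z ≠ P := by
    rw [h1]
    intro h2
    have := eq_one_of_conjBy_eq' hP.rk (Q.inv_mem hq') h2
    exact hq'1 (inv_eq_one.1 this)
  have hzX : z ∈ P ⊔ Q := Subgroup.mul_mem _ (Subgroup.mem_sup_right (Q.inv_mem hq'))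
    (Subgroup.mem_sup_left hq)
  obtain ⟨x, hx, hx1, hx2⟩ := exists_carry hP.rk left_mem_unipotent
    (conjBy_mem_unipotent left_mem_unipotent hzX) hne.symm
  have hm : x * z * x⁻¹ ∈ N := hN.conj_mem z hz' x
  have hB : conjBy P (x * z * x⁻¹) = Q := by
    rw [← hx1, conjBy_conjBy]
    have : x * z * x⁻¹ * x = x * z := by group
    rw [this, ← conjBy_conjBy, hx2]
  have hQle : Q ≤ N ⊔ P := by
    rw [← hB]
    rintro _ ⟨a, ha, rfl⟩
    change x * z * x⁻¹ * a * (x * z * x⁻¹)⁻¹ ∈ N ⊔ P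
    exact Subgroup.mul_mem _ (Subgroup.mul_mem _ (Subgroup.mem_sup_left hm)
      (Subgroup.mem_sup_right ha)) (Subgroup.inv_mem _ (Subgroup.mem_sup_left hm))
  have hX : P ⊔ Q ≤ N ⊔ P := sup_le le_sup_right hQle
  have h2 : ⁅P ⊔ Q, P ⊔ Q⁆ ≤ N :=
    (Subgroup.commutator_mono hX hX).trans (commutator_le_of_sup hN hP.ca)
  exact h2 (hP.left_le_comm hc hq)

/-- The commutator step. -/
lemma comm_step {N : Subgroup G} (hN : N.Normal) (hcase : RootCommutatorCase S Q C) (hS : IsRootSubgroupSet S)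
    (hPC : ⁅P, C⁆ = ⊥) {q q' : G} (hq : q ∈ P) (hq' : q' ∈ Q) (hq'1 : q' ≠ 1) (hz : q * q'⁻¹ ∈ N) :
    ∃ E ∈ S, ∃ e ∈ E, e ≠ 1 ∧ e ∈ N := by
  obtain ⟨hE, -, h3, -⟩ := hcase
  have hcl := h3 q'⁻¹ (Q.inv_mem hq') (inv_ne_one.2 hq'1)
  have hne : ⁅Q, C⁆ ≠ ⊥ := hS.ne_bot _ hE
  obtain ⟨c, hc, hc1⟩ : ∃ c ∈ C, q'⁻¹ * c * q'⁻¹⁻¹ * c⁻¹ ≠ 1 := by
    by_contra hno
    push Not at hno
    apply hne
    rw [← hcl, Subgroup.closure_eq_bot_iff]
    rintro _ ⟨c, hc, rfl⟩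
    exact hno c hc
  refine ⟨_, hE, q'⁻¹ * c * q'⁻¹⁻¹ * c⁻¹, ?_, hc1, ?_⟩
  · rw [← hcl]
    exact Subgroup.subset_closure ⟨c, hc, rfl⟩
  · have hqc : q⁻¹ * c⁻¹ = c⁻¹ * q⁻¹ := by
      have := commute_of_bot hPC (P.inv_mem hq) (C.inv_mem hc)
      exact this
    have h1 : (q * q'⁻¹) * c * (q * q'⁻¹)⁻¹ * c⁻¹ ∈ N := by
      have e0 : (q * q'⁻¹) * c * (q * q'⁻¹)⁻¹ * c⁻¹ = (q * q'⁻¹) * (c * (q * q'⁻¹)⁻¹ * c⁻¹) := by group
      rw [e0]
      exact N.mul_mem hz (hN.conj_mem _ (N.inv_mem hz) c)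
    have e : (q * q'⁻¹) * c * (q * q'⁻¹)⁻¹ * c⁻¹ = q * (q'⁻¹ * c * q'⁻¹⁻¹ * c⁻¹) * q⁻¹ := by
      calc (q * q'⁻¹) * c * (q * q'⁻¹)⁻¹ * c⁻¹ = q * q'⁻¹ * c * q' * (q⁻¹ * c⁻¹) := by group
        _ = q * q'⁻¹ * c * q' * (c⁻¹ * q⁻¹) := by rw [hqc]
        _ = _ := by group
    rw [e] at h1
    have h2 := hN.conj_mem _ h1 q⁻¹
    have e2 : q⁻¹ * (q * (q'⁻¹ * c * q'⁻¹⁻¹ * c⁻¹) * q⁻¹) * q⁻¹⁻¹ = q'⁻¹ * c * q'⁻¹⁻¹ * c⁻¹ := by
      group
    rwa [e2] at h2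

/-- A non-degenerate consequence. -/
lemma nondeg_of_not_deg (hS : IsRootSubgroupSet S) (hdeg : ¬ IsDegenerateRootSet S)
    (hr : ∃ A ∈ S, ∃ B ∈ S, IsRankOnePair A B) : IsNondegenerateRootSet S := by
  unfold IsDegenerateRootSet at hdeg
  push Not at hdeg
  obtain ⟨P, hP, Q, hQ, h⟩ := hdeg
  refine ⟨?_, hr, P, hP, Q, hQ, h⟩
  obtain ⟨hE, hcen, -, -⟩ := h
  refine ⟨P, hP, _, hE, ?_, ?_⟩
  · intro he
    apply hS.ne_bot _ hE
    apply bot_of_commute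
    intro a ha b hb
    exact (hcen a (by rw [← he]; exact ha) b (Subgroup.mem_sup_right hb))
  · apply bot_of_commute
    intro a ha b hb
    exact (hcen b hb a (Subgroup.mem_sup_left ha)).symm

/-- The rank one step. -/
lemma rankone_step {N : Subgroup G} (hN : N.Normal) (hcl : IsRootSubgroupClass S)
    (h3 : IsDegenerateRootSet S → ∀ A ∈ S, 3 < ENat.card A)
    (h4 : ∀ A ∈ S, ∀ B ∈ rankOnePartners S A, IsSpecialRankOnePair A B)
    (hP : P ∈ S) (hQ : Q ∈ S) (hr : IsRankOnePair P Q) {q q' : G} (hq : q ∈ P) (hq1 : q ≠ 1)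
    (hq' : q' ∈ Q) (hq'1 : q' ≠ 1) (hz : q * q'⁻¹ ∈ N) :
    ∃ E ∈ S, ∃ e ∈ E, e ≠ 1 ∧ e ∈ N := by
  by_cases hdeg : IsDegenerateRootSet S
  · have hsp : SP P Q := SP.of_hasAbelian (h4 P hP Q ⟨hQ, hr⟩)
      ⟨hcl.1.commutative P hP, hcl.1.commutative Q hQ⟩
    exact ⟨P, hP, q, hq, hq1, deg_step hN hsp (h3 hdeg P hP) hq hq' hq'1 hz⟩
  · have hnd := nondeg_of_not_deg hcl.1 hdeg ⟨P, hP, Q, hQ, hr⟩
    obtain ⟨C, hC, hFC⟩ := exists_line_comm hcl hnd hP hQ hr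
    obtain ⟨⟨hCS, -, hPC⟩, -⟩ := hC
    have hcase := commutatorCase_of_mem hcl.1 hQ hCS hFC
    exact comm_step hN hcase hcl.1 hPC hq hq' hq'1 hz

/-- The commuting step. -/
lemma commuting_step {N : Subgroup G} (hN : N.Normal) (hcl : IsRootSubgroupClass S)
    (h3 : IsDegenerateRootSet S → ∀ A ∈ S, 3 < ENat.card A)
    (h4 : ∀ A ∈ S, ∀ B ∈ rankOnePartners S A, IsSpecialRankOnePair A B)
    (hQ : Q ∈ S) (hC : C ∈ S) (hPC : ⁅P, C⁆ = ⊥) (hQC : ⁅Q, C⁆ ≠ ⊥) {q q' : G} (hq : q ∈ P)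
    (hq' : q' ∈ Q) (hq'1 : q' ≠ 1) (hz : q * q'⁻¹ ∈ N) :
    ∃ E ∈ S, ∃ e ∈ E, e ≠ 1 ∧ e ∈ N := by
  rcases hcl.1.pair Q hQ C hC with h | h | h
  · exact absurd h hQC
  · obtain ⟨c, hc, hc1⟩ := exists_ne_one_right h
    have hqc : q⁻¹ * c⁻¹ = c⁻¹ * q⁻¹ := commute_of_bot hPC (P.inv_mem hq) (C.inv_mem hc)
    have h1 : (q * q'⁻¹) * c * (q * q'⁻¹)⁻¹ * c⁻¹ ∈ N := by
      have e0 : (q * q'⁻¹) * c * (q * q'⁻¹)⁻¹ * c⁻¹ = (q * q'⁻¹) * (c * (q * q'⁻¹)⁻¹ * c⁻¹) := by group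
      rw [e0]
      exact N.mul_mem hz (hN.conj_mem _ (N.inv_mem hz) c)
    have e : (q * q'⁻¹) * c * (q * q'⁻¹)⁻¹ * c⁻¹ = q * (q'⁻¹ * (c * q'⁻¹ * c⁻¹)⁻¹) * q⁻¹ := by
      calc (q * q'⁻¹) * c * (q * q'⁻¹)⁻¹ * c⁻¹ = q * q'⁻¹ * c * q' * (q⁻¹ * c⁻¹) := by group
        _ = q * q'⁻¹ * c * q' * (c⁻¹ * q⁻¹) := by rw [hqc]
        _ = _ := by group
    rw [e] at h1
    have h2 := hN.conj_mem _ h1 q⁻¹
    have e2 : q⁻¹ * (q * (q'⁻¹ * (c * q'⁻¹ * c⁻¹)⁻¹) * q⁻¹) * q⁻¹⁻¹ =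
        q'⁻¹ * (c * q'⁻¹ * c⁻¹)⁻¹ := by group
    rw [e2] at h2
    -- the pair `Q, c Q c⁻¹`
    have hne : conjBy Q c ≠ Q := fun h3 => hc1 (eq_one_of_conjBy_eq' h hc h3)
    have hC' : conjBy Q c ∈ unipotentSubgroups Q C :=
      conjBy_mem_unipotent left_mem_unipotent (Subgroup.mem_sup_right hc)
    have hr := isRankOnePair_of_unipotent h left_mem_unipotent hC' hne.symm
    have hm : c * q'⁻¹ * c⁻¹ ∈ conjBy Q c := conj_mem_conjBy (Q.inv_mem hq') c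
    have hm1 : c * q'⁻¹ * c⁻¹ ≠ 1 := by
      intro h3
      have e3 : q'⁻¹ = c⁻¹ * (c * q'⁻¹ * c⁻¹) * c := by group
      rw [h3] at e3
      exact hq'1 (inv_eq_one.1 (by rw [e3]; group))
    exact rankone_step hN hcl h3 h4 hQ (hcl.1.conj_mem Q hQ c) hr (Q.inv_mem hq')
      (inv_ne_one.2 hq'1) hm hm1 h2
  · exact comm_step hN h hcl.1 hPC hq hq' hq'1 hz

/-- Normal subgroups that are not central meet some member. -/
theorem exists_mem_of_not_central {N : Subgroup G} (hN : N.Normal) (hcl : IsRootSubgroupClass S)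
    (h2' : ∀ A ∈ S, ∀ C ∈ S, A ≠ C → centralizingMembers S A ≠ centralizingMembers S C)
    (h3 : IsDegenerateRootSet S → ∀ A ∈ S, 3 < ENat.card A)
    (h4 : ∀ A ∈ S, ∀ B ∈ rankOnePartners S A, IsSpecialRankOnePair A B)
    (hNc : ¬ N ≤ Subgroup.center G) : ∃ E ∈ S, ∃ e ∈ E, e ≠ 1 ∧ e ∈ N := by
  have hS := hcl.1
  -- an element of `N` not commuting with a member
  obtain ⟨A, hA, a, ha, n, hn, hna⟩ : ∃ A ∈ S, ∃ a ∈ A, ∃ n ∈ N, n * a ≠ a * n := by
    by_contra hno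
    push Not at hno
    apply hNc
    intro n hn
    rw [Subgroup.mem_center_iff]
    intro g
    have hg : g ∈ (⨆ A ∈ S, A) := by rw [hS.generates]; trivial
    have hle : (⨆ A ∈ S, A) ≤ Subgroup.centralizer ({n} : Set G) := by
      refine iSup₂_le fun A hA a ha => ?_
      rw [Subgroup.mem_centralizer_singleton_iff]
      exact (hno A hA a ha n hn).symm
    exact Subgroup.mem_centralizer_singleton_iff.1 (hle hg)
  have ha1 : a ≠ 1 := by
    rintro rfl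
    simp at hna
  set a' := n * a * n⁻¹ with ha'
  have ha'm : a' ∈ conjBy A n := conj_mem_conjBy ha n
  have ha'1 : a' ≠ 1 := by
    intro h1
    apply ha1
    have e : a = n⁻¹ * a' * n := by rw [ha']; group
    rw [e, h1]; simp
  have hx : a * a'⁻¹ ∈ N := by
    have := hN.conj_mem _ hn a
    have e : a * a'⁻¹ = (a * n * a⁻¹) * n⁻¹ := by rw [ha']; group
    rw [e]
    exact N.mul_mem this (N.inv_mem hn)
  have hx1 : a * a'⁻¹ ≠ 1 := by
    intro h1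
    have h2 : a = a' := mul_inv_eq_one.1 h1
    apply hna
    rw [ha'] at h2
    calc n * a = (n * a * n⁻¹) * n := by group
      _ = a * n := by rw [← h2]
  have hA' : conjBy A n ∈ S := hS.conj_mem A hA n
  by_cases heq : conjBy A n = A
  · refine ⟨A, hA, a * a'⁻¹, ?_, hx1, hx⟩
    rw [heq] at ha'm
    exact A.mul_mem ha (A.inv_mem ha'm)
  rcases hS.pair A hA _ hA' with h | h | h
  · -- the commuting case
    have hne := h2' A hA _ hA' (Ne.symm heq)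
    by_cases hc : ∃ C ∈ S, ⁅A, C⁆ = ⊥ ∧ ⁅conjBy A n, C⁆ ≠ ⊥
    · obtain ⟨C, hC, h5, h6⟩ := hc
      exact commuting_step hN hcl h3 h4 hA' hC h5 h6 ha ha'm ha'1 hx
    · have hc' : ∃ C ∈ S, ⁅conjBy A n, C⁆ = ⊥ ∧ ⁅A, C⁆ ≠ ⊥ := by
        by_contra hno
        push Not at hc hno
        apply hne
        have hiff : ∀ {P Q : Subgroup G}, Q ∈ centralizingMembers S P ↔ Q ∈ S ∧ ⁅P, Q⁆ = ⊥ := by
          intro P Q
          constructor
          · rintro ⟨hQ, hle⟩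
            refine ⟨hQ, bot_of_commute fun x hx y hy => ?_⟩
            exact (Subgroup.mem_centralizer_iff.1 (hle hy) x hx)
          · rintro ⟨hQ, hc⟩
            refine ⟨hQ, fun y hy => Subgroup.mem_centralizer_iff.2 fun x hx => ?_⟩
            exact commute_of_bot hc hx hy
        ext C
        rw [hiff, hiff]
        constructor
        · rintro ⟨hC, h5⟩
          exact ⟨hC, hc C hC h5⟩
        · rintro ⟨hC, h5⟩
          exact ⟨hC, hno C hC h5⟩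
      obtain ⟨C, hC, h5, h6⟩ := hc'
      have hx' : a' * a⁻¹ ∈ N := by
        have := N.inv_mem hx
        simpa using this
      exact commuting_step hN hcl h3 h4 hA hC h5 h6 ha'm ha ha1 hx'
  · exact rankone_step hN hcl h3 h4 hA hA' h ha ha1 ha'm ha'1 hx
  · -- the commutator case
    obtain ⟨hE, -, h5, -⟩ := h
    have hcl' := h5 a ha ha1
    have hne : ⁅A, conjBy A n⁆ ≠ ⊥ := hS.ne_bot _ hE
    obtain ⟨t, ht, ht1⟩ : ∃ t ∈ conjBy A n, a * t * a⁻¹ * t⁻¹ ≠ 1 := by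
      by_contra hno
      push Not at hno
      apply hne
      rw [← hcl', Subgroup.closure_eq_bot_iff]
      rintro _ ⟨c, hc, rfl⟩
      exact hno c hc
    refine ⟨_, hE, a * t * a⁻¹ * t⁻¹, ?_, ht1, ?_⟩
    · rw [← hcl']
      exact Subgroup.subset_closure ⟨t, ht, rfl⟩
    · have hab : a'⁻¹ * t = t * a'⁻¹ :=
        comm_of_isMulCommutative (hS.commutative _ hA') (Subgroup.inv_mem _ ha'm) ht
      have e : a * t * a⁻¹ * t⁻¹ = (a * a'⁻¹) * (t * (a * a'⁻¹)⁻¹ * t⁻¹) := by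
        calc a * t * a⁻¹ * t⁻¹ = a * (t * a'⁻¹) * a' * a⁻¹ * t⁻¹ := by group
          _ = a * (a'⁻¹ * t) * a' * a⁻¹ * t⁻¹ := by rw [hab]
          _ = _ := by group
      rw [e]
      exact N.mul_mem hx (hN.conj_mem _ (N.inv_mem hx) t)

/-- A normal subgroup meeting a member is everything modulo one member. -/
theorem sup_eq_top_of_mem {N : Subgroup G} (hN : N.Normal) (hS : IsRootSubgroupSet S)
    (h1 : IsConnectedFamily (FAdj S) S)
    (h4 : ∀ A ∈ S, ∀ B ∈ rankOnePartners S A, IsSpecialRankOnePair A B)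
    {A : Subgroup G} (hA : A ∈ S) {a : G} (ha : a ∈ A) (ha1 : a ≠ 1) (haN : a ∈ N) :
    N ⊔ A = ⊤ := by
  have key : ∀ {C : Subgroup G}, Relation.ReflTransGen (FAdj S) A C →
      (∃ c ∈ C, c ≠ 1 ∧ c ∈ N) ∧ N ⊔ C = N ⊔ A := by
    intro C hC
    induction hC with
    | refl => exact ⟨⟨a, ha, ha1, haN⟩, rfl⟩
    | @tail U V _ h2 ih =>
      obtain ⟨hU, hV, hUV⟩ := h2
      obtain ⟨⟨c, hc, hc1, hcN⟩, he⟩ := ih
      have hsp : SP U V := SP.of_hasAbelian (h4 U hU V ⟨hV, hUV⟩)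
        ⟨hS.commutative U hU, hS.commutative V hV⟩
      have hy := hsp.yy_mem hc hc1
      have hy1 := hsp.yy_ne_one hc hc1
      have hyN : yy U V c ∈ N := by
        rw [← hsp.nn_conj_left hc hc1]
        exact hN.conj_mem c hcN _
      have hmatch := hsp.yy_conj hc hc1
      refine ⟨⟨_, hy, hy1, hyN⟩, ?_⟩
      rw [← he]
      set y := yy U V c with hyd
      apply le_antisymm
      · refine sup_le le_sup_left ?_
        intro z hz
        have h3 : c⁻¹ * z * c⁻¹⁻¹ ∈ conjBy U y := by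
          rw [hmatch]; exact conj_mem_conjBy hz _
        rw [mem_conjBy] at h3
        have e : z = (c * y) * (y⁻¹ * (c⁻¹ * z * c⁻¹⁻¹) * y) * (c * y)⁻¹ := by group
        rw [e]
        have hcy : c * y ∈ N := N.mul_mem hcN hyN
        exact Subgroup.mul_mem _ (Subgroup.mul_mem _ (Subgroup.mem_sup_left hcy)
          (Subgroup.mem_sup_right h3)) (Subgroup.inv_mem _ (Subgroup.mem_sup_left hcy))
      · refine sup_le le_sup_left ?_
        intro x hx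
        have h3 : y * x * y⁻¹ ∈ conjBy V c⁻¹ := by
          rw [← hmatch]; exact conj_mem_conjBy hx _
        rw [mem_conjBy, inv_inv] at h3
        have e : x = (c * y)⁻¹ * (c * (y * x * y⁻¹) * c⁻¹) * (c * y) := by group
        rw [e]
        have hcy : c * y ∈ N := N.mul_mem hcN hyN
        refine Subgroup.mul_mem _ (Subgroup.mul_mem _ (Subgroup.inv_mem _ (Subgroup.mem_sup_left hcy))
          ?_) (Subgroup.mem_sup_left hcy)
        exact Subgroup.mem_sup_right h3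
  rw [eq_top_iff, ← hS.generates]
  refine iSup₂_le fun C hC => ?_
  exact le_sup_right.trans (key (h1 A hA C hC)).2.le

theorem isQuasisimple_of_dichotomy (hperf : commutator G = ⊤) (hnt : Subgroup.center G ≠ ⊤)
    (hdich : ∀ N : Subgroup G, N.Normal → N ≤ Subgroup.center G ∨ N = ⊤) : IsQuasisimple G := by
  refine ⟨⟨hperf⟩, ?_⟩
  have hnt' : Nontrivial (G ⧸ Subgroup.center G) := QuotientGroup.nontrivial_iff.2 hnt
  refine ⟨?_⟩
  intro H hH
  let N : Subgroup G := H.comap (QuotientGroup.mk' (Subgroup.center G))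
  have hNn : N.Normal := Subgroup.Normal.comap hH _
  rcases hdich N hNn with hd | hd
  · left
    rw [eq_bot_iff]
    intro q hq
    obtain ⟨x, rfl⟩ := QuotientGroup.mk_surjective q
    have hx : x ∈ N := hq
    have := hd hx
    simpa using (QuotientGroup.eq_one_iff x).2 this
  · right
    rw [eq_top_iff]
    intro q _
    obtain ⟨x, rfl⟩ := QuotientGroup.mk_surjective q
    have : x ∈ N := by rw [hd]; trivial
    exact this

theorem main (hS : IsRootSubgroupSet S) (h2 : ∃ A ∈ S, ∃ B ∈ S, A ≠ B)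
    (h1 : IsConnectedFamily (FAdj S) S)
    (h2' : ∀ A ∈ S, ∀ C ∈ S, A ≠ C → centralizingMembers S A ≠ centralizingMembers S C)
    (h3 : IsDegenerateRootSet S → ∀ A ∈ S, 3 < ENat.card A)
    (h4 : ∀ A ∈ S, ∀ B ∈ rankOnePartners S A, IsSpecialRankOnePair A B) :
    commutator G = ⊤ ∧ IsQuasisimple G := by
  have hcl : IsRootSubgroupClass S := ⟨hS, ((connected_iff hS h2).1 h1).1⟩
  have hpart : ∀ A ∈ S, ∃ B ∈ S, IsRankOnePair A B := by
    intro A hA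
    obtain ⟨A₁, hA₁, B₁, hB₁, hne⟩ := h2
    obtain ⟨C, hC, hCA⟩ : ∃ C ∈ S, A ≠ C := by
      by_cases h5 : A = A₁
      · exact ⟨B₁, hB₁, by rw [h5]; exact hne⟩
      · exact ⟨A₁, hA₁, h5⟩
    rcases Relation.ReflTransGen.cases_head (h1 A hA C hC) with h5 | ⟨D, h5, -⟩
    · exact absurd h5 hCA
    · exact ⟨D, h5.2.1, h5.2.2⟩
  have hperf : commutator G = ⊤ := by
    rw [eq_top_iff, ← hS.generates]
    refine iSup₂_le fun A hA => ?_
    by_cases hdeg : IsDegenerateRootSet S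
    · obtain ⟨B, hB, hAB⟩ := hpart A hA
      have hsp : SP A B := SP.of_hasAbelian (h4 A hA B ⟨hB, hAB⟩)
        ⟨hS.commutative A hA, hS.commutative B hB⟩
      refine (hsp.left_le_comm (h3 hdeg A hA)).trans ?_
      exact Subgroup.commutator_mono le_top le_top
    · unfold IsDegenerateRootSet at hdeg
      push Not at hdeg
      obtain ⟨P, hP, Q, hQ, hE, -⟩ := hdeg
      obtain ⟨g, hg⟩ := hcl.2.2 _ hE A hA
      rw [hg]
      rintro _ ⟨x, hx, rfl⟩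
      have hx' : x ∈ commutator G := Subgroup.commutator_mono le_top le_top hx
      have hn : (commutator G).Normal := inferInstance
      exact hn.conj_mem x hx' g
  refine ⟨hperf, ?_⟩
  obtain ⟨A₀, hA₀⟩ := hcl.2.1
  obtain ⟨B₀, -, hr⟩ := hpart A₀ hA₀
  refine isQuasisimple_of_dichotomy hperf (center_ne_top hr) ?_
  intro N hN
  by_cases hc : N ≤ Subgroup.center G
  · exact Or.inl hc
  right
  obtain ⟨E, hE, e, he, he1, heN⟩ := exists_mem_of_not_central hN hcl h2' h3 h4 hc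
  have htop := sup_eq_top_of_mem hN hS h1 h4 hE he he1 heN
  have hle : commutator G ≤ N := by
    unfold commutator
    rw [← htop]
    exact commutator_le_of_sup hN (fun x hx y hy =>
      comm_of_isMulCommutative (hS.commutative E hE) hx hy)
  rw [hperf] at hle
  exact top_le_iff.1 hle

end Cfsg.Agent.Lib.RootSubgroups.Quasi
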