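/-
A variant of the quasisimplicity criterion, with the condition on normal subgroups left as a hypothesis.
-/
import Mathlib
import Cfsg.Agent.Lib.RootSubgroups.Quasi

set_option autoImplicit false

namespace Cfsg.Agent.Lib.RootSubgroups.QuasiAlt

open Cfsg Cfsg.Agent.Lib.RootSubgroups.RankOne Cfsg.Agent.Lib.RootSubgroups.Abstract
  Cfsg.Agent.Lib.RootSubgroups.LineConn Cfsg.Agent.Lib.RootSubgroups.Nondeg
  Cfsg.Agent.Lib.RootSubgroups.SpecialCalc Cfsg.Agent.Lib.RootSubgroups.Incomparable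
  Cfsg.Agent.Lib.RootSubgroups.Quasi
open scoped commutatorElement

variable {G : Type*} [Group G] {S : Set (Subgroup G)}

/-- A normal subgroup meeting no member moves each member to a commuting member. -/
theorem comm_of_no_meet {N : Subgroup G} (hN : N.Normal) (hcl : IsRootSubgroupClass S)
    (h3 : IsDegenerateRootSet S → ∀ A ∈ S, 3 < ENat.card A)
    (h4 : ∀ A ∈ S, ∀ B ∈ rankOnePartners S A, IsSpecialRankOnePair A B)
    (hno : ∀ E ∈ S, ∀ e ∈ E, e ∈ N → e = 1) {A : Subgroup G} (hA : A ∈ S) {n : G} (hn : n ∈ N) :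
    ⁅A, conjBy A n⁆ = ⊥ := by
  have hS := hcl.1
  have hA' : conjBy A n ∈ S := hS.conj_mem A hA n
  have hnomeet : ∀ E ∈ S, ∀ e ∈ E, e ≠ 1 → e ∈ N → False := fun E hE e he he1 heN => he1 (hno E hE e he heN)
  have hx : ∀ a : G, a * (n * a * n⁻¹)⁻¹ ∈ N := by
    intro a
    have := hN.conj_mem _ hn a
    have e : a * (n * a * n⁻¹)⁻¹ = (a * n * a⁻¹) * n⁻¹ := by group
    rw [e]
    exact N.mul_mem this (N.inv_mem hn)
  rcases hS.pair A hA _ hA' with h | h | h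
  · exact h
  · exfalso
    obtain ⟨a, ha, ha1⟩ := exists_ne_one_left h
    have ha'm : n * a * n⁻¹ ∈ conjBy A n := conj_mem_conjBy ha n
    have ha'1 : n * a * n⁻¹ ≠ 1 := by
      intro h1
      apply ha1
      have e : a = n⁻¹ * (n * a * n⁻¹) * n := by group
      rw [e, h1]; simp
    obtain ⟨E, hE, e, he, he1, heN⟩ := rankone_step hN hcl h3 h4 hA hA' h ha ha1 ha'm ha'1 (hx a)
    exact hnomeet E hE e he he1 heN
  · exfalso
    obtain ⟨hE, -, h5, -⟩ := h
    have hne : ⁅A, conjBy A n⁆ ≠ ⊥ := hS.ne_bot _ hE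
    obtain ⟨a, ha, ha1⟩ : ∃ a ∈ A, a ≠ 1 := by
      by_contra hno'
      push Not at hno'
      exact hS.ne_bot A hA (eq_bot_iff.2 fun a ha => hno' a ha)
    have hcl' := h5 a ha ha1
    obtain ⟨t, ht, ht1⟩ : ∃ t ∈ conjBy A n, a * t * a⁻¹ * t⁻¹ ≠ 1 := by
      by_contra hno
      push Not at hno
      apply hne
      rw [← hcl', Subgroup.closure_eq_bot_iff]
      rintro _ ⟨c, hc, rfl⟩
      exact hno c hc
    have ha'm : n * a * n⁻¹ ∈ conjBy A n := conj_mem_conjBy ha n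
    refine hnomeet _ hE (a * t * a⁻¹ * t⁻¹) ?_ ht1 ?_
    · rw [← hcl']
      exact Subgroup.subset_closure ⟨t, ht, rfl⟩
    · have hab : (n * a * n⁻¹)⁻¹ * t = t * (n * a * n⁻¹)⁻¹ :=
        comm_of_isMulCommutative (hS.commutative _ hA') (Subgroup.inv_mem _ ha'm) ht
      have e : a * t * a⁻¹ * t⁻¹ = (a * (n * a * n⁻¹)⁻¹) * (t * (a * (n * a * n⁻¹)⁻¹)⁻¹ * t⁻¹) := by
        calc a * t * a⁻¹ * t⁻¹ = a * (t * (n * a * n⁻¹)⁻¹) * (n * a * n⁻¹) * a⁻¹ * t⁻¹ := by group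
          _ = a * ((n * a * n⁻¹)⁻¹ * t) * (n * a * n⁻¹) * a⁻¹ * t⁻¹ := by rw [hab]
          _ = _ := by group
      rw [e]
      exact N.mul_mem (hx a) (hN.conj_mem _ (N.inv_mem (hx a)) t)

theorem main_alt (hS : IsRootSubgroupSet S) (h2 : ∃ A ∈ S, ∃ B ∈ S, A ≠ B)
    (h1 : IsConnectedFamily (FAdj S) S)
    (h3 : IsDegenerateRootSet S → ∀ A ∈ S, 3 < ENat.card A)
    (h4 : ∀ A ∈ S, ∀ B ∈ rankOnePartners S A, IsSpecialRankOnePair A B)
    (hcentral : ∀ N : Subgroup G, N.Normal → (∀ E ∈ S, ∀ e ∈ E, e ∈ N → e = 1) →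
      (∀ C ∈ S, ∀ g ∈ N, ⁅C, conjBy C g⁆ = ⊥) → N ≤ Subgroup.center G) :
    commutator G = ⊤ ∧ IsQuasisimple G := by
  have hcl : IsRootSubgroupClass S := ⟨hS, ((connected_iff hS h2).1 h1).1⟩
  have hpart : ∀ A ∈ S, ∃ B ∈ S, IsRankOnePair A B := by
    intro A hA
    obtain ⟨A₁, hA₁, B₁, hB₁, hne⟩ := h2
    obtain ⟨C, hC, hCA⟩ : ∃ C ∈ S, A ≠ C := by
      by_cases h5 : A = A₁
      · exact ⟨B₁, hB₁, by rw [h5]; exact hne⟩
      · exact ⟨A₁, hA₁, h5⟩
    rcases Relation.ReflTransGen.cases_head (h1 A hA C hC) with h5 | ⟨D, h5, -⟩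
    · exact absurd h5 hCA
    · exact ⟨D, h5.2.1, h5.2.2⟩
  have hperf : commutator G = ⊤ := by
    rw [eq_top_iff, ← hS.generates]
    refine iSup₂_le fun A hA => ?_
    by_cases hdeg : IsDegenerateRootSet S
    · obtain ⟨B, hB, hAB⟩ := hpart A hA
      have hsp : SP A B := SP.of_hasAbelian (h4 A hA B ⟨hB, hAB⟩)
        ⟨hS.commutative A hA, hS.commutative B hB⟩
      refine (hsp.left_le_comm (h3 hdeg A hA)).trans ?_
      exact Subgroup.commutator_mono le_top le_top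
    · unfold IsDegenerateRootSet at hdeg
      push Not at hdeg
      obtain ⟨P, hP, Q, hQ, hE, -⟩ := hdeg
      obtain ⟨g, hg⟩ := hcl.2.2 _ hE A hA
      rw [hg]
      rintro _ ⟨x, hx, rfl⟩
      have hx' : x ∈ commutator G := Subgroup.commutator_mono le_top le_top hx
      have hn : (commutator G).Normal := inferInstance
      exact hn.conj_mem x hx' g
  refine ⟨hperf, ?_⟩
  obtain ⟨A₀, hA₀⟩ := hcl.2.1
  obtain ⟨B₀, -, hr⟩ := hpart A₀ hA₀
  refine isQuasisimple_of_dichotomy hperf (center_ne_top hr) ?_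
  intro N hN
  by_cases hc : N ≤ Subgroup.center G
  · exact Or.inl hc
  right
  obtain ⟨E, hE, e, he, he1, heN⟩ : ∃ E ∈ S, ∃ e ∈ E, e ≠ 1 ∧ e ∈ N := by
    by_contra hno
    push Not at hno
    have hno' : ∀ E ∈ S, ∀ e ∈ E, e ∈ N → e = 1 := by
      intro E hE e he heN
      by_contra h1
      exact hno E hE e he h1 heN
    exact hc (hcentral N hN hno' (fun C hC g hg => comm_of_no_meet hN hcl h3 h4 hno' hC hg))
  have htop := sup_eq_top_of_mem hN hS h1 h4 hE he he1 heN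
  have hle : commutator G ≤ N := by
    unfold commutator
    rw [← htop]
    exact commutator_le_of_sup hN (fun x hx y hy =>
      comm_of_isMulCommutative (hS.commutative E hE) hx hy)
  rw [hperf] at hle
  exact top_le_iff.1 hle

end Cfsg.Agent.Lib.RootSubgroups.QuasiAlt
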