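/-
Quadratic pairs: the decomposition of `Σ` into components.
-/
import Mathlib
import Cfsg.Agent.Lib.RootSubgroups.QuadSimple
import Cfsg.Agent.Lib.RootSubgroups.QuasiAlt

set_option autoImplicit false
set_option linter.unusedSimpArgs false
set_option linter.unusedVariables false
set_option linter.unusedSectionVars false
set_option linter.style.haveILetI false

namespace Cfsg.Agent.Lib.RootSubgroups.QuadParts

open Cfsg
open Cfsg.Agent.Lib.RootSubgroups.Quadratic
open Cfsg.Agent.Lib.RootSubgroups.QuadMatched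
open Cfsg.Agent.Lib.RootSubgroups.QuadBasic
open Cfsg.Agent.Lib.RootSubgroups.QuadRep
open Cfsg.Agent.Lib.RootSubgroups.QuadPartner
open Cfsg.Agent.Lib.RootSubgroups.QuadNU
open Cfsg.Agent.Lib.RootSubgroups.QuadBlock
open Cfsg.Agent.Lib.RootSubgroups.QuadSurj
open Cfsg.Agent.Lib.RootSubgroups.QuadUnip
open Cfsg.Agent.Lib.RootSubgroups.QuadPairs
open Cfsg.Agent.Lib.RootSubgroups.QuadRootSet
open Cfsg.Agent.Lib.RootSubgroups.QuadSimple
open Cfsg.Agent.Lib.RootSubgroups.Transfer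
open Cfsg.Agent.Lib.RootSubgroups.RankOne
open Cfsg.Agent.Lib.RootSubgroups.Abstract
open Cfsg.Agent.Lib.RootSubgroups.LineConn
open Cfsg.Agent.Lib.RootSubgroups.Quasi
open Cfsg.Agent.Lib.RootSubgroups.QuasiAlt
open scoped commutatorElement

universe u v

section Transfer

variable {X : Type*} [Group X] {H A B : Subgroup X}

lemma nilpotent_of_subgroupOf (h : A ≤ H) (hA : Group.IsNilpotent (A.subgroupOf H)) : Group.IsNilpotent A :=
  Group.nilpotent_of_surjective (Subgroup.subgroupOfEquivOfLe h).toMonoidHom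
    (Subgroup.subgroupOfEquivOfLe h).surjective

lemma cond_of_subgroupOf (hA : A ≤ H) (hB : B ≤ H) (h : RankOneCondition (A.subgroupOf H) (B.subgroupOf H)) :
    RankOneCondition A B := by
  intro a ha ha1
  obtain ⟨b, hb, hb1, he⟩ := h ⟨a, hA ha⟩ ha (fun h1 => ha1 (congrArg Subtype.val h1))
  refine ⟨(b : X), hb, fun h1 => hb1 (Subtype.ext h1), ?_⟩
  exact conj_eq_of_subgroupOf hA hB (x := b⁻¹) (y := (⟨a, hA ha⟩ : H)⁻¹) he

lemma subgroupOf_inj (hA : A ≤ H) (hB : B ≤ H) (h : A.subgroupOf H = B.subgroupOf H) : A = B := by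
  have := congrArg (Subgroup.map H.subtype) h
  rwa [map_subgroupOf hA, map_subgroupOf hB] at this

/-- Rank one pairs descend from a subgroup containing them. -/
lemma isRankOnePair_of_subgroupOf (hA : A ≤ H) (hB : B ≤ H)
    (h : IsRankOnePair (A.subgroupOf H) (B.subgroupOf H)) : IsRankOnePair A B where
  ne := fun he => h.ne (by rw [he])
  nilpotent_left := nilpotent_of_subgroupOf hA h.nilpotent_left
  nilpotent_right := nilpotent_of_subgroupOf hB h.nilpotent_right
  cond_left := cond_of_subgroupOf hA hB h.cond_left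
  cond_right := cond_of_subgroupOf hB hA h.cond_right

lemma special_subgroupOf (hA : A ≤ H) (hB : B ≤ H) (h : IsSpecialRankOnePair A B) :
    IsSpecialRankOnePair (A.subgroupOf H) (B.subgroupOf H) := by
  refine ⟨isRankOnePair_subgroupOf hA hB h.1, ?_⟩
  intro a ha ha1 b hb hb1 he
  have h1 := h.2 (a : X) ha (fun h0 => ha1 (Subtype.ext h0)) (b : X) hb (fun h0 => hb1 (Subtype.ext h0))
    (conj_eq_of_subgroupOf hA hB (x := b⁻¹) (y := a⁻¹) he)
  apply Subtype.ext
  exact h1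

lemma commute_of_subgroupOf (hA : A ≤ H) (hB : B ≤ H) (h : ⁅A.subgroupOf H, B.subgroupOf H⁆ = ⊥) {a b : X}
    (ha : a ∈ A) (hb : b ∈ B) : a * b = b * a := by
  have h1 := commute_of_bot h (a := ⟨a, hA ha⟩) (b := ⟨b, hB hb⟩) ha hb
  exact congrArg Subtype.val h1

lemma conjBy_subgroupOf (hA : A ≤ H) (g : H) : (conjBy A (g : X)).subgroupOf H = conjBy (A.subgroupOf H) g := by
  apply Subgroup.map_injective H.subtype_injective
  have hc : conjBy A (g : X) ≤ H := by
    rintro _ ⟨a, ha, rfl⟩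
    exact H.mul_mem (H.mul_mem g.2 (hA ha)) (H.inv_mem g.2)
  rw [map_subgroupOf hc, map_conjBy_subtype, map_subgroupOf hA]

lemma commutator_le_sup' : ⁅A, B⁆ ≤ A ⊔ B := by
  rw [Subgroup.commutator_le]
  intro a ha b hb
  rw [commutatorElement_def]
  have h1 : a ∈ A ⊔ B := Subgroup.mem_sup_left ha
  have h3 : b ∈ A ⊔ B := Subgroup.mem_sup_right hb
  exact Subgroup.mul_mem _ (Subgroup.mul_mem _ (Subgroup.mul_mem _ h1 h3) (Subgroup.inv_mem _ h1)) (Subgroup.inv_mem _ h3)

lemma commutator_iSup_bot {P Q : Set (Subgroup X)} (h : ∀ A ∈ P, ∀ B ∈ Q, ∀ a ∈ A, ∀ b ∈ B, a * b = b * a) :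
    ⁅(⨆ A ∈ P, A), (⨆ B ∈ Q, B)⁆ = ⊥ := by
  have h1 : ∀ a ∈ (⨆ A ∈ P, A), ∀ b ∈ (⨆ B ∈ Q, B), a * b = b * a := by
    intro a ha
    have h3 : (⨆ B ∈ Q, B) ≤ Subgroup.centralizer ({a} : Set X) := by
      refine iSup₂_le fun B hB b hb => ?_
      rw [Subgroup.mem_centralizer_singleton_iff]
      have h5 : (⨆ A ∈ P, A) ≤ Subgroup.centralizer ({b} : Set X) := by
        refine iSup₂_le fun A hA a' ha' => ?_
        rw [Subgroup.mem_centralizer_singleton_iff]
        exact h A hA B hB a' ha' b hb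
      exact (Subgroup.mem_centralizer_singleton_iff.1 (h5 ha)).symm
    intro b hb
    exact (Subgroup.mem_centralizer_singleton_iff.1 (h3 hb)).symm
  exact bot_of_commute h1

end Transfer

variable {k : Type u} [Field k] {M : Type v} [AddCommGroup M] [Module k M] [FiniteDimensional k M]
variable {G : Subgroup (LinearMap.GeneralLinearGroup k M)}
  {A B A₀ : Subgroup (LinearMap.GeneralLinearGroup k M)}

/-- The component of a member. -/
def compOf (G A : Subgroup (LinearMap.GeneralLinearGroup k M)) : Set (Subgroup (LinearMap.GeneralLinearGroup k M)) :=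
  {B | Relation.ReflTransGen (FAdj (quadraticRootSubgroups G)) A B}

lemma self_mem_compOf : A ∈ compOf G A := Relation.ReflTransGen.refl

lemma compOf_eq {A B : Subgroup (LinearMap.GeneralLinearGroup k M)} (h : B ∈ compOf G A) : compOf G A = compOf G B := by
  ext C
  constructor
  · intro h1
    exact (conn_symm h).trans h1
  · intro h1
    exact Relation.ReflTransGen.trans h h1

lemma compOf_sub (hA : A ∈ quadraticRootSubgroups G) : compOf G A ⊆ quadraticRootSubgroups G :=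
  fun _ hB => conn_mem hA hB

/-- The ambient group `G₀`. -/
abbrev G0 (G : Subgroup (LinearMap.GeneralLinearGroup k M)) : Subgroup (LinearMap.GeneralLinearGroup k M) :=
  ⨆ B ∈ quadraticRootSubgroups G, B

lemma le_G0 (hA : A ∈ quadraticRootSubgroups G) : A ≤ G0 G := le_iSup₂_of_le A hA le_rfl

/-- The image of `Σ` in `G₀`. -/
abbrev Sig (G : Subgroup (LinearMap.GeneralLinearGroup k M)) : Set (Subgroup ↥(G0 G)) :=
  (fun A : Subgroup (LinearMap.GeneralLinearGroup k M) => A.subgroupOf (G0 G)) '' quadraticRootSubgroups G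

lemma path_lift (hA : A ∈ quadraticRootSubgroups G) {Y : Subgroup ↥(G0 G)}
    (h : Relation.ReflTransGen (FAdj (Sig G)) (A.subgroupOf (G0 G)) Y) :
    ∃ B, Y = B.subgroupOf (G0 G) ∧ B ∈ compOf G A := by
  induction h with
  | refl => exact ⟨A, rfl, self_mem_compOf⟩
  | tail _ h3 ih =>
    obtain ⟨B, rfl, hB⟩ := ih
    obtain ⟨-, ⟨C, hC, rfl⟩, hr⟩ := h3
    have hBS := compOf_sub hA hB
    exact ⟨C, rfl, Relation.ReflTransGen.tail hB ⟨hBS, hC, isRankOnePair_of_subgroupOf (le_G0 hBS) (le_G0 hC) hr⟩⟩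

variable (h2 : (2 : k) ≠ 0) (hk3 : Nat.card k ≠ 3) (hG : IsQuadraticPair G)

include h2 hk3 hG

lemma sig_partner : ∀ X ∈ Sig G, ∃ F ∈ Sig G, IsRankOnePair X F := by
  rintro _ ⟨A, hA, rfl⟩
  obtain ⟨B, hB, hr⟩ := exists_rank_one_partner h2 hk3 hG hA
  exact ⟨_, ⟨B, hB, rfl⟩, isRankOnePair_subgroupOf (le_G0 hA) (le_G0 hB) hr⟩

/-- Members in different components commute. -/
lemma comm_of_not_mem (hA : A ∈ quadraticRootSubgroups G) (hB : B ∈ quadraticRootSubgroups G) (hn : B ∉ compOf G A)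
    {a b : LinearMap.GeneralLinearGroup k M} (ha : a ∈ A) (hb : b ∈ B) : a * b = b * a := by
  have h1 : ¬ Relation.ReflTransGen (FAdj (Sig G)) (A.subgroupOf (G0 G)) (B.subgroupOf (G0 G)) := by
    intro h3
    obtain ⟨B', e, hB'⟩ := path_lift hA h3
    have hB'S := compOf_sub hA hB'
    have := subgroupOf_inj (le_G0 hB) (le_G0 hB'S) e
    rw [this] at hn
    exact hn hB'
  have h3 := comm_of_not_conn (sigma_rootSet h2 hk3 hG) (sig_partner h2 hk3 hG) ⟨A, hA, rfl⟩ ⟨B, hB, rfl⟩ h1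
  exact commute_of_subgroupOf (le_G0 hA) (le_G0 hB) h3 ha hb

/-- Conjugating by `G₀` stays in the component. -/
lemma conj_mem_compOf (hA : A ∈ quadraticRootSubgroups G) {g : LinearMap.GeneralLinearGroup k M} (hg : g ∈ G0 G) :
    conjBy A g ∈ compOf G A := by
  have h1 := conn_conj_self (sigma_rootSet h2 hk3 hG) (sig_partner h2 hk3 hG) (X := A.subgroupOf (G0 G)) ⟨A, hA, rfl⟩
    (⟨g, hg⟩ : ↥(G0 G))
  rw [← conjBy_subgroupOf (le_G0 hA)] at h1
  obtain ⟨B', e, hB'⟩ := path_lift hA h1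
  have hc : conjBy A g ≤ G0 G := by
    rintro _ ⟨a, ha, rfl⟩
    exact Subgroup.mul_mem _ (Subgroup.mul_mem _ hg (le_G0 hA ha)) (Subgroup.inv_mem _ hg)
  have := subgroupOf_inj hc (le_G0 (compOf_sub hA hB')) e
  rw [this]
  exact hB'

omit h2 hk3 hG in
lemma compOf_adj (hA₀ : A₀ ∈ quadraticRootSubgroups G) (hA : A ∈ compOf G A₀) (hB : B ∈ quadraticRootSubgroups G)
    (hr : IsRankOnePair A B) : B ∈ compOf G A₀ :=
  Relation.ReflTransGen.tail hA ⟨compOf_sub hA₀ hA, hB, hr⟩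

/-- The component data. -/
lemma comp_compOf (hA₀ : A₀ ∈ quadraticRootSubgroups G) : Comp G (compOf G A₀) (⨆ A ∈ compOf G A₀, A) where
  sub := compOf_sub hA₀
  adj := fun A hA B hB hr => compOf_adj hA₀ hA hB hr
  other := by
    intro A hA B hB hn a ha b hb
    have hAS := compOf_sub hA₀ hA
    apply comm_of_not_mem h2 hk3 hG hAS hB ?_ ha hb
    intro h1
    exact hn (by rw [compOf_eq hA]; exact h1)
  hH := rfl

/-- The commutator of two members of a component lies in the component. -/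
lemma case_mem_compOf (hA₀ : A₀ ∈ quadraticRootSubgroups G) (hA : A ∈ compOf G A₀) (hB : B ∈ compOf G A₀)
    (hL : ⁅A, B⁆ ∈ quadraticRootSubgroups G) : ⁅A, B⁆ ∈ compOf G A₀ := by
  by_contra hn
  have hC := comp_compOf h2 hk3 hG hA₀
  obtain ⟨F, hF, hr⟩ := exists_rank_one_partner h2 hk3 hG hL
  have hFn : F ∉ compOf G A₀ := fun h1 => hn (compOf_adj hA₀ h1 hL (RankOnePair_symm hr))
  obtain ⟨l, hl, hl1⟩ := exists_ne_one_left hr
  obtain ⟨f, hf, hf1⟩ := exists_ne_one_right hr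
  apply not_commute_elts hr hl hl1 hf hf1
  have h1 : A ⊔ B ≤ Subgroup.centralizer ({f} : Set (LinearMap.GeneralLinearGroup k M)) := by
    apply sup_le
    · intro a ha
      rw [Subgroup.mem_centralizer_singleton_iff]
      exact hC.other A hA F hF hFn a ha f hf
    · intro a ha
      rw [Subgroup.mem_centralizer_singleton_iff]
      exact hC.other B hB F hF hFn a ha f hf
  exact Subgroup.mem_centralizer_singleton_iff.1 (h1 (commutator_le_sup' hl))

lemma pair_compOf (hA₀ : A₀ ∈ quadraticRootSubgroups G) (hA : A ∈ compOf G A₀) (hB : B ∈ compOf G A₀) :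
    ⁅A, B⁆ = ⊥ ∨ IsRankOnePair A B ∨ RootCommutatorCase (compOf G A₀) A B := by
  rcases pair_sigma h2 hk3 hG (compOf_sub hA₀ hA) (compOf_sub hA₀ hB) with h | h | h
  · exact Or.inl h
  · exact Or.inr (Or.inl h)
  · exact Or.inr (Or.inr ⟨case_mem_compOf h2 hk3 hG hA₀ hA hB h.1, h.2⟩)

lemma rootSet_compOf (hA₀ : A₀ ∈ quadraticRootSubgroups G) :
    IsRootSubgroupSet ((fun A : Subgroup (LinearMap.GeneralLinearGroup k M) =>
      A.subgroupOf (⨆ B ∈ compOf G A₀, B)) '' compOf G A₀) := by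
  have hC := comp_compOf h2 hk3 hG hA₀
  refine rootSet_subgroupOf rfl (fun A hA => comm_of_sigma (hC.sub hA)) (fun A hA => ne_bot_of_sigma (hC.sub hA)) ?_
    (fun A hA B hB => pair_compOf h2 hk3 hG hA₀ hA hB)
  intro A hA g hg
  have h1 := conj_mem_compOf h2 hk3 hG (hC.sub hA) (hC.le_sigma hg)
  rw [compOf_eq hA]
  exact h1

omit h2 hk3 hG in
lemma conn_compOf (hA₀ : A₀ ∈ quadraticRootSubgroups G) {U V : Subgroup (LinearMap.GeneralLinearGroup k M)}
    (hU : U ∈ compOf G A₀) (h : V ∈ compOf G U) :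
    Relation.ReflTransGen (FAdj ((fun A : Subgroup (LinearMap.GeneralLinearGroup k M) =>
      A.subgroupOf (⨆ B ∈ compOf G A₀, B)) '' compOf G A₀)) (U.subgroupOf (⨆ B ∈ compOf G A₀, B))
      (V.subgroupOf (⨆ B ∈ compOf G A₀, B)) := by
  have hle : ∀ {X}, X ∈ compOf G A₀ → X ≤ ⨆ B ∈ compOf G A₀, B := fun {X} hX => le_iSup₂_of_le X hX le_rfl
  induction h with
  | refl => exact Relation.ReflTransGen.refl
  | tail h1 h3 ih =>
    rename_i X Y
    have hX : X ∈ compOf G A₀ := Relation.ReflTransGen.trans hU h1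
    have hY : Y ∈ compOf G A₀ := Relation.ReflTransGen.tail hX h3
    exact ih.tail ⟨⟨X, hX, rfl⟩, ⟨Y, hY, rfl⟩, isRankOnePair_subgroupOf (hle hX) (hle hY) h3.2.2⟩

omit h2 hk3 hG [FiniteDimensional k M] in
lemma three_lt_member (h2 : (2 : k) ≠ 0) (hk3 : Nat.card k ≠ 3) {H : Subgroup (LinearMap.GeneralLinearGroup k M)}
    [FiniteDimensional k M]
    (hA : A ∈ quadraticRootSubgroups G) (hle : A ≤ H) : 3 < ENat.card ↥(A.subgroupOf H) := by
  obtain ⟨x, hx, hA'⟩ := mem_sigma hA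
  refine lt_of_lt_of_le (three_lt_card h2 hk3) ?_
  choose a ha ea using unit_smul_mem hA' hx
  let f : k → ↥(A.subgroupOf H) := fun c => ⟨⟨a c, hle (ha c)⟩, ha c⟩
  have hf : Function.Injective f := by
    intro c d hcd
    have h1 : a c = a d := congrArg (fun z : ↥(A.subgroupOf H) => ((z : H) : LinearMap.GeneralLinearGroup k M)) hcd
    have h3 := congrArg (fun g : LinearMap.GeneralLinearGroup k M => (g : M →ₗ[k] M)) h1
    simp only [ea] at h3
    have h5 : c • x = d • x := add_left_cancel h3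
    have h6 : (c - d) • x = 0 := by rw [sub_smul, h5, sub_self]
    exact sub_eq_zero.1 ((smul_eq_zero.1 h6).resolve_right hx.q.ne)
  exact ENat.card_le_card_of_injective hf

/-- The group generated by a component is quasisimple. -/
theorem quasisimple_compOf (hA₀ : A₀ ∈ quadraticRootSubgroups G) :
    IsQuasisimple ↥(⨆ B ∈ compOf G A₀, B) := by
  set P := compOf G A₀ with hP
  set H := ⨆ B ∈ P, B with hH
  have hC : Comp G P H := comp_compOf h2 hk3 hG hA₀
  have hle : ∀ {X}, X ∈ P → X ≤ H := fun {X} hX => le_iSup₂_of_le X hX le_rfl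
  set S := (fun A : Subgroup (LinearMap.GeneralLinearGroup k M) => A.subgroupOf H) '' P with hS
  have hroot : IsRootSubgroupSet S := rootSet_compOf h2 hk3 hG hA₀
  have hne : ∃ A ∈ S, ∃ B ∈ S, A ≠ B := by
    obtain ⟨B, hB, hr⟩ := exists_rank_one_partner h2 hk3 hG hA₀
    have hBP : B ∈ P := compOf_adj hA₀ self_mem_compOf hB hr
    have hA₀P : A₀ ∈ P := self_mem_compOf
    exact ⟨_, ⟨A₀, hA₀P, rfl⟩, _, ⟨B, hBP, rfl⟩, (isRankOnePair_subgroupOf (hle hA₀P) (hle hBP) hr).ne⟩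
  have hconn : IsConnectedFamily (FAdj S) S := by
    rintro _ ⟨U, hU, rfl⟩ _ ⟨V, hV, rfl⟩
    exact conn_compOf hA₀ hU (by rw [← compOf_eq hU]; exact hV)
  have h3 : IsDegenerateRootSet S → ∀ A ∈ S, 3 < ENat.card A := by
    rintro - _ ⟨A, hA, rfl⟩
    exact three_lt_member h2 hk3 (hC.sub hA) (hle hA)
  have h4 : ∀ A ∈ S, ∀ B ∈ rankOnePartners S A, IsSpecialRankOnePair A B := by
    rintro _ ⟨A, hA, rfl⟩ _ ⟨⟨B, hB, rfl⟩, hr⟩
    have hr' := isRankOnePair_of_subgroupOf (hle hA) (hle hB) hr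
    obtain ⟨x, n, hm, hA', hB'⟩ := exists_mp_of_rank_one h2 hk3 (hC.sub hA) (hC.sub hB) hr'
    exact special_subgroupOf (hle hA) (hle hB) (special_pair h2 hk3 hm hA' hB')
  refine (main_alt hroot hne hconn h3 h4 ?_).2
  intro N hN hno hcomm
  -- the normal subgroup in the ambient group
  have hNH : N.map H.subtype ≤ H := by
    rintro _ ⟨g, -, rfl⟩
    exact g.2
  have hNn : ∀ h ∈ H, ∀ g ∈ N.map H.subtype, h * g * h⁻¹ ∈ N.map H.subtype := by
    rintro h hh _ ⟨g, hg, rfl⟩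
    exact ⟨_, hN.conj_mem g hg ⟨h, hh⟩, rfl⟩
  have hno' : ∀ E ∈ P, ∀ e ∈ E, e ∈ N.map H.subtype → e = 1 := by
    rintro E hE e he ⟨g, hg, rfl⟩
    have := hno _ ⟨E, hE, rfl⟩ g he hg
    rw [this]
    rfl
  have hcomm' : ∀ C ∈ P, ∀ g ∈ N.map H.subtype, ∀ a ∈ C, ∀ b ∈ C, a * (g * b * g⁻¹) = (g * b * g⁻¹) * a := by
    rintro C hCP _ ⟨g, hg, rfl⟩ a ha b hb
    have h5 := hcomm _ ⟨C, hCP, rfl⟩ g hg
    have h6 := commute_of_bot h5 (a := ⟨a, hle hCP ha⟩) (b := g * ⟨b, hle hCP hb⟩ * g⁻¹) ha ⟨⟨b, hle hCP hb⟩, hb, rfl⟩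
    exact congrArg Subtype.val h6
  have hfin := central_of_no_meet h2 hk3 hG hC hNH hNn hno' hcomm'
  intro g hg
  rw [Subgroup.mem_center_iff]
  intro h
  have := hfin g ⟨g, hg, rfl⟩ h h.2
  exact (Subtype.ext this).symm

/-- The class property inside the group generated by a component. -/
theorem class_compOf (hA₀ : A₀ ∈ quadraticRootSubgroups G) :
    IsRootSubgroupClass ((fun A : Subgroup (LinearMap.GeneralLinearGroup k M) =>
      A.subgroupOf (⨆ B ∈ compOf G A₀, B)) '' compOf G A₀) := by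
  set P := compOf G A₀ with hP
  set H := ⨆ B ∈ P, B with hH
  have hle : ∀ {X}, X ∈ P → X ≤ H := fun {X} hX => le_iSup₂_of_le X hX le_rfl
  have hroot := rootSet_compOf h2 hk3 hG hA₀
  have hne : ∃ A ∈ (fun A : Subgroup (LinearMap.GeneralLinearGroup k M) => A.subgroupOf H) '' P,
      ∃ B ∈ (fun A : Subgroup (LinearMap.GeneralLinearGroup k M) => A.subgroupOf H) '' P, A ≠ B := by
    obtain ⟨B, hB, hr⟩ := exists_rank_one_partner h2 hk3 hG hA₀
    have hBP : B ∈ P := compOf_adj hA₀ self_mem_compOf hB hr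
    have hA₀P : A₀ ∈ P := self_mem_compOf
    exact ⟨_, ⟨A₀, hA₀P, rfl⟩, _, ⟨B, hBP, rfl⟩, (isRankOnePair_subgroupOf (hle hA₀P) (hle hBP) hr).ne⟩
  have hconn : IsConnectedFamily (FAdj ((fun A : Subgroup (LinearMap.GeneralLinearGroup k M) => A.subgroupOf H) '' P))
      ((fun A : Subgroup (LinearMap.GeneralLinearGroup k M) => A.subgroupOf H) '' P) := by
    rintro _ ⟨U, hU, rfl⟩ _ ⟨V, hV, rfl⟩
    exact conn_compOf hA₀ hU (by rw [← compOf_eq hU]; exact hV)
  exact ⟨hroot, ((connected_iff hroot hne).1 hconn).1⟩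

/-- Finitely many components. -/
theorem finite_components :
    {P : Set (Subgroup (LinearMap.GeneralLinearGroup k M)) | ∃ A ∈ quadraticRootSubgroups G, P = compOf G A}.Finite := by
  set C := {P : Set (Subgroup (LinearMap.GeneralLinearGroup k M)) | ∃ A ∈ quadraticRootSubgroups G, P = compOf G A} with hCd
  have hrep : ∀ P : C, ∃ (x n : M →ₗ[k] M) (A B : Subgroup (LinearMap.GeneralLinearGroup k M)), MP G x n ∧
      HasClass G A x ∧ HasClass G B n ∧ A ∈ P.1 ∧ B ∈ P.1 ∧ A ∈ quadraticRootSubgroups G ∧ B ∈ quadraticRootSubgroups G := by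
    rintro ⟨P, A, hA, rfl⟩
    obtain ⟨x, hx, hA'⟩ := mem_sigma hA
    obtain ⟨y, hy, hz⟩ := exists_partner (four_ne h2) hG hx
    obtain ⟨n, hn, hm, -, -⟩ := exists_matched_same h2 hk3 hx hy hz
    have hB := exists_hasClass hn
    have hBS := sigma_of_qd hn
    have hmp : MP G x n := ⟨hx, hn, hm⟩
    refine ⟨x, n, A, _, hmp, hA', hB, self_mem_compOf, ?_, hA, hBS⟩
    exact compOf_adj hA self_mem_compOf hBS (special_pair h2 hk3 hmp hA' hB).1
  choose xx nn AA BB hmp hAA hBB hAP hBP hAS hBS using hrep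
  have hPe : ∀ (P : C) {Z : Subgroup (LinearMap.GeneralLinearGroup k M)}, Z ∈ P.1 → P.1 = compOf G Z := by
    rintro ⟨P, A, hA, rfl⟩ Z hZ
    exact compOf_eq hZ
  have hcross : ∀ P Q : C, P ≠ Q → xx P * nn Q = nn Q * xx P := by
    intro P Q hne
    have hnot : BB Q ∉ compOf G (AA P) := by
      intro h1
      apply hne
      apply Subtype.ext
      rw [hPe P (hAP P), compOf_eq h1, ← hPe Q (hBP Q)]
    have h1 := comm_of_not_mem h2 hk3 hG (hAS P) (hBS Q) hnot
      (unit_mem_of_inC (hAA P) (hmp P).hx.q.sq (InC.refl (hmp P).hx))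
      (unit_mem_of_inC (hBB Q) (hmp Q).hn.q.sq (InC.refl (hmp Q).hn))
    have h3 := congrArg (fun g : LinearMap.GeneralLinearGroup k M => (g : M →ₗ[k] M)) h1
    simp only [Units.val_mul, unitOfSq_val] at h3
    have e1 : ∀ a b : M →ₗ[k] M, (1 + a) * (1 + b) = 1 + a + b + a * b := by
      intro a b; noncomm_ring
    rw [e1, e1, add_right_comm (1 : M →ₗ[k] M) (xx P) (nn Q)] at h3
    exact add_left_cancel h3
  have hself : ∀ P : C, xx P * nn P - nn P * xx P ≠ 0 := by
    intro P h0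
    have hm := (hmp P).m
    have h1 : (xx P * nn P - nn P * xx P) * xx P = xx P := by
      rw [sub_mul, hm.xnx, mul_assoc, hm.xx, mul_zero, sub_zero]
    rw [h0, zero_mul] at h1
    exact (hmp P).hx.q.ne h1.symm
  have hli : LinearIndependent k (fun P : C => xx P) := by
    rw [linearIndependent_iff']
    intro s c hs Q hQ
    have h1 : (∑ P ∈ s, c P • xx P) * nn Q - nn Q * (∑ P ∈ s, c P • xx P) = c Q • (xx Q * nn Q - nn Q * xx Q) := by
      rw [Finset.sum_mul, Finset.mul_sum, ← Finset.sum_sub_distrib]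
      rw [Finset.sum_eq_single Q]
      · rw [smul_mul_assoc, mul_smul_comm, smul_sub]
      · intro P _ hPQ
        rw [smul_mul_assoc, mul_smul_comm, hcross P Q hPQ, sub_self]
      · intro h5
        exact absurd hQ h5
    rw [hs, zero_mul, mul_zero, sub_zero] at h1
    exact (smul_eq_zero.1 h1.symm).resolve_right (hself Q)
  have := hli.finite_of_isNoetherian
  exact Set.toFinite _

/-- The final assembly. -/
theorem parts :
    ∃ (r : ℕ) (part : Fin r → Set (Subgroup (LinearMap.GeneralLinearGroup k M))),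
      (⋃ i, part i) = quadraticRootSubgroups G ∧ (∀ i j, i ≠ j → Disjoint (part i) (part j)) ∧ (∀ i, (part i).Nonempty) ∧
      (∀ i j, i ≠ j → ⁅(⨆ A ∈ part i, A), (⨆ A ∈ part j, A)⁆ = ⊥) ∧
      (∀ i, ∃ A₀ ∈ quadraticRootSubgroups G, part i = compOf G A₀) := by
  have hfin := finite_components h2 hk3 hG
  set C := {P : Set (Subgroup (LinearMap.GeneralLinearGroup k M)) | ∃ A ∈ quadraticRootSubgroups G, P = compOf G A} with hCd
  haveI : Finite C := hfin
  let e := Finite.equivFin C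
  refine ⟨_, fun i => (e.symm i).1, ?_, ?_, ?_, ?_, fun i => (e.symm i).2⟩
  · ext B
    simp only [Set.mem_iUnion]
    constructor
    · rintro ⟨i, hi⟩
      obtain ⟨A, hA, eA⟩ := (e.symm i).2
      rw [eA] at hi
      exact compOf_sub hA hi
    · intro hB
      refine ⟨e ⟨compOf G B, B, hB, rfl⟩, ?_⟩
      rw [Equiv.symm_apply_apply]
      exact self_mem_compOf
  · intro i j hij
    rw [Set.disjoint_left]
    intro B hBi hBj
    dsimp only at hBi hBj
    apply hij
    apply e.symm.injective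
    apply Subtype.ext
    obtain ⟨A, hA, eA⟩ := (e.symm i).2
    obtain ⟨A', hA', eA'⟩ := (e.symm j).2
    rw [eA] at hBi ⊢
    rw [eA'] at hBj ⊢
    rw [compOf_eq hBi, compOf_eq hBj]
  · intro i
    obtain ⟨A, hA, eA⟩ := (e.symm i).2
    dsimp only
    rw [eA]
    exact ⟨A, self_mem_compOf⟩
  · intro i j hij
    apply commutator_iSup_bot
    intro A hAi B hBj a ha b hb
    dsimp only at hAi hBj
    obtain ⟨A₁, hA₁, eA⟩ := (e.symm i).2
    obtain ⟨B₁, hB₁, eB⟩ := (e.symm j).2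
    rw [eA] at hAi
    rw [eB] at hBj
    have hAS := compOf_sub hA₁ hAi
    have hBS := compOf_sub hB₁ hBj
    apply comm_of_not_mem h2 hk3 hG hAS hBS ?_ ha hb
    intro h1
    apply hij
    apply e.symm.injective
    apply Subtype.ext
    rw [eA, eB, compOf_eq hAi, compOf_eq h1, ← compOf_eq hBj]

end Cfsg.Agent.Lib.RootSubgroups.QuadParts
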