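/-
Quadratic pairs: `G` is a central product of quasisimple groups (the part coming from the components of `Σ`, and the
reduction of the rest).
-/
import Mathlib
import Cfsg.Agent.Lib.RootSubgroups.QuadParts

set_option autoImplicit false
set_option linter.unusedSimpArgs false
set_option linter.unusedVariables false
set_option linter.unusedSectionVars false
set_option linter.style.haveILetI false

namespace Cfsg.Agent.Lib.RootSubgroups.QuadProd

open Cfsg
open Cfsg.Agent.Lib.RootSubgroups.Quadratic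
open Cfsg.Agent.Lib.RootSubgroups.QuadMatched
open Cfsg.Agent.Lib.RootSubgroups.QuadBasic
open Cfsg.Agent.Lib.RootSubgroups.QuadRep
open Cfsg.Agent.Lib.RootSubgroups.QuadPartner
open Cfsg.Agent.Lib.RootSubgroups.QuadNU
open Cfsg.Agent.Lib.RootSubgroups.QuadBlock
open Cfsg.Agent.Lib.RootSubgroups.QuadSurj
open Cfsg.Agent.Lib.RootSubgroups.QuadUnip
open Cfsg.Agent.Lib.RootSubgroups.QuadPairs
open Cfsg.Agent.Lib.RootSubgroups.QuadRootSet
open Cfsg.Agent.Lib.RootSubgroups.QuadCentral
open Cfsg.Agent.Lib.RootSubgroups.QuadSplit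
open Cfsg.Agent.Lib.RootSubgroups.QuadSimple
open Cfsg.Agent.Lib.RootSubgroups.QuadParts
open Cfsg.Agent.Lib.RootSubgroups.Transfer
open Cfsg.Agent.Lib.RootSubgroups.RankOne
open Cfsg.Agent.Lib.RootSubgroups.Abstract
open Cfsg.Agent.Lib.RootSubgroups.LineConn
open scoped commutatorElement

universe u v

variable {k : Type u} [Field k] {M : Type v} [AddCommGroup M] [Module k M] [FiniteDimensional k M]
variable {G : Subgroup (LinearMap.GeneralLinearGroup k M)}
  {A B A₀ : Subgroup (LinearMap.GeneralLinearGroup k M)} {x u : M →ₗ[k] M}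

/-- The subgroup of elements `g` with `g` and `g⁻¹` mapping `H` into itself. -/
def normSub (H : Subgroup (LinearMap.GeneralLinearGroup k M)) : Subgroup (LinearMap.GeneralLinearGroup k M) where
  carrier := {g | (∀ h ∈ H, g * h * g⁻¹ ∈ H) ∧ ∀ h ∈ H, g⁻¹ * h * g ∈ H}
  one_mem' := by
    constructor <;> intro h hh <;> simpa using hh
  mul_mem' := by
    rintro a b ⟨ha1, ha2⟩ ⟨hb1, hb2⟩
    refine ⟨fun h hh => ?_, fun h hh => ?_⟩
    · have := ha1 _ (hb1 h hh)
      have e : a * b * h * (a * b)⁻¹ = a * (b * h * b⁻¹) * a⁻¹ := by group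
      rwa [e]
    · have := hb2 _ (ha2 h hh)
      have e : (a * b)⁻¹ * h * (a * b) = b⁻¹ * (a⁻¹ * h * a) * b := by group
      rwa [e]
  inv_mem' := by
    rintro a ⟨ha1, ha2⟩
    refine ⟨fun h hh => ?_, fun h hh => ?_⟩
    · simpa using ha2 h hh
    · simpa using ha1 h hh

lemma conjBy_eq_of_normSub {H : Subgroup (LinearMap.GeneralLinearGroup k M)} {g : LinearMap.GeneralLinearGroup k M}
    (hg : g ∈ normSub H) : conjBy H g = H := by
  ext y
  constructor
  · rintro ⟨h, hh, rfl⟩
    exact hg.1 h hh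
  · intro hy
    refine ⟨g⁻¹ * y * g, hg.2 y hy, ?_⟩
    simp [mul_assoc]

variable (h2 : (2 : k) ≠ 0) (hk3 : Nat.card k ≠ 3) (hG : IsQuadraticPair G)

include h2 hk3 hG

/-- `G` normalizes each group generated by a component. -/
lemma le_normSub (hA₀ : A₀ ∈ quadraticRootSubgroups G) : G ≤ normSub (⨆ B ∈ compOf G A₀, B) := by
  set H := ⨆ B ∈ compOf G A₀, B with hH
  have hC : Comp G (compOf G A₀) H := comp_compOf h2 hk3 hG hA₀
  have h1 : ∀ g ∈ G0 G, ∀ h ∈ H, g * h * g⁻¹ ∈ H := by
    intro g hg h hh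
    have h3 : H ≤ H.comap (MulAut.conj g).toMonoidHom := by
      conv_lhs => rw [hH]
      refine iSup₂_le fun B hB b hb => ?_
      have h5 := conj_mem_compOf h2 hk3 hG (hC.sub hB) hg
      rw [← compOf_eq hB] at h5
      exact hC.le_of_mem h5 ⟨b, hb, rfl⟩
    exact h3 hh
  rw [← sup_centralizer_eq h2 hk3 hG]
  apply sup_le
  · intro g hg
    exact ⟨h1 g hg, fun h hh => by simpa using h1 g⁻¹ (Subgroup.inv_mem _ hg) h hh⟩
  · rintro g ⟨-, hg⟩
    have h3 : ∀ h ∈ H, g * h = h * g := by
      intro h hh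
      exact (Subgroup.mem_centralizer_iff.1 hg h (hC.le_sigma hh)).symm
    refine ⟨fun h hh => ?_, fun h hh => ?_⟩
    · rw [h3 h hh]; simpa using hh
    · have e : g⁻¹ * h * g = g⁻¹ * (h * g) := by group
      rw [e, ← h3 h hh]; simpa using hh

/-- The orthogonality lemma. -/
theorem ortho (hA₀ : A₀ ∈ quadraticRootSubgroups G) (hx : IsQD G x) (hA : HasClass G A x) (hAP : A ∈ compOf G A₀)
    {t : M →ₗ[k] M} (hxt : x * t = 0)
    (hc : ∀ h ∈ ⨆ B ∈ compOf G A₀, B, (h : M →ₗ[k] M) * t = t * (h : M →ₗ[k] M)) : t = 0 := by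
  set P := compOf G A₀ with hP
  set H := ⨆ B ∈ P, B with hH
  have hC : Comp G P H := comp_compOf h2 hk3 hG hA₀
  have hcl := class_compOf h2 hk3 hG hA₀
  have hle : ∀ {X}, X ∈ P → X ≤ H := fun {X} hX => le_iSup₂_of_le X hX le_rfl
  -- members kill the image of `t`
  have hran : LinearMap.range t ≤ LinearMap.ker x := by
    rintro _ ⟨v, rfl⟩
    rw [LinearMap.mem_ker]
    have := LinearMap.congr_fun hxt v
    simpa using this
  have h1 : ∀ B ∈ P, ∀ b ∈ B, tt b * t = 0 := by
    intro B hB b hb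
    obtain ⟨g, hg⟩ := hcl.2.2 (A.subgroupOf H) ⟨A, hAP, rfl⟩ (B.subgroupOf H) ⟨B, hB, rfl⟩
    rw [← conjBy_subgroupOf (hle hAP)] at hg
    have hcB : conjBy A (g : LinearMap.GeneralLinearGroup k M) ≤ H := by
      rintro _ ⟨a, ha, rfl⟩
      exact H.mul_mem (H.mul_mem g.2 (hle hAP ha)) (H.inv_mem g.2)
    have hg' := subgroupOf_inj (hle hB) hcB hg
    rw [hg'] at hb
    obtain ⟨a, ha, rfl⟩ := hb
    have e1 : tt ((g : LinearMap.GeneralLinearGroup k M) * a * (g : LinearMap.GeneralLinearGroup k M)⁻¹) =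
        cj (g : LinearMap.GeneralLinearGroup k M) (tt a) := by
      have := val_conj (g := (g : LinearMap.GeneralLinearGroup k M)) (val_of_tt a)
      unfold tt at *
      rw [this]
      simp [tt]
    change tt ((g : LinearMap.GeneralLinearGroup k M) * a * (g : LinearMap.GeneralLinearGroup k M)⁻¹) * t = 0
    rw [e1]
    have e2 : tt a * t = 0 := by
      rcases (hA a).1 ha with rfl | h3
      · simp [tt]
      · apply mul_zero_of_le
        rw [h3.ker]
        exact hran
    have e3 := hc _ (H.inv_mem g.2)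
    unfold cj
    calc (g : LinearMap.GeneralLinearGroup k M).val * tt a * (((g : LinearMap.GeneralLinearGroup k M)⁻¹ : LinearMap.GeneralLinearGroup k M) : M →ₗ[k] M) * t
        = (g : LinearMap.GeneralLinearGroup k M).val * tt a * ((((g : LinearMap.GeneralLinearGroup k M)⁻¹ : LinearMap.GeneralLinearGroup k M) : M →ₗ[k] M) * t) := by
          rw [mul_assoc]
      _ = (g : LinearMap.GeneralLinearGroup k M).val * (tt a * t) * (((g : LinearMap.GeneralLinearGroup k M)⁻¹ : LinearMap.GeneralLinearGroup k M) : M →ₗ[k] M) := by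
          rw [e3]; noncomm_ring
      _ = 0 := by rw [e2]; simp
  -- the stabilizer
  let S : Subgroup (LinearMap.GeneralLinearGroup k M) :=
    { carrier := {h | (h : M →ₗ[k] M) * t = t}
      one_mem' := by simp
      mul_mem' := by
        intro a b ha hb
        change (a : M →ₗ[k] M) * (b : M →ₗ[k] M) * t = t
        change (a : M →ₗ[k] M) * t = t at ha
        change (b : M →ₗ[k] M) * t = t at hb
        rw [mul_assoc, hb, ha]
      inv_mem' := by
        intro a ha
        change (a : M →ₗ[k] M) * t = t at ha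
        change ((a⁻¹ : LinearMap.GeneralLinearGroup k M) : M →ₗ[k] M) * t = t
        calc ((a⁻¹ : LinearMap.GeneralLinearGroup k M) : M →ₗ[k] M) * t
            = ((a⁻¹ : LinearMap.GeneralLinearGroup k M) : M →ₗ[k] M) * ((a : M →ₗ[k] M) * t) := by rw [ha]
          _ = t := by rw [← mul_assoc, val_inv_mul, one_mul] }
  have hHS : H ≤ S := by
    conv_lhs => rw [hH]
    refine iSup₂_le fun B hB b hb => ?_
    change (b : M →ₗ[k] M) * t = t
    have := h1 B hB b hb
    have e : (b : M →ₗ[k] M) = 1 + tt b := val_of_tt b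
    rw [e, add_mul, one_mul, this, add_zero]
  -- the fixed space
  let W : Submodule k M :=
    { carrier := {v | ∀ h ∈ H, (h : M →ₗ[k] M) v = v}
      add_mem' := by
        intro a b ha hb h hh
        rw [map_add, ha h hh, hb h hh]
      zero_mem' := by
        intro h hh
        rw [map_zero]
      smul_mem' := by
        intro c a ha h hh
        rw [map_smul, ha h hh] }
  have hnorm := le_normSub h2 hk3 hG hA₀
  have hinv : ∀ g ∈ G, ∀ w ∈ W, (g : M →ₗ[k] M) w ∈ W := by
    intro g hg w hw h hh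
    have h3 := (hnorm hg).2 h hh
    have h5 := hw _ h3
    have h6 : ((g⁻¹ * h * g : LinearMap.GeneralLinearGroup k M) : M →ₗ[k] M) w =
        ((g⁻¹ : LinearMap.GeneralLinearGroup k M) : M →ₗ[k] M) ((h : M →ₗ[k] M) ((g : M →ₗ[k] M) w)) := rfl
    rw [h6] at h5
    have h7 := congrArg (fun z => (g : M →ₗ[k] M) z) h5
    have h8 : ∀ z, (g : M →ₗ[k] M) (((g⁻¹ : LinearMap.GeneralLinearGroup k M) : M →ₗ[k] M) z) = z := by
      intro z
      exact LinearMap.congr_fun (val_mul_inv g) z
    rwa [h8] at h7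
  rcases hG.1.2 W hinv with h3 | h3
  · ext v
    have h5 : t v ∈ W := by
      intro h hh
      have := LinearMap.congr_fun (hHS hh) v
      simpa using this
    rw [h3, Submodule.mem_bot] at h5
    simpa using h5
  · exfalso
    apply hx.q.ne
    have ha := unit_mem_of_inC hA hx.q.sq (InC.refl hx)
    have hm := hle hAP ha
    ext v
    have h5 : v ∈ W := by rw [h3]; trivial
    have h6 := h5 _ hm
    rw [unitOfSq_val] at h6
    simpa using h6

/-- Elements commuting with all minimal elements. -/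
def Cen (G : Subgroup (LinearMap.GeneralLinearGroup k M)) (u : M →ₗ[k] M) : Prop := ∀ x, IsQD G x → x * u = u * x

omit h2 hk3 hG in
lemma comm_G0_of_cen {u : M →ₗ[k] M} (hu : Cen G u) {h τ : LinearMap.GeneralLinearGroup k M} (eτ : (τ : M →ₗ[k] M) = 1 + u)
    (hh : h ∈ G0 G) : h * τ = τ * h := by
  have h1 : G0 G ≤ Subgroup.centralizer ({τ} : Set (LinearMap.GeneralLinearGroup k M)) := by
    apply iSup₂_le
    intro A hA a ha
    obtain ⟨x, hx, hA'⟩ := mem_sigma hA
    rw [Subgroup.mem_centralizer_singleton_iff]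
    rcases (hA' a).1 ha with rfl | h5
    · simp
    · exact unit_comm (val_of_tt a) eτ (hu _ h5.qd)
  exact Subgroup.mem_centralizer_singleton_iff.1 (h1 hh)

omit h2 hk3 hG in
lemma val_comm_of_comm {h τ : LinearMap.GeneralLinearGroup k M} {u : M →ₗ[k] M} (eτ : (τ : M →ₗ[k] M) = 1 + u)
    (hc : h * τ = τ * h) : (h : M →ₗ[k] M) * u = u * (h : M →ₗ[k] M) := by
  have h6 := congrArg (fun g : LinearMap.GeneralLinearGroup k M => (g : M →ₗ[k] M)) hc
  simp only [Units.val_mul] at h6
  rw [eτ] at h6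
  have e1 : (h : M →ₗ[k] M) * (1 + u) = (h : M →ₗ[k] M) + (h : M →ₗ[k] M) * u := by noncomm_ring
  have e2 : (1 + u) * (h : M →ₗ[k] M) = (h : M →ₗ[k] M) + u * (h : M →ₗ[k] M) := by noncomm_ring
  rw [e1, e2] at h6
  exact add_left_cancel h6

/-- The dichotomy for elements of `𝔔`. -/
theorem dichotomy_q (r : ℕ) : ∀ u : M →ₗ[k] M, IsQ G u → rk u ≤ r → Cen G u ∨
    ∃ A₀ ∈ quadraticRootSubgroups G, ∀ c : k, ∃ τ ∈ ⨆ B ∈ compOf G A₀, B, (τ : M →ₗ[k] M) = 1 + c • u := by
  induction r with
  | zero =>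
    intro u hu hr
    exfalso
    have h6 : LinearMap.range u = ⊥ := Submodule.finrank_eq_zero.1 (Nat.le_zero.1 hr)
    exact hu.ne (LinearMap.range_eq_bot.1 h6)
  | succ r ih =>
    intro u hu hr
    by_cases hex : ∃ x, IsQD G x ∧ ¬ IsNilpotent (x * u + u * x)
    · right
      obtain ⟨x, hx, hz⟩ := hex
      obtain ⟨u₁, hu₁, e1, e2, hfam, hrk⟩ := split_of_nonnil h2 hk3 hx hu hz
      have hcl := exists_hasClass hu₁
      have hS := sigma_of_qd hu₁
      set E := sameActionSubgroup G (unitOfSq u₁ hu₁.q.sq) with hE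
      have hEself : E ∈ compOf G E := self_mem_compOf
      have hu₁mem : ∀ c : k, ∃ a ∈ ⨆ B ∈ compOf G E, B, (a : M →ₗ[k] M) = 1 + c • u₁ := by
        intro c
        obtain ⟨a, ha, ea⟩ := unit_smul_mem hcl hu₁ c
        have hEle : E ≤ ⨆ B ∈ compOf G E, B := le_iSup₂_of_le E hEself le_rfl
        exact ⟨a, hEle ha, ea⟩
      refine ⟨E, hS, ?_⟩
      by_cases h0 : u - u₁ = 0
      · intro c
        rw [sub_eq_zero.1 h0]
        exact hu₁mem c
      · have hlt : rk (u - u₁) < rk u := hrk.resolve_left h0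
        have hsq : (u - u₁) * (u - u₁) = 0 := by
          have e3 : (u - u₁) * (u - u₁) = u * u - u₁ * u - (u - u₁) * u₁ := by noncomm_ring
          have e4 : u₁ * u = u₁ * u₁ := by
            have := e1
            rwa [mul_sub, sub_eq_zero] at this
          have e5 : u₁ * u₁ = 0 := hu₁.q.sq
          rw [e3, hu.sq, e2, e4, e5]
          simp
        have hQ : IsQ G (u - u₁) := ⟨hsq, h0, hfam⟩
        have hcomp : ∀ A₁ ∈ quadraticRootSubgroups G,
            (∃ τ ∈ ⨆ B ∈ compOf G A₁, B, (τ : M →ₗ[k] M) = 1 + (1 : k) • (u - u₁)) → E ∉ compOf G A₁ → False := by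
          rintro A₁ hA₁ ⟨τ, hτ, eτ⟩ hn
          rw [one_smul] at eτ
          apply h0
          apply ortho h2 hk3 hG hS hu₁ hcl hEself e1
          intro h hh
          have hcc : ⁅⨆ B ∈ compOf G E, B, ⨆ B ∈ compOf G A₁, B⁆ = ⊥ := by
            apply commutator_iSup_bot
            intro B hB C hC b hb c hc
            have hBS := compOf_sub hS hB
            have hCS := compOf_sub hA₁ hC
            apply comm_of_not_mem h2 hk3 hG hBS hCS ?_ hb hc
            intro h5
            apply hn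
            have h6 : Relation.ReflTransGen (FAdj (quadraticRootSubgroups G)) A₁ C := hC
            have h7 : Relation.ReflTransGen (FAdj (quadraticRootSubgroups G)) B C := h5
            have h8 : Relation.ReflTransGen (FAdj (quadraticRootSubgroups G)) E B := hB
            exact (h6.trans (conn_symm h7)).trans (conn_symm h8)
          exact val_comm_of_comm eτ (commute_of_bot hcc hh hτ)
        rcases ih (u - u₁) hQ (by omega) with hcen | ⟨A₁, hA₁, hfam₁⟩
        · exfalso
          apply h0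
          apply ortho h2 hk3 hG hS hu₁ hcl hEself e1
          intro h hh
          obtain ⟨τ, -, eτ⟩ := hQ.fam 1
          rw [one_smul] at eτ
          have hhG0 : h ∈ G0 G := (comp_compOf h2 hk3 hG hS).le_sigma hh
          exact val_comm_of_comm eτ (comm_G0_of_cen hcen eτ hhG0)
        · have hmem : E ∈ compOf G A₁ := by
            by_contra hn
            exact hcomp A₁ hA₁ (hfam₁ 1) hn
          have heq : compOf G E = compOf G A₁ := (compOf_eq hmem).symm
          intro c
          obtain ⟨a, ha, ea⟩ := hu₁mem c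
          obtain ⟨τ, hτ, eτ⟩ := hfam₁ c
          rw [← heq] at hτ
          refine ⟨a * τ, Subgroup.mul_mem _ ha hτ, ?_⟩
          rw [Units.val_mul, ea, eτ]
          have e3 : ∀ a b : M →ₗ[k] M, (1 + a) * (1 + b) = 1 + a + b + a * b := by
            intro a b; noncomm_ring
          rw [e3, smul_mul_smul_comm, e1, smul_zero, add_zero, smul_sub]
          abel
    · left
      push Not at hex
      intro x hx
      exact central_of_all_nil h2 hk3 hG hu hex hx

end Cfsg.Agent.Lib.RootSubgroups.QuadProd
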