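/-
Quadratic pairs: `G` is a central product of quasisimple groups (the reduction to a smaller module).
-/
import Mathlib
import Cfsg.Agent.Lib.RootSubgroups.QuadProd
import Cfsg.Agent.Lib.Components.Basic

set_option autoImplicit false
set_option linter.unusedSimpArgs false
set_option linter.unusedVariables false
set_option linter.unusedSectionVars false
set_option linter.style.haveILetI false

namespace Cfsg.Agent.Lib.RootSubgroups.QuadProd2

open Cfsg
open Cfsg.Agent.Lib.RootSubgroups.Quadratic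
open Cfsg.Agent.Lib.RootSubgroups.QuadMatched
open Cfsg.Agent.Lib.RootSubgroups.QuadBasic
open Cfsg.Agent.Lib.RootSubgroups.QuadRep
open Cfsg.Agent.Lib.RootSubgroups.QuadPartner
open Cfsg.Agent.Lib.RootSubgroups.QuadNU
open Cfsg.Agent.Lib.RootSubgroups.QuadBlock
open Cfsg.Agent.Lib.RootSubgroups.QuadSurj
open Cfsg.Agent.Lib.RootSubgroups.QuadUnip
open Cfsg.Agent.Lib.RootSubgroups.QuadPairs
open Cfsg.Agent.Lib.RootSubgroups.QuadRootSet
open Cfsg.Agent.Lib.RootSubgroups.QuadCentral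
open Cfsg.Agent.Lib.RootSubgroups.QuadSplit
open Cfsg.Agent.Lib.RootSubgroups.QuadSimple
open Cfsg.Agent.Lib.RootSubgroups.QuadParts
open Cfsg.Agent.Lib.RootSubgroups.QuadProd
open Cfsg.Agent.Lib.RootSubgroups.Transfer
open Cfsg.Agent.Lib.RootSubgroups.RankOne
open Cfsg.Agent.Lib.RootSubgroups.Abstract
open Cfsg.Agent.Lib.RootSubgroups.LineConn
open scoped commutatorElement

universe u v

section Rho

variable {k : Type u} [Field k] {M : Type v} [AddCommGroup M] [Module k M]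

/-- Restriction to an invariant subspace. -/
noncomputable def rho (T : Subgroup (LinearMap.GeneralLinearGroup k M)) (W : Submodule k M)
    (hT : ∀ g ∈ T, ∀ w ∈ W, (g : M →ₗ[k] M) w ∈ W) : ↥T →* LinearMap.GeneralLinearGroup k ↥W where
  toFun g :=
    { val := (g.1 : M →ₗ[k] M).restrict (hT g.1 g.2)
      inv := ((g.1⁻¹ : LinearMap.GeneralLinearGroup k M) : M →ₗ[k] M).restrict (hT g.1⁻¹ (T.inv_mem g.2))
      val_inv := by
        ext w
        exact LinearMap.congr_fun (val_mul_inv g.1) w.1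
      inv_val := by
        ext w
        exact LinearMap.congr_fun (val_inv_mul g.1) w.1 }
  map_one' := by
    ext w
    rfl
  map_mul' a b := by
    ext w
    rfl

lemma rho_apply (T : Subgroup (LinearMap.GeneralLinearGroup k M)) (W : Submodule k M)
    (hT : ∀ g ∈ T, ∀ w ∈ W, (g : M →ₗ[k] M) w ∈ W) (g : ↥T) (w : ↥W) :
    (((rho T W hT g : LinearMap.GeneralLinearGroup k ↥W) : ↥W →ₗ[k] ↥W) w : M) = (g.1 : M →ₗ[k] M) w := rfl

end Rho

variable {k : Type u} [Field k] {M : Type v} [AddCommGroup M] [Module k M] [FiniteDimensional k M]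
variable {G : Subgroup (LinearMap.GeneralLinearGroup k M)}

/-- The central quadratic elements. -/
def U2 (G : Subgroup (LinearMap.GeneralLinearGroup k M)) : Set (LinearMap.GeneralLinearGroup k M) :=
  {τ | ∃ u, IsQ G u ∧ Cen G u ∧ (τ : M →ₗ[k] M) = 1 + u}

/-- The group they generate. -/
def G2 (G : Subgroup (LinearMap.GeneralLinearGroup k M)) : Subgroup (LinearMap.GeneralLinearGroup k M) :=
  Subgroup.closure (U2 G)

lemma mem_G_of_isQ {u : M →ₗ[k] M} (hu : IsQ G u) {τ : LinearMap.GeneralLinearGroup k M}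
    (e : (τ : M →ₗ[k] M) = 1 + u) : τ ∈ G := by
  obtain ⟨ρ, hρ, e'⟩ := hu.fam 1
  have : ρ = τ := by
    apply Units.ext
    rw [e', e, one_smul]
  rwa [this] at hρ

lemma G2_le : G2 G ≤ G := by
  unfold G2
  rw [Subgroup.closure_le]
  rintro τ ⟨u, hu, -, e⟩
  exact mem_G_of_isQ hu e

lemma comm_G0_G2 {a b : LinearMap.GeneralLinearGroup k M} (ha : a ∈ G0 G) (hb : b ∈ G2 G) : a * b = b * a := by
  have h1 : G2 G ≤ Subgroup.centralizer ({a} : Set (LinearMap.GeneralLinearGroup k M)) := by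
    unfold G2
    rw [Subgroup.closure_le]
    rintro τ ⟨u, hu, hc, e⟩
    rw [SetLike.mem_coe, Subgroup.mem_centralizer_singleton_iff]
    exact (comm_G0_of_cen hc e ha).symm
  exact (Subgroup.mem_centralizer_singleton_iff.1 (h1 hb)).symm

lemma val_comm {a b : LinearMap.GeneralLinearGroup k M} (ha : a ∈ G0 G) (hb : b ∈ G2 G) (v : M) :
    (b : M →ₗ[k] M) ((a : M →ₗ[k] M) v) = (a : M →ₗ[k] M) ((b : M →ₗ[k] M) v) := by
  have h1 := congrArg (fun g : LinearMap.GeneralLinearGroup k M => (g : M →ₗ[k] M)) (comm_G0_G2 ha hb)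
  simp only [Units.val_mul] at h1
  exact (LinearMap.congr_fun h1 v).symm

lemma exists_qd {u : M →ₗ[k] M} (hu : IsQ G u) : ∃ x, IsQD G x := by
  classical
  have hex : ∃ d, ∃ y, IsQ G y ∧ rk y = d := ⟨_, u, hu, rfl⟩
  obtain ⟨y, hy, hd⟩ := Nat.find_spec hex
  refine ⟨y, hy, fun z hz => ?_⟩
  rw [hd]
  exact Nat.find_min' hex ⟨z, hz, rfl⟩

lemma exists_irr (T : Subgroup (LinearMap.GeneralLinearGroup k M)) (hM : ∃ m : M, m ≠ 0) :
    ∃ W : Submodule k M, (∀ g ∈ T, ∀ w ∈ W, (g : M →ₗ[k] M) w ∈ W) ∧ W ≠ ⊥ ∧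
      ∀ W' : Submodule k M, W' ≤ W → (∀ g ∈ T, ∀ w ∈ W', (g : M →ₗ[k] M) w ∈ W') → W' = ⊥ ∨ W' = W := by
  classical
  have hex : ∃ d, ∃ W : Submodule k M, (∀ g ∈ T, ∀ w ∈ W, (g : M →ₗ[k] M) w ∈ W) ∧ W ≠ ⊥ ∧ Module.finrank k W = d := by
    obtain ⟨m, hm⟩ := hM
    refine ⟨_, ⊤, fun _ _ _ _ => trivial, ?_, rfl⟩
    intro h
    have : m ∈ (⊤ : Submodule k M) := trivial
    rw [h, Submodule.mem_bot] at this
    exact hm this
  obtain ⟨W, h1, h3, hd⟩ := Nat.find_spec hex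
  refine ⟨W, h1, h3, fun W' hle hinv => ?_⟩
  by_cases h0 : W' = ⊥
  · exact Or.inl h0
  · right
    apply Submodule.eq_of_le_of_finrank_le hle
    rw [hd]
    exact Nat.find_min' hex ⟨W', hinv, h0, rfl⟩

/-- The subgroup of elements with `g` and `g⁻¹` preserving a subspace. -/
def stabSub (W : Submodule k M) : Subgroup (LinearMap.GeneralLinearGroup k M) where
  carrier := {g | (∀ v ∈ W, (g : M →ₗ[k] M) v ∈ W) ∧ ∀ v ∈ W, ((g⁻¹ : LinearMap.GeneralLinearGroup k M) : M →ₗ[k] M) v ∈ W}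
  one_mem' := by
    constructor <;> intro v hv <;> simpa using hv
  mul_mem' := by
    rintro a b ⟨ha1, ha2⟩ ⟨hb1, hb2⟩
    refine ⟨fun v hv => ha1 _ (hb1 v hv), fun v hv => ?_⟩
    rw [mul_inv_rev]
    exact hb2 _ (ha2 v hv)
  inv_mem' := by
    rintro a ⟨ha1, ha2⟩
    refine ⟨ha2, fun v hv => ?_⟩
    rw [inv_inv]
    exact ha1 v hv

/-- An irreducible subspace for the central group. -/
structure Red (G : Subgroup (LinearMap.GeneralLinearGroup k M)) (W : Submodule k M) : Prop where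
  inv : ∀ g ∈ G2 G, ∀ w ∈ W, (g : M →ₗ[k] M) w ∈ W
  ne : W ≠ ⊥
  irr : ∀ W' : Submodule k M, W' ≤ W → (∀ g ∈ G2 G, ∀ w ∈ W', (g : M →ₗ[k] M) w ∈ W') → W' = ⊥ ∨ W' = W

/-- The translates of `W`. -/
def gens (G : Subgroup (LinearMap.GeneralLinearGroup k M)) (W : Submodule k M) : Set M :=
  {v | ∃ g ∈ G0 G, ∃ w ∈ W, v = (g : M →ₗ[k] M) w}

variable (h2 : (2 : k) ≠ 0) (hk3 : Nat.card k ≠ 3) (hG : IsQuadraticPair G)

include h2 hk3 hG

/-- Every quadratic element is in `G₀` or in `G₂`. -/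
theorem sup_G2 : G0 G ⊔ G2 G = G := by
  apply le_antisymm
  · exact sup_le (iSup₂_le fun A hA => le_G_of_sigma hA) G2_le
  · conv_lhs => rw [← hG.2]
    rw [Subgroup.closure_le]
    intro σ hσ
    rcases dichotomy_q h2 hk3 hG _ (tt σ) (isQ_of_mem hσ) le_rfl with hc | ⟨A₀, hA₀, hf⟩
    · exact Subgroup.mem_sup_right (Subgroup.subset_closure ⟨tt σ, isQ_of_mem hσ, hc, val_of_tt σ⟩)
    · obtain ⟨τ, hτ, e⟩ := hf 1
      have : τ = σ := by
        apply Units.ext
        rw [e, one_smul, ← val_of_tt]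
      rw [← this]
      exact Subgroup.mem_sup_left ((comp_compOf h2 hk3 hG hA₀).le_sigma hτ)

variable {W : Submodule k M} (hR : Red G W)

include hR

theorem span_gens : Submodule.span k (gens G W) = ⊤ := by
  set M₁ := Submodule.span k (gens G W) with hM₁
  have hW : W ≤ M₁ := by
    intro w hw
    exact Submodule.subset_span ⟨1, Subgroup.one_mem _, w, hw, by simp⟩
  have hG₀ : ∀ g ∈ G0 G, ∀ v ∈ M₁, (g : M →ₗ[k] M) v ∈ M₁ := by
    intro g hg v hv
    have h1 : M₁ ≤ M₁.comap (g : M →ₗ[k] M) := by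
      rw [hM₁, Submodule.span_le]
      rintro _ ⟨a, ha, w, hw, rfl⟩
      exact Submodule.subset_span ⟨g * a, Subgroup.mul_mem _ hg ha, w, hw, rfl⟩
    exact h1 hv
  have hG₂ : ∀ g ∈ G2 G, ∀ v ∈ M₁, (g : M →ₗ[k] M) v ∈ M₁ := by
    intro g hg v hv
    have h1 : M₁ ≤ M₁.comap (g : M →ₗ[k] M) := by
      rw [hM₁, Submodule.span_le]
      rintro _ ⟨a, ha, w, hw, rfl⟩
      show (g : M →ₗ[k] M) ((a : M →ₗ[k] M) w) ∈ M₁
      rw [val_comm ha hg]
      exact Submodule.subset_span ⟨a, ha, _, hR.inv g hg w hw, rfl⟩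
    exact h1 hv
  have hS : G ≤ stabSub M₁ := by
    rw [← sup_G2 h2 hk3 hG]
    apply sup_le
    · intro g hg
      exact ⟨hG₀ g hg, hG₀ g⁻¹ (Subgroup.inv_mem _ hg)⟩
    · intro g hg
      exact ⟨hG₂ g hg, hG₂ g⁻¹ (Subgroup.inv_mem _ hg)⟩
  rcases hG.1.2 M₁ (fun g hg w hw => (hS hg).1 w hw) with h | h
  · exfalso
    apply hR.ne
    rw [eq_bot_iff, ← h]
    exact hW
  · exact h

theorem hgen (f f' : M →ₗ[k] M) (h : ∀ g ∈ G0 G, ∀ w ∈ W, f ((g : M →ₗ[k] M) w) = f' ((g : M →ₗ[k] M) w)) : f = f' := by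
  apply LinearMap.ext_on (span_gens h2 hk3 hG hR)
  rintro _ ⟨g, hg, w, hw, rfl⟩
  exact h g hg w hw

theorem rho_inj : Function.Injective (rho (G2 G) W hR.inv) := by
  rw [injective_iff_map_eq_one]
  intro g hg
  apply Subtype.ext
  apply Units.ext
  apply hgen h2 hk3 hG hR
  intro a ha w hw
  have h1 : (g.1 : M →ₗ[k] M) w = w := by
    have := rho_apply (G2 G) W hR.inv g ⟨w, hw⟩
    rw [hg] at this
    exact this.symm
  show (g.1 : M →ₗ[k] M) ((a : M →ₗ[k] M) w) = (a : M →ₗ[k] M) w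
  rw [val_comm ha g.2, h1]

omit hk3 hG h2 in
theorem W_ne_top {x : M →ₗ[k] M} (hx : IsQD G x) : W ≠ ⊤ := by
  intro htop
  have ha : unitOfSq x hx.q.sq ∈ G0 G :=
    le_iSup₂_of_le (f := fun (A : Subgroup (LinearMap.GeneralLinearGroup k M)) (_ : A ∈ quadraticRootSubgroups G) => A) _ (sigma_of_qd hx) le_rfl
      (unit_mem_of_inC (exists_hasClass hx) hx.q.sq (InC.refl hx))
  have hcomm : ∀ g ∈ G2 G, (g : M →ₗ[k] M) * x = x * (g : M →ₗ[k] M) := by
    intro g hg
    exact val_comm_of_comm (unitOfSq_val x hx.q.sq) (comm_G0_G2 ha hg).symm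
  have hinv : ∀ g ∈ G2 G, ∀ w ∈ LinearMap.ker x, (g : M →ₗ[k] M) w ∈ LinearMap.ker x := by
    intro g hg w hw
    rw [LinearMap.mem_ker] at hw ⊢
    have := LinearMap.congr_fun (hcomm g hg) w
    simp only [Module.End.mul_apply] at this
    rw [← this, hw, map_zero]
  rcases hR.irr _ (by rw [htop]; exact le_top) hinv with h5 | h5
  · apply hx.q.ne
    ext v
    have : x v ∈ LinearMap.ker x := by
      rw [LinearMap.mem_ker]
      have := LinearMap.congr_fun hx.q.sq v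
      simpa using this
    rw [h5, Submodule.mem_bot] at this
    simpa using this
  · apply hx.q.ne
    rw [htop] at h5
    exact LinearMap.ker_eq_top.1 h5

/-- The image of `G₂`. -/
noncomputable abbrev Gb (hR : Red G W) : Subgroup (LinearMap.GeneralLinearGroup k ↥W) := (rho (G2 G) W hR.inv).range

omit hk3 hG h2 hR in
lemma unit_in_G2 {u : M →ₗ[k] M} (hu : IsQ G u) (hc : Cen G u) (c : k) :
    ∃ τ ∈ G2 G, (τ : M →ₗ[k] M) = 1 + c • u := by
  by_cases h0 : c = 0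
  · subst h0
    exact ⟨1, Subgroup.one_mem _, by simp⟩
  · have hsq : (c • u) * (c • u) = 0 := by rw [smul_mul_smul_comm, hu.sq, smul_zero]
    refine ⟨unitOfSq (c • u) hsq, Subgroup.subset_closure ⟨c • u, hu.smul h0, ?_, rfl⟩, rfl⟩
    intro x hx
    rw [mul_smul_comm, smul_mul_assoc, hc x hx]

/-- Images of central quadratic elements are quadratic. -/
theorem rho_mem_Q {τ : LinearMap.GeneralLinearGroup k M} (hτ : τ ∈ U2 G) :
    rho (G2 G) W hR.inv ⟨τ, Subgroup.subset_closure hτ⟩ ∈ quadraticElements (Gb hR) := by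
  obtain ⟨u, hu, hc, e⟩ := hτ
  have hτ' : τ ∈ G2 G := Subgroup.subset_closure ⟨u, hu, hc, e⟩
  set σ := rho (G2 G) W hR.inv ⟨τ, hτ'⟩ with hσ
  have hval : ∀ w : ↥W, ((((σ : LinearMap.GeneralLinearGroup k ↥W) : ↥W →ₗ[k] ↥W) - 1) w : M) = u w := by
    intro w
    have h1 := rho_apply (G2 G) W hR.inv ⟨τ, hτ'⟩ w
    show (((σ : LinearMap.GeneralLinearGroup k ↥W) : ↥W →ₗ[k] ↥W) w : M) - (w : M) = u w
    rw [hσ, h1]
    show (τ : M →ₗ[k] M) (w : M) - (w : M) = u w
    rw [e]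
    simp
  refine ⟨⟨_, rfl⟩, ⟨?_, ?_⟩, ?_⟩
  · ext w
    rw [Module.End.mul_apply, hval]
    have h3 : ((((σ : LinearMap.GeneralLinearGroup k ↥W) : ↥W →ₗ[k] ↥W) - 1) w : M) = u w := hval w
    rw [h3]
    have := LinearMap.congr_fun hu.sq (w : M)
    simpa using this
  · intro h0
    have h1 : σ = 1 := by
      apply Units.ext
      exact sub_eq_zero.1 h0
    have h3 := rho_inj h2 hk3 hG hR (h1.trans (map_one _).symm)
    apply hu.ne
    have h5 : τ = 1 := congrArg Subtype.val h3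
    have h6 : (τ : M →ₗ[k] M) = 1 := by rw [h5]; rfl
    rw [e] at h6
    simpa using h6
  · rintro τ' ⟨c, hc'⟩
    obtain ⟨ρ, hρ, eρ⟩ := unit_in_G2 hu hc c
    refine ⟨⟨ρ, hρ⟩, ?_⟩
    apply Units.ext
    ext w
    rw [rho_apply, hc']
    show (ρ : M →ₗ[k] M) (w : M) = (w : M) + c • (((((σ : LinearMap.GeneralLinearGroup k ↥W) : ↥W →ₗ[k] ↥W) - 1) w : ↥W) : M)
    rw [hval, eρ]
    simp

/-- The restricted pair is a quadratic pair. -/
theorem pair_Gb : IsQuadraticPair (Gb hR) := by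
  refine ⟨⟨?_, ?_⟩, ?_⟩
  · obtain ⟨w, hw, hw1⟩ := Submodule.exists_mem_ne_zero_of_ne_bot hR.ne
    exact ⟨⟨w, hw⟩, fun h => hw1 (congrArg Subtype.val h)⟩
  · intro W' hinv
    have h1 : W'.map W.subtype ≤ W := Submodule.map_subtype_le W W'
    have h3 : ∀ g ∈ G2 G, ∀ w ∈ W'.map W.subtype, (g : M →ₗ[k] M) w ∈ W'.map W.subtype := by
      rintro g hg _ ⟨w, hw, rfl⟩
      exact ⟨_, hinv _ ⟨⟨g, hg⟩, rfl⟩ w hw, rfl⟩
    rcases hR.irr _ h1 h3 with h | h
    · left
      exact Submodule.map_injective_of_injective W.injective_subtype (by rw [h, Submodule.map_bot])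
    · right
      rw [eq_top_iff]
      intro w _
      have : (w : M) ∈ W'.map W.subtype := by
        rw [h]
        exact w.2
      obtain ⟨w', hw', e⟩ := this
      have : w' = w := Subtype.ext e
      rwa [← this]
  · apply le_antisymm
    · rw [Subgroup.closure_le]
      exact fun σ hσ => hσ.1
    · rintro _ ⟨g, rfl⟩
      set C := Subgroup.closure (quadraticElements (Gb hR)) with hC
      have h1 : G2 G ≤ (C.comap (rho (G2 G) W hR.inv)).map (G2 G).subtype := by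
        unfold G2
        rw [Subgroup.closure_le]
        intro τ hτ
        exact ⟨⟨τ, Subgroup.subset_closure hτ⟩, Subgroup.subset_closure (rho_mem_Q h2 hk3 hG hR hτ), rfl⟩
      obtain ⟨g', hg', e⟩ := h1 g.2
      have : g' = g := Subtype.ext e
      rw [← this]
      exact hg'

/-- Quadratic elements of the image lift to quadratic elements of `G`. -/
theorem lift_Q {g : ↥(G2 G)} (hg : rho (G2 G) W hR.inv g ∈ quadraticElements (Gb hR)) : g.1 ∈ quadraticElements G := by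
  set σ := rho (G2 G) W hR.inv g with hσ
  set v := tt σ with hv
  have hvv : v * v = 0 := hg.2.1.1
  have hv0 : v ≠ 0 := hg.2.1.2
  set u := tt g.1 with hu
  have hval : ∀ w : ↥W, (v w : M) = u (w : M) := by
    intro w
    show (((σ : LinearMap.GeneralLinearGroup k ↥W) : ↥W →ₗ[k] ↥W) w : M) - (w : M) = (g.1 : M →ₗ[k] M) (w : M) - (w : M)
    rw [hσ, rho_apply]
  have hta : ∀ a ∈ G0 G, ∀ w : ↥W, u ((a : M →ₗ[k] M) (w : M)) = (a : M →ₗ[k] M) (v w : M) := by
    intro a ha w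
    rw [hval]
    show (g.1 : M →ₗ[k] M) ((a : M →ₗ[k] M) (w : M)) - (a : M →ₗ[k] M) (w : M) =
      (a : M →ₗ[k] M) ((g.1 : M →ₗ[k] M) (w : M) - (w : M))
    rw [val_comm ha g.2, map_sub]
  have huu : u * u = 0 := by
    apply hgen h2 hk3 hG hR
    intro a ha w hw
    rw [Module.End.mul_apply, hta a ha ⟨w, hw⟩]
    rw [hta a ha (v ⟨w, hw⟩)]
    have h1 := LinearMap.congr_fun hvv ⟨w, hw⟩
    simp only [Module.End.mul_apply, LinearMap.zero_apply] at h1
    rw [h1]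
    simp
  have hu0 : u ≠ 0 := by
    intro h0
    apply hv0
    ext w
    rw [hval, h0]
    simp
  refine ⟨G2_le g.2, ⟨huu, hu0⟩, ?_⟩
  rintro τ ⟨c, hc⟩
  have hsq : (c • v) * (c • v) = 0 := by rw [smul_mul_smul_comm, hvv, smul_zero]
  have hmem : unitOfSq (c • v) hsq ∈ Gb hR := hg.2.2 ⟨c, rfl⟩
  obtain ⟨g', hg'⟩ := hmem
  have e : (g'.1 : M →ₗ[k] M) = 1 + c • u := by
    apply hgen h2 hk3 hG hR
    intro a ha w hw
    rw [val_comm ha g'.2]
    have h1 := rho_apply (G2 G) W hR.inv g' ⟨w, hw⟩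
    rw [hg'] at h1
    change ((⟨w, hw⟩ : ↥W) : M) + c • (v ⟨w, hw⟩ : M) = (g'.1 : M →ₗ[k] M) w at h1
    rw [← h1, map_add, map_smul]
    have h3 := hta a ha ⟨w, hw⟩
    simp only [LinearMap.add_apply, LinearMap.smul_apply, Module.End.one_apply]
    rw [h3]
  have : τ = g'.1 := by
    apply Units.ext
    rw [hc, e]
  rw [this]
  exact G2_le g'.2

end Cfsg.Agent.Lib.RootSubgroups.QuadProd2
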