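/-
Quadratic pairs: `G` is a central product of quasisimple groups (assembly).
-/
import Mathlib
import Cfsg.Agent.Lib.RootSubgroups.QuadProd2

set_option autoImplicit false
set_option linter.unusedSimpArgs false
set_option linter.unusedVariables false
set_option linter.unusedSectionVars false
set_option linter.style.haveILetI false

namespace Cfsg.Agent.Lib.RootSubgroups.QuadProd3

open Cfsg
open Cfsg.Agent.Lib.RootSubgroups.Quadratic
open Cfsg.Agent.Lib.RootSubgroups.QuadMatched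
open Cfsg.Agent.Lib.RootSubgroups.QuadBasic
open Cfsg.Agent.Lib.RootSubgroups.QuadBlock
open Cfsg.Agent.Lib.RootSubgroups.QuadSurj
open Cfsg.Agent.Lib.RootSubgroups.QuadPairs
open Cfsg.Agent.Lib.RootSubgroups.QuadRootSet
open Cfsg.Agent.Lib.RootSubgroups.QuadSimple
open Cfsg.Agent.Lib.RootSubgroups.QuadParts
open Cfsg.Agent.Lib.RootSubgroups.QuadProd
open Cfsg.Agent.Lib.RootSubgroups.QuadProd2
open Cfsg.Agent.Lib.RootSubgroups.Abstract
open scoped commutatorElement

universe u v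

/-- The conclusion of the main theorem. -/
def Concl {k : Type*} [Field k] {M : Type*} [AddCommGroup M] [Module k M]
    (G : Subgroup (LinearMap.GeneralLinearGroup k M)) : Prop :=
  ∃ (s : ℕ) (Gi : Fin s → Subgroup (LinearMap.GeneralLinearGroup k M)),
      (∀ i, Gi i ≤ G ∧ ∀ g ∈ G, Cfsg.conjBy (Gi i) g = Gi i) ∧ (∀ i j, i ≠ j → ⁅Gi i, Gi j⁆ = ⊥) ∧ (⨆ i, Gi i) = G ∧
      (∀ i, Cfsg.IsQuasisimple ↥(Gi i) ∧ Subgroup.closure (Cfsg.quadraticElements G ∩ (Gi i : Set (LinearMap.GeneralLinearGroup k M))) = Gi i) ∧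
      Cfsg.quadraticElements G ⊆ ⋃ i, (Gi i : Set (LinearMap.GeneralLinearGroup k M))

lemma concl_of_index {k : Type*} [Field k] {M : Type*} [AddCommGroup M] [Module k M]
    {G : Subgroup (LinearMap.GeneralLinearGroup k M)} {ι : Type*} [Finite ι]
    (Gi : ι → Subgroup (LinearMap.GeneralLinearGroup k M))
    (h1 : ∀ i, Gi i ≤ G ∧ ∀ g ∈ G, Cfsg.conjBy (Gi i) g = Gi i) (h3 : ∀ i j, i ≠ j → ⁅Gi i, Gi j⁆ = ⊥)
    (h4 : (⨆ i, Gi i) = G)
    (h5 : ∀ i, Cfsg.IsQuasisimple ↥(Gi i) ∧ Subgroup.closure (Cfsg.quadraticElements G ∩ (Gi i : Set (LinearMap.GeneralLinearGroup k M))) = Gi i)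
    (h6 : Cfsg.quadraticElements G ⊆ ⋃ i, (Gi i : Set (LinearMap.GeneralLinearGroup k M))) : Concl G := by
  let e := Finite.equivFin ι
  refine ⟨_, fun i => Gi (e.symm i), fun i => h1 _, fun i j hij => h3 _ _ (fun h => hij (e.symm.injective h)), ?_,
    fun i => h5 _, ?_⟩
  · rw [← h4]
    exact e.symm.iSup_comp
  · intro σ hσ
    obtain ⟨i, hi⟩ := Set.mem_iUnion.1 (h6 hσ)
    refine Set.mem_iUnion.2 ⟨e i, ?_⟩
    simpa using hi

variable {k : Type u} [Field k] {M : Type v} [AddCommGroup M] [Module k M] [FiniteDimensional k M]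
variable {G : Subgroup (LinearMap.GeneralLinearGroup k M)}

/-- Factors of the central group. -/
structure Fac (G : Subgroup (LinearMap.GeneralLinearGroup k M)) (s : ℕ)
    (L : Fin s → Subgroup (LinearMap.GeneralLinearGroup k M)) : Prop where
  le : ∀ j, L j ≤ G2 G
  nrm : ∀ j, ∀ g ∈ G2 G, ∀ l ∈ L j, g * l * g⁻¹ ∈ L j
  cm : ∀ i j, i ≠ j → ∀ a ∈ L i, ∀ b ∈ L j, a * b = b * a
  cov : U2 G ⊆ ⋃ j, (L j : Set (LinearMap.GeneralLinearGroup k M))
  qs : ∀ j, IsQuasisimple ↥(L j)
  gen : ∀ j, Subgroup.closure (quadraticElements G ∩ (L j : Set (LinearMap.GeneralLinearGroup k M))) = L j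

variable (h2 : (2 : k) ≠ 0) (hk3 : Nat.card k ≠ 3) (hG : IsQuadraticPair G)

include h2 hk3 hG

/-- Lifting the factors of the image of `G₂`. -/
theorem factors {W : Submodule k M} (hR : Red G W) (hC : Concl (Gb hR)) : ∃ (s : ℕ) (L : Fin s → Subgroup (LinearMap.GeneralLinearGroup k M)), Fac G s L := by
  obtain ⟨s, Gi, h1, h3, h4, h5, h6⟩ := hC
  set ρ := rho (G2 G) W hR.inv with hρ
  have hinj : Function.Injective ρ := rho_inj h2 hk3 hG hR
  let K : Fin s → Subgroup ↥(G2 G) := fun j => (Gi j).comap ρ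
  let L : Fin s → Subgroup (LinearMap.GeneralLinearGroup k M) := fun j => (K j).map (G2 G).subtype
  have hmem : ∀ {j} {l : ↥(G2 G)}, l.1 ∈ L j ↔ ρ l ∈ Gi j := by
    intro j l
    constructor
    · rintro ⟨l', hl', e⟩
      have : l' = l := Subtype.ext e
      rw [← this]
      exact hl'
    · intro h
      exact ⟨l, h, rfl⟩
  have hmemL : ∀ {j} {l : LinearMap.GeneralLinearGroup k M}, l ∈ L j → ∃ h : l ∈ G2 G, ρ ⟨l, h⟩ ∈ Gi j := by
    rintro j _ ⟨l', hl', rfl⟩
    exact ⟨l'.2, hl'⟩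
  refine ⟨s, L, ?_, ?_, ?_, ?_, ?_, ?_⟩
  · intro j
    exact Subgroup.map_subtype_le _
  · intro j g hg l hl
    obtain ⟨h, hl'⟩ := hmemL hl
    have e : (⟨g * l * g⁻¹, Subgroup.mul_mem _ (Subgroup.mul_mem _ hg h) (Subgroup.inv_mem _ hg)⟩ : ↥(G2 G)) =
        ⟨g, hg⟩ * ⟨l, h⟩ * (⟨g, hg⟩ : ↥(G2 G))⁻¹ := rfl
    have h7 : ρ ⟨g * l * g⁻¹, Subgroup.mul_mem _ (Subgroup.mul_mem _ hg h) (Subgroup.inv_mem _ hg)⟩ ∈ Gi j := by
      rw [e, map_mul, map_mul, map_inv]
      have h8 := (h1 j).2 (ρ ⟨g, hg⟩) ⟨_, rfl⟩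
      rw [← h8]
      exact ⟨_, hl', rfl⟩
    exact hmem.2 h7
  · intro i j hij a ha b hb
    obtain ⟨ha1, ha'⟩ := hmemL ha
    obtain ⟨hb1, hb'⟩ := hmemL hb
    have h7 := commute_of_bot (h3 i j hij) ha' hb'
    rw [← map_mul, ← map_mul] at h7
    exact congrArg Subtype.val (hinj h7)
  · intro τ hτ
    have h7 := h6 (rho_mem_Q h2 hk3 hG hR hτ)
    obtain ⟨j, hj⟩ := Set.mem_iUnion.1 h7
    exact Set.mem_iUnion.2 ⟨j, hmem.2 hj⟩
  · intro j
    have hle : Gi j ≤ ρ.range := (h1 j).1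
    have e1 : ↥(K j) ≃* ↥((K j).map ρ) := (K j).equivMapOfInjective ρ hinj
    have e2 : ↥(K j) ≃* ↥(L j) := (K j).equivMapOfInjective (G2 G).subtype (G2 G).subtype_injective
    have e3 : (K j).map ρ = Gi j := Subgroup.map_comap_eq_self hle
    have e4 : ↥(Gi j) ≃* ↥((K j).map ρ) := MulEquiv.subgroupCongr e3.symm
    exact Cfsg.Agent.Lib.Components.Basic.quasisimple_of_mulEquiv ((e4.trans e1.symm).trans e2) (h5 j).1
  · intro j
    apply le_antisymm
    · rw [Subgroup.closure_le]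
      exact Set.inter_subset_right
    · set C := Subgroup.closure (quadraticElements G ∩ (L j : Set (LinearMap.GeneralLinearGroup k M))) with hC
      have hle : Gi j ≤ (C.subgroupOf (G2 G)).map ρ := by
        rw [← (h5 j).2, Subgroup.closure_le]
        rintro σ ⟨hσQ, hσj⟩
        obtain ⟨g, rfl⟩ := hσQ.1
        refine ⟨g, ?_, rfl⟩
        exact Subgroup.subset_closure ⟨lift_Q h2 hk3 hG hR hσQ, hmem.2 hσj⟩
      intro l hl
      obtain ⟨h, hl'⟩ := hmemL hl
      obtain ⟨c, hc, e⟩ := hle hl'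
      have := hinj e
      have hc' : (c : LinearMap.GeneralLinearGroup k M) ∈ C := hc
      rw [this] at hc'
      exact hc'

/-- The assembly. -/
theorem concl_of_fac {s : ℕ} {L : Fin s → Subgroup (LinearMap.GeneralLinearGroup k M)} (hF : Fac G s L) : Concl G := by
  obtain ⟨r, part, h1, h3, h4, h5, h6⟩ := parts h2 hk3 hG
  have hsup := sup_G2 h2 hk3 hG
  have hpS : ∀ i, part i ⊆ quadraticRootSubgroups G := fun i => by
    rw [← h1]
    exact Set.subset_iUnion part i
  have hHG0 : ∀ i, (⨆ A ∈ part i, A) ≤ G0 G := fun i =>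
    iSup₂_le fun A hA => le_iSup₂_of_le (f := fun (A : Subgroup (LinearMap.GeneralLinearGroup k M)) (_ : A ∈ quadraticRootSubgroups G) => A) A (hpS i hA) le_rfl
  have hG0le : G0 G ≤ G := iSup₂_le fun A hA => le_G_of_sigma hA
  have hG2le : G2 G ≤ G := G2_le
  let Gi : Fin r ⊕ Fin s → Subgroup (LinearMap.GeneralLinearGroup k M) := Sum.elim (fun i => ⨆ A ∈ part i, A) L
  have hnormL : ∀ j, G ≤ normSub (L j) := by
    intro j
    rw [← hsup]
    apply sup_le
    · intro a ha
      have h7 : ∀ a ∈ G0 G, ∀ l ∈ L j, a * l * a⁻¹ ∈ L j := by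
        intro a ha l hl
        have := comm_G0_G2 ha (hF.le j hl)
        rw [this]
        simpa using hl
      exact ⟨h7 a ha, fun l hl => by simpa using h7 a⁻¹ (Subgroup.inv_mem _ ha) l hl⟩
    · intro g hg
      exact ⟨hF.nrm j g hg, fun l hl => by simpa using hF.nrm j g⁻¹ (Subgroup.inv_mem _ hg) l hl⟩
  apply concl_of_index Gi
  · rintro (i | j)
    · obtain ⟨A₀, hA₀, e⟩ := h6 i
      refine ⟨(hHG0 i).trans hG0le, fun g hg => ?_⟩
      change conjBy (⨆ A ∈ part i, A) g = ⨆ A ∈ part i, A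
      rw [e]
      exact conjBy_eq_of_normSub (le_normSub h2 hk3 hG hA₀ hg)
    · exact ⟨(hF.le j).trans hG2le, fun g hg => conjBy_eq_of_normSub (hnormL j hg)⟩
  · rintro (i | i) (j | j) hij
    · exact h5 i j (fun h => hij (by rw [h]))
    · apply bot_of_commute
      intro a ha b hb
      exact comm_G0_G2 (hHG0 i ha) (hF.le j hb)
    · apply bot_of_commute
      intro a ha b hb
      exact (comm_G0_G2 (hHG0 j hb) (hF.le i ha)).symm
    · apply bot_of_commute
      exact hF.cm i j (fun h => hij (by rw [h]))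
  · apply le_antisymm
    · apply iSup_le
      rintro (i | j)
      · exact (hHG0 i).trans hG0le
      · exact (hF.le j).trans hG2le
    · rw [← hsup]
      apply sup_le
      · refine iSup₂_le fun A hA => ?_
        have : A ∈ ⋃ i, part i := by rw [h1]; exact hA
        obtain ⟨i, hi⟩ := Set.mem_iUnion.1 this
        have h7 : A ≤ Gi (Sum.inl i) := le_iSup₂_of_le (f := fun (A : Subgroup (LinearMap.GeneralLinearGroup k M)) (_ : A ∈ part i) => A) A hi le_rfl
        exact h7.trans (le_iSup Gi _)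
      · unfold G2
        rw [Subgroup.closure_le]
        intro τ hτ
        obtain ⟨j, hj⟩ := Set.mem_iUnion.1 (hF.cov hτ)
        exact (le_iSup Gi (Sum.inr j)) hj
  · rintro (i | j)
    · obtain ⟨A₀, hA₀, e⟩ := h6 i
      refine ⟨?_, ?_⟩
      · change IsQuasisimple ↥(⨆ A ∈ part i, A)
        rw [e]
        exact quasisimple_compOf h2 hk3 hG hA₀
      · change Subgroup.closure (quadraticElements G ∩ ((⨆ A ∈ part i, A : Subgroup (LinearMap.GeneralLinearGroup k M)) : Set (LinearMap.GeneralLinearGroup k M))) = ⨆ A ∈ part i, A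
        apply le_antisymm
        · rw [Subgroup.closure_le]
          exact Set.inter_subset_right
        · refine iSup₂_le fun A hA a ha => ?_
          by_cases ha1 : a = 1
          · rw [ha1]
            exact Subgroup.one_mem _
          obtain ⟨x, hx, hA'⟩ := mem_sigma (hpS i hA)
          have hin := ((hA' a).1 ha).resolve_left ha1
          have hQ : a ∈ quadraticElements G := by
            have h7 := mem_quadraticElements_of_isQ hin.qd.q
            have h8 : unitOfSq (tt a) hin.qd.q.sq = a := by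
              apply Units.ext
              rw [unitOfSq_val, ← val_of_tt]
            rwa [h8] at h7
          have hle : A ≤ ⨆ A ∈ part i, A := le_iSup₂_of_le (f := fun (A : Subgroup (LinearMap.GeneralLinearGroup k M)) (_ : A ∈ part i) => A) A hA le_rfl
          exact Subgroup.subset_closure ⟨hQ, hle ha⟩
    · exact ⟨hF.qs j, hF.gen j⟩
  · intro σ hσ
    rcases dichotomy_q h2 hk3 hG _ (tt σ) (isQ_of_mem hσ) le_rfl with hc | ⟨A₀, hA₀, hf⟩
    · obtain ⟨j, hj⟩ := Set.mem_iUnion.1 (hF.cov ⟨tt σ, isQ_of_mem hσ, hc, val_of_tt σ⟩)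
      exact Set.mem_iUnion.2 ⟨Sum.inr j, hj⟩
    · obtain ⟨τ, hτ, e⟩ := hf 1
      have he : τ = σ := by
        apply Units.ext
        rw [e, one_smul, ← val_of_tt]
      rw [he] at hτ
      have : A₀ ∈ ⋃ i, part i := by rw [h1]; exact hA₀
      obtain ⟨i, hi⟩ := Set.mem_iUnion.1 this
      refine Set.mem_iUnion.2 ⟨Sum.inl i, ?_⟩
      obtain ⟨A₁, hA₁, e1⟩ := h6 i
      change σ ∈ ⨆ A ∈ part i, A
      rw [e1]
      rw [e1] at hi
      rw [compOf_eq hi]
      exact hτ

omit hG h2 hk3 [FiniteDimensional k M] in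
/-- The main theorem, by induction on the dimension. -/
theorem main_concl {k : Type u} [Field k] (h2 : (2 : k) ≠ 0) (hk3 : Nat.card k ≠ 3) : ∀ (n : ℕ) (M : Type u) [AddCommGroup M]
    [Module k M] [FiniteDimensional k M] (G : Subgroup (LinearMap.GeneralLinearGroup k M)),
    Module.finrank k M = n → IsQuadraticPair G → Concl G := by
  intro n
  induction n using Nat.strong_induction_on with
  | _ n ih =>
    intro M _ _ _ G hn hG
    by_cases hU : (U2 G).Nonempty
    · obtain ⟨τ, u, hu, hc, e⟩ := hU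
      obtain ⟨x, hx⟩ := exists_qd hu
      obtain ⟨W, h1, h3, h4⟩ := exists_irr (G2 G) hG.1.1
      have hR : Red G W := ⟨h1, h3, h4⟩
      have hlt : Module.finrank k W < n := by
        rw [← hn]
        exact Submodule.finrank_lt (W_ne_top hR hx)
      have hC := ih _ hlt ↥W (Gb hR) rfl (pair_Gb h2 hk3 hG hR)
      obtain ⟨s, L, hF⟩ := factors h2 hk3 hG hR hC
      exact concl_of_fac h2 hk3 hG hF
    · rw [Set.not_nonempty_iff_eq_empty] at hU
      have hbot : (Fin.elim0 : Fin 0 → Subgroup (LinearMap.GeneralLinearGroup k M)) = Fin.elim0 := rfl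
      have hF : Fac G 0 Fin.elim0 := by
        refine ⟨fun j => j.elim0, fun j => j.elim0, fun i => i.elim0, ?_, fun j => j.elim0, fun j => j.elim0⟩
        rw [hU]
        exact Set.empty_subset _
      exact concl_of_fac h2 hk3 hG hF

end Cfsg.Agent.Lib.RootSubgroups.QuadProd3
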