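/-
Root involutions: dihedral calculations, the line lemma, the isolated set.
-/
import Mathlib
import Cfsg.Prelude.Def_RootSubgroups
import Cfsg.Agent.Lib.Core.Basic
import Cfsg.Agent.S0199

set_option autoImplicit false

namespace Cfsg.Agent.Lib.RootSubgroups.RootInv

open Cfsg

variable {G : Type*} [Group G]

section Invol

variable {a b : G}

lemma inv_eq_self (ha : a * a = 1) : a⁻¹ = a := inv_eq_of_mul_eq_one_left ha

lemma cancel_left (ha : a * a = 1) (y : G) : a * (a * y) = y := by
  rw [← mul_assoc, ha, one_mul]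

lemma mul_inv_swap (ha : a * a = 1) (hb : b * b = 1) : (a * b)⁻¹ = b * a := by
  rw [mul_inv_rev, inv_eq_self ha, inv_eq_self hb]

lemma orderOf_swap (ha : a * a = 1) (hb : b * b = 1) : orderOf (b * a) = orderOf (a * b) := by
  rw [← mul_inv_swap ha hb, orderOf_inv]

/-- An involution inverts the product. -/
lemma conj_zpow_inv (ha : a * a = 1) (hb : b * b = 1) (n : ℕ) :
    a * (a * b) ^ n * a = ((a * b)⁻¹) ^ n := by
  have h := conj_pow (a := a) (b := a * b) (i := n)
  have h1 : a * (a * b) * a⁻¹ = (a * b)⁻¹ := by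
    rw [inv_eq_self ha, mul_inv_swap ha hb, cancel_left ha]
  rw [h1, inv_eq_self ha] at h
  exact h.symm

/-- Two involutions with product of odd order are conjugate. -/
lemma exists_conj_of_odd (ha : a * a = 1) (hb : b * b = 1) (h : Odd (orderOf (a * b))) :
    ∃ g, g * a * g⁻¹ = b := by
  obtain ⟨m, hm⟩ := h
  set r := a * b with hr
  refine ⟨r ^ m, ?_⟩
  have h1 : a * r ^ m * a = (r⁻¹) ^ m := conj_zpow_inv ha hb m
  have h2 : a * (r⁻¹) ^ m * a = r ^ m := by
    calc a * (r⁻¹) ^ m * a = a * (a * r ^ m * a) * a := by rw [h1]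
      _ = r ^ m := by simp only [mul_assoc, ha, mul_one, cancel_left ha]
  have h3 : r ^ (2 * m + 1) = 1 := by rw [← hm]; exact pow_orderOf_eq_one r
  have h4 : r ^ m * a * (r ^ m)⁻¹ = r ^ m * r ^ m * a := by
    have : a * (r ^ m)⁻¹ = r ^ m * a := by
      rw [← inv_pow]
      calc a * (r⁻¹) ^ m = (a * (r⁻¹) ^ m * a) * a := by
            simp only [mul_assoc, ha, mul_one]
        _ = r ^ m * a := by rw [h2]
    rw [mul_assoc, this, mul_assoc]
  rw [h4]
  have h5 : r ^ m * r ^ m = r⁻¹ := by
    rw [← pow_add, ← two_mul]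
    apply eq_inv_of_mul_eq_one_left
    rw [← pow_succ]; exact h3
  rw [h5, hr, mul_inv_swap ha hb, mul_assoc, ha, mul_one]

/-- Commuting involutions have product of order dividing two. -/
lemma sq_of_comm (ha : a * a = 1) (hb : b * b = 1) (h : a * b = b * a) : (a * b) ^ 2 = 1 := by
  rw [pow_two]
  calc a * b * (a * b) = a * (b * a) * b := by group
    _ = a * (a * b) * b := by rw [h]
    _ = 1 := by rw [cancel_left ha, hb]

lemma comm_of_sq (ha : a * a = 1) (hb : b * b = 1) (h : (a * b) ^ 2 = 1) : a * b = b * a := by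
  rw [pow_two] at h
  have : a * b = (a * b)⁻¹ := eq_inv_of_mul_eq_one_left h
  rw [mul_inv_swap ha hb] at this
  exact this

/-- An element of odd order whose square is trivial is trivial. -/
lemma eq_one_of_odd_of_dvd {r : G} {n : ℕ} (hr : Odd (orderOf r)) (hn : r ^ (2 ^ n) = 1) : r = 1 := by
  have h1 : orderOf r ∣ 2 ^ n := orderOf_dvd_of_pow_eq_one hn
  have h2 : orderOf r = 1 := by
    have := (Nat.dvd_prime_pow Nat.prime_two).1 h1
    obtain ⟨k, -, hk⟩ := this
    rw [hk] at hr ⊢
    rcases k with _ | k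
    · rfl
    · exact absurd hr (by simp [pow_succ, Nat.not_odd_iff_even])
  exact orderOf_eq_one_iff.1 h2

lemma not_comm_of_odd (ha : a * a = 1) (hb : b * b = 1) (hne : a ≠ b) (h : Odd (orderOf (a * b))) :
    a * b ≠ b * a := by
  intro hc
  have h1 := sq_of_comm ha hb hc
  have h2 : a * b = 1 := eq_one_of_odd_of_dvd (n := 1) h (by simpa using h1)
  apply hne
  have := eq_inv_of_mul_eq_one_left h2
  rwa [inv_eq_self hb] at this

lemma mul_ne_one_of_ne (hb : b * b = 1) (hne : a ≠ b) : a * b ≠ 1 := by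
  intro h
  apply hne
  have := eq_inv_of_mul_eq_one_left h
  rwa [inv_eq_self hb] at this

/-- The element `r` has odd order `n`: `r` is a power of `r ^ 2`. -/
lemma pow_two_pow_of_odd {r : G} (hr : Odd (orderOf r)) : ∃ k : ℕ, (r ^ 2) ^ k = r := by
  obtain ⟨m, hm⟩ := hr
  refine ⟨m + 1, ?_⟩
  rw [← pow_mul]
  have : 2 * (m + 1) = orderOf r + 1 := by omega
  rw [this, pow_succ, pow_orderOf_eq_one, one_mul]

/-- If the square of an element of odd order lies in a subgroup, so does the element. -/
lemma mem_of_sq_mem {r : G} {H : Subgroup G} (hr : Odd (orderOf r)) (h : r ^ 2 ∈ H) : r ∈ H := by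
  obtain ⟨k, hk⟩ := pow_two_pow_of_odd hr
  rw [← hk]
  exact H.pow_mem h k

section OrderFour

variable (ha : a * a = 1) (hb : b * b = 1) (h4 : orderOf (a * b) = 4)
include ha hb h4

lemma four_sq_sq : (a * b) ^ 2 * (a * b) ^ 2 = 1 := by
  rw [← pow_add]
  have : (2 + 2) = orderOf (a * b) := by rw [h4]
  rw [this]
  exact pow_orderOf_eq_one _

lemma four_ne_one : (a * b) ^ 2 ≠ 1 := by
  intro h
  have := orderOf_dvd_of_pow_eq_one h
  rw [h4] at this
  omega

lemma four_comm_left : a * (a * b) ^ 2 = (a * b) ^ 2 * a := by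
  have h1 := conj_zpow_inv ha hb 2
  have h2 : ((a * b)⁻¹) ^ 2 = (a * b) ^ 2 := by
    rw [inv_pow]
    exact inv_eq_of_mul_eq_one_left (four_sq_sq ha hb h4)
  rw [h2] at h1
  calc a * (a * b) ^ 2 = (a * (a * b) ^ 2 * a) * a := by
        simp only [mul_assoc, ha, mul_one]
    _ = _ := by rw [h1]

lemma four_comm_right : b * (a * b) ^ 2 = (a * b) ^ 2 * b := by
  have hcc := four_sq_sq ha hb h4
  have h1 := conj_zpow_inv hb ha 2
  have h5 : (b * a) = (a * b)⁻¹ := (mul_inv_swap ha hb).symm
  rw [h5, inv_inv, inv_pow, inv_eq_of_mul_eq_one_left hcc] at h1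
  have h6 : b * (a * b) ^ 2 * b = (a * b) ^ 2 := h1
  calc b * (a * b) ^ 2 = (b * (a * b) ^ 2 * b) * b := by
        simp only [mul_assoc, hb, mul_one]
    _ = _ := by rw [h6]

lemma four_left : a * (a * b) ^ 2 = b * a * b := by
  rw [pow_two]
  simp only [mul_assoc]
  rw [cancel_left ha]

lemma four_right : b * (a * b) ^ 2 = a * b * a := by
  rw [four_comm_right ha hb h4, pow_two]
  simp only [mul_assoc]
  rw [hb, mul_one]

lemma four_not_comm : a * b ≠ b * a := by
  intro h
  exact four_ne_one ha hb h4 (sq_of_comm ha hb h)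

end OrderFour

/-- A product of a commuting involution and an element of odd order greater than one. -/
lemma orderOf_two_odd {t r : G} (ht : t * t = 1) (ht1 : t ≠ 1) (hc : t * r = r * t)
    (hr : Odd (orderOf r)) : orderOf (t * r) = 2 * orderOf r := by
  have h2 : orderOf t = 2 := by
    apply orderOf_eq_prime
    · rw [pow_two]; exact ht
    · exact ht1
  have hcop : Nat.Coprime (orderOf t) (orderOf r) := by
    rw [h2]
    exact Nat.coprime_two_left.2 hr
  have := (show Commute t r from hc).orderOf_mul_eq_mul_orderOf_of_coprime hcop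
  rw [this, h2]

end Invol

section Root

variable {D : Set G} (hD : IsRootInvolutionSet D)
include hD

lemma sq {a : G} (ha : a ∈ D) : a * a = 1 := by
  have := pow_orderOf_eq_one a
  rw [hD.orderOf_eq a ha, pow_two] at this
  exact this

lemma ne_one {a : G} (ha : a ∈ D) : a ≠ 1 := by
  intro h
  have := hD.orderOf_eq a ha
  rw [h, orderOf_one] at this
  omega

lemma inv_eq {a : G} (ha : a ∈ D) : a⁻¹ = a := inv_eq_self (sq hD ha)

lemma conj_mem' {a : G} (ha : a ∈ D) {b : G} (hb : b ∈ D) : b * a * b ∈ D := by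
  have := hD.conj_mem a ha b
  rwa [inv_eq hD hb] at this

/-- The three types of pairs. -/
lemma trichotomy {a b : G} (ha : a ∈ D) (hb : b ∈ D) :
    a * b = b * a ∨ (a ≠ b ∧ Odd (orderOf (a * b))) ∨ (orderOf (a * b) = 4 ∧ (a * b) ^ 2 ∈ D) := by
  by_cases hab : a = b
  · left; rw [hab]
  rcases hD.pair a ha b hb with h | h | h
  · exact Or.inl h
  · exact Or.inr (Or.inl ⟨hab, h⟩)
  · exact Or.inr (Or.inr h)

/-- A product of members is never a commuting product of an involution and an element of odd order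
greater than one. -/
lemma no_two_odd {a b t r : G} (ha : a ∈ D) (hb : b ∈ D) (h : a * b = t * r) (ht : t * t = 1)
    (ht1 : t ≠ 1) (hc : t * r = r * t) (hr : Odd (orderOf r)) (hr1 : r ≠ 1) : False := by
  have ho : orderOf (a * b) = 2 * orderOf r := by rw [h]; exact orderOf_two_odd ht ht1 hc hr
  rcases hD.pair a ha b hb with h1 | h1 | h1
  · have h2 := sq_of_comm (sq hD ha) (sq hD hb) h1
    rw [h] at h2
    have h3 : (t * r) ^ 2 = r ^ 2 := by
      rw [(show Commute t r from hc).mul_pow, pow_two t, ht, one_mul]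
    rw [h3] at h2
    exact hr1 (eq_one_of_odd_of_dvd (n := 1) hr (by simpa using h2))
  · rw [ho] at h1
    exact absurd h1 (by simp)
  · have := h1.1
    rw [ho] at this
    obtain ⟨m, hm⟩ := hr
    omega

/-- The line lemma: on a line, a member with an odd partner: the other points do not commute with
the partner. -/
lemma line_not_comm {a e x : G} (ha : a ∈ D) (he : e ∈ D) (hae : a * e = e * a) (hf : a * e ∈ D)
    (hx : x ∈ D) (hodd : Odd (orderOf (e * x))) (hne : e ≠ x) : a * x ≠ x * a := by
  intro hax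
  have hr1 : e * x ≠ 1 := mul_ne_one_of_ne (sq hD hx) hne
  refine no_two_odd hD hf hx (t := a) (r := e * x) (by group) (sq hD ha) (ne_one hD ha) ?_ hodd hr1
  rw [← mul_assoc, hae, mul_assoc, hax, mul_assoc]

/-- The key computation: on a line with an odd partner of one point. -/
lemma line_odd {a e x : G} (ha : a ∈ D) (he : e ∈ D) (hae : a * e = e * a) (hf : a * e ∈ D)
    (hx : x ∈ D) (hodd : Odd (orderOf (e * x))) (hne : e ≠ x) :
    Odd (orderOf (a * x)) ∨ Odd (orderOf (a * e * x)) := by
  have haa := sq hD ha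
  have hee := sq hD he
  have hxx := sq hD hx
  rcases hD.pair a ha x hx with h | h | ⟨h4, -⟩
  · exact absurd h (line_not_comm hD ha he hae hf hx hodd hne)
  · exact Or.inl h
  right
  -- notation
  set c := (a * x) ^ 2 with hc
  set r := e * x with hr
  have hcc : c * c = 1 := four_sq_sq haa hxx h4
  have hca : a * c = c * a := four_comm_left haa hxx h4
  have hcx : x * c = c * x := four_comm_right haa hxx h4
  have haxa : a * x * a = x * c := (four_right haa hxx h4).symm
  have hr1 : r ≠ 1 := mul_ne_one_of_ne hxx hne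
  have hrr : r⁻¹ = x * e := mul_inv_swap hee hxx
  -- `a r a = r c`
  have hara : a * r * a = r * c := by
    calc a * r * a = a * e * x * a := by rw [hr]; group
      _ = e * a * x * a := by rw [hae]
      _ = e * (a * x * a) := by group
      _ = e * (x * c) := by rw [haxa]
      _ = r * c := by rw [hr]; group
  have hs : (a * e * x) = a * r := by rw [hr]; group
  have hs2 : (a * e * x) ^ 2 = r * c * r := by
    rw [hs, pow_two]
    calc a * r * (a * r) = (a * r * a) * r := by group
      _ = r * c * r := by rw [hara]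
  rcases hD.pair _ hf _ hx with h | h | ⟨h4', -⟩
  · -- commuting: `c = r⁻²`
    exfalso
    have h1 := sq_of_comm (sq hD hf) hxx h
    rw [hs2] at h1
    have h2 : c = r⁻¹ * r⁻¹ := by
      have : r * c * r = 1 := h1
      calc c = r⁻¹ * (r * c * r) * r⁻¹ := by group
        _ = r⁻¹ * r⁻¹ := by rw [this]; group
    have h3 : r ^ (2 ^ 2) = 1 := by
      have : r⁻¹ * r⁻¹ * (r⁻¹ * r⁻¹) = 1 := by rw [← h2]; exact hcc
      have h5 : (r ^ 4)⁻¹ = 1 := by
        rw [← this]; group
      simpa using h5
    exact hr1 (eq_one_of_odd_of_dvd hodd h3)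
  · exact h
  · -- order four: `c` inverts `r`
    exfalso
    have hfx := sq hD hf
    have h1 : x * (a * e * x) ^ 2 = (a * e * x) ^ 2 * x := four_comm_right hfx hxx h4'
    rw [hs2] at h1
    have hxrx : x * r * x = r⁻¹ := by
      rw [hrr, hr]
      simp only [mul_assoc, hxx, mul_one]
    have hxrx' : x * r = r⁻¹ * x := by
      calc x * r = (x * r * x) * x := by simp only [mul_assoc, hxx, mul_one]
        _ = r⁻¹ * x := by rw [hxrx]
    have h2 : r⁻¹ * c * r⁻¹ = r * c * r := by
      have e1 : x * (r * c * r) * x = r⁻¹ * c * r⁻¹ := by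
        calc x * (r * c * r) * x = (x * r) * c * r * x := by group
          _ = r⁻¹ * (x * c) * r * x := by rw [hxrx']; group
          _ = r⁻¹ * (c * x) * r * x := by rw [hcx]
          _ = r⁻¹ * c * (x * r) * x := by group
          _ = r⁻¹ * c * (r⁻¹ * x) * x := by rw [hxrx']
          _ = r⁻¹ * c * r⁻¹ := by simp only [mul_assoc, hxx, mul_one]
      rw [← e1, h1]
      simp only [mul_assoc, hxx, mul_one]
    -- `c r² c = r⁻²`
    have h3 : c * r ^ 2 * c = (r ^ 2)⁻¹ := by
      have e2 : r ^ 2 * c * r ^ 2 = c := by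
        calc r ^ 2 * c * r ^ 2 = r * (r * c * r) * r := by rw [pow_two]; group
          _ = r * (r⁻¹ * c * r⁻¹) * r := by rw [h2]
          _ = c := by group
      apply eq_inv_of_mul_eq_one_left
      calc c * r ^ 2 * c * r ^ 2 = c * (r ^ 2 * c * r ^ 2) := by group
        _ = 1 := by rw [e2, hcc]
    have h4'' : c * r * c = r⁻¹ := by
      obtain ⟨k, hk⟩ := pow_two_pow_of_odd hodd
      have h5 : c * (r ^ 2) ^ k * c = ((r ^ 2)⁻¹) ^ k := by
        have := conj_pow (a := c) (b := r ^ 2) (i := k)
        rw [inv_eq_self hcc, h3] at this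
        exact this.symm
      rw [hk] at h5
      rw [h5, inv_pow, hk]
    -- `c e c = x e x`
    have h5 : c * e * c = x * e * x := by
      have e3 : c * e * c * x = x * e := by
        calc c * e * c * x = c * e * (c * x) := by group
          _ = c * e * (x * c) := by rw [hcx]
          _ = c * r * c := by rw [hr]; group
          _ = x * e := by rw [h4'', hrr]
      calc c * e * c = (c * e * c * x) * x := by simp only [mul_assoc, hxx, mul_one]
        _ = x * e * x := by rw [e3]
    -- `a x a` commutes with `e`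
    have h6 : (a * x * a) * e = e * (a * x * a) := by
      rw [haxa]
      have e4 : (x * c) * e * (c * x) = e := by
        calc (x * c) * e * (c * x) = x * (c * e * c) * x := by group
          _ = x * (x * e * x) * x := by rw [h5]
          _ = e := by simp only [mul_assoc, hxx, mul_one, cancel_left hxx]
      have e5 : (x * c) * (c * x) = 1 := by
        calc (x * c) * (c * x) = x * (c * c) * x := by group
          _ = 1 := by rw [hcc, mul_one, hxx]
      calc (x * c) * e = (x * c) * e * ((c * x) * (x * c)) := by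
            have : (c * x) * (x * c) = 1 := by
              calc (c * x) * (x * c) = c * (x * x) * c := by group
                _ = 1 := by rw [hxx, mul_one, hcc]
            rw [this, mul_one]
        _ = ((x * c) * e * (c * x)) * (x * c) := by group
        _ = e * (x * c) := by rw [e4]
    -- conjugate by `a`
    have h7 : x * e = e * x := by
      calc x * e = a * (a * x * a * e) * a := by
            have : a * (a * x * a * e) * a = x * (a * e * a) := by
              simp only [mul_assoc, cancel_left haa]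
            rw [this]
            rw [hae]
            simp only [mul_assoc, haa, mul_one]
        _ = a * (e * (a * x * a)) * a := by rw [h6]
        _ = e * x := by
            have e6 : a * (e * (a * x * a)) * a = (a * e * a) * x := by
              simp only [mul_assoc, haa, mul_one]
            rw [e6, hae]
            simp only [mul_assoc, cancel_left haa, haa, mul_one]
    exact not_comm_of_odd hee hxx hne hodd h7.symm

end Root

/-- An element of odd order in a 2-subgroup is trivial. -/
lemma eq_one_of_mem_pgroup {Q : Subgroup G} (hQ : IsPGroup 2 Q) {r : G} (hr : r ∈ Q)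
    (ho : Odd (orderOf r)) : r = 1 := by
  obtain ⟨k, hk⟩ := hQ ⟨r, hr⟩
  have h1 : r ^ 2 ^ k = 1 := by
    have := congrArg Subtype.val hk
    simpa using this
  exact eq_one_of_odd_of_dvd ho h1

section Odd

variable {D : Set G} (hD : IsOddTranspositionSet D)
include hD

/-- In an odd transposition set, members whose product has square in a normal 2-subgroup commute. -/
lemma comm_of_sq_mem {Q : Subgroup G} (hQ : IsPGroup 2 Q) {a b : G} (ha : a ∈ D) (hb : b ∈ D)
    (h : (a * b) ^ 2 ∈ Q) : a * b = b * a := by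
  rcases trichotomy hD.1 ha hb with h1 | ⟨hne, h1⟩ | ⟨h1, -⟩
  · exact h1
  · have h2 := mem_of_sq_mem h1 h
    have h3 := eq_one_of_mem_pgroup hQ h2 h1
    exact absurd h3 (mul_ne_one_of_ne (sq hD.1 hb) hne)
  · exact absurd h1 (hD.2 a ha b hb)

end Odd

/-! ### Dihedral 2-groups -/

/-- The subgroup of powers of `r = a b` and their products with `a`. -/
def dih {a b : G} (ha : a * a = 1) (hb : b * b = 1) : Subgroup G where
  carrier := {g | ∃ k : ℤ, g = (a * b) ^ k ∨ g = (a * b) ^ k * a}
  one_mem' := ⟨0, Or.inl (by simp)⟩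
  mul_mem' := by
    have hconj : ∀ j : ℤ, a * (a * b) ^ j * a = (a * b) ^ (-j) := by
      intro j
      have h := conj_zpow (a := a) (b := a * b) (i := j)
      have h1 : a * (a * b) * a⁻¹ = (a * b)⁻¹ := by
        rw [inv_eq_self ha, mul_inv_swap ha hb, cancel_left ha]
      rw [h1, inv_eq_self ha] at h
      rw [← h, inv_zpow, zpow_neg]
    rintro x y ⟨i, rfl | rfl⟩ ⟨j, rfl | rfl⟩
    · exact ⟨i + j, Or.inl (zpow_add _ _ _).symm⟩
    · exact ⟨i + j, Or.inr (by rw [zpow_add, mul_assoc])⟩
    · refine ⟨i - j, Or.inr ?_⟩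
      rw [sub_eq_add_neg, zpow_add, ← hconj j]
      simp only [mul_assoc, ha, mul_one]
    · refine ⟨i - j, Or.inl ?_⟩
      rw [sub_eq_add_neg, zpow_add, ← hconj j]
      simp only [mul_assoc]
  inv_mem' := by
    have hconj : ∀ j : ℤ, a * (a * b) ^ j * a = (a * b) ^ (-j) := by
      intro j
      have h := conj_zpow (a := a) (b := a * b) (i := j)
      have h1 : a * (a * b) * a⁻¹ = (a * b)⁻¹ := by
        rw [inv_eq_self ha, mul_inv_swap ha hb, cancel_left ha]
      rw [h1, inv_eq_self ha] at h
      rw [← h, inv_zpow, zpow_neg]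
    rintro x ⟨i, rfl | rfl⟩
    · exact ⟨-i, Or.inl (zpow_neg _ _).symm⟩
    · refine ⟨i, Or.inr ?_⟩
      rw [mul_inv_rev, inv_eq_self ha, ← zpow_neg]
      calc a * (a * b) ^ (-i) = (a * (a * b) ^ (-i) * a) * a := by
            simp only [mul_assoc, ha, mul_one]
        _ = _ := by rw [hconj, neg_neg]

/-- Two involutions whose product has 2-power order generate a 2-group. -/
lemma isPGroup_dih {a b : G} (ha : a * a = 1) (hb : b * b = 1) {n : ℕ} (hn : (a * b) ^ (2 ^ n) = 1) :
    IsPGroup 2 ↥(Subgroup.zpowers a ⊔ Subgroup.zpowers b) := by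
  have hle : Subgroup.zpowers a ⊔ Subgroup.zpowers b ≤ dih ha hb := by
    refine sup_le ?_ ?_
    · rw [Subgroup.zpowers_le]
      exact ⟨0, Or.inr (by simp)⟩
    · rw [Subgroup.zpowers_le]
      exact ⟨-1, Or.inr (by rw [zpow_neg_one, mul_inv_swap ha hb, mul_assoc, ha, mul_one])⟩
  rintro ⟨g, hg⟩
  obtain ⟨k, rfl | rfl⟩ := hle hg
  · refine ⟨n, Subtype.ext ?_⟩
    simp only [SubmonoidClass.coe_pow, Subgroup.coe_one]
    rw [← zpow_natCast, ← zpow_mul, mul_comm, zpow_mul, zpow_natCast, hn, one_zpow]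
  · refine ⟨1, Subtype.ext ?_⟩
    simp only [SubmonoidClass.coe_pow, Subgroup.coe_one, pow_one, pow_two]
    have hconj : a * (a * b) ^ k * a = (a * b) ^ (-k) := by
      have h := conj_zpow (a := a) (b := a * b) (i := k)
      have h1 : a * (a * b) * a⁻¹ = (a * b)⁻¹ := by
        rw [inv_eq_self ha, mul_inv_swap ha hb, cancel_left ha]
      rw [h1, inv_eq_self ha] at h
      rw [← h, inv_zpow, zpow_neg]
    calc (a * b) ^ k * a * ((a * b) ^ k * a) = (a * b) ^ k * (a * (a * b) ^ k * a) := by group
      _ = 1 := by rw [hconj, zpow_neg, mul_inv_cancel]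

/-! ### The odd graph -/

section Graph

variable {D : Set G}

lemma oddAdj_symm (hD : IsRootInvolutionSet D) {a b : G} (h : OddAdj D a b) : OddAdj D b a := by
  obtain ⟨ha, hb, hne, ho⟩ := h
  refine ⟨hb, ha, hne.symm, ?_⟩
  rwa [orderOf_swap (sq hD ha) (sq hD hb)]

lemma orderOf_conj_mul (g a b : G) : orderOf ((g * a * g⁻¹) * (g * b * g⁻¹)) = orderOf (a * b) := by
  have e : (g * a * g⁻¹) * (g * b * g⁻¹) = MulAut.conj g (a * b) := by
    simp [MulAut.conj_apply, mul_assoc]
  rw [e]
  exact MulEquiv.orderOf_eq _ _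

lemma oddAdj_conj (hD : IsRootInvolutionSet D) (g : G) {a b : G} (h : OddAdj D a b) :
    OddAdj D (g * a * g⁻¹) (g * b * g⁻¹) := by
  obtain ⟨ha, hb, hne, ho⟩ := h
  refine ⟨hD.conj_mem a ha g, hD.conj_mem b hb g, ?_, ?_⟩
  · intro h1
    apply hne
    have : g⁻¹ * (g * a * g⁻¹) * g = g⁻¹ * (g * b * g⁻¹) * g := by rw [h1]
    simpa [mul_assoc] using this
  · rwa [orderOf_conj_mul]

lemma conn_symm (hD : IsRootInvolutionSet D) {a b : G}
    (h : Relation.ReflTransGen (OddAdj D) a b) : Relation.ReflTransGen (OddAdj D) b a := by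
  induction h with
  | refl => exact Relation.ReflTransGen.refl
  | tail _ h2 ih => exact Relation.ReflTransGen.head (oddAdj_symm hD h2) ih

lemma conn_conj_of (hD : IsRootInvolutionSet D) {a b : G}
    (h : Relation.ReflTransGen (OddAdj D) a b) : ∃ g, g * a * g⁻¹ = b := by
  induction h with
  | refl => exact ⟨1, by simp⟩
  | tail _ h2 ih =>
    obtain ⟨g, rfl⟩ := ih
    obtain ⟨g', hg'⟩ := exists_conj_of_odd (sq hD h2.1) (sq hD h2.2.1) h2.2.2.2
    exact ⟨g' * g, by rw [← hg']; group⟩

lemma comp_eq (hD : IsRootInvolutionSet D) {a b : G}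
    (h : Relation.ReflTransGen (OddAdj D) a b) :
    elemComponentOf (OddAdj D) D a = elemComponentOf (OddAdj D) D b := by
  ext c
  constructor
  · rintro ⟨hc, h1⟩
    exact ⟨hc, (conn_symm hD h).trans h1⟩
  · rintro ⟨hc, h1⟩
    exact ⟨hc, h.trans h1⟩

/-- The set of isolated vertices. -/
abbrev Isol (D : Set G) : Set G := {w | IsIsolatedElem (OddAdj D) D w}

lemma isol_conj (hD : IsRootInvolutionSet D) {w : G} (hw : w ∈ Isol D) (g : G) :
    g * w * g⁻¹ ∈ Isol D := by
  refine ⟨hD.conj_mem w hw.1 g, fun b => ⟨fun h => ?_, fun h => ?_⟩⟩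
  · have h1 := oddAdj_conj hD g⁻¹ h
    have e : g⁻¹ * (g * w * g⁻¹) * g⁻¹⁻¹ = w := by group
    rw [e] at h1
    exact (hw.2 _).1 h1
  · have h1 := oddAdj_conj hD g⁻¹ h
    have e : g⁻¹ * (g * w * g⁻¹) * g⁻¹⁻¹ = w := by group
    rw [e] at h1
    exact (hw.2 _).2 h1

lemma exists_partner_of_not_isol (hD : IsRootInvolutionSet D) {d : G} (hd : d ∈ D)
    (h : d ∉ Isol D) : ∃ x, OddAdj D d x := by
  by_contra hc
  push Not at hc
  exact h ⟨hd, fun b => ⟨hc b, fun h1 => hc b (oddAdj_symm hD h1)⟩⟩

lemma closure_normal_of_conj {W : Set G} (h : ∀ w ∈ W, ∀ g : G, g * w * g⁻¹ ∈ W) :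
    (Subgroup.closure W).Normal := by
  refine ⟨fun n hn g => ?_⟩
  induction hn using Subgroup.closure_induction with
  | mem x hx => exact Subgroup.subset_closure (h x hx g)
  | one => simp [Subgroup.one_mem]
  | mul x y _ _ hx hy =>
    have e : g * (x * y) * g⁻¹ = (g * x * g⁻¹) * (g * y * g⁻¹) := by group
    rw [e]
    exact Subgroup.mul_mem _ hx hy
  | inv x _ hx =>
    have e : g * x⁻¹ * g⁻¹ = (g * x * g⁻¹)⁻¹ := by group
    rw [e]
    exact Subgroup.inv_mem _ hx

/-- An isolated vertex lies in `O₂(G)`. -/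
lemma isol_mem_pCore [Finite G] (hD : IsRootInvolutionSet D) {w : G} (hw : w ∈ Isol D) :
    w ∈ pCore 2 G := by
  have hww := sq hD hw.1
  have hX : IsPGroup 2 ↥(Subgroup.zpowers w) := by
    rintro ⟨g, hg⟩
    obtain ⟨n, rfl⟩ := Subgroup.mem_zpowers_iff.1 hg
    refine ⟨1, Subtype.ext ?_⟩
    simp only [SubmonoidClass.coe_pow, Subgroup.coe_one, pow_one]
    rw [← zpow_natCast, ← zpow_mul, mul_comm, zpow_mul]
    have : w ^ ((2 : ℕ) : ℤ) = 1 := by
      rw [zpow_natCast, pow_two]; exact hww
    rw [this, one_zpow]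
  obtain ⟨N, hN, hNp, hwN⟩ := Cfsg.Agent.S0199.result (Subgroup.zpowers w) hX (fun g => by
    have e : (Subgroup.zpowers w).map (MulAut.conj g).toMonoidHom = Subgroup.zpowers (g * w * g⁻¹) := by
      rw [MonoidHom.map_zpowers]
      simp [MulAut.conj_apply]
    rw [e]
    have hw' := isol_conj hD hw g
    have hw'w' := sq hD hw'.1
    have h4 : (w * (g * w * g⁻¹)) ^ (2 ^ 2) = 1 := by
      rcases trichotomy hD hw.1 hw'.1 with h | ⟨hne, ho⟩ | ⟨h, -⟩
      · have := sq_of_comm hww hw'w' h
        calc (w * (g * w * g⁻¹)) ^ (2 ^ 2) = ((w * (g * w * g⁻¹)) ^ 2) ^ 2 := by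
              rw [← pow_mul]; norm_num
          _ = 1 := by rw [this, one_pow]
      · exact absurd ⟨hw.1, hw'.1, hne, ho⟩ (hw.2 _).1
      · rw [show (2 ^ 2 : ℕ) = 4 from rfl, ← h]
        exact pow_orderOf_eq_one _
    exact isPGroup_dih hww hw'w' h4)
  exact Cfsg.Agent.Lib.Core.Basic.le_pCore hN hNp (hwN (Subgroup.mem_zpowers w))

/-- A member in a normal 2-subgroup has no odd partner. -/
lemma no_odd_of_mem_normal (hD : IsRootInvolutionSet D) {Q : Subgroup G} (hQ : Q.Normal)
    (hp : IsPGroup 2 Q) {d x : G} (hd : d ∈ D) (hdQ : d ∈ Q) (h : OddAdj D d x) : False := by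
  obtain ⟨-, hx, hne, ho⟩ := h
  have h1 : (d * x) ^ 2 ∈ Q := by
    have e : (d * x) ^ 2 = d * (x * d * x⁻¹) := by
      rw [pow_two, inv_eq hD hx]; group
    rw [e]
    exact Q.mul_mem hdQ (hQ.conj_mem d hdQ x)
  have h2 := mem_of_sq_mem ho h1
  exact mul_ne_one_of_ne (sq hD hx) hne (eq_one_of_mem_pgroup hp h2 ho)

/-- Two commuting members on a line, each with an odd partner, lie in the same component. -/
lemma line_conn (hD : IsRootInvolutionSet D) {a e x z : G} (ha : a ∈ D) (he : e ∈ D)
    (hae : a * e = e * a) (hf : a * e ∈ D) (hex : OddAdj D e x) (haz : OddAdj D a z) :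
    Relation.ReflTransGen (OddAdj D) a e := by
  have haa := sq hD ha
  have hee := sq hD he
  have step : ∀ {a e x : G}, a ∈ D → e ∈ D → a * e = e * a → a * e ∈ D → OddAdj D e x →
      Relation.ReflTransGen (OddAdj D) a e ∨ Relation.ReflTransGen (OddAdj D) (a * e) e := by
    intro a e x ha he hae hf hex
    have haa := sq hD ha
    have hee := sq hD he
    obtain ⟨-, hx, hne, ho⟩ := hex
    have hxx := sq hD hx
    have hxe : x * e ≠ e * x := (not_comm_of_odd hee hxx hne ho).symm
    rcases line_odd hD ha he hae hf hx ho hne with h | h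
    · left
      have hax : a ≠ x := by
        rintro rfl
        exact hxe hae
      exact (Relation.ReflTransGen.single ⟨ha, hx, hax, h⟩).tail
        (oddAdj_symm hD ⟨he, hx, hne, ho⟩)
    · right
      have hfx : a * e ≠ x := by
        intro h1
        apply hxe
        rw [← h1, hae]
        simp only [mul_assoc, hee, mul_one, cancel_left hee]
        rw [← mul_assoc, ← hae, mul_assoc, hee, mul_one]
      exact (Relation.ReflTransGen.single ⟨hf, hx, hfx, h⟩).tail
        (oddAdj_symm hD ⟨he, hx, hne, ho⟩)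
  rcases step ha he hae hf hex with h1 | h1
  · exact h1
  have hf' : e * a ∈ D := hae ▸ hf
  rcases step he ha hae.symm hf' haz with h2 | h2
  · exact conn_symm hD h2
  · rw [← hae] at h2
    exact (conn_symm hD h2).trans h1

end Graph

end Cfsg.Agent.Lib.RootSubgroups.RootInv
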