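/-
Root involutions with a connected odd graph and a line: normal subgroups (S5048).
-/
import Mathlib
import Cfsg.Prelude.Def_RootSubgroups
import Cfsg.Prelude.Def_QuasithinSetup
import Cfsg.Agent.Lib.RootSubgroups.RootInv

set_option autoImplicit false

namespace Cfsg.Agent.Lib.RootSubgroups.RootInv2

open Cfsg Cfsg.Agent.Lib.RootSubgroups.RootInv
open scoped commutatorElement

universe u

variable {G : Type u} [Group G] {D : Set G}

/-- An element of the closure of a set of pairwise commuting involutions squares to one. -/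
lemma sq_of_mem_closure {T : Set G} (hc : ∀ x ∈ T, ∀ y ∈ T, x * y = y * x)
    (hi : ∀ x ∈ T, x * x = 1) {g : G} (hg : g ∈ Subgroup.closure T) : g * g = 1 := by
  have hcomm := Subgroup.isMulCommutative_closure hc
  induction hg using Subgroup.closure_induction with
  | mem x hx => exact hi x hx
  | one => simp
  | mul x y hx hy h1 h2 =>
    have : x * y = y * x := Subgroup.mul_comm_of_mem_isMulCommutative _ hx hy
    calc x * y * (x * y) = x * (y * x) * y := by group
      _ = x * (x * y) * y := by rw [this]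
      _ = (x * x) * (y * y) := by group
      _ = 1 := by rw [h1, h2, one_mul]
  | inv x _ h1 =>
    have : x⁻¹ = x := inv_eq_of_mul_eq_one_left h1
    rw [this, h1]

section

variable (hD : IsRootInvolutionSet D)
include hD

/-- A normal subgroup containing a member of a conjugacy class of generators is everything. -/
lemma eq_top_of_mem (hcl : ∀ x ∈ D, ∀ y ∈ D, ∃ g : G, g * x * g⁻¹ = y) {N : Subgroup G} (hN : N.Normal)
    {d : G} (hd : d ∈ D) (hdN : d ∈ N) : N = ⊤ := by
  rw [eq_top_iff, ← hD.generates, Subgroup.closure_le]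
  intro y hy
  obtain ⟨g, rfl⟩ := hcl d hd y hy
  exact hN.conj_mem d hdN g

/-- The key step: conjugates of a member under a normal subgroup missing `D` commute. -/
lemma conj_comm_partner {N : Subgroup G} (hN : N.Normal) (hND : ∀ x ∈ D, x ∉ N) {d u n : G}
    (hd : d ∈ D) (hu : u ∈ D) (hud : u * d = d * u) (hdu : d * u ∈ D) (hn : n ∈ N) :
    (n * d * n⁻¹) * u = u * (n * d * n⁻¹) := by
  set e := n * d * n⁻¹ with he
  have heD : e ∈ D := hD.conj_mem d hd n
  have hdd := sq hD hd
  have hee := sq hD heD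
  have huu := sq hD hu
  have hz : d * e ∈ N := by
    have e1 : d * e = (d * n * d⁻¹) * n⁻¹ := by
      rw [he, inv_eq_self hdd]; group
    rw [e1]
    exact N.mul_mem (hN.conj_mem n hn d) (N.inv_mem hn)
  set z := d * e with hzdef
  have hez : e = d * z := by rw [hzdef, cancel_left hdd]
  have hez' : e = z⁻¹ * d := by
    rw [hzdef, mul_inv_rev, inv_eq_self hee, inv_eq_self hdd, mul_assoc, hdd, mul_one]
  have hs : (e * u) ^ 2 ∈ N := by
    have e1 : (e * u) ^ 2 = d * (z * (u * z⁻¹ * u⁻¹)) * d⁻¹ := by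
      rw [pow_two, inv_eq_self huu, inv_eq_self hdd]
      calc e * u * (e * u) = e * u * e * u := by group
        _ = (d * z) * u * (z⁻¹ * d) * u := by
            nth_rw 1 [hez]
            nth_rw 1 [hez']
        _ = d * z * u * z⁻¹ * (d * u) := by group
        _ = d * z * u * z⁻¹ * (u * d) := by rw [hud]
        _ = d * (z * (u * z⁻¹ * u)) * d := by group
    rw [e1]
    exact hN.conj_mem _ (N.mul_mem hz (hN.conj_mem _ (N.inv_mem hz) u)) d
  rcases trichotomy hD heD hu with h | ⟨hne, ho⟩ | ⟨h4, hc⟩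
  · exact h
  · exfalso
    have h1 := mem_of_sq_mem ho hs
    have h2 : d * u = z * (e * u) := by
      rw [hzdef]
      simp only [mul_assoc, cancel_left hee]
    exact hND _ hdu (by rw [h2]; exact N.mul_mem hz h1)
  · exact absurd hs (hND _ hc)

lemma conj_comm {N : Subgroup G} (hN : N.Normal) (hND : ∀ x ∈ D, x ∉ N) {d u n : G}
    (hd : d ∈ D) (hu : u ∈ D) (hud : u * d = d * u) (hdu : d * u ∈ D) (hn : n ∈ N) :
    (n * d * n⁻¹) * d = d * (n * d * n⁻¹) := by
  have h1 := conj_comm_partner hD hN hND hd hu hud hdu hn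
  have hud' : (d * u) * d = d * (d * u) := by
    rw [mul_assoc, hud]
  have hdu' : d * (d * u) ∈ D := by
    rw [cancel_left (sq hD hd)]; exact hu
  have h2 := conj_comm_partner hD hN hND hd hdu hud' hdu' hn
  have huu := sq hD hu
  set e := n * d * n⁻¹ with he
  calc e * d = e * (d * u) * u := by rw [mul_assoc e, mul_assoc d, huu, mul_one]
    _ = (d * u) * e * u := by rw [h2]
    _ = d * (u * e) * u := by group
    _ = d * (e * u) * u := by rw [h1]
    _ = d * e := by rw [mul_assoc d, mul_assoc e, huu, mul_one]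

/-- The commutators of a member on a line with a normal subgroup missing `D` lie in `O₂(G)`. -/
lemma comm_mem_pCore [Finite G] {N : Subgroup G} (hN : N.Normal) (hND : ∀ x ∈ D, x ∉ N) {d u n : G}
    (hd : d ∈ D) (hu : u ∈ D) (hud : u * d = d * u) (hdu : d * u ∈ D) (hn : n ∈ N) :
    d * (n * d * n⁻¹) ∈ pCore 2 G := by
  set T : Set G := {x | ∃ m ∈ N, x = m * d * m⁻¹} with hT
  have hTc : ∀ x ∈ T, ∀ y ∈ T, x * y = y * x := by
    rintro x ⟨m, hm, rfl⟩ y ⟨m', hm', rfl⟩
    have h1 := conj_comm hD hN hND hd hu hud hdu (n := m⁻¹ * m') (N.mul_mem (N.inv_mem hm) hm')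
    set e := (m⁻¹ * m') * d * (m⁻¹ * m')⁻¹ with he
    have e1 : m' * d * m'⁻¹ = m * e * m⁻¹ := by rw [he]; group
    rw [e1]
    calc m * d * m⁻¹ * (m * e * m⁻¹) = m * (d * e) * m⁻¹ := by group
      _ = m * (e * d) * m⁻¹ := by rw [h1]
      _ = m * e * m⁻¹ * (m * d * m⁻¹) := by group
  have hTi : ∀ x ∈ T, x * x = 1 := by
    rintro x ⟨m, hm, rfl⟩
    exact sq hD (hD.conj_mem d hd m)
  set E := Subgroup.closure T with hE
  have hEN : ∀ g ∈ E, ∀ m ∈ N, m * g * m⁻¹ ∈ E := by
    intro g hg m hm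
    induction hg using Subgroup.closure_induction with
    | mem x hx =>
      obtain ⟨m', hm', rfl⟩ := hx
      exact Subgroup.subset_closure ⟨m * m', N.mul_mem hm hm', by group⟩
    | one => simp
    | mul x y _ _ hx hy =>
      have e : m * (x * y) * m⁻¹ = (m * x * m⁻¹) * (m * y * m⁻¹) := by group
      rw [e]
      exact E.mul_mem hx hy
    | inv x _ hx =>
      have e : m * x⁻¹ * m⁻¹ = (m * x * m⁻¹)⁻¹ := by group
      rw [e]
      exact E.inv_mem hx
  have hK : (E ⊓ N).IsSubnormal := by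
    refine Subgroup.IsSubnormal.step _ N inf_le_right hN.isSubnormal ⟨?_⟩
    rintro ⟨x, hx⟩ hx' ⟨g, hg⟩
    rw [Subgroup.mem_subgroupOf] at hx' ⊢
    exact ⟨hEN x hx'.1 g hg, hN.conj_mem x hx g⟩
  have hp : IsPGroup 2 ↥(E ⊓ N) := by
    rintro ⟨x, hx⟩
    refine ⟨1, Subtype.ext ?_⟩
    simp only [SubmonoidClass.coe_pow, Subgroup.coe_one, pow_one, pow_two]
    exact sq_of_mem_closure hTc hTi hx.1
  have hle := Cfsg.Agent.Lib.Core.Basic.le_pCore_of_isSubnormal (p := 2) hK hp
  apply hle
  refine ⟨E.mul_mem (Subgroup.subset_closure ⟨1, N.one_mem, by simp⟩)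
    (Subgroup.subset_closure ⟨n, hn, rfl⟩), ?_⟩
  have e1 : d * (n * d * n⁻¹) = (d * n * d⁻¹) * n⁻¹ := by
    rw [inv_eq hD hd]; group
  rw [e1]
  exact N.mul_mem (hN.conj_mem n hn d) (N.inv_mem hn)

/-- A normal subgroup missing `D` lies in the preimage of the centre of `G/O₂(G)`. -/
lemma le_twoZCore [Finite G] {N : Subgroup G} (hN : N.Normal) (hND : ∀ x ∈ D, x ∉ N)
    (hline : ∀ d ∈ D, ∃ u ∈ D, u * d = d * u ∧ d * u ∈ D) : N ≤ twoZCore G := by
  intro n hn
  show QuotientGroup.mk' (pCore 2 G) n ∈ Subgroup.center (G ⧸ pCore 2 G)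
  rw [Subgroup.mem_center_iff]
  intro q
  obtain ⟨g, rfl⟩ := QuotientGroup.mk_surjective q
  have hg : g ∈ Subgroup.closure D := by rw [hD.generates]; trivial
  simp only [QuotientGroup.mk'_apply]
  induction hg using Subgroup.closure_induction with
  | mem d hd =>
    obtain ⟨u, hu, hud, hdu⟩ := hline d hd
    have h1 := comm_mem_pCore hD hN hND hd hu hud hdu hn
    have h2 : ((d * (n * d * n⁻¹) : G) : G ⧸ pCore 2 G) = 1 := (QuotientGroup.eq_one_iff _).2 h1
    have h3 : (((d : G) : G ⧸ pCore 2 G) * (n : G ⧸ pCore 2 G)) * ((d : G) : G ⧸ pCore 2 G) * ((n : G) : G ⧸ pCore 2 G)⁻¹ = 1 := by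
      rw [← h2]; simp [mul_assoc]
    have hdd : ((d : G) : G ⧸ pCore 2 G) * ((d : G) : G ⧸ pCore 2 G) = 1 := by
      rw [← QuotientGroup.mk_mul, sq hD hd]; rfl
    have h4 : ((d : G) : G ⧸ pCore 2 G)⁻¹ = (d : G ⧸ pCore 2 G) := inv_eq_of_mul_eq_one_left hdd
    calc ((d : G) : G ⧸ pCore 2 G) * (n : G ⧸ pCore 2 G)
        = (((d : G) : G ⧸ pCore 2 G) * (n : G ⧸ pCore 2 G)) * ((d : G) : G ⧸ pCore 2 G) * ((n : G) : G ⧸ pCore 2 G)⁻¹ * ((n : G) : G ⧸ pCore 2 G) * ((d : G) : G ⧸ pCore 2 G)⁻¹ := by group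
      _ = (n : G ⧸ pCore 2 G) * (d : G ⧸ pCore 2 G) := by rw [h3, h4, one_mul]
  | one => simp
  | mul x y _ _ hx hy =>
    rw [QuotientGroup.mk_mul, mul_assoc, hy, ← mul_assoc, hx, mul_assoc]
  | inv x _ hx =>
    rw [QuotientGroup.mk_inv]
    exact (show Commute _ _ from hx).inv_left

end

/-- Solvability of `O_{2,Z}(G)`. -/
lemma isSolvable_twoZCore [Finite G] : Group.IsSolvable ↥(twoZCore G) := by
  have hle : pCore 2 G ≤ twoZCore G := by
    intro x hx
    show QuotientGroup.mk' (pCore 2 G) x ∈ Subgroup.center (G ⧸ pCore 2 G)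
    have h1 : QuotientGroup.mk' (pCore 2 G) x = 1 := (QuotientGroup.eq_one_iff x).2 hx
    rw [h1]
    exact Subgroup.one_mem _
  let f : ↥(pCore 2 G) →* ↥(twoZCore G) := Subgroup.inclusion hle
  let g : ↥(twoZCore G) →* ↥(Subgroup.center (G ⧸ pCore 2 G)) :=
    ((QuotientGroup.mk' (pCore 2 G)).comp (twoZCore G).subtype).codRestrict _ (fun x => x.2)
  have hfg : g.ker ≤ f.range := by
    rintro ⟨x, hx⟩ hgx
    have h1 : ((x : G) : G ⧸ pCore 2 G) = 1 := congrArg Subtype.val hgx
    exact ⟨⟨x, (QuotientGroup.eq_one_iff x).1 h1⟩, rfl⟩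
  have hp : IsPGroup 2 ↥(pCore 2 G) := Cfsg.Agent.Lib.Core.Basic.pCore_isPGroup
  have : Group.IsNilpotent ↥(pCore 2 G) := hp.isNilpotent
  have : Group.IsSolvable ↥(Subgroup.center (G ⧸ pCore 2 G)) :=
    Group.isSolvable_of_comm (fun a b => Subtype.ext (Subgroup.mem_center_iff.1 b.2 a.1))
  exact Group.isSolvable_of_ker_le_range f g hfg

theorem main [Finite G] (hD : IsRootInvolutionSet D) (hc : IsConnectedSet (OddAdj D) D)
    (hDD : (D ∩ commutingProducts D).Nonempty) :
    solvableRadical G = twoZCore G ∧ IsSimpleGroup (G ⧸ twoZCore G) := by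
  obtain ⟨f, hf, a, ha, b, hb, hab, hab1, rfl⟩ := hDD
  have hcl : ∀ x ∈ D, ∀ y ∈ D, ∃ g : G, g * x * g⁻¹ = y := fun x hx y hy =>
    conn_conj_of hD (hc x hx y hy)
  have haa := sq hD ha
  have hbb := sq hD hb
  have hne : a ≠ b := by
    rintro rfl
    exact hab1 haa
  -- every member is on a line
  have hline : ∀ d ∈ D, ∃ u ∈ D, u * d = d * u ∧ d * u ∈ D := by
    intro d hd
    obtain ⟨g, rfl⟩ := hcl a ha d hd
    refine ⟨g * b * g⁻¹, hD.conj_mem b hb g, ?_, ?_⟩
    · calc g * b * g⁻¹ * (g * a * g⁻¹) = g * (b * a) * g⁻¹ := by group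
        _ = g * (a * b) * g⁻¹ := by rw [hab]
        _ = g * a * g⁻¹ * (g * b * g⁻¹) := by group
    · have := hD.conj_mem _ hf g
      have e : g * (a * b) * g⁻¹ = g * a * g⁻¹ * (g * b * g⁻¹) := by group
      rwa [e] at this
  -- perfect
  have hperf : commutator G = ⊤ := by
    have hb' : b ∈ commutator G := by
      obtain ⟨g, hg⟩ := hcl a ha _ hf
      have e : b = a⁻¹ * (g * a * g⁻¹) := by rw [hg]; group
      rw [e]
      have : a⁻¹ * (g * a * g⁻¹) = ⁅a⁻¹, g⁆ := by
        rw [commutatorElement_def]; group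
      rw [this]
      exact Subgroup.commutator_mem_commutator (Subgroup.mem_top _) (Subgroup.mem_top _)
    exact eq_top_of_mem hD hcl (Subgroup.commutator_normal _ _) hb hb'
  -- normal subgroups
  have hnormal : ∀ N : Subgroup G, N.Normal → N = ⊤ ∨ N ≤ twoZCore G := by
    intro N hN
    by_cases h : ∃ d ∈ D, d ∈ N
    · obtain ⟨d, hd, hdN⟩ := h
      exact Or.inl (eq_top_of_mem hD hcl hN hd hdN)
    · push Not at h
      exact Or.inr (le_twoZCore hD hN h hline)
  -- not everything
  have hne_top : twoZCore G ≠ ⊤ := by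
    intro htop
    have h1 : commutator G ≤ pCore 2 G := by
      have hcomm : ∀ x y : G ⧸ pCore 2 G, x * y = y * x := by
        intro x y
        obtain ⟨x, rfl⟩ := QuotientGroup.mk_surjective x
        have hx : x ∈ twoZCore G := by rw [htop]; trivial
        have hx' : ((x : G) : G ⧸ pCore 2 G) ∈ Subgroup.center (G ⧸ pCore 2 G) := hx
        rw [Subgroup.mem_center_iff] at hx'
        exact (hx' y).symm
      rw [show commutator G = ⁅(⊤ : Subgroup G), (⊤ : Subgroup G)⁆ from rfl, Subgroup.commutator_le]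
      intro x _ y _
      rw [← QuotientGroup.eq_one_iff, commutatorElement_def]
      simp only [QuotientGroup.mk_mul, QuotientGroup.mk_inv]
      rw [hcomm x y]
      group
    rw [hperf] at h1
    have hp : IsPGroup 2 ↥(pCore 2 G) := Cfsg.Agent.Lib.Core.Basic.pCore_isPGroup
    have hall : ∀ x, x ∈ pCore 2 G := fun x => h1 (Subgroup.mem_top x)
    rcases Relation.ReflTransGen.cases_head (hc a ha b hb) with h2 | ⟨z, hz, -⟩
    · exact hne h2
    · exact no_odd_of_mem_normal hD inferInstance hp ha (hall a) hz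
  have hsolv : Group.IsSolvable ↥(twoZCore G) := isSolvable_twoZCore
  constructor
  · apply le_antisymm
    · apply sSup_le
      rintro N ⟨hN, hNs⟩
      rcases hnormal N hN with rfl | h
      · exfalso
        have : Group.IsSolvable G := by
          have := hNs
          exact Group.isSolvable_of_surjective (f := (⊤ : Subgroup G).subtype)
            (fun x => ⟨⟨x, trivial⟩, rfl⟩)
        have hd : ∀ n, derivedSeries G n = ⊤ := by
          intro n
          induction n with
          | zero => rfl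
          | succ n ih => rw [derivedSeries_succ, ih]; exact hperf
        obtain ⟨n, hn⟩ := this.solvable
        rw [hd] at hn
        have : a = 1 := by
          have h2 : a ∈ (⊤ : Subgroup G) := trivial
          rw [hn] at h2
          exact h2
        exact ne_one hD ha this
      · exact h
    · exact le_sSup ⟨inferInstance, hsolv⟩
  · have hnt : Nontrivial (G ⧸ twoZCore G) := by
      rw [← not_subsingleton_iff_nontrivial]
      intro hs
      exact hne_top (QuotientGroup.subgroup_eq_top_of_subsingleton _ hs)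
    refine ⟨fun N' hN' => ?_⟩
    have hN : (N'.comap (QuotientGroup.mk' (twoZCore G))).Normal := hN'.comap _
    rcases hnormal _ hN with h | h
    · right
      rw [eq_top_iff]
      intro x _
      obtain ⟨x, rfl⟩ := QuotientGroup.mk_surjective x
      have : x ∈ N'.comap (QuotientGroup.mk' (twoZCore G)) := by rw [h]; trivial
      exact this
    · left
      rw [eq_bot_iff]
      intro x hx
      obtain ⟨x, rfl⟩ := QuotientGroup.mk_surjective x
      have : x ∈ twoZCore G := h hx
      exact (QuotientGroup.eq_one_iff x).2 this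

end Cfsg.Agent.Lib.RootSubgroups.RootInv2
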