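/-
Root involutions: the map `y ↦ (y x)²` on a line is injective; elements inverting a line;
the same-commuting classes.
-/
import Mathlib
import Cfsg.Prelude.Def_RootSubgroups
import Cfsg.Agent.Lib.RootSubgroups.RootInv

set_option autoImplicit false

namespace Cfsg.Agent.Lib.RootSubgroups.RootInv3

open Cfsg Cfsg.Agent.Lib.RootSubgroups.RootInv
open scoped commutatorElement

variable {G : Type*} [Group G] {D : Set G}

/-- A conjugating power in a dihedral group with odd rotation. -/
lemma exists_conj_pow {a b : G} (ha : a * a = 1) (hb : b * b = 1) (h : Odd (orderOf (a * b))) :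
    ∃ m : ℕ, (a * b) ^ m * a * ((a * b) ^ m)⁻¹ = b := by
  obtain ⟨m, hm⟩ := h
  set r := a * b with hr
  refine ⟨m, ?_⟩
  have h1 : a * r ^ m * a = (r⁻¹) ^ m := conj_zpow_inv ha hb m
  have h2 : a * (r⁻¹) ^ m * a = r ^ m := by
    calc a * (r⁻¹) ^ m * a = a * (a * r ^ m * a) * a := by rw [h1]
      _ = r ^ m := by simp only [mul_assoc, ha, mul_one, cancel_left ha]
  have h3 : r ^ (2 * m + 1) = 1 := by rw [← hm]; exact pow_orderOf_eq_one r
  have h4 : r ^ m * a * (r ^ m)⁻¹ = r ^ m * r ^ m * a := by
    have : a * (r ^ m)⁻¹ = r ^ m * a := by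
      rw [← inv_pow]
      calc a * (r⁻¹) ^ m = (a * (r⁻¹) ^ m * a) * a := by
            simp only [mul_assoc, ha, mul_one]
        _ = r ^ m * a := by rw [h2]
    rw [mul_assoc, this, mul_assoc]
  rw [h4]
  have h5 : r ^ m * r ^ m = r⁻¹ := by
    rw [← pow_add, ← two_mul]
    apply eq_inv_of_mul_eq_one_left
    rw [← pow_succ]; exact h3
  rw [h5, hr, mul_inv_swap ha hb, mul_assoc, ha, mul_one]

/-- An element of odd order inverting `w` centralises `w`. -/
lemma comm_of_invert_odd {ρ w : G} (h : ρ * w * ρ⁻¹ = w⁻¹) (ho : Odd (orderOf ρ)) : ρ * w = w * ρ := by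
  obtain ⟨k, hk⟩ := pow_two_pow_of_odd ho
  have h1 : Commute (ρ ^ 2) w := by
    have e1 : ρ * w = w⁻¹ * ρ := by rw [← h]; group
    have e2 : ρ * w⁻¹ = w * ρ := by
      have : ρ * w⁻¹ * ρ⁻¹ = w := by
        calc ρ * w⁻¹ * ρ⁻¹ = (ρ * w * ρ⁻¹)⁻¹ := by group
          _ = w := by rw [h, inv_inv]
      calc ρ * w⁻¹ = ρ * w⁻¹ * ρ⁻¹ * ρ := by group
        _ = w * ρ := by rw [this]
    show ρ ^ 2 * w = w * ρ ^ 2
    rw [pow_two]
    calc ρ * ρ * w = ρ * (ρ * w) := by group
      _ = ρ * (w⁻¹ * ρ) := by rw [e1]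
      _ = (ρ * w⁻¹) * ρ := by group
      _ = w * ρ * ρ := by rw [e2]
      _ = w * (ρ * ρ) := by group
  have h2 := h1.pow_left k
  rw [hk] at h2
  exact h2

section Basic

variable (hD : IsRootInvolutionSet D)
include hD

lemma four_mem {a b : G} (ha : a ∈ D) (hb : b ∈ D) (h4 : orderOf (a * b) = 4) : (a * b) ^ 2 ∈ D := by
  rcases hD.pair a ha b hb with h | h | h
  · exact absurd h (four_not_comm (sq hD ha) (sq hD hb) h4)
  · rw [h4] at h; exact absurd h (by decide)
  · exact h.2

lemma four_swap {a b : G} (ha : a ∈ D) (hb : b ∈ D) (h4 : orderOf (a * b) = 4) :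
    orderOf (b * a) = 4 := by
  rw [orderOf_swap (sq hD ha) (sq hD hb), h4]

lemma sq_swap {a b : G} (ha : a ∈ D) (hb : b ∈ D) (h4 : orderOf (a * b) = 4) :
    (b * a) ^ 2 = (a * b) ^ 2 := by
  have h1 : b * a = (a * b)⁻¹ := (mul_inv_swap (sq hD ha) (sq hD hb)).symm
  rw [h1, inv_pow]
  exact inv_eq_of_mul_eq_one_left (four_sq_sq (sq hD ha) (sq hD hb) h4)

/-- `z = (y x)²` for `y` on a line with `c`, `c x` odd: `c z` has order four. -/
lemma phi_four {c y x : G} (hc : c ∈ D) (hy : y ∈ D) (hx : x ∈ D) (hcy : c * y = y * c)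
    (hcx : c ≠ x) (ho : Odd (orderOf (c * x))) (h4 : orderOf (y * x) = 4) :
    orderOf (c * (y * x) ^ 2) = 4 := by
  have hcc := sq hD hc
  have hyy := sq hD hy
  have hxx := sq hD hx
  have hz := four_mem hD hy hx h4
  set z := (y * x) ^ 2 with hzdef
  have hxz : x * z = z * x := four_comm_right hyy hxx h4
  have hxz' : x * z = y * x * y := four_right hyy hxx h4
  have hyz : y * z = z * y := four_comm_left hyy hxx h4
  have hyz' : y * z = x * y * x := four_left hyy hxx h4
  have hzx_mem : z * x ∈ D := by rw [← hxz, hxz']; exact conj_mem' hD hx hy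
  have hyz_mem : y * z ∈ D := by rw [hyz']; exact conj_mem' hD hy hx
  rcases trichotomy hD hc hz with h | ⟨hne, ho'⟩ | ⟨h, -⟩
  · exact absurd h.symm (line_not_comm hD hz hx hxz.symm hzx_mem hc
      (by rwa [orderOf_swap hcc hxx]) hcx.symm)
  · exact absurd hcy.symm (line_not_comm hD hy hz hyz hyz_mem hc
      (by rwa [orderOf_swap hcc (sq hD hz)]) hne.symm)
  · exact h

/-- The map `y ↦ (y x)²` is injective on the line partners of `c`. -/
lemma phi_inj {c y y' x : G} (hc : c ∈ D) (hy : y ∈ D) (hy' : y' ∈ D) (hx : x ∈ D)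
    (hcy : c * y = y * c) (hl : c * y ∈ D) (hcy' : c * y' = y' * c) (hl' : c * y' ∈ D)
    (hcx : c ≠ x) (ho : Odd (orderOf (c * x))) (h4 : orderOf (y * x) = 4)
    (h4' : orderOf (y' * x) = 4) (heq : (y * x) ^ 2 = (y' * x) ^ 2) : y = y' := by
  have hcc := sq hD hc
  have hyy := sq hD hy
  have hyy' := sq hD hy'
  have hxx := sq hD hx
  have hzz : (y * x) ^ 2 * (y * x) ^ 2 = 1 := four_sq_sq hyy hxx h4
  set z := (y * x) ^ 2 with hzdef
  have hyz : y * z = z * y := four_comm_left hyy hxx h4
  have hyz' : y * z = x * y * x := four_left hyy hxx h4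
  have hyz2 : y' * z = z * y' := by rw [heq]; exact four_comm_left hyy' hxx h4'
  have hyz2' : y' * z = x * y' * x := by rw [heq]; exact four_left hyy' hxx h4'
  -- `w`
  set w := y * y' with hw
  have hxw : x * w * x = w := by
    calc x * w * x = (x * y * x) * (x * y' * x) := by
          rw [hw]; simp only [mul_assoc, cancel_left hxx]
      _ = (y * z) * (y' * z) := by rw [hyz', hyz2']
      _ = y * (z * y') * z := by group
      _ = y * (y' * z) * z := by rw [hyz2]
      _ = y * y' * (z * z) := by group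
      _ = w := by rw [hzz, mul_one]
  have hxw' : x * w = w * x := by
    calc x * w = (x * w * x) * x := by simp only [mul_assoc, hxx, mul_one]
      _ = w * x := by rw [hxw]
  have hcw : c * w = w * c := by
    calc c * w = c * y * y' := by rw [hw]; group
      _ = y * c * y' := by rw [hcy]
      _ = y * (c * y') := by group
      _ = y * (y' * c) := by rw [hcy']
      _ = w * c := by rw [hw]; group
  -- odd products
  have hyc_mem : y * c ∈ D := hcy ▸ hl
  have hyc_mem' : y' * c ∈ D := hcy' ▸ hl'
  have hodd1 : Odd (orderOf (y * c * x)) := by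
    rcases line_odd hD hy hc hcy.symm hyc_mem hx ho hcx with h | h
    · rw [h4] at h; exact absurd h (by decide)
    · exact h
  have hodd2 : Odd (orderOf (y' * c * x)) := by
    rcases line_odd hD hy' hc hcy'.symm hyc_mem' hx ho hcx with h | h
    · rw [h4'] at h; exact absurd h (by decide)
    · exact h
  set ρ := y * c * x with hρ
  have hρ2 : y' * c * x = ρ * w := by
    calc y' * c * x = y * (y * y') * c * x := by rw [cancel_left hyy]
      _ = y * (w * c) * x := by rw [hw]; group
      _ = y * (c * w) * x := by rw [hcw]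
      _ = y * c * (w * x) := by group
      _ = y * c * (x * w) := by rw [hxw']
      _ = ρ * w := by rw [hρ]; group
  have hinv : ρ * w * ρ⁻¹ = w⁻¹ := by
    have e1 : ρ⁻¹ = x * c * y := by
      rw [hρ, mul_inv_rev, mul_inv_rev, inv_eq_self hxx, inv_eq_self hcc, inv_eq_self hyy]
      group
    rw [e1, hρ]
    calc y * c * x * w * (x * c * y) = y * c * (x * w * x) * c * y := by group
      _ = y * (c * w * c) * y := by rw [hxw]; group
      _ = y * (w * c * c) * y := by rw [hcw]
      _ = y * w * y := by simp only [mul_assoc, hcc, mul_one]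
      _ = y' * y := by rw [hw]; simp only [mul_assoc, cancel_left hyy]
      _ = w⁻¹ := by rw [hw, mul_inv_rev, inv_eq_self hyy, inv_eq_self hyy']
  have hcomm := comm_of_invert_odd hinv hodd1
  have hww : w * w = 1 := by
    have e : w = w⁻¹ := by
      rw [← hinv, hcomm]; group
    calc w * w = w * w⁻¹ := by rw [← e]
      _ = 1 := by group
  by_contra hne
  have hw1 : w ≠ 1 := by
    intro h
    apply hne
    have := eq_inv_of_mul_eq_one_left h
    rwa [inv_eq_self hyy'] at this
  have ho3 := orderOf_two_odd hww hw1 hcomm.symm hodd1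
  rw [hρ2, hcomm] at hodd2
  rw [ho3] at hodd2
  exact absurd hodd2 (by simp)

/-- Inverting a line: there is a member `z` with `(z c)² = y`, the square of a pair `(y₀, x)`. -/
lemma exists_pre [Finite G] {c y x : G} (hc : c ∈ D) (hy : y ∈ D) (hx : x ∈ D)
    (hcy : c * y = y * c) (hl : c * y ∈ D) (hcx : c ≠ x) (ho : Odd (orderOf (c * x)))
    (h4 : orderOf (y * x) = 4) :
    ∃ y₀ ∈ D, c * y₀ = y₀ * c ∧ c * y₀ ∈ D ∧ orderOf (y₀ * x) = 4 ∧
      orderOf ((y₀ * x) ^ 2 * c) = 4 ∧ ((y₀ * x) ^ 2 * c) ^ 2 = y := by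
  classical
  have hcc := sq hD hc
  have hxx := sq hD hx
  let Y : Set G := {y | y ∈ D ∧ c * y = y * c ∧ c * y ∈ D ∧ orderOf (y * x) = 4}
  have hxc : x ≠ c := hcx.symm
  have hoxc : Odd (orderOf (x * c)) := by rwa [orderOf_swap hcc hxx]
  have step : ∀ y ∈ Y, (y * x) ^ 2 ∈ D ∧ x * (y * x) ^ 2 = (y * x) ^ 2 * x ∧
      x * (y * x) ^ 2 ∈ D ∧ orderOf ((y * x) ^ 2 * c) = 4 := by
    rintro y ⟨hyD, hy1, -, hy4⟩
    have hz := four_mem hD hyD hx hy4
    refine ⟨hz, four_comm_right (sq hD hyD) hxx hy4, ?_, ?_⟩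
    · rw [four_right (sq hD hyD) hxx hy4]; exact conj_mem' hD hx hyD
    · have := phi_four hD hc hyD hx hy1 hcx ho hy4
      rw [orderOf_swap hcc (sq hD hz)]; exact this
  have hT : ∀ y ∈ Y, ((y * x) ^ 2 * c) ^ 2 ∈ Y := by
    intro y hy
    obtain ⟨hz, hz1, hz2, hz4⟩ := step y hy
    set z := (y * x) ^ 2 with hzdef
    have hzz := sq hD hz
    refine ⟨four_mem hD hz hc hz4, (four_comm_right hzz hcc hz4), ?_, ?_⟩
    · rw [four_right hzz hcc hz4]; exact conj_mem' hD hc hz
    · have := phi_four hD hx hz hc hz1 hxc hoxc hz4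
      rw [orderOf_swap hxx (sq hD (four_mem hD hz hc hz4))]; exact this
  let T : Y → Y := fun y => ⟨_, hT y.1 y.2⟩
  have hinj : Function.Injective T := by
    rintro ⟨y₁, hy₁⟩ ⟨y₂, hy₂⟩ h
    have h' : ((y₁ * x) ^ 2 * c) ^ 2 = ((y₂ * x) ^ 2 * c) ^ 2 := congrArg Subtype.val h
    obtain ⟨hz₁, hz₁a, hz₁b, hz₁c⟩ := step y₁ hy₁
    obtain ⟨hz₂, hz₂a, hz₂b, hz₂c⟩ := step y₂ hy₂
    have e1 := phi_inj hD hx hz₁ hz₂ hc hz₁a hz₁b hz₂a hz₂b hxc hoxc hz₁c hz₂c h'
    have e2 := phi_inj hD hc hy₁.1 hy₂.1 hx hy₁.2.1 hy₁.2.2.1 hy₂.2.1 hy₂.2.2.1 hcx ho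
      hy₁.2.2.2 hy₂.2.2.2 e1
    exact Subtype.ext e2
  have hsurj := Finite.injective_iff_surjective.1 hinj
  obtain ⟨⟨y₀, hy₀⟩, hy₀'⟩ := hsurj ⟨y, hy, hcy, hl, h4⟩
  have e : ((y₀ * x) ^ 2 * c) ^ 2 = y := congrArg Subtype.val hy₀'
  exact ⟨y₀, hy₀.1, hy₀.2.1, hy₀.2.2.1, hy₀.2.2.2, (step y₀ hy₀).2.2.2, e⟩

/-- Inverting a line. -/
lemma exists_four_sq [Finite G] {c y x : G} (hc : c ∈ D) (hy : y ∈ D) (hx : x ∈ D)
    (hcy : c * y = y * c) (hl : c * y ∈ D) (hcx : c ≠ x) (ho : Odd (orderOf (c * x)))
    (h4 : orderOf (y * x) = 4) :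
    ∃ z ∈ D, orderOf (z * c) = 4 ∧ (z * c) ^ 2 = y := by
  obtain ⟨y₀, hy₀, -, -, h1, h2, h3⟩ := exists_pre hD hc hy hx hcy hl hcx ho h4
  exact ⟨_, four_mem hD hy₀ hx h1, h2, h3⟩

end Basic

/-- The formal contradiction. -/
lemma no_triple {e c y z f : G} (hee : e * e = 1) (hcc : c * c = 1) (hyy : y * y = 1)
    (hzz : z * z = 1) (hc1 : c ≠ 1) (hec : e * c = c * e) (hcy : c * y = y * c)
    (h1 : (e * y) ^ 2 = c) (h2 : (z * c) ^ 2 = y) (hyz : y * z = z * y) (hf : (e * z) ^ 2 = f)
    (hfz : f * z = z * f) (hff : f * f = 1) : False := by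
  rw [pow_two] at h1 h2 hf
  -- `e y e = c y`
  have a1 : e * y * e = c * y := by
    calc e * y * e = (e * y * (e * y)) * y := by simp only [mul_assoc, hyy, mul_one]
      _ = c * y := by rw [h1]
  -- `e z e = f z`
  have a2 : e * z * e = f * z := by
    calc e * z * e = (e * z * (e * z)) * z := by simp only [mul_assoc, hzz, mul_one]
      _ = f * z := by rw [hf]
  -- `z c z = y c`
  have a3 : z * c * z = y * c := by
    calc z * c * z = (z * c * (z * c)) * c := by simp only [mul_assoc, hcc, mul_one]
      _ = y * c := by rw [h2]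
  -- conjugate `y` by `e`
  have a4 : e * y * e = (f * z) * c * (f * z) * c := by
    have hece : e * c * e = c := by
      rw [hec]; simp only [mul_assoc, hee, mul_one]
    calc e * y * e = e * (z * c * (z * c)) * e := by rw [h2]
      _ = (e * z * e) * (e * c * e) * (e * z * e) * (e * c * e) := by
          simp only [mul_assoc, cancel_left hee]
      _ = (f * z) * c * (f * z) * c := by rw [a2, hece]
  -- so `y = f z c f z`
  have a5 : y = f * z * c * (f * z) := by
    have h3 : c * y = f * z * c * (f * z) * c := by rw [← a1, a4]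
    have h4 : y * c = f * z * c * (f * z) * c := by rw [← hcy]; exact h3
    calc y = y * c * c := by simp only [mul_assoc, hcc, mul_one]
      _ = f * z * c * (f * z) * c * c := by rw [h4]
      _ = f * z * c * (f * z) := by simp only [mul_assoc, hcc, mul_one]
  -- so `y = f c f`
  have a6 : y = f * c * f := by
    have h3 : z * y * z = f * c * f := by
      rw [a5]
      calc z * (f * z * c * (f * z)) * z = (z * f) * z * c * f * (z * z) := by group
        _ = (f * z) * z * c * f * (z * z) := by rw [hfz]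
        _ = f * (z * z) * c * f * (z * z) := by group
        _ = f * c * f := by rw [hzz]; group
    have h5 : z * y * z = y := by
      calc z * y * z = y * z * z := by rw [← hyz]
        _ = y := by simp only [mul_assoc, hzz, mul_one]
    rw [← h3, h5]
  -- and `f y f = 1`
  have a7 : f * y * f = 1 := by
    have e1 : f * z * f = z := by rw [hfz]; simp only [mul_assoc, hff, mul_one]
    calc f * y * f = f * (z * c * (z * c)) * f := by rw [h2]
      _ = (f * z * f) * (f * c * f) * (f * z * f) * (f * c * f) := by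
          simp only [mul_assoc, hff, mul_one, cancel_left hff]
      _ = z * y * z * y := by rw [e1, ← a6]
      _ = z * (z * y) * y := by rw [mul_assoc z y z, hyz]
      _ = 1 := by rw [cancel_left hzz, hyy]
  apply hc1
  have a8 : f * y * f = c := by
    rw [a6]; simp only [mul_assoc, hff, mul_one, cancel_left hff]
  rw [← a8, a7]

/-! ### Order three -/

/-- Two members acting on a four-group as transpositions have product of order three. -/
lemma order_three (hD : IsRootInvolutionSet D) {a b z x : G} (ha : a ∈ D) (hb : b ∈ D) (hz : z ∈ D)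
    (hx : x ∈ D) (hab : a * b = b * a) (hz4 : orderOf (z * a) = 4) (hza : (z * a) ^ 2 = b)
    (hx4 : orderOf (x * b) = 4) (hxb : (x * b) ^ 2 = z) : orderOf (a * x) = 3 := by
  have haa := sq hD ha
  have hbb := sq hD hb
  have hzz := sq hD hz
  have hxx := sq hD hx
  have hb1 := ne_one hD hb
  have hz1 := ne_one hD hz
  -- relations
  have e1 : z * b = b * z := by
    rw [← hza]; exact four_comm_left hzz haa hz4
  have e2 : a * z * a = b * z := by
    have h := four_right hzz haa hz4
    -- `a * (z a)² = z a z`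
    have h2 : z * a * z = a * b := by rw [← h, hza]
    calc a * z * a = a * (z * a * z) * z := by simp only [mul_assoc, hzz, mul_one]
      _ = a * (a * b) * z := by rw [h2]
      _ = b * z := by rw [cancel_left haa]
  have e3 : x * z = z * x := by
    rw [← hxb]; exact four_comm_left hxx hbb hx4
  have e4 : x * b * x = z * b := by
    have h := four_right hxx hbb hx4
    rw [hxb] at h
    -- `b z = x b x`
    rw [e1, h]
  set r := a * x with hr
  have hr1 : r * b = z * r := by
    calc r * b = a * (x * b * x) * x := by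
          rw [hr]; simp only [mul_assoc, hxx, mul_one]
      _ = a * (z * b) * x := by rw [e4]
      _ = (a * z * a) * (a * b) * x := by simp only [mul_assoc, cancel_left haa]
      _ = (b * z) * (a * b) * x := by rw [e2]
      _ = (b * z) * (b * a) * x := by rw [hab]
      _ = b * (z * b) * a * x := by group
      _ = b * (b * z) * a * x := by rw [e1]
      _ = z * a * x := by rw [cancel_left hbb]
      _ = z * r := by rw [hr]; group
  have hr2 : r * z = b * z * r := by
    calc r * z = a * (x * z) := by rw [hr]; group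
      _ = a * (z * x) := by rw [e3]
      _ = (a * z * a) * (a * x) := by simp only [mul_assoc, cancel_left haa]
      _ = b * z * r := by rw [e2]
  have hr3 : r * (b * z) = b * r := by
    calc r * (b * z) = (r * b) * z := by group
      _ = z * r * z := by rw [hr1]
      _ = z * (r * z) := by group
      _ = z * (b * z * r) := by rw [hr2]
      _ = (z * b) * z * r := by group
      _ = (b * z) * z * r := by rw [e1]
      _ = b * r := by simp only [mul_assoc, cancel_left hzz]
  have r3 : r ^ 3 = r * r * r := by rw [pow_succ, pow_two]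
  have hr4 : r ^ 3 * b = b * r ^ 3 := by
    rw [r3]
    calc r * r * r * b = r * (r * (r * b)) := by simp only [mul_assoc]
      _ = r * (r * (z * r)) := by rw [hr1]
      _ = r * ((r * z) * r) := by simp only [mul_assoc]
      _ = r * (b * z * r * r) := by rw [hr2]
      _ = (r * (b * z)) * r * r := by simp only [mul_assoc]
      _ = b * r * r * r := by rw [hr3]
      _ = b * (r * r * r) := by simp only [mul_assoc]
  rcases trichotomy hD ha hx with h | ⟨hne, ho⟩ | ⟨h4, -⟩
  · exfalso
    have h1 : r * r = 1 := by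
      have := sq_of_comm haa hxx h
      rwa [pow_two] at this
    apply hz1
    have h2 : r * (r * b) = b := by rw [← mul_assoc, h1, one_mul]
    have h3 : r * (r * b) = b * z * (r * r) := by
      calc r * (r * b) = r * (z * r) := by rw [hr1]
        _ = (r * z) * r := by group
        _ = b * z * r * r := by rw [hr2]
        _ = b * z * (r * r) := by group
    rw [h1, mul_one] at h3
    rw [h2] at h3
    calc z = b * (b * z) := (cancel_left hbb z).symm
      _ = 1 := by rw [← h3, hbb]
  · -- odd
    have hr_ne : r ≠ 1 := mul_ne_one_of_ne hxx hne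
    have hodd3 : Odd (orderOf (r ^ 3)) := Odd.of_dvd_nat ho (orderOf_pow_dvd 3)
    have hr3one : r ^ 3 = 1 := by
      by_contra hne3
      refine no_two_odd hD (a := a * b) (b := x * (a * x * a) * x) (t := b) (r := r ^ 3)
        ?_ ?_ ?_ hbb hb1 hr4.symm hodd3 hne3
      · have h3 := four_right hzz haa hz4
        rw [hza] at h3
        rw [h3]
        exact conj_mem' hD ha hz
      · exact conj_mem' hD (conj_mem' hD hx ha) hx
      · rw [r3, hr]
        calc a * b * (x * (a * x * a) * x) = a * b * (a * (a * x * (a * x) * (a * x))) := by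
              simp only [mul_assoc, cancel_left haa]
          _ = (a * b * a) * (a * x * (a * x) * (a * x)) := by simp only [mul_assoc]
          _ = b * (a * x * (a * x) * (a * x)) := by
              rw [hab]; simp only [mul_assoc, cancel_left haa]
    haveI : Fact (Nat.Prime 3) := ⟨Nat.prime_three⟩
    exact orderOf_eq_prime hr3one hr_ne
  · exfalso
    have h1 : r ^ 4 = 1 := by rw [← h4]; exact pow_orderOf_eq_one _
    have h2 : b = z := by
      have h3 : r ^ 4 * b = z * r ^ 4 := by
        have r4 : r ^ 4 = r * r ^ 3 := by rw [pow_succ']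
        rw [r4]
        calc r * r ^ 3 * b = r * (r ^ 3 * b) := by simp only [mul_assoc]
          _ = r * (b * r ^ 3) := by rw [hr4]
          _ = (r * b) * r ^ 3 := by simp only [mul_assoc]
          _ = z * r * r ^ 3 := by rw [hr1]
          _ = z * (r * r ^ 3) := by simp only [mul_assoc]
      rw [h1, one_mul, mul_one] at h3
      exact h3
    apply hb1
    have h3 : x * b * x = 1 := by rw [e4, ← h2, hbb]
    calc b = x * (x * b * x) * x := by simp only [mul_assoc, cancel_left hxx, hxx, mul_one]
      _ = 1 := by rw [h3, mul_one, hxx]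

/-! ### Blocks -/

section Blocks

variable (hD : IsRootInvolutionSet D)
include hD

lemma odd_conj (g a : G) :
    oddPartners D (g * a * g⁻¹) = (fun t => g * t * g⁻¹) '' oddPartners D a := by
  ext x
  constructor
  · rintro ⟨hx, hne, ho⟩
    refine ⟨g⁻¹ * x * g, ⟨?_, ?_, ?_⟩, by group⟩
    · have := hD.conj_mem x hx g⁻¹
      simpa using this
    · intro h
      apply hne
      rw [← h]; group
    · have := orderOf_conj_mul g a (g⁻¹ * x * g)
      have e : g * (g⁻¹ * x * g) * g⁻¹ = x := by group
      rw [e] at this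
      rw [← this]; exact ho
  · rintro ⟨t, ⟨ht, hne, ho⟩, rfl⟩
    refine ⟨hD.conj_mem t ht g, ?_, ?_⟩
    · intro h
      apply hne
      have h' : g * t * g⁻¹ = g * a * g⁻¹ := h
      have : g⁻¹ * (g * t * g⁻¹) * g = g⁻¹ * (g * a * g⁻¹) * g := by rw [h']
      simpa [mul_assoc] using this
    · show Odd (orderOf ((g * a * g⁻¹) * (g * t * g⁻¹)))
      rw [orderOf_conj_mul]; exact ho

lemma blk_conj {a b : G} (h : oddPartners D a = oddPartners D b) (g : G) :
    oddPartners D (g * a * g⁻¹) = oddPartners D (g * b * g⁻¹) := by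
  rw [odd_conj hD, odd_conj hD, h]

/-- A member commuting with a member of a block normalises the block. -/
lemma blk_self_conj {v a b : G} (hva : v * a = a * v) (h : oddPartners D a = oddPartners D b) :
    oddPartners D (v * b * v⁻¹) = oddPartners D a := by
  have := blk_conj hD h v
  rw [← this, hva]
  simp

end Blocks

section Card

variable [Finite G] (hD : IsRootInvolutionSet D) (hcl : ∀ a ∈ D, ∀ b ∈ D, ∃ g : G, g * a * g⁻¹ = b)
include hD hcl

lemma ncard_odd {a b : G} (ha : a ∈ D) (hb : b ∈ D) :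
    (oddPartners D a).ncard = (oddPartners D b).ncard := by
  obtain ⟨g, rfl⟩ := hcl a ha b hb
  rw [odd_conj hD]
  refine (Set.ncard_image_of_injective _ ?_).symm
  intro x y h
  simpa using h

lemma odd_eq_of_subset {a b : G} (ha : a ∈ D) (hb : b ∈ D)
    (h : oddPartners D a ⊆ oddPartners D b) : oddPartners D a = oddPartners D b :=
  Set.eq_of_subset_of_ncard_le h (ncard_odd hD hcl hb ha).le (Set.toFinite _)

/-- A line with two points in a block has its third point in the block. -/
lemma line_third {a b : G} (ha : a ∈ D) (hb : b ∈ D) (hab : a * b = b * a) (hl : a * b ∈ D)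
    (h : oddPartners D a = oddPartners D b) : oddPartners D (a * b) = oddPartners D a := by
  have haa := sq hD ha
  have hbb := sq hD hb
  have hsub : oddPartners D (a * b) ⊆ oddPartners D a := by
    rintro x ⟨hx, hne, ho⟩
    have hxa : x ≠ a := by
      rintro rfl
      have e : x * b * x = b := by rw [hab]; simp only [mul_assoc, haa, mul_one]
      have h2 : orderOf (x * b * x) = 2 := by rw [e]; exact hD.orderOf_eq b hb
      rw [h2] at ho
      exact absurd ho (by decide)
    have hxb : x ≠ b := by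
      rintro rfl
      have e : a * x * x = a := by simp only [mul_assoc, hbb, mul_one]
      rw [e, hD.orderOf_eq a ha] at ho
      exact absurd ho (by decide)
    have e1 : a * (a * b) = b := cancel_left haa b
    have h1 : a * (a * b) ∈ D := by rw [e1]; exact hb
    have hcomm : a * (a * b) = (a * b) * a := by
      rw [e1, hab]; simp only [mul_assoc, haa, mul_one]
    rcases line_odd hD ha hl hcomm h1 hx ho hne.symm with h2 | h2
    · exact ⟨hx, hxa, h2⟩
    · rw [e1] at h2
      rw [h]
      exact ⟨hx, hxb, h2⟩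
  exact odd_eq_of_subset hD hcl hl ha hsub

end Card

/-! ### Subsets closed under conjugation and squares -/

section Closed

variable {B : Set G}

/-- The subset `B` of `D` is a set of root involutions of the group it generates. -/
lemma rootSet_closure (hD : IsRootInvolutionSet D) (hBD : B ⊆ D) (hconj : ∀ u ∈ B, ∀ v ∈ B, u * v * u⁻¹ ∈ B)
    (hsq : ∀ u ∈ B, ∀ v ∈ B, orderOf (u * v) = 4 → (u * v) ^ 2 ∈ B) :
    IsRootInvolutionSet ((↑) ⁻¹' B : Set ↥(Subgroup.closure B)) := by
  have hconj' : ∀ g ∈ Subgroup.closure B, ∀ v ∈ B, g * v * g⁻¹ ∈ B ∧ g⁻¹ * v * g ∈ B := by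
    intro g hg
    induction hg using Subgroup.closure_induction with
    | mem x hx =>
      intro v hv
      have h1 := hconj x hx v hv
      refine ⟨h1, ?_⟩
      have e : x⁻¹ = x := inv_eq hD (hBD hx)
      rw [e] at h1 ⊢
      simpa [e] using h1
    | one => intro v hv; simpa using hv
    | mul x y _ _ hx hy =>
      intro v hv
      constructor
      · have h1 := (hx _ (hy v hv).1).1
        have e : x * y * v * (x * y)⁻¹ = x * (y * v * y⁻¹) * x⁻¹ := by group
        rw [e]; exact h1
      · have h1 := (hy _ (hx v hv).2).2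
        have e : (x * y)⁻¹ * v * (x * y) = y⁻¹ * (x⁻¹ * v * x) * y := by group
        rw [e]; exact h1
    | inv x _ hx =>
      intro v hv
      obtain ⟨h1, h2⟩ := hx v hv
      simpa using And.intro h2 h1
  refine ⟨?_, ?_, ?_, ?_⟩
  · intro d hd
    rw [← Subgroup.orderOf_coe]
    exact hD.orderOf_eq _ (hBD hd)
  · exact Subgroup.closure_closure_coe_preimage
  · intro d hd g
    exact (hconj' g g.2 d hd).1
  · intro a ha b hb
    have ha' : (a : G) ∈ B := ha
    have hb' : (b : G) ∈ B := hb
    have e : ((a * b : ↥(Subgroup.closure B)) : G) = (a : G) * b := rfl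
    rcases hD.pair a (hBD ha') b (hBD hb') with h | h | h
    · exact Or.inl (Subtype.ext h)
    · refine Or.inr (Or.inl ?_)
      rw [← Subgroup.orderOf_coe]; exact h
    · refine Or.inr (Or.inr ⟨?_, ?_⟩)
      · rw [← Subgroup.orderOf_coe]; exact h.1
      · exact hsq _ ha' _ hb' h.1

/-- If `B` has no odd pairs, the group it generates is a 2-group. -/
lemma isPGroup_closure [Finite G] (hD : IsRootInvolutionSet D) (hBD : B ⊆ D)
    (hconj : ∀ u ∈ B, ∀ v ∈ B, u * v * u⁻¹ ∈ B)
    (hsq : ∀ u ∈ B, ∀ v ∈ B, orderOf (u * v) = 4 → (u * v) ^ 2 ∈ B)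
    (hno : ∀ u ∈ B, ∀ v ∈ B, u ≠ v → ¬ Odd (orderOf (u * v))) :
    IsPGroup 2 ↥(Subgroup.closure B) := by
  have hR := rootSet_closure hD hBD hconj hsq
  have htop : pCore 2 ↥(Subgroup.closure B) = ⊤ := by
    rw [eq_top_iff, ← hR.generates, Subgroup.closure_le]
    intro v hv
    apply isol_mem_pCore hR
    refine ⟨hv, fun w => ⟨?_, ?_⟩⟩
    · rintro ⟨-, hw, hne, ho⟩
      refine hno _ hv _ hw (fun h => hne (Subtype.ext h)) ?_
      rw [← Subgroup.orderOf_coe] at ho
      exact ho
    · rintro ⟨hw, -, hne, ho⟩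
      refine hno _ hw _ hv (fun h => hne (Subtype.ext h)) ?_
      rw [← Subgroup.orderOf_coe] at ho
      exact ho
  exact Cfsg.Agent.Lib.Core.Basic.pCore_eq_top_iff.1 htop

/-- A member of `B` is central: `B` generates a nilpotent group. -/
lemma exists_central [Finite G] (hD : IsRootInvolutionSet D) (hBD : B ⊆ D)
    (hconj : ∀ u ∈ B, ∀ v ∈ B, u * v * u⁻¹ ∈ B)
    (hsq : ∀ u ∈ B, ∀ v ∈ B, orderOf (u * v) = 4 → (u * v) ^ 2 ∈ B)
    (hno : ∀ u ∈ B, ∀ v ∈ B, u ≠ v → ¬ Odd (orderOf (u * v))) {a : G} (ha : a ∈ B) :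
    ∃ u ∈ B, ∀ w ∈ B, u * w = w * u := by
  have hp := isPGroup_closure hD hBD hconj hsq hno
  have hnil : Group.IsNilpotent ↥(Subgroup.closure B) := hp.isNilpotent
  obtain ⟨N, hN⟩ := (Subgroup.isNilpotent_iff_lowerCentralSeries _).1 hnil
  have key : ∀ k n, n + k = N → ∀ v, v ∈ B → v ∈ (Subgroup.closure B).lowerCentralSeries n →
      ∃ u ∈ B, ∀ w ∈ B, u * w = w * u := by
    intro k
    induction k with
    | zero =>
      intro n hn v hvB hmem
      have hn' : n = N := by omega
      rw [hn', hN, Subgroup.mem_bot] at hmem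
      exact absurd hmem (ne_one hD (hBD hvB))
    | succ k ih =>
      intro n hn v hvB hmem
      by_cases hc : ∀ w ∈ B, v * w = w * v
      · exact ⟨v, hvB, hc⟩
      push Not at hc
      obtain ⟨w, hw, hne⟩ := hc
      have hvv := sq hD (hBD hvB)
      have hww := sq hD (hBD hw)
      have h4 : orderOf (v * w) = 4 := by
        rcases trichotomy hD (hBD hvB) (hBD hw) with h | ⟨hne', ho⟩ | ⟨h, -⟩
        · exact absurd h hne
        · exact absurd ho (hno _ hvB _ hw hne')
        · exact h
      have hs := hsq v hvB w hw h4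
      have hwM : w ∈ Subgroup.closure B := Subgroup.subset_closure hw
      have hmem2 : ⁅v, w⁆ ∈ (Subgroup.closure B).lowerCentralSeries (n + 1) :=
        Subgroup.commutator_mem_commutator hmem hwM
      have e : ⁅v, w⁆ = (v * w) ^ 2 := by
        rw [commutatorElement_def, inv_eq_self hvv, inv_eq_self hww, pow_two]
        group
      rw [e] at hmem2
      exact ih (n + 1) (by omega) ((v * w) ^ 2) hs hmem2
  exact key N 0 (by omega) a ha (Subgroup.subset_closure ha)

end Closed

section Main

variable [Finite G] (hD : IsRootInvolutionSet D) (hcl : ∀ a ∈ D, ∀ b ∈ D, ∃ g : G, g * a * g⁻¹ = b)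
include hD hcl

/-- Two members of a block commute. -/
lemma blk_comm {a b : G} (ha : a ∈ D) (hb : b ∈ D) (h : oddPartners D a = oddPartners D b) :
    a * b = b * a := by
  set B : Set G := {v | v ∈ D ∧ oddPartners D v = oddPartners D a} with hB
  have hBD : B ⊆ D := fun _ hv => hv.1
  have hconj : ∀ u ∈ B, ∀ v ∈ B, u * v * u⁻¹ ∈ B := by
    rintro u ⟨hu, hu'⟩ v ⟨hv, hv'⟩
    refine ⟨hD.conj_mem v hv u, ?_⟩
    rw [blk_self_conj hD (a := u) rfl (hu'.trans hv'.symm), hu']
  have hsq : ∀ u ∈ B, ∀ v ∈ B, orderOf (u * v) = 4 → (u * v) ^ 2 ∈ B := by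
    rintro u ⟨hu, hu'⟩ v ⟨hv, hv'⟩ h4
    have huu := sq hD hu
    have hvv := sq hD hv
    have hs := four_mem hD hu hv h4
    refine ⟨hs, ?_⟩
    -- the line through `v` and `u v u`
    have hw : u * v * u ∈ D := conj_mem' hD hv hu
    have e1 : v * (u * v * u) = (u * v) ^ 2 := by
      rw [← sq_swap hD hu hv h4, pow_two]; group
    have e2 : (u * v * u) * v = (u * v) ^ 2 := by rw [pow_two]; group
    have hA : oddPartners D v = oddPartners D (u * v * u) := by
      have := blk_self_conj hD (a := u) rfl (hu'.trans hv'.symm)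
      rw [inv_eq hD hu] at this
      rw [this, hu', hv']
    have := line_third hD hcl hv hw (e1.trans e2.symm) (e1 ▸ hs) hA
    rw [e1] at this
    rw [this, hv']
  have hno : ∀ u ∈ B, ∀ v ∈ B, u ≠ v → ¬ Odd (orderOf (u * v)) := by
    rintro u ⟨hu, hu'⟩ v ⟨hv, hv'⟩ hne ho
    have h1 : v ∈ oddPartners D u := ⟨hv, hne.symm, ho⟩
    rw [hu', ← hv'] at h1
    exact h1.2.1 rfl
  have haB : a ∈ B := ⟨ha, rfl⟩
  obtain ⟨u, hu, hc⟩ := exists_central hD hBD hconj hsq hno haB
  obtain ⟨g, hg⟩ := hcl u (hBD hu) a ha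
  have hb' : g⁻¹ * b * g ∈ B := by
    refine ⟨?_, ?_⟩
    · have := hD.conj_mem b hb g⁻¹
      simpa using this
    · have h1 := blk_conj hD h g⁻¹
      have e1 : g⁻¹ * a * g⁻¹⁻¹ = u := by rw [← hg]; group
      have e2 : g⁻¹ * b * g⁻¹⁻¹ = g⁻¹ * b * g := by simp
      rw [e1, e2] at h1
      rw [← h1, hu.2]
  have h2 := hc _ hb'
  rw [← hg]
  calc g * u * g⁻¹ * b = g * (u * (g⁻¹ * b * g)) * g⁻¹ := by group
    _ = g * ((g⁻¹ * b * g) * u) * g⁻¹ := by rw [h2]
    _ = b * (g * u * g⁻¹) := by group

/-- Members of a block commute with the same members. -/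
theorem comm_of_blk {d e y : G} (hd : d ∈ D) (he : e ∈ D) (hy : y ∈ D)
    (hde : oddPartners D d = oddPartners D e) (hyd : y * d = d * y) : y * e = e * y := by
  by_contra hne
  have hee := sq hD he
  have hyy := sq hD hy
  have h4 : orderOf (e * y) = 4 := by
    rcases trichotomy hD he hy with h | ⟨hne', ho⟩ | ⟨h, -⟩
    · exact absurd h.symm hne
    · exfalso
      have h1 : y ∈ oddPartners D e := ⟨hy, hne'.symm, ho⟩
      rw [← hde] at h1
      exact not_comm_of_odd (sq hD hd) hyy h1.2.1.symm h1.2.2 hyd.symm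
    · exact h
  have hc := four_mem hD he hy h4
  have hec : e * (e * y) ^ 2 = (e * y) ^ 2 * e := four_comm_left hee hyy h4
  have hyc : y * (e * y) ^ 2 = (e * y) ^ 2 * y := four_comm_right hee hyy h4
  have hec' : e * (e * y) ^ 2 = y * e * y := four_left hee hyy h4
  have hyc' : y * (e * y) ^ 2 = e * y * e := four_right hee hyy h4
  set c := (e * y) ^ 2 with hcdef
  have hcc := sq hD hc
  have hAyey : oddPartners D (y * e * y) = oddPartners D e := by
    have h1 := blk_self_conj hD hyd hde
    rw [inv_eq hD hy] at h1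
    rw [h1, hde]
  have hyey : y * e * y ∈ D := conj_mem' hD he hy
  have hAc : oddPartners D c = oddPartners D e := by
    have e1 : e * (y * e * y) = c := by rw [← hec', cancel_left hee]
    have hcomm : e * (y * e * y) = (y * e * y) * e := by
      rw [e1, ← hec', hec]; simp only [mul_assoc, hee, mul_one]
    have := line_third hD hcl he hyey hcomm (e1 ▸ hc) hAyey.symm
    rw [e1] at this
    exact this
  have hcyD : c * y ∈ D := by
    rw [← hyc, hyc']; exact conj_mem' hD hy he
  obtain ⟨x, hx, ho, hne2, h4x⟩ : ∃ x ∈ D, Odd (orderOf (c * x)) ∧ c ≠ x ∧ orderOf (y * x) = 4 := by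
    by_contra hcon
    push Not at hcon
    have hsub : oddPartners D c ⊆ oddPartners D y := by
      rintro x ⟨hx, hne1, ho⟩
      have hyx : y ≠ x := by
        rintro rfl
        exact not_comm_of_odd hcc hyy hne1.symm ho hyc.symm
      rcases trichotomy hD hy hx with h | ⟨hne', ho'⟩ | ⟨h, -⟩
      · exact absurd h (line_not_comm hD hy hc hyc ((hyc ▸ hcyD)) hx ho hne1.symm)
      · exact ⟨hx, hne'.symm, ho'⟩
      · exact absurd h (hcon x hx ho hne1.symm)
    have h1 := odd_eq_of_subset hD hcl hc hy hsub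
    exact hne (blk_comm hD hcl hy he (h1.symm.trans hAc))
  obtain ⟨z, hz, hz4, hzc⟩ := exists_four_sq hD hc hy hx hyc.symm hcyD hne2 ho h4x
  have hzz := sq hD hz
  have hzy : z * y = y * z := by
    rw [← hzc]; exact four_comm_left hzz hcc hz4
  rcases trichotomy hD he hz with h | ⟨hne', ho'⟩ | ⟨h, hf⟩
  · apply hne
    rw [← hzc, pow_two]
    have h1 : e * c = c * e := hec
    calc z * c * (z * c) * e = z * c * z * (c * e) := by group
      _ = z * c * z * (e * c) := by rw [h1]
      _ = z * c * (z * e) * c := by group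
      _ = z * c * (e * z) * c := by rw [h]
      _ = z * (c * e) * z * c := by group
      _ = z * (e * c) * z * c := by rw [h1]
      _ = (z * e) * c * z * c := by group
      _ = (e * z) * c * z * c := by rw [h]
      _ = e * (z * c * (z * c)) := by group
  · have h1 : z ∈ oddPartners D e := ⟨hz, hne'.symm, ho'⟩
    rw [← hAc] at h1
    have h2 := h1.2.2
    rw [orderOf_swap hzz hcc, hz4] at h2
    exact absurd h2 (by decide)
  · have hff := four_sq_sq hee hzz h
    have hfz : z * (e * z) ^ 2 = (e * z) ^ 2 * z := four_comm_right hee hzz h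
    exact no_triple hee hcc hyy hzz (ne_one hD hc) hec hyc.symm rfl hzc hzy.symm rfl hfz.symm hff

end Main

/-! ### The same-commuting classes -/

section Final

variable (hD : IsRootInvolutionSet D)
include hD

/-- The commuting and order-four partners are the complement of the odd partners. -/
lemma union_eq {v : G} (hv : v ∈ D) :
    commutingMembers D v ∪ fourPartners D v = D \ oddPartners D v := by
  ext x
  constructor
  · rintro (⟨hx, hc⟩ | ⟨hx, h4⟩)
    · refine ⟨hx, fun ⟨_, hne, ho⟩ => ?_⟩
      exact not_comm_of_odd (sq hD hv) (sq hD hx) hne.symm ho hc.symm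
    · refine ⟨hx, fun ⟨_, _, ho⟩ => ?_⟩
      rw [h4] at ho
      exact absurd ho (by decide)
  · rintro ⟨hx, hno⟩
    rcases trichotomy hD hv hx with h | ⟨hne, ho⟩ | ⟨h, -⟩
    · exact Or.inl ⟨hx, h.symm⟩
    · exact absurd ⟨hx, hne.symm, ho⟩ hno
    · exact Or.inr ⟨hx, h⟩

lemma odd_eq_of_union {d e : G} (hd : d ∈ D) (he : e ∈ D)
    (h : commutingMembers D d ∪ fourPartners D d = commutingMembers D e ∪ fourPartners D e) :
    oddPartners D d = oddPartners D e := by
  rw [union_eq hD hd, union_eq hD he] at h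
  have hsub : ∀ {v : G}, oddPartners D v ⊆ D := fun h => h.1
  ext x
  constructor
  · intro hx
    by_contra hne
    have : x ∈ D \ oddPartners D e := ⟨hx.1, hne⟩
    rw [← h] at this
    exact this.2 hx
  · intro hx
    by_contra hne
    have : x ∈ D \ oddPartners D d := ⟨hx.1, hne⟩
    rw [h] at this
    exact this.2 hx

/-- Members with the same commuting members have the same odd partners. -/
lemma odd_of_same {d e x : G} (hd : d ∈ D) (he : e ∈ D)
    (hC : commutingMembers D d = commutingMembers D e) (hx : x ∈ oddPartners D d) :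
    x ∈ oddPartners D e := by
  obtain ⟨hxD, hne, ho⟩ := hx
  have hdd := sq hD hd
  have hee := sq hD he
  have hxx := sq hD hxD
  have hde : d * e = e * d := by
    have h1 : d ∈ commutingMembers D e := by rw [← hC]; exact ⟨hd, rfl⟩
    exact h1.2
  by_contra hno
  have hxe : x ≠ e := by
    rintro rfl
    exact not_comm_of_odd hdd hxx hne.symm ho hde
  rcases trichotomy hD he hxD with h | ⟨hne', ho'⟩ | ⟨h4, -⟩
  · have h1 : x ∈ commutingMembers D d := by rw [hC]; exact ⟨hxD, h.symm⟩
    exact not_comm_of_odd hdd hxx hne.symm ho h1.2.symm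
  · exact hno ⟨hxD, hne'.symm, ho'⟩
  · have hz := four_mem hD he hxD h4
    have hze : e * (e * x) ^ 2 = (e * x) ^ 2 * e := four_comm_left hee hxx h4
    have hzx : x * (e * x) ^ 2 = (e * x) ^ 2 * x := four_comm_right hee hxx h4
    have hzx' : x * (e * x) ^ 2 = e * x * e := four_right hee hxx h4
    have hzz : (e * x) ^ 2 * (e * x) ^ 2 = 1 := four_sq_sq hee hxx h4
    set z := (e * x) ^ 2 with hzdef
    have hzd : z * d = d * z := by
      have h1 : z ∈ commutingMembers D d := by rw [hC]; exact ⟨hz, hze.symm⟩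
      exact h1.2
    obtain ⟨m, hm⟩ := exists_conj_pow hdd hxx ho
    set r := d * x with hr
    have hrz : z * r = r * z := by
      rw [hr]
      calc z * (d * x) = (z * d) * x := by group
        _ = d * z * x := by rw [hzd]
        _ = d * (z * x) := by group
        _ = d * (x * z) := by rw [hzx]
        _ = d * x * z := by group
    have her : e * r * e = r * z := by
      rw [hr]
      calc e * (d * x) * e = (e * d) * x * e := by group
        _ = d * e * x * e := by rw [hde]
        _ = d * (e * x * e) := by group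
        _ = d * (x * z) := by rw [hzx']
        _ = d * x * z := by group
    have herm : ∀ k : ℕ, e * r ^ k * e = r ^ k * z ^ k := by
      intro k
      induction k with
      | zero => simp [hee]
      | succ k ih =>
        have hc : Commute z (r ^ k) := (show Commute z r from hrz).pow_right k
        calc e * r ^ (k + 1) * e = (e * r ^ k * e) * (e * r * e) := by
              rw [pow_succ]; simp only [mul_assoc, cancel_left hee]
          _ = r ^ k * z ^ k * (r * z) := by rw [ih, her]
          _ = r ^ (k + 1) * z ^ (k + 1) := by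
              have hc2 : Commute (z ^ k) r := (show Commute z r from hrz).pow_left k
              rw [pow_succ, pow_succ]
              calc r ^ k * z ^ k * (r * z) = r ^ k * (z ^ k * r) * z := by group
                _ = r ^ k * (r * z ^ k) * z := by rw [hc2.eq]
                _ = r ^ k * r * (z ^ k * z) := by group
    -- `u = r ^ m` sends `e` to `z ^ m e`
    set u := r ^ m with hu
    have huz : Commute z u := (show Commute z r from hrz).pow_right m
    have hue : u * e * u⁻¹ = z ^ m * e := by
      have h1 : e * u * e = u * z ^ m := herm m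
      have h2 : e * u = u * z ^ m * e := by
        calc e * u = (e * u * e) * e := by simp only [mul_assoc, hee, mul_one]
          _ = u * z ^ m * e := by rw [h1]
      have h3 : Commute (z ^ m) u := huz.pow_left m
      have hzm : z ^ m * z ^ m = 1 := by
        rw [← (Commute.refl z).mul_pow, hzz, one_pow]
      have h5 : e * u⁻¹ = z ^ m * u⁻¹ * e := by
        calc e * u⁻¹ = (z ^ m * z ^ m) * (e * u⁻¹) := by rw [hzm, one_mul]
          _ = (z ^ m * u⁻¹) * (u * z ^ m * e) * u⁻¹ := by group
          _ = (z ^ m * u⁻¹) * (e * u) * u⁻¹ := by rw [← h2]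
          _ = z ^ m * u⁻¹ * e := by group
      rw [mul_assoc, h5]
      calc u * (z ^ m * u⁻¹ * e) = (u * z ^ m) * u⁻¹ * e := by group
        _ = (z ^ m * u) * u⁻¹ * e := by rw [h3.eq]
        _ = z ^ m * e := by group
    -- the conjugate of `d e = e d` by `u`
    have hcomm : x * (z ^ m * e) = (z ^ m * e) * x := by
      rw [← hue, ← hm]
      calc u * d * u⁻¹ * (u * e * u⁻¹) = u * (d * e) * u⁻¹ := by group
        _ = u * (e * d) * u⁻¹ := by rw [hde]
        _ = u * e * u⁻¹ * (u * d * u⁻¹) := by group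
    have hzmx : Commute (z ^ m) x := (show Commute z x from hzx.symm).pow_left m
    have hex : e * x = x * e := by
      have h1 : z ^ m * (x * e) = z ^ m * (e * x) := by
        calc z ^ m * (x * e) = (z ^ m * x) * e := by group
          _ = x * (z ^ m * e) := by rw [hzmx.eq]; group
          _ = (z ^ m * e) * x := hcomm
          _ = z ^ m * (e * x) := by group
      exact (mul_left_cancel h1).symm
    exact four_not_comm hee hxx h4 hex

end Final

section Final2

variable [Finite G] (hD : IsRootInvolutionSet D) (hcl : ∀ a ∈ D, ∀ b ∈ D, ∃ g : G, g * a * g⁻¹ = b)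
include hD hcl

/-- Same odd partners means same commuting members. -/
theorem commuting_eq_of_odd {d e : G} (hd : d ∈ D) (he : e ∈ D)
    (h : oddPartners D d = oddPartners D e) : commutingMembers D d = commutingMembers D e := by
  ext y
  constructor
  · rintro ⟨hy, hyd⟩
    exact ⟨hy, comm_of_blk hD hcl hd he hy h hyd⟩
  · rintro ⟨hy, hye⟩
    exact ⟨hy, comm_of_blk hD hcl he hd hy h.symm hye⟩

/-- The description of the same-commuting classes. -/
theorem class_desc {d : G} (hd : d ∈ D) :
    sameCommutingClass D d =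
      {e | e ∈ D ∧ commutingMembers D d ∪ fourPartners D d = commutingMembers D e ∪ fourPartners D e} := by
  ext e
  constructor
  · rintro ⟨he, hC⟩
    refine ⟨he, ?_⟩
    have h1 : oddPartners D d = oddPartners D e :=
      Set.Subset.antisymm (fun x hx => odd_of_same hD hd he hC hx)
        (fun x hx => odd_of_same hD he hd hC.symm hx)
    rw [union_eq hD hd, union_eq hD he, h1]
  · rintro ⟨he, hU⟩
    exact ⟨he, commuting_eq_of_odd hD hcl hd he (odd_eq_of_union hD hd he hU)⟩

/-- A line not in a same-commuting class has an order-three partner. -/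
theorem exists_three {a b : G} (ha : a ∈ D) (hb : b ∈ productPartners D a)
    (hbE : b ∉ sameCommutingClass D a) : ∃ x ∈ fourPartners D b, orderOf (a * x) = 3 := by
  obtain ⟨⟨hbD, hba, hne⟩, hl⟩ := hb
  have haa := sq hD ha
  have hbb := sq hD hbD
  have hne1 : oddPartners D a ≠ oddPartners D b :=
    fun h => hbE ⟨hbD, commuting_eq_of_odd hD hcl ha hbD h⟩
  -- a first partner
  obtain ⟨x, hxa, hxb⟩ : ∃ x ∈ oddPartners D a, x ∉ oddPartners D b := by
    by_contra hcon
    push Not at hcon
    exact hne1 (odd_eq_of_subset hD hcl ha hbD hcon)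
  obtain ⟨hx, hax, ho⟩ := hxa
  have hbx : b ≠ x := by
    rintro rfl
    exact not_comm_of_odd haa hbb hax.symm ho hba.symm
  have h4 : orderOf (b * x) = 4 := by
    rcases trichotomy hD hbD hx with h | ⟨hne', ho'⟩ | ⟨h, -⟩
    · exact absurd h (line_not_comm hD hbD ha hba hl hx ho hax.symm)
    · exact absurd ⟨hx, hne'.symm, ho'⟩ hxb
    · exact h
  have hl' : a * b ∈ D := hba ▸ hl
  obtain ⟨z, hz, hz4, hza⟩ := exists_four_sq hD ha hbD hx hba.symm hl' hax.symm ho h4
  have hzz := sq hD hz
  have hzb : z * b = b * z := by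
    rw [← hza]; exact four_comm_left hzz haa hz4
  have hzb_mem : z * b ∈ D := by
    have h1 := four_left hzz haa hz4
    rw [hza] at h1
    rw [h1]; exact conj_mem' hD hz ha
  -- a second partner
  have hne2 : oddPartners D b ≠ oddPartners D z := by
    intro h
    have h1 := commuting_eq_of_odd hD hcl hbD hz h
    have h2 : a ∈ commutingMembers D z := by rw [← h1]; exact ⟨ha, hba.symm⟩
    exact four_not_comm hzz haa hz4 h2.2.symm
  obtain ⟨x₁, hx₁b, hx₁z⟩ : ∃ x ∈ oddPartners D b, x ∉ oddPartners D z := by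
    by_contra hcon
    push Not at hcon
    exact hne2 (odd_eq_of_subset hD hcl hbD hz hcon)
  obtain ⟨hx₁, hbx₁, ho₁⟩ := hx₁b
  have hzx₁ : z ≠ x₁ := by
    rintro rfl
    exact not_comm_of_odd hbb (sq hD hx₁) hbx₁.symm ho₁ hzb.symm
  have h4₁ : orderOf (z * x₁) = 4 := by
    rcases trichotomy hD hz hx₁ with h | ⟨hne', ho'⟩ | ⟨h, -⟩
    · exact absurd h (line_not_comm hD hz hbD hzb hzb_mem hx₁ ho₁ hbx₁.symm)
    · exact absurd ⟨hx₁, hne'.symm, ho'⟩ hx₁z
    · exact h
  have hl₂ : b * z ∈ D := hzb ▸ hzb_mem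
  obtain ⟨y, hy, hy4, hyb⟩ := exists_four_sq hD hbD hz hx₁ hzb.symm hl₂ hbx₁.symm ho₁ h4₁
  refine ⟨y, ⟨hy, ?_⟩, order_three hD ha hbD hz hy hba.symm hz4 hza hy4 hyb⟩
  rw [orderOf_swap (sq hD hy) hbb]
  exact hy4

end Final2

end Cfsg.Agent.Lib.RootSubgroups.RootInv3
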