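/-
Special rank one groups with at most three elements in a unipotent subgroup (part of S5020).
-/
import Mathlib
import Cfsg.Prelude.Def_RootSubgroups
import Cfsg.Agent.Lib.RootSubgroups.SpecialCalc
import Cfsg.Agent.Lib.ElementFusion.SL23
import Cfsg.Agent.Lib.Components.Basic

set_option autoImplicit false

namespace Cfsg.Agent.Lib.RootSubgroups.SmallRank

open Cfsg Cfsg.Agent.Lib.RootSubgroups.RankOne Cfsg.Agent.Lib.RootSubgroups.SpecialCalc

universe u

variable {W : Type u} [Group W]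

section S3

/-- The group `SL₂(2)`. -/
abbrev G2 := Matrix.SpecialLinearGroup (Fin 2) (ZMod 2)

/-- upper -/
def u2 : G2 := ⟨!![1, 1; 0, 1], by decide⟩

/-- lower -/
def v2 : G2 := ⟨!![1, 0; 1, 1], by decide⟩

lemma g2_cases : ∀ g : G2, g = 1 ∨ g = u2 ∨ g = v2 ∨ g = u2 * v2 ∨ g = v2 * u2 ∨ g = u2 * v2 * u2 := by
  decide +kernel

open Classical in
/-- The map to `W` by words. -/
noncomputable def wd2 (a y : W) (g : G2) : W :=
  if g = 1 then 1 else if g = u2 then a else if g = v2 then y else if g = u2 * v2 then a * y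
  else if g = v2 * u2 then y * a else a * y * a

lemma wd2_one (a y : W) : wd2 a y 1 = 1 := by simp [wd2]

lemma wd2_u (a y : W) : wd2 a y u2 = a := by
  have h1 : u2 ≠ 1 := by decide +kernel
  simp [wd2, h1]

lemma wd2_v (a y : W) : wd2 a y v2 = y := by
  have h1 : v2 ≠ 1 := by decide +kernel
  have h2 : v2 ≠ u2 := by decide +kernel
  simp [wd2, h1, h2]

lemma wd2_uv (a y : W) : wd2 a y (u2 * v2) = a * y := by
  have h1 : u2 * v2 ≠ 1 := by decide +kernel
  have h2 : u2 * v2 ≠ u2 := by decide +kernel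
  have h3 : u2 * v2 ≠ v2 := by decide +kernel
  simp only [wd2, h1, h2, h3, if_false, if_true]

lemma wd2_vu (a y : W) : wd2 a y (v2 * u2) = y * a := by
  have h1 : v2 * u2 ≠ 1 := by decide +kernel
  have h2 : v2 * u2 ≠ u2 := by decide +kernel
  have h3 : v2 * u2 ≠ v2 := by decide +kernel
  have h4 : v2 * u2 ≠ u2 * v2 := by decide +kernel
  simp only [wd2, h1, h2, h3, h4, if_false, if_true]

lemma wd2_uvu (a y : W) : wd2 a y (u2 * v2 * u2) = a * y * a := by
  have h1 : u2 * v2 * u2 ≠ 1 := by decide +kernel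
  have h2 : u2 * v2 * u2 ≠ u2 := by decide +kernel
  have h3 : u2 * v2 * u2 ≠ v2 := by decide +kernel
  have h4 : u2 * v2 * u2 ≠ u2 * v2 := by decide +kernel
  have h5 : u2 * v2 * u2 ≠ v2 * u2 := by decide +kernel
  simp only [wd2, h1, h2, h3, h4, h5, if_false]

variable {a y : W}

lemma wd2_mul_u (ha : a * a = 1) (hb : a * y * a = y * a * y) (hy : y * y = 1) (g : G2) :
    wd2 a y (g * u2) = wd2 a y g * a := by
  rcases g2_cases g with rfl | rfl | rfl | rfl | rfl | rfl
  · rw [one_mul, wd2_one, one_mul, wd2_u]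
  · rw [show u2 * u2 = 1 by decide +kernel, wd2_one, wd2_u, ha]
  · rw [wd2_v, wd2_vu]
  · rw [wd2_uv, wd2_uvu]
  · rw [show v2 * u2 * u2 = v2 by decide +kernel, wd2_v, wd2_vu, mul_assoc, ha, mul_one]
  · rw [show u2 * v2 * u2 * u2 = u2 * v2 by decide +kernel, wd2_uv, wd2_uvu, mul_assoc, ha, mul_one]

lemma wd2_mul_v (ha : a * a = 1) (hb : a * y * a = y * a * y) (hy : y * y = 1) (g : G2) :
    wd2 a y (g * v2) = wd2 a y g * y := by
  rcases g2_cases g with rfl | rfl | rfl | rfl | rfl | rfl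
  · rw [one_mul, wd2_one, one_mul, wd2_v]
  · rw [wd2_u, wd2_uv]
  · rw [show v2 * v2 = 1 by decide +kernel, wd2_one, wd2_v, hy]
  · rw [show u2 * v2 * v2 = u2 by decide +kernel, wd2_u, wd2_uv, mul_assoc, hy, mul_one]
  · rw [show v2 * u2 * v2 = u2 * v2 * u2 by decide +kernel, wd2_uvu, wd2_vu, hb]
  · rw [show u2 * v2 * u2 * v2 = v2 * u2 by decide +kernel, wd2_vu, wd2_uvu, hb, mul_assoc, hy, mul_one]

/-- The homomorphism from `SL₂(2)`. -/
noncomputable def hom2 (ha : a * a = 1) (hb : a * y * a = y * a * y) (hy : y * y = 1) : G2 →* W where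
  toFun := wd2 a y
  map_one' := wd2_one a y
  map_mul' := by
    intro g h
    rcases g2_cases h with rfl | rfl | rfl | rfl | rfl | rfl
    · rw [mul_one, wd2_one, mul_one]
    · rw [wd2_mul_u ha hb hy, wd2_u]
    · rw [wd2_mul_v ha hb hy, wd2_v]
    · rw [← mul_assoc, wd2_mul_v ha hb hy, wd2_mul_u ha hb hy, wd2_uv, mul_assoc]
    · rw [← mul_assoc, wd2_mul_u ha hb hy, wd2_mul_v ha hb hy, wd2_vu, mul_assoc]
    · rw [show g * (u2 * v2 * u2) = g * u2 * v2 * u2 by simp only [mul_assoc], wd2_mul_u ha hb hy,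
        wd2_mul_v ha hb hy, wd2_mul_u ha hb hy, wd2_uvu]
      simp only [mul_assoc]

/-- Recognition of `SL₂(2)`. -/
theorem nonempty_sl22 (ha : a * a = 1) (hb : a * y * a = y * a * y) (hy : y * y = 1)
    (ha1 : a ≠ 1) (hy1 : y ≠ 1) (hne : a ≠ y) (hgen : Subgroup.closure {a, y} = ⊤) :
    Nonempty (W ≃* G2) := by
  let Θ := hom2 ha hb hy
  have hΘ : ∀ g, Θ g = wd2 a y g := fun _ => rfl
  have hinj : Function.Injective Θ := by
    rw [injective_iff_map_eq_one]
    intro g hg
    rw [hΘ] at hg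
    have hay : a * y ≠ 1 := by
      intro h1
      apply hne
      calc a = a * (y * y) := by rw [hy, mul_one]
        _ = (a * y) * y := by group
        _ = y := by rw [h1, one_mul]
    have hya : y * a ≠ 1 := by
      intro h1
      apply hne
      calc a = (y * y) * a := by rw [hy, one_mul]
        _ = y * (y * a) := by group
        _ = y := by rw [h1, mul_one]
    have haya : a * y * a ≠ 1 := by
      intro h1
      apply hy1
      calc y = (a * a) * y * (a * a) := by rw [ha]; group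
        _ = a * (a * y * a) * a := by group
        _ = 1 := by rw [h1]; simpa using ha
    rcases g2_cases g with rfl | rfl | rfl | rfl | rfl | rfl
    · rfl
    · rw [wd2_u] at hg; exact absurd hg ha1
    · rw [wd2_v] at hg; exact absurd hg hy1
    · rw [wd2_uv] at hg; exact absurd hg hay
    · rw [wd2_vu] at hg; exact absurd hg hya
    · rw [wd2_uvu] at hg; exact absurd hg haya
  have hsurj : Function.Surjective Θ := by
    rw [← MonoidHom.range_eq_top, eq_top_iff, ← hgen, Subgroup.closure_le]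
    intro x hx
    rcases hx with hx | hx
    · rw [hx]; exact ⟨u2, wd2_u a y⟩
    · have hx' : x = y := hx
      rw [hx']; exact ⟨v2, wd2_v a y⟩
  exact ⟨(MulEquiv.ofBijective Θ ⟨hinj, hsurj⟩).symm⟩

end S3

section S4

open Cfsg.Agent.Lib.ElementFusion.SL23 QuaternionGroup

lemma sl23_center_aux : ∀ g : G₀, (∀ h : G₀, h * g = g * h) → g = 1 ∨ g = A₀ ^ 2 := by
  decide +kernel

lemma sl23_center_aux' : ∀ h : G₀, h * A₀ ^ 2 = A₀ ^ 2 * h := by
  decide +kernel

lemma sl23_normal_aux' : ∀ t : G₀, t ≠ 1 → t ≠ A₀ ^ 2 →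
    ∃ s u : G₀, A₀ = u * t * u⁻¹ ∨ A₀ = u * (t * s * t⁻¹ * s⁻¹) * u⁻¹ := by
  decide +kernel

lemma sl23_gen : Subgroup.closure ({A₀, X₀, Y₀} : Set G₀) = ⊤ := by
  have h1 : ∀ g : G₀, g ∈ (List.map (fun (p : Fin 4 × Fin 2 × Fin 3) => A₀ ^ p.1.val * X₀ ^ p.2.1.val * Y₀ ^ p.2.2.val)
      (List.finRange 4 ×ˢ (List.finRange 2 ×ˢ List.finRange 3))) := by
    decide +kernel
  rw [eq_top_iff]
  intro g _
  have h2 := h1 g
  rw [List.mem_map] at h2
  obtain ⟨p, -, rfl⟩ := h2
  have hA : A₀ ∈ Subgroup.closure ({A₀, X₀, Y₀} : Set G₀) := Subgroup.subset_closure (by simp)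
  have hX : X₀ ∈ Subgroup.closure ({A₀, X₀, Y₀} : Set G₀) := Subgroup.subset_closure (by simp)
  have hY : Y₀ ∈ Subgroup.closure ({A₀, X₀, Y₀} : Set G₀) := Subgroup.subset_closure (by simp)
  exact Subgroup.mul_mem _ (Subgroup.mul_mem _ (Subgroup.pow_mem _ hA _) (Subgroup.pow_mem _ hX _))
    (Subgroup.pow_mem _ hY _)

/-- A homomorphism from `SL(2,3)` realizing given relations. -/
theorem exists_hom {i j y : W} (hi : i ^ 4 = 1)
    (hj : j ^ 2 = i ^ 2) (hji : j * i * j⁻¹ = i⁻¹) (hy : y ^ 3 = 1) (hyi : y * i * y⁻¹ = j)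
    (hyj : y * j * y⁻¹ = j * i) :
    ∃ Θ : G₀ →* W, Θ A₀ = i ∧ Θ X₀ = j ∧ Θ Y₀ = y := by
  let Θ' : M →* W := modelHom i j y hi hj hji hy hyi hyj
  refine ⟨Θ'.comp E₀.symm.toMonoidHom, ?_, ?_, ?_⟩
  · have hA : E₀.symm A₀ = SemidirectProduct.inl (a 1) := by
      apply E₀.injective
      rw [MulEquiv.apply_symm_apply]
      change A₀ = F₀ (SemidirectProduct.inl (a 1))
      decide +kernel
    change Θ' (E₀.symm A₀) = i
    rw [hA, modelHom_inl, quatHom_a]
    have e : ((1 : ZMod (2 * 2))).val = 1 := by decide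
    rw [e, pow_one]
  · have hA : E₀.symm X₀ = SemidirectProduct.inl (xa 0) := by
      apply E₀.injective
      rw [MulEquiv.apply_symm_apply]
      change X₀ = F₀ (SemidirectProduct.inl (xa 0))
      decide +kernel
    change Θ' (E₀.symm X₀) = j
    rw [hA, modelHom_inl, quatHom_xa]
    have e : ((0 : ZMod (2 * 2))).val = 0 := by decide
    rw [e, pow_zero, mul_one]
  · have hA : E₀.symm Y₀ = SemidirectProduct.inr (Multiplicative.ofAdd 1) := by
      apply E₀.injective
      rw [MulEquiv.apply_symm_apply]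
      change Y₀ = F₀ (SemidirectProduct.inr (Multiplicative.ofAdd 1))
      decide +kernel
    change Θ' (E₀.symm Y₀) = y
    rw [hA, modelHom_inr]
    change y ^ ((1 : ZMod 3)).val = y
    have e : ((1 : ZMod 3)).val = 1 := by decide
    rw [e, pow_one]

variable {a y : W}

/-- The relations of the quaternion generators. -/
theorem quat_rel (ha : a ^ 3 = 1) (hy : y ^ 3 = 1) (hb : a * y * a = y * a * y) :
    (a * y⁻¹) ^ 4 = 1 ∧ (y⁻¹ * a) ^ 2 = (a * y⁻¹) ^ 2 ∧
    (y⁻¹ * a) * (a * y⁻¹) * (y⁻¹ * a)⁻¹ = (a * y⁻¹)⁻¹ ∧ (a⁻¹) ^ 3 = 1 ∧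
    a⁻¹ * (a * y⁻¹) * a⁻¹⁻¹ = y⁻¹ * a ∧ a⁻¹ * (y⁻¹ * a) * a⁻¹⁻¹ = (y⁻¹ * a) * (a * y⁻¹) := by
  have haa : a * a = a⁻¹ := by
    have : a * a * a = 1 := by rw [← pow_three', ha]
    exact eq_inv_of_mul_eq_one_left this
  have hyy : y⁻¹ * y⁻¹ = y := by
    have : y * y * y = 1 := by rw [← pow_three', hy]
    calc y⁻¹ * y⁻¹ = y⁻¹ * y⁻¹ * (y * y * y) := by rw [this, mul_one]
      _ = y := by group
  have hr : y⁻¹ * a * y = a * y * a⁻¹ := by
    calc y⁻¹ * a * y = y⁻¹ * (a * y * a) * a⁻¹ := by group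
      _ = y⁻¹ * (y * a * y) * a⁻¹ := by rw [hb]
      _ = a * y * a⁻¹ := by group
  have hr' : y⁻¹ * a⁻¹ * y = a * y⁻¹ * a⁻¹ := by
    calc y⁻¹ * a⁻¹ * y = (y⁻¹ * a * y)⁻¹ := by group
      _ = (a * y * a⁻¹)⁻¹ := by rw [hr]
      _ = _ := by group
  set I := a * y⁻¹ with hI
  set J := y⁻¹ * a with hJ
  have hIJI : I * J * I = J := by
    calc I * J * I = a * (y⁻¹ * y⁻¹) * (a * a) * y⁻¹ := by rw [hI, hJ]; group
      _ = a * y * a⁻¹ * y⁻¹ := by rw [hyy, haa]
      _ = y⁻¹ * a * y * y⁻¹ := by rw [hr]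
      _ = J := by rw [hJ]; group
  have hJIJ : J * I * J = I := by
    calc J * I * J = y⁻¹ * (a * a) * (y⁻¹ * y⁻¹) * a := by rw [hI, hJ]; group
      _ = y⁻¹ * a⁻¹ * y * a := by rw [hyy, haa]
      _ = a * y⁻¹ * a⁻¹ * a := by rw [hr']
      _ = I := by rw [hI]; group
  have hJJ : J * J = I * I := by
    calc J * J = J * (I * J * I) := by rw [hIJI]
      _ = (J * I * J) * I := by group
      _ = I * I := by rw [hJIJ]
  have hss : (I * I) * (I * I) = 1 := by
    set s := I * I with hs
    have hsJ : J * s = s * J := by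
      rw [← hJJ]; group
    have hsI : I * s = s * I := by
      rw [hs]; group
    have h1 : I = s * s * I := by
      calc I = J * I * J := hJIJ.symm
        _ = (I * J * I) * I * (I * J * I) := by rw [hIJI]
        _ = I * J * (s * I) * J * I := by rw [hs]; group
        _ = I * (J * s) * I * J * I := by group
        _ = I * (s * J) * I * J * I := by rw [hsJ]
        _ = (I * s) * (J * I * J) * I := by group
        _ = (s * I) * I * I := by rw [hsI, hJIJ]
        _ = s * (I * I) * I := by group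
        _ = s * s * I := rfl
    have h2 : s * s * I = 1 * I := by rw [← h1, one_mul]
    exact mul_right_cancel h2
  refine ⟨?_, ?_, ?_, ?_, ?_, ?_⟩
  · calc I ^ 4 = (I * I) * (I * I) := by simp only [pow_succ, pow_zero, one_mul, mul_assoc]
      _ = 1 := hss
  · rw [pow_two, pow_two, hJJ]
  · have h1 : J * I = I⁻¹ * J := by
      calc J * I = I⁻¹ * (I * J * I) := by group
        _ = I⁻¹ * J := by rw [hIJI]
    rw [h1]; group
  · rw [inv_pow, ha, inv_one]
  · rw [hI, hJ]; group
  · have h1 : a⁻¹ * y⁻¹ * a⁻¹ = y⁻¹ * a⁻¹ * y⁻¹ := by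
      calc a⁻¹ * y⁻¹ * a⁻¹ = (a * y * a)⁻¹ := by group
        _ = (y * a * y)⁻¹ := by rw [hb]
        _ = _ := by group
    calc a⁻¹ * J * a⁻¹⁻¹ = a⁻¹ * y⁻¹ * (a * a) := by rw [hJ]; group
      _ = y⁻¹ * a⁻¹ * y⁻¹ := by rw [haa, h1]
      _ = y⁻¹ * (a * a) * y⁻¹ := by rw [haa]
      _ = J * I := by rw [hI, hJ]; group

/-- Recognition of `SL(2,3)` and `PSL(2,3)`. -/
theorem nonempty_sl23_or_psl23 (ha : a ^ 3 = 1) (hy : y ^ 3 = 1) (hb : a * y * a = y * a * y)
    (hne : a ≠ y) (hgen : Subgroup.closure {a, y} = ⊤) :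
    Nonempty (W ≃* G₀) ∨ Nonempty (W ≃* Matrix.ProjectiveSpecialLinearGroup (Fin 2) (ZMod 3)) := by
  obtain ⟨hi, hj, hji, hy3, hyi, hyj⟩ := quat_rel ha hy hb
  set I := a * y⁻¹ with hI
  set J := y⁻¹ * a with hJ
  have hgen' : Subgroup.closure {I, J, a⁻¹} = ⊤ := by
    rw [eq_top_iff, ← hgen, Subgroup.closure_le]
    have hm : a⁻¹ ∈ Subgroup.closure {I, J, a⁻¹} := Subgroup.subset_closure (by simp)
    have hmI : I ∈ Subgroup.closure {I, J, a⁻¹} := Subgroup.subset_closure (by simp)
    have hma : a ∈ Subgroup.closure {I, J, a⁻¹} := by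
      simpa using Subgroup.inv_mem _ hm
    intro x hx
    rcases hx with hx | hx
    · rw [hx]; exact hma
    · have hx' : x = y := hx
      rw [hx']
      have e : y = I⁻¹ * a := by rw [hI]; group
      rw [e]
      exact Subgroup.mul_mem _ (Subgroup.inv_mem _ hmI) hma
  by_cases hI2 : I ^ 2 = 1
  · right
    obtain ⟨Θ, h1, h2, h3⟩ := exists_hom hi hj hji hy3 hyi hyj
    have hsurj : Function.Surjective Θ := by
      rw [← MonoidHom.range_eq_top, eq_top_iff, ← hgen', Subgroup.closure_le]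
      intro x hx
      rcases hx with hx | hx | hx
      · rw [hx]; exact ⟨_, h1⟩
      · rw [hx]; exact ⟨_, h2⟩
      · have hx' : x = a⁻¹ := hx
        rw [hx']; exact ⟨_, h3⟩
    have hker : Θ.ker = Subgroup.center G₀ := by
      apply le_antisymm
      · intro t ht
        by_contra hnc
        have ht1 : t ≠ 1 := by
          rintro rfl
          exact hnc (Subgroup.one_mem _)
        have ht2 : t ≠ A₀ ^ 2 := by
          rintro rfl
          apply hnc
          rw [Subgroup.mem_center_iff]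
          exact sl23_center_aux'
        obtain ⟨s, u, hsu⟩ := sl23_normal_aux' t ht1 ht2
        have ht' : Θ t = 1 := ht
        have hA : Θ A₀ = 1 := by
          rcases hsu with hsu | hsu
          · rw [hsu]; simp [ht']
          · rw [hsu]; simp [ht']
        rw [h1] at hA
        apply hne
        rw [hI] at hA
        exact mul_inv_eq_one.1 hA
      · intro t ht
        rw [Subgroup.mem_center_iff] at ht
        rcases sl23_center_aux t ht with rfl | rfl
        · exact Subgroup.one_mem _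
        · change Θ (A₀ ^ 2) = 1
          rw [map_pow, h1, hI2]
    exact ⟨((QuotientGroup.quotientMulEquivOfEq hker).symm.trans
      (QuotientGroup.quotientKerEquivOfSurjective Θ hsurj)).symm⟩
  · left
    exact nonempty_mulEquiv_sl23 I J a⁻¹ hi hj hji hy3 hyi hyj hI2 hgen'

end S4

section Main

variable {X : Type u} [Group X] {A B : Subgroup X}

lemma three_lt_of_four {p q r s : X} (hp : p ∈ A) (hq : q ∈ A) (hr : r ∈ A) (hs : s ∈ A)
    (hpq : p ≠ q) (hpr : p ≠ r) (hps : p ≠ s) (hqr : q ≠ r) (hqs : q ≠ s) (hrs : r ≠ s) :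
    3 < ENat.card A := by
  classical
  have hsub : ((({p, q, r, s} : Finset X)) : Set X) ⊆ (A : Set X) := by
    intro x hx
    simp only [Finset.coe_insert, Finset.coe_singleton, Set.mem_insert_iff,
      Set.mem_singleton_iff] at hx
    rcases hx with rfl | rfl | rfl | rfl <;> assumption
  have hcard : ({p, q, r, s} : Finset X).card = 4 := by
    rw [Finset.card_insert_of_notMem (by simp [hpq, hpr, hps]),
      Finset.card_insert_of_notMem (by simp [hqr, hqs]),
      Finset.card_insert_of_notMem (by simp [hrs]), Finset.card_singleton]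
  have h1 := Set.encard_le_encard hsub
  rw [Set.encard_coe_eq_coe_finsetCard, hcard] at h1
  change 3 < ENat.card ↥(A : Set X)
  rw [ENat.card_coe_set_eq]
  refine lt_of_lt_of_le ?_ h1
  norm_num

theorem small_case (h : A ⊔ B = ⊤) (sp : SP A B) (hc : ¬ 3 < ENat.card A) :
    Nonempty (X ≃* Matrix.SpecialLinearGroup (Fin 2) (ZMod 2)) ∨
    Nonempty (X ≃* Matrix.SpecialLinearGroup (Fin 2) (ZMod 3)) ∨
    Nonempty (X ≃* Matrix.ProjectiveSpecialLinearGroup (Fin 2) (ZMod 3)) := by
  obtain ⟨a, ha, ha1⟩ := exists_ne_one_left sp.rk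
  have hy := sp.yy_mem ha ha1
  have hy1 := sp.yy_ne_one ha ha1
  have hb := sp.braid ha ha1
  have hconj := sp.nn_conj_left ha ha1
  set y := yy A B a with hyd
  set n := nn A B a with hn
  have hne : a ≠ y := by
    intro he
    have hm : a ∈ A ⊓ B := ⟨ha, by rw [he]; exact hy⟩
    rw [inf_eq_bot sp.rk] at hm
    exact ha1 hm
  have hB : ∀ z ∈ B, z ≠ 1 → ∃ x ∈ A, x ≠ 1 ∧ yy A B x = z⁻¹ := by
    intro z hz hz1
    obtain ⟨x, hx, hx1, he⟩ := sp.rk.cond_right z hz hz1
    exact ⟨x, hx, hx1, sp.yy_unique hx (B.inv_mem hz) he.symm⟩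
  by_cases ha2 : a * a = 1
  · left
    have hA : ∀ c ∈ A, c = 1 ∨ c = a := by
      intro c hcA
      by_contra hno
      push Not at hno
      apply hc
      refine three_lt_of_four (p := 1) (q := a) (r := c) (s := a * c) A.one_mem ha hcA
        (A.mul_mem ha hcA) ha1.symm hno.1.symm ?_ hno.2.symm ?_ ?_
      · intro h1
        apply hno.2
        have h2 := eq_inv_of_mul_eq_one_right h1.symm
        rw [h2]
        exact inv_eq_of_mul_eq_one_left ha2
      · intro h1
        exact hno.1 (by simpa using h1.symm)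
      · intro h1
        exact ha1 (by simpa using h1.symm)
    have hyy : y * y = 1 := by
      rw [← hconj]
      calc n * a * n⁻¹ * (n * a * n⁻¹) = n * (a * a) * n⁻¹ := by group
        _ = 1 := by rw [ha2]; group
    have hgen : Subgroup.closure {a, y} = ⊤ := by
      have hma : a ∈ Subgroup.closure {a, y} := Subgroup.subset_closure (by simp)
      have hmy : y ∈ Subgroup.closure {a, y} := Subgroup.subset_closure (by simp)
      rw [eq_top_iff, ← h]
      refine sup_le ?_ ?_
      · intro c hcA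
        rcases hA c hcA with rfl | rfl
        · exact Subgroup.one_mem _
        · exact hma
      · intro z hz
        by_cases hz1 : z = 1
        · rw [hz1]; exact Subgroup.one_mem _
        obtain ⟨x, hx, hx1, he⟩ := hB z hz hz1
        rcases hA x hx with rfl | rfl
        · exact absurd rfl hx1
        · have e : z = y⁻¹ := by rw [← hyd] at he; rw [he, inv_inv]
          rw [e]
          exact Subgroup.inv_mem _ hmy
    exact nonempty_sl22 ha2 hb hyy ha1 hy1 hne hgen
  · right
    have hainv : a ≠ a⁻¹ := by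
      intro h1
      apply ha2
      calc a * a = a * a⁻¹ := by rw [← h1]
        _ = 1 := by group
    have haa : a * a ∈ A := A.mul_mem ha ha
    have haa1 : a * a ≠ a := by
      intro h1
      apply ha1
      calc a = a * a * a⁻¹ := by group
        _ = a * a⁻¹ := by rw [h1]
        _ = 1 := by group
    have hai1 : a⁻¹ ≠ 1 := inv_ne_one.2 ha1
    have haa' : a * a = a⁻¹ := by
      by_contra hno
      exact hc (three_lt_of_four (p := 1) (q := a) (r := a⁻¹) (s := a * a) A.one_mem ha
        (A.inv_mem ha) haa ha1.symm hai1.symm (Ne.symm ha2) hainv (Ne.symm haa1) (Ne.symm hno))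
    have ha3 : a ^ 3 = 1 := by
      rw [pow_three', haa']; group
    have hA : ∀ c ∈ A, c = 1 ∨ c = a ∨ c = a⁻¹ := by
      intro c hcA
      by_contra hno
      push Not at hno
      exact hc (three_lt_of_four (p := 1) (q := a) (r := a⁻¹) (s := c) A.one_mem ha
        (A.inv_mem ha) hcA ha1.symm hai1.symm hno.1.symm hainv hno.2.1.symm hno.2.2.symm)
    have hy3 : y ^ 3 = 1 := by
      rw [← hconj, conj_pow, ha3]; group
    have hgen : Subgroup.closure {a, y} = ⊤ := by
      have hma : a ∈ Subgroup.closure {a, y} := Subgroup.subset_closure (by simp)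
      have hmy : y ∈ Subgroup.closure {a, y} := Subgroup.subset_closure (by simp)
      rw [eq_top_iff, ← h]
      refine sup_le ?_ ?_
      · intro c hcA
        rcases hA c hcA with rfl | rfl | rfl
        · exact Subgroup.one_mem _
        · exact hma
        · exact Subgroup.inv_mem _ hma
      · intro z hz
        by_cases hz1 : z = 1
        · rw [hz1]; exact Subgroup.one_mem _
        obtain ⟨x, hx, hx1, he⟩ := hB z hz hz1
        rcases hA x hx with rfl | rfl | rfl
        · exact absurd rfl hx1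
        · have e : z = y⁻¹ := by rw [← hyd] at he; rw [he, inv_inv]
          rw [e]
          exact Subgroup.inv_mem _ hmy
        · have e : z = y := by
            rw [sp.yy_inv ha ha1] at he
            exact inv_inj.1 he.symm
          rw [e]
          exact hmy
    exact nonempty_sl23_or_psl23 ha3 hy3 hb hne hgen

theorem large_case (h : A ⊔ B = ⊤) (sp : SP A B) (hc : 3 < ENat.card A) :
    commutator X ⊔ A = ⊤ ∧ IsQuasisimple (commutator X) ∧
      3 < ENat.card ↥(⁅A, rankOneDiagonal A B⁆ : Subgroup X) := by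
  have hperf : commutator X = ⊤ := by
    have h1 := sp.sup_le_comm hc
    rw [h] at h1
    exact top_le_iff.1 h1
  refine ⟨by rw [hperf]; exact top_sup_eq _, ?_, ?_⟩
  · have hq := isQuasisimple_of_isPerfect h sp.rk ⟨hperf⟩
    exact Cfsg.Agent.Lib.Components.Basic.quasisimple_of_mulEquiv
      ((Subgroup.topEquiv (G := X)).symm.trans (MulEquiv.subgroupCongr hperf.symm)) hq
  · have hle : A ≤ ⁅A, rankOneDiagonal A B⁆ := by
      intro d hd
      rw [Subgroup.commutator_comm]
      exact sp.mem_comm_diag hc hd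
    refine lt_of_lt_of_le hc ?_
    exact ENat.card_le_card_of_injective (Subgroup.inclusion_injective hle)

end Main

end Cfsg.Agent.Lib.RootSubgroups.SmallRank
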