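/-
Three members `A, B, C` with `⁅A, B⁆, ⁅B, C⁆ ∈ S`, `⁅A, C⁆ = ⊥` (S5030).
-/
import Mathlib
import Cfsg.Prelude.Def_RootSubgroups
import Cfsg.Agent.Lib.RootSubgroups.RankOne
import Cfsg.Agent.Lib.RootSubgroups.Abstract
import Cfsg.Agent.Lib.RootSubgroups.Abstract2
import Cfsg.Agent.Lib.RootSubgroups.LineConn
import Cfsg.Agent.Lib.RootSubgroups.Nondeg

set_option autoImplicit false

namespace Cfsg.Agent.Lib.RootSubgroups.ThreeCase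

open Cfsg Cfsg.Agent.Lib.RootSubgroups.RankOne Cfsg.Agent.Lib.RootSubgroups.Abstract
  Cfsg.Agent.Lib.RootSubgroups.Abstract2 Cfsg.Agent.Lib.RootSubgroups.LineConn
  Cfsg.Agent.Lib.RootSubgroups.Nondeg
open scoped commutatorElement

variable {G : Type*} [Group G] {A B C : Subgroup G} {S : Set (Subgroup G)}

lemma comm_sup_left_le {U₁ U₂ V Z : Subgroup G}
    (hZ : ∀ x ∈ U₁ ⊔ U₂, ∀ z ∈ Z, x * z * x⁻¹ ∈ Z) (h₁ : ⁅U₁, V⁆ ≤ Z) (h₂ : ⁅U₂, V⁆ ≤ Z) :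
    ⁅U₁ ⊔ U₂, V⁆ ≤ Z := by
  rw [Subgroup.commutator_le]
  intro x hx v hv
  rw [Subgroup.sup_eq_closure] at hx
  have hsub : Subgroup.closure ((U₁ : Set G) ∪ U₂) ≤ U₁ ⊔ U₂ := by
    rw [Subgroup.sup_eq_closure]
  induction hx using Subgroup.closure_induction with
  | mem y hy =>
    rcases hy with hy | hy
    · exact h₁ (Subgroup.commutator_mem_commutator hy hv)
    · exact h₂ (Subgroup.commutator_mem_commutator hy hv)
  | one => simp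
  | mul y z hy' _ hy hz =>
    have e : ⁅y * z, v⁆ = y * ⁅z, v⁆ * y⁻¹ * ⁅y, v⁆ := by
      simp only [commutatorElement_def]; group
    rw [e]
    exact Z.mul_mem (hZ y (hsub hy') _ hz) hy
  | inv y hy' hy =>
    have e : ⁅y⁻¹, v⁆ = y⁻¹ * ⁅y, v⁆⁻¹ * y⁻¹⁻¹ := by
      simp only [commutatorElement_def]; group
    rw [e]
    exact hZ _ (Subgroup.inv_mem _ (hsub hy')) _ (Z.inv_mem hy)

lemma comm_sup_right_le {U V₁ V₂ Z : Subgroup G}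
    (hZ : ∀ x ∈ V₁ ⊔ V₂, ∀ z ∈ Z, x * z * x⁻¹ ∈ Z) (h₁ : ⁅U, V₁⁆ ≤ Z) (h₂ : ⁅U, V₂⁆ ≤ Z) :
    ⁅U, V₁ ⊔ V₂⁆ ≤ Z := by
  rw [Subgroup.commutator_comm]
  apply comm_sup_left_le hZ
  · rwa [Subgroup.commutator_comm]
  · rwa [Subgroup.commutator_comm]

lemma conj_mem_of_comm_le {R Z : Subgroup G} (h : ⁅Z, R⁆ ≤ Z) {x z : G} (hx : x ∈ R) (hz : z ∈ Z) :
    x * z * x⁻¹ ∈ Z := by
  have h1 : z * x * z⁻¹ * x⁻¹ ∈ ⁅Z, R⁆ := comm_mem hz hx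
  have e : x * z * x⁻¹ = (z * x * z⁻¹ * x⁻¹)⁻¹ * z := by group
  rw [e]
  exact Z.mul_mem (Z.inv_mem (h h1)) hz

/-- A chain of four central steps gives nilpotency. -/
lemma nilpotent_of_four {R Z₁ Z₂ Z₃ : Subgroup G} (h₁ : ⁅Z₁, R⁆ = ⊥) (h₂ : ⁅Z₂, R⁆ ≤ Z₁)
    (h₃ : ⁅Z₃, R⁆ ≤ Z₂) (h₄ : ⁅R, R⁆ ≤ Z₃) : Group.IsNilpotent ↥R := by
  rw [nilpotent_iff_finite_ascending_central_series]
  let H : ℕ → Subgroup ↥R := fun n =>
    match n with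
    | 0 => ⊥
    | 1 => Z₁.subgroupOf R
    | 2 => Z₂.subgroupOf R
    | 3 => Z₃.subgroupOf R
    | _ => ⊤
  refine ⟨4, H, ⟨rfl, ?_⟩, rfl⟩
  intro x n hx g
  match n, hx with
  | 0, hx =>
    have hx' : (x : G) ∈ Z₁ := hx
    have h5 := Subgroup.commutator_mem_commutator hx' g.2
    rw [h₁] at h5
    have h6 : ((⁅x, g⁆ : ↥R) : G) = 1 := h5
    exact Subtype.ext h6
  | 1, hx =>
    have hx' : (x : G) ∈ Z₂ := hx
    exact h₂ (Subgroup.commutator_mem_commutator hx' g.2)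
  | 2, hx =>
    have hx' : (x : G) ∈ Z₃ := hx
    exact h₃ (Subgroup.commutator_mem_commutator hx' g.2)
  | 3, _ =>
    exact h₄ (Subgroup.commutator_mem_commutator x.2 g.2)
  | (n + 4), _ => trivial

/-- The configuration. -/
structure Ctx (S : Set (Subgroup G)) (A B C : Subgroup G) : Prop where
  hS : IsRootSubgroupSet S
  hA : A ∈ S
  hB : B ∈ S
  hC : C ∈ S
  hAB : ⁅A, B⁆ ∈ S
  hBC : ⁅B, C⁆ ∈ S
  hAC : ⁅A, C⁆ = ⊥

namespace Ctx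

variable (c : Ctx S A B C)
include c

lemma symm : Ctx S C B A where
  hS := c.hS
  hA := c.hC
  hB := c.hB
  hC := c.hA
  hAB := by rw [Subgroup.commutator_comm]; exact c.hBC
  hBC := by rw [Subgroup.commutator_comm]; exact c.hAB
  hAC := by rw [Subgroup.commutator_comm]; exact c.hAC

lemma caseAB : RootCommutatorCase S A B := commutatorCase_of_mem c.hS c.hA c.hB c.hAB
lemma caseBC : RootCommutatorCase S B C := commutatorCase_of_mem c.hS c.hB c.hC c.hBC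
lemma caseBA : RootCommutatorCase S B A := commutatorCase_symm c.caseAB
lemma caseCB : RootCommutatorCase S C B := commutatorCase_symm c.caseBC

lemma comm_ac {a y : G} (ha : a ∈ A) (hy : y ∈ C) : a * y = y * a := commute_of_bot c.hAC ha hy

/-- `A` and `A^g` commute. -/
lemma comm_A_conj {g a a' : G} (hg : g ∈ B) (ha : a ∈ A) (ha' : a' ∈ A) :
    a' * (g * a * g⁻¹) = (g * a * g⁻¹) * a' := by
  have h1 : g * a * g⁻¹ * a⁻¹ ∈ ⁅A, B⁆ := by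
    rw [Subgroup.commutator_comm]; exact comm_mem hg ha
  have h2 := central_left c.caseAB h1 ha'
  have h3 := comm_of_isMulCommutative (c.hS.commutative A c.hA) ha ha'
  have e : g * a * g⁻¹ = (g * a * g⁻¹ * a⁻¹) * a := by group
  rw [e]
  calc a' * ((g * a * g⁻¹ * a⁻¹) * a) = (a' * (g * a * g⁻¹ * a⁻¹)) * a := by group
    _ = ((g * a * g⁻¹ * a⁻¹) * a') * a := by rw [h2]
    _ = (g * a * g⁻¹ * a⁻¹) * (a' * a) := by group
    _ = (g * a * g⁻¹ * a⁻¹) * (a * a') := by rw [h3]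
    _ = _ := by group

lemma comm_C_conj {g y y' : G} (hg : g ∈ B) (hy : y ∈ C) (hy' : y' ∈ C) :
    y' * (g * y * g⁻¹) = (g * y * g⁻¹) * y' :=
  c.symm.comm_A_conj hg hy hy'

/-- `⁅A, C^g⁆` does not depend on `g ≠ 1`. -/
lemma comm_conj_eq {g : G} (hg : g ∈ B) (hg1 : g ≠ 1) : ⁅A, conjBy C g⁆ = ⁅A, ⁅B, C⁆⁆ := by
  have comp : ∀ {a y : G}, a ∈ A → y ∈ C →
      a * (g * y * g⁻¹) * a⁻¹ * (g * y * g⁻¹)⁻¹ =
        a * (g * y * g⁻¹ * y⁻¹) * a⁻¹ * (g * y * g⁻¹ * y⁻¹)⁻¹ := by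
    intro a y ha hy
    have h1 : a * y = y * a := c.comm_ac ha hy
    have e1 : a * (g * y * g⁻¹ * y⁻¹) * a⁻¹ * (g * y * g⁻¹ * y⁻¹)⁻¹ =
        a * (g * y * g⁻¹) * (y⁻¹ * a⁻¹ * y) * (g * y * g⁻¹)⁻¹ := by group
    have e2 : y⁻¹ * a⁻¹ * y = a⁻¹ := by
      calc y⁻¹ * a⁻¹ * y = (y⁻¹ * a⁻¹) * y := rfl
        _ = (a * y)⁻¹ * y := by group
        _ = (y * a)⁻¹ * y := by rw [h1]
        _ = a⁻¹ := by group
    rw [e1, e2]
  apply le_antisymm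
  · rw [Subgroup.commutator_le]
    rintro a ha _ ⟨y, hy, rfl⟩
    simp only [MulEquiv.coe_toMonoidHom, MulAut.conj_apply]
    rw [commutatorElement_def, comp ha hy]
    exact comm_mem ha (comm_mem hg hy)
  · rw [Subgroup.commutator_le]
    intro a ha e he
    obtain ⟨y, hy, rfl⟩ := exists_comm_eq c.caseBC hg hg1 he
    rw [commutatorElement_def, ← comp ha hy]
    exact comm_mem ha (conj_mem_conjBy hy g)

/-- `A` and `C^g` are not a rank one pair. -/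
lemma not_rankOne {g : G} (hg : g ∈ B) (hg1 : g ≠ 1) : ¬ IsRankOnePair A (conjBy C g) := by
  intro hr
  obtain ⟨d, hd, hd1⟩ := exists_ne_one_of_ne_bot (c.hS.ne_bot _ c.hAB)
  have hd' : d ∈ ⁅B, A⁆ := by rw [Subgroup.commutator_comm]; exact hd
  obtain ⟨a, ha, hda⟩ := exists_comm_eq c.caseBA hg hg1 hd'
  have ha1 : a ≠ 1 := by
    rintro rfl
    apply hd1
    rw [← hda]; group
  set z := g * a * g⁻¹ with hz
  have hz1 : z ≠ 1 := by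
    intro h
    apply ha1
    have : a = g⁻¹ * z * g := by rw [hz]; group
    rw [this, h]; simp
  have hcent : ∀ x ∈ A ⊔ conjBy C g, z * x = x * z := by
    refine comm_sup ?_ ?_
    · intro x hx
      exact (c.comm_A_conj hg ha hx).symm
    · rintro _ ⟨y, hy, rfl⟩
      simp only [MulEquiv.coe_toMonoidHom, MulAut.conj_apply]
      have h1 := c.comm_ac ha hy
      rw [hz]
      calc g * a * g⁻¹ * (g * y * g⁻¹) = g * (a * y) * g⁻¹ := by group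
        _ = g * (y * a) * g⁻¹ := by rw [h1]
        _ = _ := by group
  apply mul_not_mem_rootElements c.hS c.hA (c.hS.conj_mem C c.hC g) hr hcent hz1 (A.inv_mem ha)
    (inv_ne_one.2 ha1)
  have e : z * a⁻¹ = d := hda
  rw [e]
  exact ⟨hd1, _, c.hAB, hd⟩

/-- Elements of `⁅A, ⁅B, C⁆⁆` commute with `A` and `C^g`. -/
lemma F_comm {g f : G} (hg : g ∈ B) (hg1 : g ≠ 1) (hf : f ∈ ⁅A, ⁅B, C⁆⁆) :
    (∀ x ∈ A, f * x = x * f) ∧ (∀ x ∈ conjBy C g, f * x = x * f) := by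
  rw [← c.comm_conj_eq hg hg1] at hf
  rcases c.hS.pair A c.hA _ (c.hS.conj_mem C c.hC g) with h | h | h
  · rw [h] at hf
    have : f = 1 := hf
    subst this
    simp
  · exact absurd h (c.not_rankOne hg hg1)
  · exact ⟨fun x hx => central_left h hf hx, fun x hx => central_right h hf hx⟩

/-- Commuting of `⟨A, C^g⟩` with `⟨A^g, C⟩`. -/
lemma commXY {g : G} (hg : g ∈ B) : ⁅A ⊔ conjBy C g, conjBy A g ⊔ C⁆ = ⊥ := by
  have h1 : ∀ a ∈ A, ∀ y ∈ conjBy A g ⊔ C, a * y = y * a := by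
    intro a ha
    refine comm_sup ?_ ?_
    · rintro _ ⟨a', ha', rfl⟩
      exact c.comm_A_conj hg ha' ha
    · intro x hx
      exact c.comm_ac ha hx
  have h2 : ∀ y' ∈ conjBy C g, ∀ y ∈ conjBy A g ⊔ C, y' * y = y * y' := by
    rintro _ ⟨y₀, hy₀, rfl⟩
    simp only [MulEquiv.coe_toMonoidHom, MulAut.conj_apply]
    refine comm_sup ?_ ?_
    · rintro _ ⟨a, ha, rfl⟩
      simp only [MulEquiv.coe_toMonoidHom, MulAut.conj_apply]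
      have h3 := c.comm_ac ha hy₀
      calc g * y₀ * g⁻¹ * (g * a * g⁻¹) = g * (y₀ * a) * g⁻¹ := by group
        _ = g * (a * y₀) * g⁻¹ := by rw [h3]
        _ = _ := by group
    · intro x hx
      exact (c.comm_C_conj hg hy₀ hx).symm
  apply bot_of_commute
  intro x hx y hy
  exact (comm_sup (fun u hu => (h1 u hu y hy).symm) (fun u hu => (h2 u hu y hy).symm) x hx).symm

/-- Hall–Witt. -/
lemma comm_iff : ⁅A, ⁅B, C⁆⁆ = ⊥ ↔ ⁅C, ⁅B, A⁆⁆ = ⊥ := by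
  have hCA : ⁅⁅C, A⁆, B⁆ = ⊥ := by
    rw [Subgroup.commutator_comm C A, c.hAC]
    exact Subgroup.commutator_bot_left B
  constructor
  · intro h
    have h1 : ⁅⁅B, C⁆, A⁆ = ⊥ := by rw [Subgroup.commutator_comm]; exact h
    have := Subgroup.commutator_commutator_eq_bot_of_rotate h1 hCA
    rw [Subgroup.commutator_comm, Subgroup.commutator_comm B A]
    exact this
  · intro h
    have h1 : ⁅⁅A, B⁆, C⁆ = ⊥ := by
      rw [Subgroup.commutator_comm, Subgroup.commutator_comm A B]; exact h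
    have := Subgroup.commutator_commutator_eq_bot_of_rotate hCA h1
    rw [Subgroup.commutator_comm]
    exact this

end Ctx

/-- class two from a commutator case. -/
lemma class_two {P Q : Subgroup G} (hP : IsMulCommutative P) (hQ : IsMulCommutative Q)
    (hF : ∀ f ∈ ⁅P, Q⁆, ∀ x ∈ P ⊔ Q, f * x = x * f) : ⁅⁅P ⊔ Q, P ⊔ Q⁆, P ⊔ Q⁆ = ⊥ := by
  have hn : ∀ x ∈ P ⊔ Q, ∀ z ∈ ⁅P, Q⁆, x * z * x⁻¹ ∈ ⁅P, Q⁆ := by
    intro x hx z hz
    rw [(hF z hz x hx).symm]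
    simpa using hz
  have hPP : ⁅P, P⁆ = ⊥ := bot_of_commute fun x hx y hy => comm_of_isMulCommutative hP hx hy
  have hQQ : ⁅Q, Q⁆ = ⊥ := bot_of_commute fun x hx y hy => comm_of_isMulCommutative hQ hx hy
  have h1 : ⁅P ⊔ Q, P ⊔ Q⁆ ≤ ⁅P, Q⁆ := by
    apply comm_sup_left_le hn
    · apply comm_sup_right_le hn
      · rw [hPP]; exact bot_le
      · exact le_rfl
    · apply comm_sup_right_le hn
      · rw [Subgroup.commutator_comm]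
      · rw [hQQ]; exact bot_le
  apply bot_of_commute
  intro x hx y hy
  exact hF x (h1 hx) y hy

namespace Ctx

variable (c : Ctx S A B C)
include c

/-- The abelian/class two alternative for `⟨A, C^g⟩`. -/
lemma class_X {g : G} (hg : g ∈ B) (hg1 : g ≠ 1) :
    ⁅⁅A ⊔ conjBy C g, A ⊔ conjBy C g⁆, A ⊔ conjBy C g⁆ = ⊥ := by
  apply class_two (c.hS.commutative A c.hA) (c.hS.commutative _ (c.hS.conj_mem C c.hC g))
  intro f hf
  rw [c.comm_conj_eq hg hg1] at hf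
  obtain ⟨h1, h2⟩ := c.F_comm hg hg1 hf
  exact comm_sup h1 h2

lemma comm_X_iff {g : G} (hg : g ∈ B) (hg1 : g ≠ 1) :
    IsMulCommutative ↥(A ⊔ conjBy C g) ↔ ⁅A, ⁅B, C⁆⁆ = ⊥ := by
  rw [← c.comm_conj_eq hg hg1]
  constructor
  · intro h
    apply bot_of_commute
    intro x hx y hy
    exact comm_of_isMulCommutative h (Subgroup.mem_sup_left hx) (Subgroup.mem_sup_right hy)
  · intro h
    exact comm_sup_comm (c.hS.commutative A c.hA) (c.hS.commutative _ (c.hS.conj_mem C c.hC g))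
      fun x hx y hy => commute_of_bot h hx hy

omit c in
lemma comm_le_of_le {P Q R : Subgroup G} (hP : P ≤ R) (hQ : Q ≤ R) : ⁅P, Q⁆ ≤ R := by
  rw [Subgroup.commutator_le]
  intro x hx y hy
  rw [commutatorElement_def]
  exact R.mul_mem (R.mul_mem (R.mul_mem (hP hx) (hQ hy)) (R.inv_mem (hP hx))) (R.inv_mem (hQ hy))

omit c in
lemma comm_R_le {U Z P₁ P₂ P₃ : Subgroup G}
    (hZ : ∀ x ∈ P₁ ⊔ P₂ ⊔ P₃, ∀ z ∈ Z, x * z * x⁻¹ ∈ Z) (h₁ : ⁅U, P₁⁆ ≤ Z) (h₂ : ⁅U, P₂⁆ ≤ Z)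
    (h₃ : ⁅U, P₃⁆ ≤ Z) : ⁅U, P₁ ⊔ P₂ ⊔ P₃⁆ ≤ Z := by
  apply comm_sup_right_le hZ _ h₃
  apply comm_sup_right_le _ h₁ h₂
  intro x hx
  exact hZ x (Subgroup.mem_sup_left hx)

lemma D_le_N {g : G} (hg : g ∈ B) (hg1 : g ≠ 1) :
    ⁅A, B⁆ ≤ (A ⊔ conjBy C g) ⊔ (conjBy A g ⊔ C) := by
  intro y hy
  have hy' : y ∈ ⁅B, A⁆ := by rw [Subgroup.commutator_comm]; exact hy
  obtain ⟨a, ha, rfl⟩ := exists_comm_eq c.caseBA hg hg1 hy'
  exact Subgroup.mul_mem _ (Subgroup.mem_sup_right (Subgroup.mem_sup_left (conj_mem_conjBy ha g)))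
    (Subgroup.inv_mem _ (Subgroup.mem_sup_left (Subgroup.mem_sup_left ha)))

lemma E_le_N {g : G} (hg : g ∈ B) (hg1 : g ≠ 1) :
    ⁅B, C⁆ ≤ (A ⊔ conjBy C g) ⊔ (conjBy A g ⊔ C) := by
  intro y hy
  obtain ⟨x, hx, rfl⟩ := exists_comm_eq c.caseBC hg hg1 hy
  exact Subgroup.mul_mem _ (Subgroup.mem_sup_left (Subgroup.mem_sup_right (conj_mem_conjBy hx g)))
    (Subgroup.inv_mem _ (Subgroup.mem_sup_right (Subgroup.mem_sup_right hx)))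

lemma conj_A_le_N {g h : G} (hg : g ∈ B) (hg1 : g ≠ 1) (hh : h ∈ B) :
    conjBy A h ≤ (A ⊔ conjBy C g) ⊔ (conjBy A g ⊔ C) := by
  rintro _ ⟨a, ha, rfl⟩
  simp only [MulEquiv.coe_toMonoidHom, MulAut.conj_apply]
  have e : h * a * h⁻¹ = (a * h * a⁻¹ * h⁻¹)⁻¹ * a := by group
  rw [e]
  exact Subgroup.mul_mem _ (Subgroup.inv_mem _ (c.D_le_N hg hg1 (comm_mem ha hh)))
    (Subgroup.mem_sup_left (Subgroup.mem_sup_left ha))

lemma conj_C_le_N {g h : G} (hg : g ∈ B) (hg1 : g ≠ 1) (hh : h ∈ B) :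
    conjBy C h ≤ (A ⊔ conjBy C g) ⊔ (conjBy A g ⊔ C) := by
  rintro _ ⟨y, hy, rfl⟩
  simp only [MulEquiv.coe_toMonoidHom, MulAut.conj_apply]
  have e : h * y * h⁻¹ = (h * y * h⁻¹ * y⁻¹) * y := by group
  rw [e]
  exact Subgroup.mul_mem _ (c.E_le_N hg hg1 (comm_mem hh hy))
    (Subgroup.mem_sup_right (Subgroup.mem_sup_right hy))

lemma conj_N_le {g h : G} (hg : g ∈ B) (hg1 : g ≠ 1) (hh : h ∈ B) :
    conjBy ((A ⊔ conjBy C g) ⊔ (conjBy A g ⊔ C)) h ≤ (A ⊔ conjBy C g) ⊔ (conjBy A g ⊔ C) := by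
  rw [conjBy_sup, conjBy_sup, conjBy_sup, conjBy_conjBy, conjBy_conjBy]
  refine sup_le (sup_le ?_ ?_) (sup_le ?_ ?_)
  · exact c.conj_A_le_N hg hg1 hh
  · exact c.conj_C_le_N hg hg1 (B.mul_mem hh hg)
  · exact c.conj_A_le_N hg hg1 (B.mul_mem hh hg)
  · exact c.conj_C_le_N hg hg1 hh

lemma B_le_normalizer {g : G} (hg : g ∈ B) (hg1 : g ≠ 1) :
    B ≤ Subgroup.normalizer (((A ⊔ conjBy C g) ⊔ (conjBy A g ⊔ C) : Subgroup G) : Set G) := by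
  intro h hh
  rw [mem_normalizer_iff_conjBy]
  apply le_antisymm (c.conj_N_le hg hg1 hh)
  have := c.conj_N_le hg hg1 (B.inv_mem hh)
  intro x hx
  have h1 : h⁻¹ * x * h⁻¹⁻¹ ∈ conjBy ((A ⊔ conjBy C g) ⊔ (conjBy A g ⊔ C)) h⁻¹ :=
    conj_mem_conjBy hx _
  have h2 := this h1
  rw [mem_conjBy]
  simpa using h2

lemma R_le_normalizer {g : G} (hg : g ∈ B) (hg1 : g ≠ 1) :
    A ⊔ B ⊔ C ≤ Subgroup.normalizer (((A ⊔ conjBy C g) ⊔ (conjBy A g ⊔ C) : Subgroup G) : Set G) := by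
  refine sup_le (sup_le ?_ (c.B_le_normalizer hg hg1)) ?_
  · exact (le_sup_left.trans le_sup_left).trans Subgroup.le_normalizer
  · exact (le_sup_right.trans le_sup_right).trans Subgroup.le_normalizer

lemma N_sup_B {g : G} (hg : g ∈ B) : ((A ⊔ conjBy C g) ⊔ (conjBy A g ⊔ C)) ⊔ B = A ⊔ B ⊔ C := by
  have hgR : g ∈ A ⊔ B ⊔ C := Subgroup.mem_sup_left (Subgroup.mem_sup_right hg)
  apply le_antisymm
  · refine sup_le (sup_le (sup_le ?_ ?_) (sup_le ?_ ?_)) ?_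
    · exact le_sup_left.trans le_sup_left
    · rintro _ ⟨y, hy, rfl⟩
      exact Subgroup.mul_mem _ (Subgroup.mul_mem _ hgR (Subgroup.mem_sup_right hy)) (Subgroup.inv_mem _ hgR)
    · rintro _ ⟨y, hy, rfl⟩
      exact Subgroup.mul_mem _ (Subgroup.mul_mem _ hgR (Subgroup.mem_sup_left (Subgroup.mem_sup_left hy)))
        (Subgroup.inv_mem _ hgR)
    · exact le_sup_right
    · exact le_sup_right.trans le_sup_left
  · refine sup_le (sup_le ?_ le_sup_right) ?_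
    · exact (le_sup_left.trans le_sup_left).trans le_sup_left
    · exact (le_sup_right.trans le_sup_right).trans le_sup_left

/-- Conjugation exchanges the two commutators. -/
lemma conj_F2 {g : G} (hg : g ∈ B) (hg1 : g ≠ 1) : conjBy ⁅C, ⁅B, A⁆⁆ g = ⁅A, ⁅B, C⁆⁆ := by
  have h1 := c.symm.comm_conj_eq (B.inv_mem hg) (inv_ne_one.2 hg1)
  rw [← h1]
  have h2 : conjBy ⁅C, conjBy A g⁻¹⁆ g = ⁅conjBy C g, conjBy (conjBy A g⁻¹) g⁆ :=
    Subgroup.map_commutator _ _ _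
  rw [h2, conjBy_conjBy, mul_inv_cancel, conjBy_one, Subgroup.commutator_comm,
    c.comm_conj_eq hg hg1]

lemma conj_F1 {g : G} (hg : g ∈ B) (hg1 : g ≠ 1) : conjBy ⁅A, ⁅B, C⁆⁆ g = ⁅C, ⁅B, A⁆⁆ :=
  c.symm.conj_F2 hg hg1

lemma F1_comm_C {g f y : G} (hg : g ∈ B) (hg1 : g ≠ 1) (hf : f ∈ ⁅A, ⁅B, C⁆⁆) (hy : y ∈ C) :
    f * y = y * f := by
  rw [← c.comm_conj_eq hg hg1] at hf
  exact commute_of_bot (c.commXY hg) (comm_le_of_le le_sup_left le_sup_right hf)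
    (Subgroup.mem_sup_right hy)

lemma F1_comm_F2 {g f₁ f₂ : G} (hg : g ∈ B) (hg1 : g ≠ 1) (hf₁ : f₁ ∈ ⁅A, ⁅B, C⁆⁆)
    (hf₂ : f₂ ∈ ⁅C, ⁅B, A⁆⁆) : f₁ * f₂ = f₂ * f₁ := by
  rw [← c.comm_conj_eq hg hg1] at hf₁
  rw [← c.symm.comm_conj_eq hg hg1] at hf₂
  exact commute_of_bot (c.commXY hg) (comm_le_of_le le_sup_left le_sup_right hf₁)
    (comm_le_of_le le_sup_right le_sup_left hf₂)

/-- `(⁅A, ⁅B, C⁆⁆, B)` is not a rank one pair. -/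
lemma not_rankOne_F {g : G} (hg : g ∈ B) (hg1 : g ≠ 1) : ¬ IsRankOnePair ⁅A, ⁅B, C⁆⁆ B := by
  intro hr
  have hmem : conjBy ⁅A, ⁅B, C⁆⁆ g ∈ unipotentSubgroups ⁅A, ⁅B, C⁆⁆ B :=
    conjBy_mem_unipotent left_mem_unipotent (Subgroup.mem_sup_right hg)
  have hne : conjBy ⁅A, ⁅B, C⁆⁆ g ≠ ⁅A, ⁅B, C⁆⁆ := fun h => hg1 (eq_one_of_conjBy_eq' hr hg h)
  have hr' := isRankOnePair_of_unipotent hr left_mem_unipotent hmem hne.symm
  obtain ⟨x, hx, hx1⟩ := exists_ne_one_left hr'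
  apply hx1
  apply eq_one_of_conjBy_eq hr' hx
  apply conjBy_eq_self_of_commute
  intro y hy
  rw [c.conj_F1 hg hg1] at hy
  exact c.F1_comm_F2 hg hg1 hx hy

lemma G1_comm_B {g x y : G} (hg : g ∈ B) (hg1 : g ≠ 1) (hx : x ∈ ⁅⁅A, ⁅B, C⁆⁆, B⁆) (hy : y ∈ B) :
    x * y = y * x := by
  by_cases hbot : ⁅A, ⁅B, C⁆⁆ = ⊥
  · rw [hbot, Subgroup.commutator_bot_left] at hx
    have : x = 1 := hx
    simp [this]
  have hF : ⁅A, ⁅B, C⁆⁆ ∈ S := by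
    rcases c.hS.pair A c.hA _ (c.hS.conj_mem C c.hC g) with h | h | h
    · rw [c.comm_conj_eq hg hg1] at h
      exact absurd h hbot
    · exact absurd h (c.not_rankOne hg hg1)
    · have := h.1
      rwa [c.comm_conj_eq hg hg1] at this
  rcases c.hS.pair _ hF B c.hB with h | h | h
  · rw [h] at hx
    have : x = 1 := hx
    simp [this]
  · exact absurd h (c.not_rankOne_F hg hg1)
  · exact central_right h hx hy

lemma G1_le {g : G} (hg : g ∈ B) (hg1 : g ≠ 1) :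
    ⁅⁅A, ⁅B, C⁆⁆, B⁆ ≤ ⁅A, ⁅B, C⁆⁆ ⊔ ⁅C, ⁅B, A⁆⁆ := by
  rw [Subgroup.commutator_le]
  intro f hf h hh
  rw [commutatorElement_def]
  by_cases hh1 : h = 1
  · rw [hh1]
    simp
  have e : f * h * f⁻¹ * h⁻¹ = f * (h * f⁻¹ * h⁻¹) := by group
  rw [e]
  refine Subgroup.mul_mem _ (Subgroup.mem_sup_left hf) (Subgroup.mem_sup_right ?_)
  rw [← c.conj_F1 hh hh1]
  exact conj_mem_conjBy (Subgroup.inv_mem _ hf) h

/-- `R` is nilpotent. -/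
theorem nilpotent_R {g : G} (hg : g ∈ B) (hg1 : g ≠ 1) : Group.IsNilpotent ↥(A ⊔ B ⊔ C) := by
  set R := A ⊔ B ⊔ C with hR
  have hAR : A ≤ R := le_sup_left.trans le_sup_left
  have hBR : B ≤ R := le_sup_right.trans le_sup_left
  have hCR : C ≤ R := le_sup_right
  have hDR : ⁅A, B⁆ ≤ R := comm_le_of_le hAR hBR
  have hDR' : ⁅B, A⁆ ≤ R := comm_le_of_le hBR hAR
  have hER : ⁅B, C⁆ ≤ R := comm_le_of_le hBR hCR
  have hF1R : ⁅A, ⁅B, C⁆⁆ ≤ R := comm_le_of_le hAR hER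
  have hF2R : ⁅C, ⁅B, A⁆⁆ ≤ R := comm_le_of_le hCR hDR'
  set F₁ := ⁅A, ⁅B, C⁆⁆ with hF₁
  set F₂ := ⁅C, ⁅B, A⁆⁆ with hF₂
  set Z₁ := ⁅F₁, B⁆ with hZ₁
  have hF₁A : ∀ {f x : G}, f ∈ F₁ → x ∈ A → f * x = x * f := fun hf hx => (c.F_comm hg hg1 hf).1 _ hx
  have hF₁C : ∀ {f x : G}, f ∈ F₁ → x ∈ C → f * x = x * f := fun hf hx => c.F1_comm_C hg hg1 hf hx
  have hF₂C : ∀ {f x : G}, f ∈ F₂ → x ∈ C → f * x = x * f :=
    fun hf hx => (c.symm.F_comm hg hg1 hf).1 _ hx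
  have hF₂A : ∀ {f x : G}, f ∈ F₂ → x ∈ A → f * x = x * f :=
    fun hf hx => c.symm.F1_comm_C hg hg1 hf hx
  have hZ₁le : Z₁ ≤ F₁ ⊔ F₂ := c.G1_le hg hg1
  have hZ₁A : ∀ {z x : G}, z ∈ Z₁ → x ∈ A → z * x = x * z := by
    intro z x hz hx
    exact (comm_sup (fun y hy => (hF₁A hy hx).symm) (fun y hy => (hF₂A hy hx).symm) z (hZ₁le hz)).symm
  have hZ₁C : ∀ {z x : G}, z ∈ Z₁ → x ∈ C → z * x = x * z := by
    intro z x hz hx
    exact (comm_sup (fun y hy => (hF₁C hy hx).symm) (fun y hy => (hF₂C hy hx).symm) z (hZ₁le hz)).symm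
  have hZ₁B : ∀ {z x : G}, z ∈ Z₁ → x ∈ B → z * x = x * z := fun hz hx => c.G1_comm_B hg hg1 hz hx
  have hZ₁R : ∀ z ∈ Z₁, ∀ x ∈ R, z * x = x * z := by
    intro z hz x hx
    exact comm_sup (comm_sup (fun y hy => hZ₁A hz hy) (fun y hy => hZ₁B hz hy))
      (fun y hy => hZ₁C hz hy) x hx
  have step1 : ⁅Z₁, R⁆ = ⊥ := bot_of_commute hZ₁R
  have hnZ₁ : ∀ x ∈ R, ∀ z ∈ Z₁, x * z * x⁻¹ ∈ Z₁ := by
    intro x hx z hz
    rw [(hZ₁R z hz x hx).symm]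
    simpa using hz
  have hbotA : ∀ {U : Subgroup G}, (∀ f ∈ U, ∀ x ∈ A, f * x = x * f) → ⁅U, A⁆ = ⊥ :=
    fun h => bot_of_commute h
  have hF₁Rle : ⁅F₁, R⁆ ≤ Z₁ := by
    apply comm_R_le hnZ₁
    · rw [bot_of_commute (fun f hf x hx => hF₁A hf hx)]; exact bot_le
    · exact le_rfl
    · rw [bot_of_commute (fun f hf x hx => hF₁C hf hx)]; exact bot_le
  have hF₂B : ⁅F₂, B⁆ ≤ Z₁ := by
    have h1 : conjBy F₁ g = F₂ := c.conj_F1 hg hg1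
    rw [← h1]
    have h2 : ⁅conjBy F₁ g, B⁆ = ⁅conjBy F₁ g, conjBy B g⁆ := by rw [conjBy_of_mem hg]
    rw [h2]
    have h3 : ⁅conjBy F₁ g, conjBy B g⁆ = conjBy Z₁ g := (Subgroup.map_commutator _ _ _).symm
    rw [h3]
    rintro _ ⟨z, hz, rfl⟩
    simp only [MulEquiv.coe_toMonoidHom, MulAut.conj_apply]
    exact hnZ₁ g (hBR hg) z hz
  have hF₂Rle : ⁅F₂, R⁆ ≤ Z₁ := by
    apply comm_R_le hnZ₁
    · rw [bot_of_commute (fun f hf x hx => hF₂A hf hx)]; exact bot_le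
    · exact hF₂B
    · rw [bot_of_commute (fun f hf x hx => hF₂C hf hx)]; exact bot_le
  have step2 : ⁅F₁ ⊔ F₂, R⁆ ≤ Z₁ := by
    apply comm_sup_left_le _ hF₁Rle hF₂Rle
    intro x hx z hz
    exact hnZ₁ x (sup_le hF1R hF2R hx) z hz
  have hZ₂self : ⁅F₁ ⊔ F₂, R⁆ ≤ F₁ ⊔ F₂ := step2.trans hZ₁le
  have hnZ₂ : ∀ x ∈ R, ∀ z ∈ F₁ ⊔ F₂, x * z * x⁻¹ ∈ F₁ ⊔ F₂ :=
    fun x hx z hz => conj_mem_of_comm_le hZ₂self hx hz
  have hD : ⁅⁅A, B⁆, R⁆ ≤ F₁ ⊔ F₂ := by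
    apply comm_R_le hnZ₂
    · rw [bot_of_commute (fun f hf x hx => central_left c.caseAB hf hx)]; exact bot_le
    · rw [bot_of_commute (fun f hf x hx => central_right c.caseAB hf hx)]; exact bot_le
    · have : ⁅⁅A, B⁆, C⁆ = F₂ := by
        rw [hF₂, Subgroup.commutator_comm C, Subgroup.commutator_comm B A]
      rw [this]
      exact le_sup_right
  have hE : ⁅⁅B, C⁆, R⁆ ≤ F₁ ⊔ F₂ := by
    apply comm_R_le hnZ₂
    · have : ⁅⁅B, C⁆, A⁆ = F₁ := by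
        rw [hF₁, Subgroup.commutator_comm A]
      rw [this]
      exact le_sup_left
    · rw [bot_of_commute (fun f hf x hx => central_left c.caseBC hf hx)]; exact bot_le
    · rw [bot_of_commute (fun f hf x hx => central_right c.caseBC hf hx)]; exact bot_le
  have step3 : ⁅⁅A, B⁆ ⊔ ⁅B, C⁆ ⊔ (F₁ ⊔ F₂), R⁆ ≤ F₁ ⊔ F₂ := by
    have hle₁ : ⁅A, B⁆ ⊔ ⁅B, C⁆ ≤ R := sup_le hDR hER
    have hle₂ : F₁ ⊔ F₂ ≤ R := sup_le hF1R hF2R
    apply comm_sup_left_le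
    · intro x hx z hz
      exact hnZ₂ x (sup_le hle₁ hle₂ hx) z hz
    · apply comm_sup_left_le _ hD hE
      intro x hx z hz
      exact hnZ₂ x (hle₁ hx) z hz
    · exact hZ₂self
  have hZ₃self : ⁅⁅A, B⁆ ⊔ ⁅B, C⁆ ⊔ (F₁ ⊔ F₂), R⁆ ≤ ⁅A, B⁆ ⊔ ⁅B, C⁆ ⊔ (F₁ ⊔ F₂) :=
    step3.trans le_sup_right
  have hnZ₃ : ∀ x ∈ R, ∀ z ∈ ⁅A, B⁆ ⊔ ⁅B, C⁆ ⊔ (F₁ ⊔ F₂), x * z * x⁻¹ ∈ ⁅A, B⁆ ⊔ ⁅B, C⁆ ⊔ (F₁ ⊔ F₂) :=
    fun x hx z hz => conj_mem_of_comm_le hZ₃self hx hz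
  have hDZ : ⁅A, B⁆ ≤ ⁅A, B⁆ ⊔ ⁅B, C⁆ ⊔ (F₁ ⊔ F₂) := le_sup_left.trans le_sup_left
  have hEZ : ⁅B, C⁆ ≤ ⁅A, B⁆ ⊔ ⁅B, C⁆ ⊔ (F₁ ⊔ F₂) := le_sup_right.trans le_sup_left
  have hAA : ⁅A, A⁆ = ⊥ := bot_of_commute fun x hx y hy =>
    comm_of_isMulCommutative (c.hS.commutative A c.hA) hx hy
  have hBB : ⁅B, B⁆ = ⊥ := bot_of_commute fun x hx y hy =>
    comm_of_isMulCommutative (c.hS.commutative B c.hB) hx hy
  have hCC : ⁅C, C⁆ = ⊥ := bot_of_commute fun x hx y hy =>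
    comm_of_isMulCommutative (c.hS.commutative C c.hC) hx hy
  have hCA : ⁅C, A⁆ = ⊥ := by rw [Subgroup.commutator_comm]; exact c.hAC
  have step4 : ⁅R, R⁆ ≤ ⁅A, B⁆ ⊔ ⁅B, C⁆ ⊔ (F₁ ⊔ F₂) := by
    rw [hR]
    apply comm_sup_left_le hnZ₃
    · apply comm_sup_left_le
      · intro x hx z hz
        exact hnZ₃ x (Subgroup.mem_sup_left hx) z hz
      · apply comm_R_le hnZ₃
        · rw [hAA]; exact bot_le
        · exact hDZ
        · rw [c.hAC]; exact bot_le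
      · apply comm_R_le hnZ₃
        · rw [Subgroup.commutator_comm]; exact hDZ
        · rw [hBB]; exact bot_le
        · exact hEZ
    · apply comm_R_le hnZ₃
      · rw [hCA]; exact bot_le
      · rw [Subgroup.commutator_comm]; exact hEZ
      · rw [hCC]; exact bot_le
  exact nilpotent_of_four step1 step2 step3 step4

end Ctx

end Cfsg.Agent.Lib.RootSubgroups.ThreeCase
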