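/-
Weak TI-subsets of non-degenerate classes are abelian (S5040).
-/
import Mathlib
import Cfsg.Prelude.Def_RootSubgroups
import Cfsg.Agent.Lib.RootSubgroups.Classes

set_option autoImplicit false

namespace Cfsg.Agent.Lib.RootSubgroups.WeakTI

open Cfsg Cfsg.Agent.Lib.RootSubgroups.RankOne Cfsg.Agent.Lib.RootSubgroups.Abstract
  Cfsg.Agent.Lib.RootSubgroups.Abstract2 Cfsg.Agent.Lib.RootSubgroups.LineConn
  Cfsg.Agent.Lib.RootSubgroups.Nondeg Cfsg.Agent.Lib.RootSubgroups.Classes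
open scoped commutatorElement

variable {G : Type*} [Group G] {A B C D E F L M X Y Z R : Subgroup G} {S Δ : Set (Subgroup G)}

/-- The stabilizer of a family under conjugation. -/
def stabF (Δ : Set (Subgroup G)) : Subgroup G where
  carrier := {g | (fun A => conjBy A g) '' Δ = Δ}
  one_mem' := by
    show (fun A => conjBy A (1 : G)) '' Δ = Δ
    simp
  mul_mem' := by
    intro a b ha hb
    show (fun A => conjBy A (a * b)) '' Δ = Δ
    have ha' : (fun A => conjBy A a) '' Δ = Δ := ha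
    have hb' : (fun A => conjBy A b) '' Δ = Δ := hb
    have e : (fun A => conjBy A (a * b)) '' Δ
        = (fun A => conjBy A a) '' ((fun A => conjBy A b) '' Δ) := by
      rw [Set.image_image]
      simp only [conjBy_conjBy]
    rw [e, hb', ha']
  inv_mem' := by
    intro a ha
    show (fun A => conjBy A a⁻¹) '' Δ = Δ
    have ha' : (fun A => conjBy A a) '' Δ = Δ := ha
    calc (fun A => conjBy A a⁻¹) '' Δ = (fun A => conjBy A a⁻¹) '' ((fun A => conjBy A a) '' Δ) := by
          rw [ha']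
      _ = Δ := by
          rw [Set.image_image]
          simp [conjBy_conjBy]

lemma mem_stabF {g : G} : g ∈ stabF Δ ↔ (fun A => conjBy A g) '' Δ = Δ := Iff.rfl

lemma conj_mem_of_stabF {g : G} (hg : g ∈ stabF Δ) (hX : X ∈ Δ) : conjBy X g ∈ Δ := by
  have : (fun A => conjBy A g) '' Δ = Δ := hg
  rw [← this]
  exact ⟨X, hX, rfl⟩

/-- An element of a member of `S` fixing a member of `Δ` stabilizes `Δ`. -/
lemma le_stabF (hΔ : IsWeakTISubset S Δ) (hR : R ∈ S) (hX : X ∈ Δ)
    (hc : ∀ r ∈ R, conjBy X r = X) : R ≤ stabF Δ := by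
  intro r hr
  by_cases hr1 : r = 1
  · rw [hr1]; exact Subgroup.one_mem _
  rcases hΔ.2.2.2 r ⟨hr1, R, hR, hr⟩ with h | h
  · exact h
  · exfalso
    have h1 : X ∈ (fun A => conjBy A r) '' Δ := ⟨X, hX, hc r hr⟩
    exact Set.disjoint_left.1 h h1 hX

lemma self_le_stabF (hΔ : IsWeakTISubset S Δ) (hX : X ∈ Δ) : X ≤ stabF Δ :=
  le_stabF hΔ (hΔ.1 hX) hX fun _ hr => conjBy_of_mem hr

lemma commute_le_stabF (hΔ : IsWeakTISubset S Δ) (hR : R ∈ S) (hX : X ∈ Δ)
    (hc : ⁅X, R⁆ = ⊥) : R ≤ stabF Δ :=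
  le_stabF hΔ hR hX fun _ hr => conjBy_eq_self_of_commute fun x hx => (commute_of_bot hc hx hr).symm

section Class

variable (hS : IsRootSubgroupClass S) (hnd : IsNondegenerateRootSet S)
include hS hnd

/-- A rank one pair in a weak TI-subset is impossible. -/
lemma no_rankOne (hΔ : IsWeakTISubset S Δ) (hA : A ∈ Δ) (hB : B ∈ Δ) (hAB : IsRankOnePair A B) :
    False := by
  have htop : (⨆ C ∈ linePartners S A, C) ⊔ B = ⊤ := generation hS hnd (hΔ.1 hA) (hΔ.1 hB) hAB
  have hst : stabF Δ = ⊤ := by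
    rw [eq_top_iff, ← htop]
    refine sup_le (iSup₂_le fun C hC => ?_) (self_le_stabF hΔ hB)
    exact commute_le_stabF hΔ hC.1.1 hA hC.1.2.2
  apply hΔ.2.2.1
  apply Set.Subset.antisymm hΔ.1
  intro X hX
  obtain ⟨g, rfl⟩ := hS.2.2 A (hΔ.1 hA) X hX
  exact conj_mem_of_stabF (by rw [hst]; trivial) hA

theorem abelian (hΔ : IsWeakTISubset S Δ) : IsAbelianFamily Δ := by
  intro A hA B hB a ha b hb
  have hAS := hΔ.1 hA
  have hBS := hΔ.1 hB
  rcases hS.1.pair A hAS B hBS with h | h | h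
  · exact commute_of_bot h ha hb
  · exact (no_rankOne hS hnd hΔ hA hB h).elim
  · exfalso
    have hE := h.1
    obtain ⟨KA, hKA, hAKA⟩ := exists_partner hS hnd hAS
    have hL : ⁅A, B⁆ ∈ linePartners S A :=
      linePartner_symm (line_partner hS.1 hAS h hKA hAKA) hE
    obtain ⟨P, hP, hPQ⟩ := exists_P hS hnd hAS hL hBS rfl
    have c : Cfsg.Agent.Lib.RootSubgroups.SL2Module.Ctx S A B ⁅A, B⁆ P :=
      ⟨hS.1, hAS, hBS, hE, hP, rfl, hPQ⟩
    have hBP : IsRankOnePair B P := c.rankOne_BD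
    have hPst : P ≤ stabF Δ := by
      apply commute_le_stabF hΔ hP hA
      rw [Subgroup.commutator_comm]
      exact bot_of_commute fun x hx y hy => c.comm_DA hx hy
    obtain ⟨p, hp, hp1⟩ := exists_ne_one_right hBP
    have h1 : conjBy B p ∈ Δ := conj_mem_of_stabF (hPst hp) hB
    have h2 : conjBy B p ∈ unipotentSubgroups B P :=
      conjBy_mem_unipotent left_mem_unipotent (Subgroup.mem_sup_right hp)
    have hne : B ≠ conjBy B p := fun he => hp1 (eq_one_of_conjBy_eq' hBP hp he.symm)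
    exact no_rankOne hS hnd hΔ hB h1
      (isRankOnePair_of_unipotent hBP left_mem_unipotent h2 hne)

end Class

end Cfsg.Agent.Lib.RootSubgroups.WeakTI
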